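import Cfsg.Agent.Golay.Co3RankTree

set_option autoImplicit false
set_option maxRecDepth 100000

namespace Cfsg.Agent.Golay.Co3Rank

theorem t4125_a : segOK T4125 0 2000 = true := by decide +kernel

theorem t4125_b : segOK T4125 2000 2125 = true := by decide +kernel

theorem t4125_d : blockDistinct T4125 4125 = true := by decide +kernel

end Cfsg.Agent.Golay.Co3Rank
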