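import Cfsg.Agent.Golay.Co3RankTree

set_option autoImplicit false
set_option maxRecDepth 100000

namespace Cfsg.Agent.Golay.Co3Rank

theorem t5600_b : segOK T5600 2800 2800 = true := by decide +kernel

end Cfsg.Agent.Golay.Co3Rank
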