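import Cfsg.Agent.Golay.Co3RankCheckA
import Cfsg.Agent.Golay.Co3RankCheckB
import Cfsg.Agent.Golay.Co3RankCheckC
import Cfsg.Agent.Golay.Co3RankCheckD
import Cfsg.Agent.S1640

/-! The five suborbits on the 11178 cosets of the Higman-Sims group in the third Conway group. -/

set_option autoImplicit false
set_option maxRecDepth 100000

namespace Cfsg.Agent.Golay.Co3Rank

/-- The first base vector. -/
def uC : ↥leechLattice := ⟨numVec uCode, leechTest_sound (by decide +kernel)⟩

/-- A root of each table. -/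
def r352 : ↥leechLattice := ⟨numVec (look T352 0).1, leechTest_sound (by decide +kernel)⟩

/-- A root of each table. -/
def r1100 : ↥leechLattice := ⟨numVec (look T1100 0).1, leechTest_sound (by decide +kernel)⟩

/-- A root of each table. -/
def r4125 : ↥leechLattice := ⟨numVec (look T4125 0).1, leechTest_sound (by decide +kernel)⟩

/-- A root of each table. -/
def r5600 : ↥leechLattice := ⟨numVec (look T5600 0).1, leechTest_sound (by decide +kernel)⟩

theorem gens_ok : gensOK gens [(uC : GolayPt → ℤ)] = true := by decide +kernel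

theorem base_facts : sqNorm (uC : GolayPt → ℤ) = 48 ∧ sqNorm ((-hsX : ↥leechLattice) : GolayPt → ℤ) = 32 ∧
    dotInt (uC : GolayPt → ℤ) (-hsX : ↥leechLattice) = -16 := by decide +kernel

/-- Where a root lies. -/
def rootFact (r : ↥leechLattice) (d : ℤ) : Prop :=
  sqNorm (r : GolayPt → ℤ) = 32 ∧ dotInt (uC : GolayPt → ℤ) r = -16 ∧
    dotInt ((-hsX : ↥leechLattice) : GolayPt → ℤ) r = d

instance (r : ↥leechLattice) (d : ℤ) : Decidable (rootFact r d) := by unfold rootFact; infer_instance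

theorem root_facts : rootFact r352 (-8) ∧ rootFact r1100 16 ∧ rootFact r4125 0 ∧ rootFact r5600 8 := by
  decide +kernel

theorem reach {T : List (List (ℕ × ℕ × ℕ))} {n : ℕ} (ht : ∀ k < n, edgeOK T k = true)
    (hd : blockDistinct T n = true) (root : ↥leechLattice)
    (hr : (root : GolayPt → ℤ) = numVec (look T 0).1) :
    ∃ f : Fin n → ↥leechLattice, Function.Injective f ∧
      ∀ k, ∃ g : ↥Co0, g • hsX = hsX ∧ g • uC = uC ∧ g • root = f k := by
  simp only [edgeOK, Bool.and_eq_true, Bool.or_eq_true, beq_iff_eq, decide_eq_true_eq] at ht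
  have hg := gens_ok
  simp only [gensOK, List.all_eq_true, Bool.and_eq_true, beq_iff_eq, List.mem_singleton, forall_eq] at hg
  have hgen : ∀ j, ∃ g : ↥Co0, (g • hsX = hsX ∧ g • uC = uC) ∧ ∀ v : ↥leechLattice,
      matl ((g • v : ↥leechLattice) : GolayPt → ℤ) = wordList (gens.getD j []) (matl v) := by
    intro j
    by_cases hj : j < gens.length
    · have hm : gens.getD j [] ∈ gens := by
        simpa [List.getD_eq_getElem?_getD, hj] using List.getElem_mem hj
      obtain ⟨h1, h2⟩ := hg _ hm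
      obtain ⟨g, g1, g2⟩ := word_elem (gens.getD j []) (List.all_eq_true.2 h1)
      refine ⟨g, ⟨g1, Subtype.ext ?_⟩, fun v => by rw [wordList_matl, g2]⟩
      rw [g2, ← listVec_matl (List.foldl _ _ _), ← wordList_matl, h2, listVec_matl]
    · refine ⟨1, ⟨one_smul _ _, one_smul _ _⟩, fun v => ?_⟩
      rw [one_smul, List.getD_eq_default _ _ (by omega)]
      rfl
  have hreach : ∀ k < n, ∃ g : ↥Co0, (g • hsX = hsX ∧ g • uC = uC) ∧
      ((g • root : ↥leechLattice) : GolayPt → ℤ) = numVec (look T k).1 := by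
    intro k
    induction k using Nat.strong_induction_on with
    | _ k ih =>
      intro hk
      rcases (ht k hk).2 with rfl | ⟨hlt, hstep⟩
      · exact ⟨1, ⟨one_smul _ _, one_smul _ _⟩, by rw [one_smul, hr]⟩
      obtain ⟨a, a1, a2⟩ := ih _ hlt (hlt.trans hk)
      obtain ⟨b, b1, b2⟩ := hgen (look T k).2.2
      refine ⟨b * a, ⟨by rw [mul_smul, a1.1, b1.1], by rw [mul_smul, a1.2, b1.2]⟩, ?_⟩
      have := b2 (a • root)
      rw [a2, stepOK_sound hstep] at this
      rw [mul_smul, ← listVec_matl ((b • a • root : ↥leechLattice) : GolayPt → ℤ), this, listVec_matl]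
  choose g hg1 hg2 using fun k : Fin n => hreach k.val k.isLt
  refine ⟨fun k => g k • root, fun i j hij => ?_, fun k => ⟨g k, (hg1 k).1, (hg1 k).2, rfl⟩⟩
  have e0 := congrArg (fun a : ↥leechLattice => (a : GolayPt → ℤ)) hij
  simp only [hg2] at e0
  have e := numVec_inj (by simpa using (ht i i.isLt).1) (by simpa using (ht j j.isLt).1) e0
  refine Fin.ext (List.inj_on_of_nodup_map (nodup_of_distinct hd) ?_ ?_ e) <;> simp

/-- The 11178 vectors. -/
def cosetSet (u : ↥leechLattice) : Set ↥leechLattice :=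
  {y | sqNorm (y : GolayPt → ℤ) = 32 ∧ dotInt (u : GolayPt → ℤ) y = -16}

theorem co3_rank_five (u x : ↥leechLattice) (hu : sqNorm (u : GolayPt → ℤ) = 48) (hx : x ∈ cosetSet u) :
    ∃ y₁ ∈ cosetSet u, ∃ y₂ ∈ cosetSet u, ∃ y₃ ∈ cosetSet u, ∃ y₄ ∈ cosetSet u,
      (MulAction.orbit ↥(MulAction.stabilizer ↥Co0 u ⊓ MulAction.stabilizer ↥Co0 x) y₁).ncard = 352 ∧
      (MulAction.orbit ↥(MulAction.stabilizer ↥Co0 u ⊓ MulAction.stabilizer ↥Co0 x) y₂).ncard = 1100 ∧
      (MulAction.orbit ↥(MulAction.stabilizer ↥Co0 u ⊓ MulAction.stabilizer ↥Co0 x) y₃).ncard = 4125 ∧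
      (MulAction.orbit ↥(MulAction.stabilizer ↥Co0 u ⊓ MulAction.stabilizer ↥Co0 x) y₄).ncard = 5600 ∧
      cosetSet u = {x} ∪ MulAction.orbit ↥(MulAction.stabilizer ↥Co0 u ⊓ MulAction.stabilizer ↥Co0 x) y₁ ∪
        MulAction.orbit ↥(MulAction.stabilizer ↥Co0 u ⊓ MulAction.stabilizer ↥Co0 x) y₂ ∪
        MulAction.orbit ↥(MulAction.stabilizer ↥Co0 u ⊓ MulAction.stabilizer ↥Co0 x) y₃ ∪
        MulAction.orbit ↥(MulAction.stabilizer ↥Co0 u ⊓ MulAction.stabilizer ↥Co0 x) y₄ := by
  obtain ⟨g, gu, gx⟩ : ∃ g : ↥Co0, g • uC = u ∧ g • (-hsX) = x := by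
    obtain ⟨h, hh⟩ := co0_transitive (Or.inr (Or.inl rfl)) base_facts.1 hu
    obtain ⟨k, k1, k2⟩ := (Cfsg.Agent.S1640.result u hu).2 (h • (-hsX))
      ⟨(co0_norm h _).trans base_facts.2.1, by rw [← hh, co0_dot]; exact base_facts.2.2⟩ x hx
    exact ⟨k * h, by rw [mul_smul, hh, k1], by rw [mul_smul, k2]⟩
  set K := MulAction.stabilizer ↥Co0 u ⊓ MulAction.stabilizer ↥Co0 x
  have htot := (Cfsg.Agent.S1640.result u hu).1
  change (cosetSet u).ncard = 11178 at htot
  have hfin : (cosetSet u).Finite := Set.finite_of_ncard_ne_zero (by rw [htot]; norm_num)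
  have main : ∀ (T : List (List (ℕ × ℕ × ℕ))) (n : ℕ) (r : ↥leechLattice) (d : ℤ),
      (∀ k < n, edgeOK T k = true) → blockDistinct T n = true →
      (r : GolayPt → ℤ) = numVec (look T 0).1 → rootFact r d →
      n ≤ (MulAction.orbit ↥K (g • r)).ncard ∧ g • r ∈ cosetSet u ∧
      MulAction.orbit ↥K (g • r) ⊆ {y | y ∈ cosetSet u ∧ dotInt (x : GolayPt → ℤ) y = d} := by
    intro T n r d ht hd hr ⟨r1, r2, r3⟩
    obtain ⟨f, hf, hfr⟩ := reach ht hd r hr
    have hsub : MulAction.orbit ↥K (g • r) ⊆ {y | y ∈ cosetSet u ∧ dotInt (x : GolayPt → ℤ) y = d} := by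
      rintro _ ⟨⟨k, hk⟩, rfl⟩
      have ku : k • u = u := (Subgroup.mem_inf.1 hk).1
      have kx : k • x = x := (Subgroup.mem_inf.1 hk).2
      refine ⟨⟨(co0_norm k _).trans ((co0_norm g r).trans r1), ?_⟩, ?_⟩
      · have := co0_dot k u (g • r)
        rw [ku] at this
        refine this.trans ?_
        rw [← gu, co0_dot]; exact r2
      · have := co0_dot k x (g • r)
        rw [kx] at this
        refine this.trans ?_
        rw [← gx, co0_dot]; exact r3
    refine ⟨?_, (hsub (MulAction.mem_orbit_self _)).1, hsub⟩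
    have hB : Set.range (fun k => g • f k) ⊆ MulAction.orbit ↥K (g • r) := by
      rintro _ ⟨k, rfl⟩
      obtain ⟨h, h1, h2, h3⟩ := hfr k
      have hmem : g * h * g⁻¹ ∈ K := by
        refine Subgroup.mem_inf.2 ⟨?_, ?_⟩ <;> rw [MulAction.mem_stabilizer_iff]
        · rw [← gu, mul_smul, mul_smul, inv_smul_smul, h2]
        · rw [← gx, mul_smul, mul_smul, inv_smul_smul, co0_neg', h1]
      refine ⟨⟨_, hmem⟩, ?_⟩
      show (g * h * g⁻¹) • (g • r) = g • f k
      rw [mul_smul, mul_smul, inv_smul_smul, h3]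
    have := Set.ncard_le_ncard hB (hfin.subset fun y hy => (hsub hy).1)
    rw [Set.ncard_range_of_injective fun a b hab => hf (MulAction.injective g hab), Nat.card_fin] at this
    exact this
  obtain ⟨f1, f2, f3, f4⟩ := root_facts
  obtain ⟨a1, b1, c1⟩ := main T352 352 r352 _ (edge_of_segs t352_a t352_b) t352_d rfl f1
  obtain ⟨a2, b2, c2⟩ := main T1100 1100 r1100 _ (edge_of_segs t1100_a t1100_b) t1100_d rfl f2
  obtain ⟨a3, b3, c3⟩ := main T4125 4125 r4125 _ (edge_of_segs t4125_a t4125_b) t4125_d rfl f3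
  obtain ⟨a4, b4, c4⟩ := main T5600 5600 r5600 _ (edge_of_segs t5600_a t5600_b) t5600_d rfl f4
  refine ⟨_, b1, _, b2, _, b3, _, b4, ?_⟩
  set O1 := MulAction.orbit ↥K (g • r352)
  set O2 := MulAction.orbit ↥K (g • r1100)
  set O3 := MulAction.orbit ↥K (g • r4125)
  set O4 := MulAction.orbit ↥K (g • r5600)
  have hsub : ({x} ∪ O1 ∪ O2 ∪ O3 ∪ O4 : Set ↥leechLattice) ⊆ cosetSet u := by
    rintro y ((((( rfl : y = x) | h) | h) | h) | h)
    exacts [hx, (c1 h).1, (c2 h).1, (c3 h).1, (c4 h).1]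
  have hxx : dotInt (x : GolayPt → ℤ) x = 32 := (dotInt_self_eq _).trans hx.1
  have d1 : Disjoint ({x} : Set ↥leechLattice) O1 := Set.disjoint_singleton_left.2 fun h => by
    have := (c1 h).2; omega
  have d2 : Disjoint ({x} ∪ O1 : Set ↥leechLattice) O2 := Set.disjoint_left.2 fun y hy h => by
    rcases hy with (rfl : y = x) | hy
    · have := (c2 h).2; omega
    · have := (c2 h).2; have := (c1 hy).2; omega
  have d3 : Disjoint ({x} ∪ O1 ∪ O2 : Set ↥leechLattice) O3 := Set.disjoint_left.2 fun y hy h => by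
    rcases hy with ((rfl : y = x) | hy) | hy
    · have := (c3 h).2; omega
    · have := (c3 h).2; have := (c1 hy).2; omega
    · have := (c3 h).2; have := (c2 hy).2; omega
  have d4 : Disjoint ({x} ∪ O1 ∪ O2 ∪ O3 : Set ↥leechLattice) O4 := Set.disjoint_left.2 fun y hy h => by
    rcases hy with (((rfl : y = x) | hy) | hy) | hy
    · have := (c4 h).2; omega
    · have := (c4 h).2; have := (c1 hy).2; omega
    · have := (c4 h).2; have := (c2 hy).2; omega
    · have := (c4 h).2; have := (c3 hy).2; omega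
  have F1 : O1.Finite := hfin.subset fun y h => (c1 h).1
  have F2 : O2.Finite := hfin.subset fun y h => (c2 h).1
  have F3 : O3.Finite := hfin.subset fun y h => (c3 h).1
  have F4 : O4.Finite := hfin.subset fun y h => (c4 h).1
  have Fx := Set.finite_singleton x
  have hc : ({x} ∪ O1 ∪ O2 ∪ O3 ∪ O4 : Set ↥leechLattice).ncard =
      1 + O1.ncard + O2.ncard + O3.ncard + O4.ncard := by
    rw [Set.ncard_union_eq d4 (((Fx.union F1).union F2).union F3) F4,
      Set.ncard_union_eq d3 ((Fx.union F1).union F2) F3, Set.ncard_union_eq d2 (Fx.union F1) F2,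
      Set.ncard_union_eq d1 Fx F1, Set.ncard_singleton]
  have hle := Set.ncard_le_ncard hsub hfin
  rw [hc, htot] at hle
  refine ⟨by omega, by omega, by omega, by omega, (Set.eq_of_subset_of_ncard_le hsub ?_ hfin).symm⟩
  rw [hc, htot]; omega

end Cfsg.Agent.Golay.Co3Rank
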