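import Cfsg.Agent.Golay.DodStabData
import Cfsg.Agent.Golay.MaskOrbits

/-! The dodecad stabilizer acting on the complementary dodecad. -/

set_option autoImplicit false
set_option maxRecDepth 20000

namespace Cfsg.Agent.Golay

open scoped Pointwise

/-- The complement of the standard dodecad, three points at a time. -/
def tripSet : Finset (GolayPt × GolayPt × GolayPt) :=
  (((bset sqMask)ᶜ) ×ˢ ((bset sqMask)ᶜ) ×ˢ ((bset sqMask)ᶜ)).filter
    fun t => t.1 ≠ t.2.1 ∧ t.1 ≠ t.2.2 ∧ t.2.1 ≠ t.2.2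

/-- Step function on coded triples. -/
def tripAct (gens : List ℕ) (g n : ℕ) : ℕ :=
  app (gens.getD g idCode) (n % 24) + 24 * app (gens.getD g idCode) (n / 24 % 24) +
    576 * app (gens.getD g idCode) (n / 576)

/-- Step function on points. -/
def ptAct (gens : List ℕ) (g n : ℕ) : ℕ := app (gens.getD g idCode) n

/-- A coded triple is admissible. -/
def tripIn (n : ℕ) : Bool :=
  let a := n % 24
  let b := n / 24 % 24
  let c := n / 576
  !sqMask.testBit a && !sqMask.testBit b && !sqMask.testBit c && !(a == b) && !(a == c) && !(b == c)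

theorem m11_gens_ok : maskGensOK [sqMask, 1] m11Gens = true ∧
    classCheck (tripAct m11Gens) [(m11Root, m11Tree)] 14 1320 tripIn = true ∧ m11Root < 13824 ∧
    tripSet.card = 1320 := by
  decide +kernel

theorem gensOK_getD {fix gens : List ℕ} (h : maskGensOK fix gens = true) (g : ℕ) :
    permOK (gens.getD g idCode) = true ∧ permOf (gens.getD g idCode) ∈ fixSub fix := by
  simp only [maskGensOK, List.all_eq_true, Bool.and_eq_true, beq_iff_eq] at h
  by_cases hg : g < gens.length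
  · rw [List.getD_eq_getElem _ _ hg]
    obtain ⟨ha, hf⟩ := h _ (List.getElem_mem hg)
    exact ⟨permOK_of_isAut ha, mem_fixSub.2 ⟨permOf_mem_M24 ha, fun f hf' => by
      rw [← bset_mapMask (permOK_of_isAut ha), hf f hf']⟩⟩
  · rw [List.getD_eq_default _ _ (not_lt.1 hg), permOf_idCode]
    exact ⟨idCode_ok, one_mem _⟩

/-- The stabiliser of the standard dodecad and point is transitive on triples outside. -/
theorem std_triple_transitive {a b c : GolayPt} (ha : a ∉ bset sqMask) (hb : b ∉ bset sqMask)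
    (hc : c ∉ bset sqMask) (hab : a ≠ b) (hac : a ≠ c) (hbc : b ≠ c) :
    ∃ h ∈ fixSub [sqMask, 1], h • ((pt (m11Root % 24), pt (m11Root / 24 % 24), pt (m11Root / 576)) :
      GolayPt × GolayPt × GolayPt) = (a, b, c) := by
  obtain ⟨hg, hc', hroot, hcard⟩ := m11_gens_ok
  obtain ⟨r, hr, hh⟩ := exists_root_of_classCheck (tripAct m11Gens)
    (fun n => ((pt (n % 24), pt (n / 24 % 24), pt (n / 576)) : GolayPt × GolayPt × GolayPt))
    (fun n => n < 13824) (fixSub [sqMask, 1]) [(m11Root, m11Tree)] 14 1320 tripIn hc'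
    (fun g n hn => by
      obtain ⟨hok, hmem⟩ := gensOK_getD hg g
      have h1 := app_lt hok (show n % 24 < 24 by omega)
      have h2 := app_lt hok (show n / 24 % 24 < 24 by omega)
      have h3 := app_lt hok (show n / 576 < 24 by omega)
      refine ⟨by unfold tripAct; omega, _, hmem, ?_⟩
      simp only [tripAct, Prod.smul_mk, Equiv.Perm.smul_def,
        permOf_pt hok (show n % 24 < 24 by omega), permOf_pt hok (show n / 24 % 24 < 24 by omega),
        permOf_pt hok (show n / 576 < 24 by omega), Prod.mk.injEq]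
      refine ⟨congrArg pt ?_, congrArg pt ?_, congrArg pt ?_⟩ <;> omega)
    (fun p hp => by rw [List.mem_singleton] at hp; subst hp; exact hroot)
    (fun m n hm hn e => by
      simp only [Prod.mk.injEq] at e
      have e1 := congrArg idx e.1
      have e2 := congrArg idx e.2.1
      have e3 := congrArg idx e.2.2
      rw [idx_pt (by omega), idx_pt (by omega)] at e1 e2 e3
      omega)
    ↑tripSet (Finset.finite_toSet _) (fun m hm hin => by
      simp only [tripIn, Bool.and_eq_true, Bool.not_eq_true', beq_eq_false_iff_ne] at hin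
      obtain ⟨⟨⟨⟨⟨h1, h2⟩, h3⟩, h4⟩, h5⟩, h6⟩ := hin
      simp only [Finset.mem_coe, tripSet, Finset.mem_filter, Finset.mem_product, Finset.mem_compl,
        mem_bset, idx_pt (show m % 24 < 24 by omega), idx_pt (show m / 24 % 24 < 24 by omega),
        idx_pt (show m / 576 < 24 by omega), h1, h2, h3, Bool.false_eq_true, not_false_iff, true_and]
      refine ⟨fun e => h4 ?_, fun e => h5 ?_, fun e => h6 ?_⟩ <;>
        simpa [idx_pt (show m % 24 < 24 by omega), idx_pt (show m / 24 % 24 < 24 by omega),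
          idx_pt (show m / 576 < 24 by omega)] using congrArg idx e)
    (by rw [Set.ncard_coe_finset, hcard])
    (x := (a, b, c)) (by simp [tripSet, ha, hb, hc, hab, hac, hbc])
  rw [List.map_singleton, List.mem_singleton] at hr
  subst hr
  exact hh

theorem s72_gens_ok : maskGensOK [sqMask, 1, 2, 4] s72Gens = true ∧
    classCheck (ptAct s72Gens) [(s72Root, s72Tree)] 5 12 (fun n => !sqMask.testBit n) = true ∧
    s72Root < 24 ∧ ((bset sqMask)ᶜ).card = 12 := by
  decide +kernel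

/-- The stabiliser of the standard dodecad and three of its points is transitive outside. -/
theorem std_outside_transitive {x : GolayPt} (hx : x ∉ bset sqMask) :
    ∃ h ∈ fixSub [sqMask, 1, 2, 4], h (pt s72Root) = x := by
  obtain ⟨hg, hc', hroot, hcard⟩ := s72_gens_ok
  obtain ⟨r, hr, hh⟩ := exists_root_of_classCheck (ptAct s72Gens) pt (fun n => n < 24)
    (fixSub [sqMask, 1, 2, 4]) [(s72Root, s72Tree)] 5 12 _ hc'
    (fun g n hn => by
      obtain ⟨hok, hmem⟩ := gensOK_getD hg g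
      exact ⟨app_lt hok hn, _, hmem, (permOf_pt hok hn).symm⟩)
    (fun p hp => by rw [List.mem_singleton] at hp; subst hp; exact hroot)
    (fun m n hm hn e => by simpa [idx_pt hm, idx_pt hn] using congrArg idx e)
    ↑((bset sqMask)ᶜ) (Finset.finite_toSet _) (fun m hm hin => by
      simpa [mem_bset, idx_pt hm] using hin)
    (by rw [Set.ncard_coe_finset, hcard]) (x := x) (by simpa using hx)
  rw [List.map_singleton, List.mem_singleton] at hr
  subst hr
  exact hh

theorem std_pts : pt 0 ∈ bset sqMask ∧ pt 1 ∈ bset sqMask ∧ pt 2 ∈ bset sqMask := by decide +kernel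

/-- Three-transitivity of the stabiliser of a dodecad and one of its points on the other dodecad. -/
theorem dod_point_three_transitive {d : Finset GolayPt} (hd : d ∈ dodecads) {p : GolayPt} (hp : p ∈ d)
    {a b c a' b' c' : GolayPt} (ha : a ∉ d) (hb : b ∉ d) (hc : c ∉ d) (ha' : a' ∉ d) (hb' : b' ∉ d)
    (hc' : c' ∉ d) (hab : a ≠ b) (hac : a ≠ c) (hbc : b ≠ c) (hab' : a' ≠ b') (hac' : a' ≠ c')
    (hbc' : b' ≠ c') :
    ∃ g ∈ M24, g • d = d ∧ g p = p ∧ g a = a' ∧ g b = b' ∧ g c = c' := by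
  obtain ⟨e, he, rfl⟩ := exists_mem_M24_sqMask hd
  obtain ⟨f, hf, hfd, hfp⟩ := exists_mem_dodecad_stab hd (k := 1) (by norm_num)
    ⟨fun _ => e (pt 0), fun a b _ => Subsingleton.elim a b⟩
    ⟨fun _ => p, fun a b _ => Subsingleton.elim a b⟩
    (fun _ => Finset.smul_mem_smul_finset std_pts.1) (fun _ => hp)
  obtain ⟨k, hk, hkd, hkp⟩ : ∃ k ∈ M24, k • bset sqMask = e • bset sqMask ∧ k (pt 0) = p :=
    ⟨f * e, mul_mem hf he, by rw [mul_smul, hfd], hfp 0⟩
  have out : ∀ x, x ∉ e • bset sqMask → k⁻¹ x ∉ bset sqMask := by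
    intro x hx h
    refine hx ?_
    rw [← hkd]
    simpa using Finset.smul_mem_smul_finset (a := k) h
  have inj := k⁻¹.injective
  obtain ⟨h1, hh1, e1⟩ := std_triple_transitive (out a ha) (out b hb) (out c hc)
    (inj.ne hab) (inj.ne hac) (inj.ne hbc)
  obtain ⟨h2, hh2, e2⟩ := std_triple_transitive (out a' ha') (out b' hb') (out c' hc')
    (inj.ne hab') (inj.ne hac') (inj.ne hbc')
  have hh := mul_mem hh2 (inv_mem hh1)
  have e12 : (h2 * h1⁻¹) • ((k⁻¹ a, k⁻¹ b, k⁻¹ c) : GolayPt × GolayPt × GolayPt) =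
      (k⁻¹ a', k⁻¹ b', k⁻¹ c') := by rw [mul_smul, ← e1, inv_smul_smul, e2]
  simp only [Prod.smul_mk, Equiv.Perm.smul_def, Prod.mk.injEq] at e12
  have h0 : (h2 * h1⁻¹) (pt 0) = pt 0 := by
    refine smul_eq_of_fix_point hh ?_
    rw [idx_pt (by norm_num)]; simp
  refine ⟨k * (h2 * h1⁻¹) * k⁻¹, mul_mem (mul_mem hk (mem_fixSub.1 hh).1) (inv_mem hk), ?_, ?_, ?_, ?_, ?_⟩
  · rw [← hkd, mul_smul, inv_smul_smul, mul_smul, (mem_fixSub.1 hh).2 sqMask (by simp)]
  · rw [← hkp, Equiv.Perm.mul_apply, Equiv.Perm.mul_apply k, Equiv.Perm.coe_inv,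
      Equiv.symm_apply_apply, h0]
  all_goals rw [Equiv.Perm.mul_apply, Equiv.Perm.mul_apply k]
  · rw [e12.1]; simp
  · rw [e12.2.1]; simp
  · rw [e12.2.2]; simp

/-- The stabiliser of a dodecad and three of its points is transitive on the other dodecad. -/
theorem dod_three_outside {d : Finset GolayPt} (hd : d ∈ dodecads) {p q r : GolayPt} (hp : p ∈ d)
    (hq : q ∈ d) (hr : r ∈ d) (hpq : p ≠ q) (hpr : p ≠ r) (hqr : q ≠ r) {x y : GolayPt} (hx : x ∉ d)
    (hy : y ∉ d) :
    ∃ g ∈ M24, g • d = d ∧ g p = p ∧ g q = q ∧ g r = r ∧ g x = y := by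
  obtain ⟨e, he, rfl⟩ := exists_mem_M24_sqMask hd
  have hnd : [e (pt 0), e (pt 1), e (pt 2)].Nodup := by
    rw [show [e (pt 0), e (pt 1), e (pt 2)] = [pt 0, pt 1, pt 2].map e from rfl,
      List.nodup_map_iff e.injective]
    decide +kernel
  obtain ⟨f, hf, hfd, hfi⟩ := exists_mem_dodecad_stab hd (k := [e (pt 0), e (pt 1), e (pt 2)].length)
    (by simp) (embOfList _ hnd) (embOfList [p, q, r] (by simp [hpq, hpr, hqr]))
    (fun i => by
      have hall : ∀ z ∈ [e (pt 0), e (pt 1), e (pt 2)], z ∈ e • bset sqMask := by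
        simp only [List.forall_mem_cons]
        exact ⟨Finset.smul_mem_smul_finset std_pts.1, Finset.smul_mem_smul_finset std_pts.2.1,
          Finset.smul_mem_smul_finset std_pts.2.2, by simp⟩
      exact hall _ (List.get_mem _ i))
    (fun i => by
      have hall : ∀ z ∈ [p, q, r], z ∈ e • bset sqMask := by simp [hp, hq, hr]
      exact hall _ (List.get_mem [p, q, r] i))
  set k := f * e with hk
  have hkd : k • bset sqMask = e • bset sqMask := by rw [hk, mul_smul, hfd]
  have hk0 : k (pt 0) = p := hfi ⟨0, by simp⟩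
  have hk1 : k (pt 1) = q := hfi ⟨1, by simp⟩
  have hk2 : k (pt 2) = r := hfi ⟨2, by simp⟩
  have out : ∀ z, z ∉ e • bset sqMask → k⁻¹ z ∉ bset sqMask := by
    intro z hz h
    refine hz ?_
    rw [← hkd]
    simpa using Finset.smul_mem_smul_finset (a := k) h
  obtain ⟨h1, hh1, e1⟩ := std_outside_transitive (out x hx)
  obtain ⟨h2, hh2, e2⟩ := std_outside_transitive (out y hy)
  have hh := mul_mem hh2 (inv_mem hh1)
  have h0 : ∀ i : ℕ, i < 3 → (h2 * h1⁻¹) (pt i) = pt i := fun i hi => by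
    refine smul_eq_of_fix_point hh ?_
    rw [idx_pt (by omega)]
    interval_cases i <;> simp
  refine ⟨k * (h2 * h1⁻¹) * k⁻¹, mul_mem (mul_mem (mul_mem hf he) (mem_fixSub.1 hh).1)
    (inv_mem (mul_mem hf he)), ?_, ?_, ?_, ?_, ?_⟩
  · rw [← hkd, mul_smul, inv_smul_smul, mul_smul, (mem_fixSub.1 hh).2 sqMask (by simp)]
  · rw [← hk0, Equiv.Perm.mul_apply, Equiv.Perm.mul_apply k, Equiv.Perm.coe_inv,
      Equiv.symm_apply_apply, h0 0 (by norm_num)]
  · rw [← hk1, Equiv.Perm.mul_apply, Equiv.Perm.mul_apply k, Equiv.Perm.coe_inv,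
      Equiv.symm_apply_apply, h0 1 (by norm_num)]
  · rw [← hk2, Equiv.Perm.mul_apply, Equiv.Perm.mul_apply k, Equiv.Perm.coe_inv,
      Equiv.symm_apply_apply, h0 2 (by norm_num)]
  · rw [Equiv.Perm.mul_apply, Equiv.Perm.mul_apply k, Equiv.Perm.mul_apply h2, ← e1,
      Equiv.Perm.coe_inv, Equiv.symm_apply_apply, e2]
    simp

theorem dod_three_stab_card {d : Finset GolayPt} (hd : d ∈ dodecads) {p q r : GolayPt}
    (hp : p ∈ d) (hq : q ∈ d) (hr : r ∈ d) (hpq : p ≠ q) (hpr : p ≠ r) (hqr : q ≠ r) :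
    Nat.card ↥(M24 ⊓ MulAction.stabilizer (Equiv.Perm GolayPt) d ⊓
      MulAction.stabilizer (Equiv.Perm GolayPt) p ⊓ MulAction.stabilizer (Equiv.Perm GolayPt) q ⊓
      MulAction.stabilizer (Equiv.Perm GolayPt) r) = 72 := by
  classical
  have hmove : ∀ (l : List GolayPt) (a t : GolayPt), (∀ z ∈ l, z ∈ d) → a ∈ d → t ∈ d →
      (a :: l).Nodup → (t :: l).Nodup → l.length < 5 →
      ∃ g ∈ M24, g • d = d ∧ g a = t ∧ ∀ z ∈ l, g z = z := by
    intro l a t hl ha ht hn hn' hlen
    obtain ⟨g, hg, hgd, hgi⟩ := exists_mem_dodecad_stab hd (k := (a :: l).length) (by simp; omega)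
      (embOfList _ hn) ((embOfList (t :: l) hn')) (fun i => (List.forall_mem_cons.2 ⟨ha, hl⟩) _ (List.get_mem _ i))
      (fun i => (List.forall_mem_cons.2 ⟨ht, hl⟩) _ (List.get_mem (t :: l) i))
    refine ⟨g, hg, hgd, hgi ⟨0, by simp⟩, fun z hz => ?_⟩
    obtain ⟨i, hi, rfl⟩ := List.getElem_of_mem hz
    exact hgi ⟨i + 1, by simp [hi]⟩
  have hfix : ∀ g : Equiv.Perm GolayPt, g • d = d → ∀ z ∈ d, g z ∈ d := fun g hg z hz =>
    hg ▸ Finset.smul_mem_smul_finset hz
  have h1 := card_eq_ncard_mul_stab (M24 ⊓ MulAction.stabilizer (Equiv.Perm GolayPt) d ⊓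
      MulAction.stabilizer (Equiv.Perm GolayPt) p) q (↑(d.erase p))
    (fun t ht => by
      rw [Finset.mem_coe, Finset.mem_erase] at ht
      obtain ⟨g, hg, hgd, hgq, hgl⟩ := hmove [p] q t (by simp [hp]) hq ht.2 (by simp [hpq.symm])
        (by simp [ht.1]) (by simp)
      exact ⟨g, ⟨⟨hg, hgd⟩, hgl p (by simp)⟩, hgq⟩)
    (fun g hg => by
      obtain ⟨⟨-, hgd⟩, hgp⟩ := hg
      rw [Finset.mem_coe, Finset.mem_erase]
      refine ⟨fun e => hpq ?_, hfix g hgd q hq⟩
      exact g.injective ((show g p = p from hgp).trans e.symm))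
  have h2 := card_eq_ncard_mul_stab (M24 ⊓ MulAction.stabilizer (Equiv.Perm GolayPt) d ⊓
      MulAction.stabilizer (Equiv.Perm GolayPt) p ⊓ MulAction.stabilizer (Equiv.Perm GolayPt) q) r
      (↑((d.erase p).erase q))
    (fun t ht => by
      rw [Finset.mem_coe, Finset.mem_erase, Finset.mem_erase] at ht
      obtain ⟨g, hg, hgd, hgr, hgl⟩ := hmove [p, q] r t (by simp [hp, hq]) hr ht.2.2
        (by simp [hpr.symm, hqr.symm, hpq]) (by simp [ht.1, ht.2.1, hpq]) (by simp)
      exact ⟨g, ⟨⟨⟨hg, hgd⟩, hgl p (by simp)⟩, hgl q (by simp)⟩, hgr⟩)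
    (fun g hg => by
      obtain ⟨⟨⟨-, hgd⟩, hgp⟩, hgq⟩ := hg
      rw [Finset.mem_coe, Finset.mem_erase, Finset.mem_erase]
      refine ⟨fun e => hqr ?_, fun e => hpr ?_, hfix g hgd r hr⟩
      · exact g.injective ((show g q = q from hgq).trans e.symm)
      · exact g.injective ((show g p = p from hgp).trans e.symm))
  rw [M24_dodecad_point_stab_card hd hp, Set.ncard_coe_finset, Finset.card_erase_of_mem hp,
    card_dodecad hd] at h1
  rw [Set.ncard_coe_finset, Finset.card_erase_of_mem (Finset.mem_erase.2 ⟨hpq.symm, hq⟩),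
    Finset.card_erase_of_mem hp, card_dodecad hd] at h2
  omega

end Cfsg.Agent.Golay
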