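import Cfsg.Agent.Golay.OrbitTools

/-! Homomorphisms into the permutations of the points, given by tables. -/

set_option autoImplicit false

namespace Cfsg.Agent.Golay

open scoped Pointwise

variable {G : Type*} [Group G] [Finite G]

theorem mem_of_gens {gens : Set G} (hgen : Subgroup.closure gens = ⊤) (M : Submonoid G)
    (hM : ∀ s ∈ gens, s ∈ M) (g : G) : g ∈ M := by
  have h : Submonoid.closure gens = ⊤ := by
    rw [← Subgroup.closure_toSubmonoid_of_finite (s := gens), hgen, Subgroup.top_toSubmonoid]
  exact Submonoid.closure_le.2 hM (h ▸ Submonoid.mem_top g)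

/-- A table with the multiplication checked on generators is multiplicative. -/
theorem table_mul {gens : Set G} (hgen : Subgroup.closure gens = ⊤) (f : G → ℕ)
    (hok : ∀ g, permOK (f g) = true) (h1 : f 1 = idCode)
    (hstep : ∀ a, ∀ s ∈ gens, isComp (f (a * s)) (f a) (f s) = true) (a b : G) :
    permOf (f (a * b)) = permOf (f a) * permOf (f b) := by
  let M : Submonoid G :=
    { carrier := {b | ∀ a, permOf (f (a * b)) = permOf (f a) * permOf (f b)}
      one_mem' := fun a => by rw [mul_one, h1, permOf_idCode, mul_one]
      mul_mem' := by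
        intro x y hx hy a
        rw [← mul_assoc, hy, hx, mul_assoc, ← hy x] }
  exact mem_of_gens hgen M (fun s hs a => permOf_mul (hok _) (hok _) (hok _) (hstep a s hs)) b a

/-- The homomorphism given by a table. -/
noncomputable def tableHom {gens : Set G} (hgen : Subgroup.closure gens = ⊤) (f : G → ℕ)
    (hok : ∀ g, permOK (f g) = true) (h1 : f 1 = idCode)
    (hstep : ∀ a, ∀ s ∈ gens, isComp (f (a * s)) (f a) (f s) = true) :
    G →* Equiv.Perm GolayPt where
  toFun g := permOf (f g)
  map_one' := by rw [h1, permOf_idCode]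
  map_mul' := table_mul hgen f hok h1 hstep

omit [Finite G] in
theorem range_le_of_gens {gens : Set G} (hgen : Subgroup.closure gens = ⊤)
    (φ : G →* Equiv.Perm GolayPt) (H : Subgroup (Equiv.Perm GolayPt)) (h : ∀ s ∈ gens, φ s ∈ H) :
    φ.range ≤ H := by
  rw [MonoidHom.range_eq_map, ← hgen, MonoidHom.map_closure, Subgroup.closure_le]
  rintro _ ⟨s, hs, rfl⟩
  exact h s hs

/-- The packed images of the base points. -/
def baseKey (c : ℕ) : ℕ := (basePts.map (app c)).foldl (fun a x => a * 32 + x) 0

theorem baseKey_congr {a b : ℕ} (ha : permOK a = true) (hb : permOK b = true)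
    (h : permOf a = permOf b) : baseKey a = baseKey b := by
  unfold baseKey
  refine congrArg (List.foldl (fun a x => a * 32 + x) 0) (List.map_congr_left fun i hi => ?_)
  have h24 : i < 24 := (show ∀ x ∈ basePts, x < 24 by decide +kernel) i hi
  have := congrArg (fun σ : Equiv.Perm GolayPt => idx (σ (pt i))) h
  simpa [idx_permOf ha, idx_permOf hb, idx_pt h24] using this

omit [Finite G] in
/-- `N` distinct values fill a subgroup of order at most `N`. -/
theorem le_range_of_values (φ : G →* Equiv.Perm GolayPt) {H : Subgroup (Equiv.Perm GolayPt)}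
    (hle : φ.range ≤ H) (L : List ℕ) (hdist : distinctAux 35 (L.map baseKey) .emp = true)
    (hL : ∀ c ∈ L, permOK c = true ∧ ∃ g, φ g = permOf c) (hcard : Nat.card H ≤ L.length) :
    φ.range = H := by
  classical
  have hnd : (L.map baseKey).Nodup := nodup_of_distinct hdist
  have hinj : ∀ a ∈ L, ∀ b ∈ L, permOf a = permOf b → a = b := fun a ha b hb e =>
    List.inj_on_of_nodup_map hnd ha hb (baseKey_congr (hL a ha).1 (hL b hb).1 e)
  refine Subgroup.eq_of_le_of_card_ge hle (le_trans hcard ?_)
  calc L.length = ((L.map permOf).toFinset : Set (Equiv.Perm GolayPt)).ncard := by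
        rw [Set.ncard_coe_finset, List.toFinset_card_of_nodup
          (List.Nodup.map_on hinj (List.Nodup.of_map _ hnd)), List.length_map]
    _ ≤ (φ.range : Set (Equiv.Perm GolayPt)).ncard := by
        refine Set.ncard_le_ncard ?_ (Set.toFinite _)
        intro x hx
        simp only [Finset.mem_coe, List.mem_toFinset, List.mem_map] at hx
        obtain ⟨c, hc, rfl⟩ := hx
        obtain ⟨g, hg⟩ := (hL c hc).2
        exact ⟨g, hg⟩
    _ = Nat.card φ.range := (Nat.card_coe_set_eq _).symm

/-- The packed permutation is the identity. -/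
def isId (c : ℕ) : Bool := (List.range 24).all fun i => app c i == i

theorem isId_of_eq_one {c : ℕ} (hc : permOK c = true) (h : permOf c = 1) : isId c = true := by
  simp only [isId, List.all_eq_true, List.mem_range, beq_iff_eq]
  intro i hi
  have := congrArg (fun σ : Equiv.Perm GolayPt => idx (σ (pt i))) h
  simpa [idx_permOf hc, idx_pt hi] using this

end Cfsg.Agent.Golay
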