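import Cfsg.Agent.Golay.DodStabData
import Cfsg.Agent.M24Orbits.Framework
import Cfsg.Agent.Golay.MaskOrbits
import Cfsg.Agent.Golay.OrbitTools

/-! Quartets of a dodecad: their list, and orbits. -/

set_option autoImplicit false
set_option maxRecDepth 20000

namespace Cfsg.Agent.Golay

open scoped Pointwise
open Cfsg.Agent.M24Orbits (Fam ascB toSet actL collectL canon distinctB)

/-- Lookup in a search tree. -/
def treeHas (a : ℕ) : M24Orbits.KeyTree → Bool
  | .leaf => false
  | .node v l r => (a == v) || bif Nat.ble a v then treeHas a l else treeHas a r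

/-- Union of two triples is a hexad. -/
def hexU (a b : ℕ) : Bool := (a &&& b == 0) && treeHas (a ||| b) hexTree

/-- Check of one listed quartet. -/
def quartOK (l : List ℕ) : Bool :=
  ascB l && l.length == 4 && l.all fun a => pc a == 3 && a &&& sqMask == a &&
    l.all fun b => a == b || hexList.contains (a ||| b)

/-- The triples forming a hexad with a given one. -/
def triNbrs (t : ℕ) : List ℕ := tri3List.filter fun u => hexU t u

/-- Completions of a pair of triples inside the partners of the first. -/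
def quartAt (t : ℕ) (P : List ℕ) : Bool :=
  P.all fun u =>
    (P.any fun v => hexU u v &&
      (let w := sqMask ^^^ (t ||| u ||| v); P.contains w && hexU u w && hexU v w)) &&
    (!Nat.blt t u || P.all fun v => !Nat.blt u v || !hexU u v ||
      (let w := sqMask ^^^ (t ||| u ||| v)
       !Nat.blt v w || !(hexU t w && hexU u w && hexU v w) || quartList.contains [t, u, v, w]))

/-- Every quartet is listed, and every pair of triples extends. -/
def quartComplete : Bool := (tri3List.zip triNbrLists).all fun p => quartAt p.1 p.2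

/-- The keys of a search tree in order. -/
def treeList : M24Orbits.KeyTree → List ℕ
  | .leaf => []
  | .node v l r => treeList l ++ v :: treeList r

theorem mem_of_treeHas {a : ℕ} : ∀ {t : M24Orbits.KeyTree}, treeHas a t = true → a ∈ treeList t
  | .leaf, h => by simp [treeHas] at h
  | .node v l r, h => by
    simp only [treeHas, Bool.or_eq_true, beq_iff_eq] at h
    rw [treeList, List.mem_append, List.mem_cons]
    rcases h with rfl | h
    · exact Or.inr (Or.inl rfl)
    · cases hb : Nat.ble a v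
      · rw [hb] at h; exact Or.inr (Or.inr (mem_of_treeHas h))
      · rw [hb] at h; exact Or.inl (mem_of_treeHas h)

/-- Codes of the ordered pairs in a listed quartet. -/
def quartPairs (l : List ℕ) : List ℕ :=
  l.flatMap fun a => (l.filter fun b => !(a == b)).map fun b => a * 16777216 + b

theorem quart_checks : quartList.all quartOK = true ∧ quartComplete = true ∧
    distinctB quartList = true ∧ quartList.length = 220 := by decide +kernel

theorem triNbrs_eq : tri3List.map triNbrs = triNbrLists := by decide +kernel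

theorem quartAt_spec {t : ℕ} (ht : t ∈ tri3List) (hc : quartComplete = true) :
    quartAt t (triNbrs t) = true := by
  simp only [quartComplete, ← triNbrs_eq, List.all_eq_true] at hc
  refine hc (t, triNbrs t) ?_
  rw [show tri3List.zip (tri3List.map triNbrs) = tri3List.map (fun x => (x, triNbrs x)) from ?_]
  · exact List.mem_map.2 ⟨t, ht, rfl⟩
  · generalize tri3List = l
    induction l with
    | nil => rfl
    | cons a l ih => simp [ih]

theorem quartPairs_ok : distinctAux 48 (quartList.flatMap quartPairs) .emp = true := by decide +kernel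

theorem hexTree_list : treeList hexTree = hexList := by decide +kernel

theorem hexList_checks :
    allB (fun i => let h := encode i &&& sqMask;
      !(pc (encode i) == 8 && pc h == 6) || hexList.contains h) 12 0 = true ∧
    hexOct.map (fun o => o &&& sqMask) = hexList ∧
    (hexOct.all fun o => inC o && pc o == 8 && pc (o &&& sqMask) == 6) = true := by decide +kernel

theorem mem_hexadsOn_iff {h : Finset GolayPt} : h ∈ hexadsOn (bset sqMask) ↔ mask h ∈ hexList := by
  constructor
  · rintro ⟨h6, o, ho, rfl⟩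
    rw [mem_octads_iff] at ho
    have hm : mask (o ∩ bset sqMask) = mask o &&& sqMask := by
      conv_lhs => rw [← bset_mask o, ← bset_and]
      exact mask_bset (lt_of_le_of_lt Nat.and_le_left (mask_lt o))
    rw [card_eq_pc_mask, hm] at h6
    have := forall_code (fun n => !(pc n == 8 && pc (n &&& sqMask) == 6) || hexList.contains (n &&& sqMask))
      hexList_checks.1 ho.1
    simpa [hm, ho.2, h6, List.contains_iff_mem] using this
  · intro hh
    have h2 := hexList_checks.2.2
    simp only [List.all_eq_true, Bool.and_eq_true, beq_iff_eq] at h2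
    rw [← hexList_checks.2.1, List.mem_map] at hh
    obtain ⟨o, ho, e⟩ := hh
    obtain ⟨⟨h1, h8⟩, h6⟩ := h2 o ho
    refine ⟨by rw [card_eq_pc_mask, ← e, h6], bset o, ?_, ?_⟩
    · rw [mem_octads_iff, mask_bset (lt_of_inC h1)]; exact ⟨h1, h8⟩
    · rw [← bset_and, e, bset_mask]

theorem has_hexTrie {h : ℕ} (hh : h ∈ hexList) : treeHas h hexTree = true := by
  have key : (hexList.all fun h => treeHas h hexTree) = true := by decide +kernel
  exact List.all_eq_true.1 key h hh

theorem dodPts_tri : (dodPts.all fun i => dodPts.all fun j => dodPts.all fun k =>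
    !(i < j && j < k) || tri3List.contains (2 ^ i ||| 2 ^ j ||| 2 ^ k)) = true ∧
    (List.range 24).all (fun i => !sqMask.testBit i || dodPts.contains i) = true := by decide +kernel

theorem hexad_of_hexU {a b : ℕ} (ha : a < 2 ^ 24) (hb : b < 2 ^ 24) (h : hexU a b = true) :
    bset a ∪ bset b ∈ hexadsOn (bset sqMask) := by
  simp only [hexU, Bool.and_eq_true] at h
  rw [← bset_or, mem_hexadsOn_iff, mask_bset (Nat.or_lt_two_pow ha hb), ← hexTree_list]
  exact mem_of_treeHas h.2

theorem tri3List_complete : ∀ s ∈ (bset sqMask).powersetCard 3, mask s ∈ tri3List := by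
  intro s hs
  obtain ⟨hsub, h3⟩ := Finset.mem_powersetCard.1 hs
  obtain ⟨h1, h2⟩ := dodPts_tri
  simp only [List.all_eq_true, Bool.or_eq_true, Bool.not_eq_true', List.contains_iff_mem] at h1 h2
  have hd : ∀ x ∈ s, idx x ∈ dodPts := fun x hx => by
    rcases h2 _ (List.mem_range.2 (idx_lt x)) with e | e
    · rw [mem_bset.1 (hsub hx)] at e; cases e
    · exact e
  obtain ⟨a, b, c, hlt1, hlt2, hs⟩ : ∃ a b c, idx a < idx b ∧ idx b < idx c ∧ s = {a, b, c} := by
    obtain ⟨x, y, z, hxy, hxz, hyz, rfl⟩ := Finset.card_eq_three.1 h3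
    have n1 := idx_injective.ne hxy
    have n2 := idx_injective.ne hxz
    have n3 := idx_injective.ne hyz
    rcases lt_or_gt_of_ne n1 with p | p <;> rcases lt_or_gt_of_ne n2 with q | q <;>
      rcases lt_or_gt_of_ne n3 with r | r
    all_goals first
      | (exfalso; omega)
      | exact ⟨x, y, z, by omega, by omega, rfl⟩
      | exact ⟨x, z, y, by omega, by omega, by ext; simp; tauto⟩
      | exact ⟨y, x, z, by omega, by omega, by ext; simp; tauto⟩
      | exact ⟨y, z, x, by omega, by omega, by ext; simp; tauto⟩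
      | exact ⟨z, x, y, by omega, by omega, by ext; simp; tauto⟩
      | exact ⟨z, y, x, by omega, by omega, by ext; simp; tauto⟩
  subst hs
  have e : mask {a, b, c} = 2 ^ idx a ||| 2 ^ idx b ||| 2 ^ idx c := by
    refine eq_of_bset_eq (mask_lt _) ?_ ?_
    · exact Nat.or_lt_two_pow (Nat.or_lt_two_pow (Nat.pow_lt_pow_right (by norm_num) (idx_lt a))
        (Nat.pow_lt_pow_right (by norm_num) (idx_lt b))) (Nat.pow_lt_pow_right (by norm_num) (idx_lt c))
    · rw [bset_mask, bset_or, bset_or, bset_mask_two_pow _ (idx_lt a), bset_mask_two_pow _ (idx_lt b),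
        bset_mask_two_pow _ (idx_lt c), pt_idx, pt_idx, pt_idx]
      ext; simp [or_assoc]
  rw [e]
  rcases h1 _ (hd a (by simp)) _ (hd b (by simp)) _ (hd c (by simp)) with h | h
  · simp [hlt1, hlt2] at h
  · exact h

theorem mask_union (s t : Finset GolayPt) : mask (s ∪ t) = mask s ||| mask t := by
  conv_lhs => rw [← bset_mask s, ← bset_mask t, ← bset_or]
  exact mask_bset (Nat.or_lt_two_pow (mask_lt s) (mask_lt t))

theorem mask_inter (s t : Finset GolayPt) : mask (s ∩ t) = mask s &&& mask t := by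
  conv_lhs => rw [← bset_mask s, ← bset_mask t, ← bset_and]
  exact mask_bset (lt_of_le_of_lt Nat.and_le_left (mask_lt s))

theorem hexU_of {s t : Finset GolayPt} (hs : s.card = 3) (ht : t.card = 3)
    (h : s ∪ t ∈ hexadsOn (bset sqMask)) : Disjoint s t ∧ hexU (mask s) (mask t) = true := by
  have hd : Disjoint s t := by
    rw [← Finset.card_union_eq_card_add_card, h.1, hs, ht]
  refine ⟨hd, ?_⟩
  rw [hexU, Bool.and_eq_true, beq_iff_eq, ← mask_inter, ← mask_union]
  refine ⟨?_, has_hexTrie (mem_hexadsOn_iff.1 h)⟩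
  rw [Finset.disjoint_iff_inter_eq_empty.1 hd, ← bset_zero, mask_bset (by norm_num)]

theorem xor_last {A B C D : Prop} (h1 : A → ¬D) (h2 : B → ¬D) (h3 : C → ¬D) :
    (((A ∨ B) ∨ C) ∨ D) ∧ ¬((A ∨ B) ∨ C) ∨ ((A ∨ B) ∨ C) ∧ ¬(((A ∨ B) ∨ C) ∨ D) ↔ D := by
  by_cases hA : A <;> by_cases hB : B <;> by_cases hC : C <;> by_cases hD : D <;> simp_all

theorem quartets_std : quartets (bset sqMask) = {Q | ∃ l ∈ quartList, toSet l = Q} := by
  obtain ⟨hok, hcomp, -, -⟩ := quart_checks
  simp only [List.all_eq_true] at hok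
  ext Q
  constructor
  · intro hQ
    obtain ⟨h4, h3, hu⟩ := hQ
    have hlen : ((Q.image mask).sort (· ≤ ·)).length = 4 := by
      rw [Finset.length_sort, Finset.card_image_of_injective _ mask_injective, h4]
    obtain ⟨a, b, c, d, hL⟩ : ∃ a b c d, (Q.image mask).sort (· ≤ ·) = [a, b, c, d] := by
      match hl : (Q.image mask).sort (· ≤ ·) with
      | [a, b, c, d] => exact ⟨a, b, c, d, rfl⟩
      | [] | [_] | [_, _] | [_, _, _] | _ :: _ :: _ :: _ :: _ :: _ => rw [hl] at hlen; simp at hlen
    have hlt := (Finset.sortedLT_sort (Q.image mask)).pairwise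
    rw [hL] at hlt
    simp only [List.pairwise_cons, List.mem_cons, List.not_mem_nil, or_false, forall_eq_or_imp,
      forall_eq, List.Pairwise.nil, and_true] at hlt
    obtain ⟨⟨hab, hac, had⟩, ⟨hbc, hbd⟩, hcd, -⟩ := hlt
    have hmem : ∀ x ∈ [a, b, c, d], bset x ∈ Q ∧ x < 2 ^ 24 := by
      intro x hx
      rw [← hL, Finset.mem_sort, Finset.mem_image] at hx
      obtain ⟨s, hs, rfl⟩ := hx
      exact ⟨by rwa [bset_mask], mask_lt s⟩
    have hQeq : toSet [a, b, c, d] = Q := by
      ext s
      simp only [toSet, List.mem_toFinset, List.mem_map]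
      refine ⟨?_, fun hs => ⟨mask s, ?_, bset_mask s⟩⟩
      · rintro ⟨x, hx, rfl⟩; exact (hmem x hx).1
      · rw [← hL, Finset.mem_sort]; exact Finset.mem_image_of_mem mask hs
    have hd : ∀ x ∈ [a, b, c, d], ∀ y ∈ [a, b, c, d], x < y →
        Disjoint (bset x) (bset y) ∧ hexU x y = true := by
      intro x hx y hy hxy
      have hne : bset x ≠ bset y := fun e => hxy.ne (eq_of_bset_eq (hmem x hx).2 (hmem y hy).2 e)
      have h := hexU_of (h3 _ (hmem x hx).1).1 (h3 _ (hmem y hy).1).1 (hu _ (hmem x hx).1 _ (hmem y hy).1 hne)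
      rwa [mask_bset (hmem x hx).2, mask_bset (hmem y hy).2] at h
    obtain ⟨d1, e1⟩ := hd a (by simp) b (by simp) hab
    obtain ⟨d2, e2⟩ := hd a (by simp) c (by simp) hac
    obtain ⟨d3, e3⟩ := hd b (by simp) c (by simp) hbc
    obtain ⟨d4, e4⟩ := hd a (by simp) d (by simp) had
    obtain ⟨d5, e5⟩ := hd b (by simp) d (by simp) hbd
    obtain ⟨d6, e6⟩ := hd c (by simp) d (by simp) hcd
    have mem3 : ∀ x ∈ [a, b, c, d], x ∈ tri3List := fun x hx => by
      have := tri3List_complete _ (Finset.mem_powersetCard.2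
        ⟨(h3 _ (hmem x hx).1).2, (h3 _ (hmem x hx).1).1⟩)
      rwa [mask_bset (hmem x hx).2] at this
    have hcd' : ∀ x ∈ [a, b, c, d], (bset x).card = 3 ∧ bset x ⊆ bset sqMask := fun x hx =>
      h3 _ (hmem x hx).1
    have huni : bset a ∪ bset b ∪ bset c ∪ bset d = bset sqMask := by
      refine Finset.eq_of_subset_of_card_le
        (Finset.union_subset (Finset.union_subset (Finset.union_subset (hcd' a (by simp)).2
          (hcd' b (by simp)).2) (hcd' c (by simp)).2) (hcd' d (by simp)).2) ?_
      rw [Finset.card_union_of_disjoint (by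
          simp only [Finset.disjoint_union_left]; exact ⟨⟨d4, d5⟩, d6⟩),
        Finset.card_union_of_disjoint (by simp only [Finset.disjoint_union_left]; exact ⟨d2, d3⟩),
        Finset.card_union_of_disjoint d1, (hcd' a (by simp)).1, (hcd' b (by simp)).1,
        (hcd' c (by simp)).1, (hcd' d (by simp)).1, card_dodecad sqMask_std]
    have hw : sqMask ^^^ (a ||| b ||| c) = d := by
      refine eq_of_bset_eq (Nat.xor_lt_two_pow (by decide) (Nat.or_lt_two_pow (Nat.or_lt_two_pow
        (hmem a (by simp)).2 (hmem b (by simp)).2) (hmem c (by simp)).2)) (hmem d (by simp)).2 ?_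
      rw [bset_xor, bset_or, bset_or, ← huni]
      ext x
      have hx1 : x ∈ bset a → x ∉ bset d := fun h => Finset.disjoint_left.1 d4 h
      have hx2 : x ∈ bset b → x ∉ bset d := fun h => Finset.disjoint_left.1 d5 h
      have hx3 : x ∈ bset c → x ∉ bset d := fun h => Finset.disjoint_left.1 d6 h
      simp only [Finset.mem_symmDiff, Finset.mem_union]
      exact xor_last hx1 hx2 hx3
    have hc := quartAt_spec (mem3 a (by simp)) hcomp
    simp only [quartAt, List.all_eq_true, Bool.and_eq_true, Bool.or_eq_true, Bool.not_eq_true'] at hc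
    have blt : ∀ {x y : ℕ}, x < y → Nat.blt x y = true := fun h => by simpa [Nat.blt, Nat.ble_eq] using h
    rcases (hc b (List.mem_filter.2 ⟨mem3 b (by simp), e1⟩)).2 with h | h
    · rw [blt hab] at h; cases h
    rcases h c (List.mem_filter.2 ⟨mem3 c (by simp), e2⟩) with (h | h) | (h | h) | h
    · rw [blt hbc] at h; cases h
    · rw [e3] at h; cases h
    · rw [hw, blt hcd] at h; cases h
    · rw [hw, e4, e5, e6] at h; cases h
    rw [List.contains_iff_mem, hw] at h
    exact ⟨_, h, hQeq⟩
  · rintro ⟨l, hl, rfl⟩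
    have h := hok l hl
    simp only [quartOK, Bool.and_eq_true, beq_iff_eq, List.all_eq_true, Bool.or_eq_true,
      List.contains_iff_mem] at h
    obtain ⟨⟨hasc, h4⟩, hall⟩ := h
    have hlt := (M24Orbits.ascB_spec hasc).2
    have hmem : ∀ s ∈ toSet l, ∃ m ∈ l, bset m = s := fun s hs => by simpa [toSet] using hs
    refine ⟨?_, ?_, ?_⟩
    · rw [toSet, List.toFinset_card_of_nodup, List.length_map, h4]
      exact List.Nodup.map_on (fun x hx y hy e => eq_of_bset_eq (hlt x hx) (hlt y hy) e)
        ((M24Orbits.ascB_spec hasc).1.imp fun h => h.ne)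
    · intro s hs
      obtain ⟨m, hm, rfl⟩ := hmem s hs
      refine ⟨by rw [card_bset]; exact (hall m hm).1.1, ?_⟩
      rw [← (hall m hm).1.2, bset_and]
      exact Finset.inter_subset_right
    · intro s hs t ht hne
      obtain ⟨a, ha, rfl⟩ := hmem s hs
      obtain ⟨b, hb, rfl⟩ := hmem t ht
      rcases (hall a ha).2 b hb with e | e
      · exact absurd (congrArg bset e) hne
      · rw [mem_hexadsOn_iff, ← bset_or, mask_bset (Nat.or_lt_two_pow (hlt a ha) (hlt b hb))]
        exact e
where
  sqMask_std : bset sqMask ∈ dodecads := by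
    rw [mem_dodecads_iff, mask_bset (by decide)]; decide +kernel

theorem quartList_asc {l : List ℕ} (hl : l ∈ quartList) : ascB l = true := by
  have h := List.all_eq_true.1 quart_checks.1 l hl
  simp only [quartOK, Bool.and_eq_true] at h
  exact h.1.1

theorem quartList_injOn {a : List ℕ} (ha : a ∈ quartList) {b : List ℕ} (hb : b ∈ quartList)
    (e : toSet a = toSet b) : a = b :=
  M24Orbits.toSet_injOn (quartList_asc ha) (quartList_asc hb) e

theorem quartets_std_ncard : (quartets (bset sqMask)).ncard = 220 := by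
  classical
  obtain ⟨-, -, hd, hlen⟩ := quart_checks
  rw [quartets_std, show {Q : Fam | ∃ l ∈ quartList, toSet l = Q} = ↑((quartList.map toSet).toFinset) by
    ext Q; simp, Set.ncard_coe_finset, List.toFinset_card_of_nodup, List.length_map, hlen]
  exact List.Nodup.map_on (fun a ha b hb e => quartList_injOn ha hb e) (M24Orbits.nodup_of_distinctB hd)

theorem smul_hexadsOn {g : Equiv.Perm GolayPt} (hg : g ∈ M24) {d h : Finset GolayPt}
    (hh : h ∈ hexadsOn d) : g • h ∈ hexadsOn (g • d) := by
  obtain ⟨h6, o, ho, rfl⟩ := hh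
  exact ⟨by rw [Finset.card_smul_finset, h6], g • o, smul_mem_octads hg ho,
    (Finset.smul_finset_inter).symm⟩

theorem smul_quartets {g : Equiv.Perm GolayPt} (hg : g ∈ M24) {d : Finset GolayPt} {Q : Fam}
    (hQ : Q ∈ quartets d) : g • Q ∈ quartets (g • d) := by
  obtain ⟨h4, h3, hu⟩ := hQ
  refine ⟨by rw [Finset.card_smul_finset, h4], ?_, ?_⟩
  · intro t ht
    obtain ⟨s, hs, rfl⟩ := Finset.mem_smul_finset.1 ht
    exact ⟨by rw [Finset.card_smul_finset, (h3 s hs).1], Finset.smul_finset_subset_smul_finset (h3 s hs).2⟩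
  · intro t ht u hu' hne
    obtain ⟨s, hs, rfl⟩ := Finset.mem_smul_finset.1 ht
    obtain ⟨v, hv, rfl⟩ := Finset.mem_smul_finset.1 hu'
    rw [← Finset.smul_finset_union]
    exact smul_hexadsOn hg (hu s hs v hv fun e => hne (e ▸ rfl))

theorem quartets_smul {g : Equiv.Perm GolayPt} (hg : g ∈ M24) (d : Finset GolayPt) :
    quartets (g • d) = (g • ·) '' quartets d := by
  ext Q
  constructor
  · intro hQ
    exact ⟨g⁻¹ • Q, by simpa using smul_quartets (inv_mem hg) hQ, smul_inv_smul g Q⟩
  · rintro ⟨R, hR, rfl⟩; exact smul_quartets hg hR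

theorem quartets_ncard {d : Finset GolayPt} (hd : d ∈ dodecads) : (quartets d).ncard = 220 := by
  obtain ⟨g, hg, rfl⟩ := exists_mem_M24_sqMask hd
  rw [quartets_smul hg, Set.ncard_image_of_injective _ (MulAction.injective g), quartets_std_ncard]

theorem quartGens_ok : maskGensOK [sqMask] quartGens = true ∧
    quartList.all (fun l => (collectL quartGens quartTree (quartList.getD 0 []) [quartList.getD 0 []]).contains l)
      = true := by decide +kernel

theorem quartet_std_transitive {Q : Fam} (hQ : Q ∈ quartets (bset sqMask)) :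
    ∃ g ∈ fixSub [sqMask], g • toSet (quartList.getD 0 []) = Q := by
  rw [quartets_std] at hQ
  obtain ⟨l, hl, rfl⟩ := hQ
  obtain ⟨hg, hc⟩ := quartGens_ok
  rw [List.all_eq_true] at hc
  refine M24Orbits.collectL_spec quartGens (fixSub [sqMask]) (fun c hc => ?_) _ _ _ _
    ⟨1, one_mem _, one_smul _ _⟩
    (by intro y hy; rw [List.mem_singleton] at hy; subst hy; exact ⟨1, one_mem _, one_smul _ _⟩)
    l (List.contains_iff_mem.1 (hc l hl))
  simp only [maskGensOK, List.all_eq_true, Bool.and_eq_true, beq_iff_eq] at hg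
  obtain ⟨ha, hf⟩ := hg c hc
  exact ⟨permOK_of_isAut ha, mem_fixSub.2 ⟨permOf_mem_M24 ha, fun f hf' => by
    rw [← bset_mapMask (permOK_of_isAut ha), hf f hf']⟩⟩

theorem quartet_transitive {d : Finset GolayPt} (hd : d ∈ dodecads) {Q Q' : Fam} (hQ : Q ∈ quartets d)
    (hQ' : Q' ∈ quartets d) : ∃ g ∈ M24, g • d = d ∧ g • Q = Q' := by
  obtain ⟨e, he, rfl⟩ := exists_mem_M24_sqMask hd
  rw [quartets_smul he] at hQ hQ'
  obtain ⟨A, hA, rfl⟩ := hQ
  obtain ⟨B, hB, rfl⟩ := hQ'
  obtain ⟨a, ha, rfl⟩ := quartet_std_transitive hA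
  obtain ⟨b, hb, rfl⟩ := quartet_std_transitive hB
  have h := mem_fixSub.1 (mul_mem hb (inv_mem ha))
  refine ⟨e * (b * a⁻¹) * e⁻¹, mul_mem (mul_mem he h.1) (inv_mem he), ?_, ?_⟩
  · rw [mul_smul, inv_smul_smul, mul_smul, h.2 sqMask (by simp)]
  · simp only [mul_smul, inv_smul_smul]

theorem quartPairs_unique {l l' : List ℕ} (hl : l ∈ quartList) (hl' : l' ∈ quartList) {a b : ℕ}
    (hab : a ≠ b) (h1 : a ∈ l) (h2 : b ∈ l) (h1' : a ∈ l') (h2' : b ∈ l') : l = l' := by
  by_contra hne
  have hnd := nodup_of_distinct quartPairs_ok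
  have hmem : ∀ m : List ℕ, a ∈ m → b ∈ m → a * 16777216 + b ∈ quartPairs m := by
    intro m ha hb
    simp only [quartPairs, List.mem_flatMap, List.mem_map, List.mem_filter]
    exact ⟨a, ha, b, ⟨hb, by simp [hab]⟩, rfl⟩
  obtain ⟨i, hi, rfl⟩ := List.getElem_of_mem hl
  obtain ⟨j, hj, rfl⟩ := List.getElem_of_mem hl'
  have hij : i ≠ j := fun e => hne (by subst e; rfl)
  have hpw := List.pairwise_iff_getElem.1 (List.nodup_flatMap.1 hnd).2
  rcases lt_or_gt_of_ne hij with h | h
  · exact hpw i j hi hj h (hmem _ h1 h2) (hmem _ h1' h2')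
  · exact hpw j i hj hi h (hmem _ h1' h2') (hmem _ h1 h2)

theorem quartet_unique_std {t u : Finset GolayPt} (ht : t.card = 3) (hu : u.card = 3)
    (hh : t ∪ u ∈ hexadsOn (bset sqMask)) :
    ∃! Q : Fam, Q ∈ quartets (bset sqMask) ∧ t ∈ Q ∧ u ∈ Q := by
  obtain ⟨hd, hU⟩ := hexU_of ht hu hh
  have hne : mask t ≠ mask u := fun e => by
    rw [mask_injective e, disjoint_self] at hd
    rw [hd] at hu; simp at hu
  have hsub : t ∪ u ⊆ bset sqMask := by
    obtain ⟨-, o, -, e⟩ := hh
    exact e ▸ Finset.inter_subset_right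
  have htm := tri3List_complete t (Finset.mem_powersetCard.2 ⟨(Finset.subset_union_left).trans hsub, ht⟩)
  have hum := tri3List_complete u (Finset.mem_powersetCard.2 ⟨(Finset.subset_union_right).trans hsub, hu⟩)
  have hc := fun t (ht : t ∈ tri3List) => quartAt_spec ht quart_checks.2.1
  simp only [quartAt, List.all_eq_true, Bool.and_eq_true, List.any_eq_true,
    Bool.or_eq_true, Bool.not_eq_true', List.contains_iff_mem] at hc
  obtain ⟨⟨v, hv, e3, ⟨hw, e5⟩, e6⟩, -⟩ := hc _ htm _ (List.mem_filter.2 ⟨hum, hU⟩)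
  obtain ⟨hv3, e2⟩ := List.mem_filter.1 hv
  obtain ⟨hw3, e4⟩ := List.mem_filter.1 hw
  obtain ⟨hok, -⟩ := quart_checks
  obtain ⟨w, hwdef⟩ : ∃ w, w = sqMask ^^^ (mask t ||| mask u ||| v) := ⟨_, rfl⟩
  rw [← hwdef] at e4 e5 e6 hw3
  have h3' : ∀ x ∈ tri3List, x < 2 ^ 24 ∧ pc x = 3 ∧ x &&& sqMask = x := by decide +kernel
  have hne' : ∀ {x y : ℕ}, x ∈ tri3List → hexU x y = true → x ≠ y := by
    intro x y hx h e
    subst e
    simp only [hexU, Bool.and_eq_true, Nat.and_self, beq_iff_eq] at h
    obtain ⟨rfl, -⟩ := h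
    exact absurd (h3' 0 hx).2.1 (by decide +kernel)
  have hinQ : toSet [mask t, mask u, v, w] ∈ quartets (bset sqMask) := by
    refine ⟨?_, ?_, ?_⟩
    · rw [toSet, List.toFinset_card_of_nodup]
      · simp
      · have hlt4 : ∀ x ∈ [mask t, mask u, v, w], x < 2 ^ 24 := by
          intro x hx
          simp only [List.mem_cons, List.not_mem_nil, or_false] at hx
          rcases hx with rfl | rfl | rfl | rfl
          exacts [mask_lt t, mask_lt u, (h3' _ hv3).1, (h3' _ hw3).1]
        exact List.Nodup.map_on (fun x hx y hy e => eq_of_bset_eq (hlt4 x hx) (hlt4 y hy) e) (by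
          simp [hne' htm hU, hne' htm e2, hne' htm e4, hne' hum e3, hne' hum e5, hne' hv3 e6])
    · intro s hs
      simp only [toSet, List.mem_toFinset, List.mem_map] at hs
      obtain ⟨x, hx, rfl⟩ := hs
      have hx3 : x ∈ tri3List := by
        simp only [List.mem_cons, List.not_mem_nil, or_false] at hx
        rcases hx with rfl | rfl | rfl | rfl <;> assumption
      refine ⟨by rw [card_bset, (h3' x hx3).2.1], ?_⟩
      rw [← (h3' x hx3).2.2, bset_and]
      exact Finset.inter_subset_right
    · intro s hs s' hs' hne''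
      simp only [toSet, List.map_cons, List.map_nil, bset_mask, List.mem_toFinset, List.mem_cons,
        List.not_mem_nil, or_false] at hs hs'
      have E1 := hexad_of_hexU (mask_lt t) (mask_lt u) hU
      have E2 := hexad_of_hexU (mask_lt t) (h3' _ hv3).1 e2
      have E3 := hexad_of_hexU (mask_lt u) (h3' _ hv3).1 e3
      have E4 := hexad_of_hexU (mask_lt t) (h3' _ hw3).1 e4
      have E5 := hexad_of_hexU (mask_lt u) (h3' _ hw3).1 e5
      have E6 := hexad_of_hexU (h3' _ hv3).1 (h3' _ hw3).1 e6
      simp only [bset_mask] at E1 E2 E3 E4 E5 E6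
      rcases hs with rfl | rfl | rfl | rfl <;> rcases hs' with rfl | rfl | rfl | rfl <;>
        first
          | exact absurd rfl hne''
          | assumption
          | (rw [Finset.union_comm]; assumption)
  obtain ⟨l, hl, hleq⟩ : ∃ l ∈ quartList, toSet l = toSet [mask t, mask u, v, w] := by
    rw [quartets_std] at hinQ; exact hinQ
  have hiff : ∀ l' ∈ quartList, ∀ s : Finset GolayPt, s ∈ toSet l' ↔ mask s ∈ l' := by
    intro l' hl' s
    simp only [toSet, List.mem_toFinset, List.mem_map]
    constructor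
    · rintro ⟨m, hm, rfl⟩
      rwa [mask_bset ((M24Orbits.ascB_spec (quartList_asc hl')).2 m hm)]
    · intro h; exact ⟨_, h, bset_mask s⟩
  have htl : t ∈ toSet l := by rw [hleq]; simp [toSet, bset_mask]
  have hul : u ∈ toSet l := by rw [hleq]; simp [toSet, bset_mask]
  refine ⟨toSet l, ⟨?_, htl, hul⟩, ?_⟩
  · rw [quartets_std]; exact ⟨_, hl, rfl⟩
  · rintro Q ⟨hQ, hQt, hQu⟩
    rw [quartets_std] at hQ
    obtain ⟨l', hl', rfl⟩ := hQ
    rw [quartPairs_unique hl' hl hne ((hiff l' hl' t).1 hQt) ((hiff l' hl' u).1 hQu)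
      ((hiff l hl t).1 htl) ((hiff l hl u).1 hul)]

theorem quartet_unique {d : Finset GolayPt} (hd : d ∈ dodecads) {t u : Finset GolayPt} (ht : t.card = 3)
    (hu : u.card = 3) (hh : t ∪ u ∈ hexadsOn d) :
    ∃! Q : Fam, Q ∈ quartets d ∧ t ∈ Q ∧ u ∈ Q := by
  obtain ⟨g, hg, rfl⟩ := exists_mem_M24_sqMask hd
  have hh' : g⁻¹ • t ∪ g⁻¹ • u ∈ hexadsOn (bset sqMask) := by
    simpa [Finset.smul_finset_union] using smul_hexadsOn (inv_mem hg) hh
  obtain ⟨R, ⟨hR, hRt, hRu⟩, huniq⟩ := quartet_unique_std (by rw [Finset.card_smul_finset, ht])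
    (by rw [Finset.card_smul_finset, hu]) hh'
  refine ⟨g • R, ⟨smul_quartets hg hR, ?_, ?_⟩, ?_⟩
  · rwa [← Finset.inv_smul_mem_iff]
  · rwa [← Finset.inv_smul_mem_iff]
  · rintro Q ⟨hQ, hQt, hQu⟩
    rw [← huniq (g⁻¹ • Q) ⟨by simpa using smul_quartets (inv_mem hg) hQ,
      Finset.smul_mem_smul_finset hQt, Finset.smul_mem_smul_finset hQu⟩, smul_inv_smul]

end Cfsg.Agent.Golay
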