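import Cfsg.Agent.Golay.IsoData
import Cfsg.Agent.Golay.IsoTable
import Cfsg.Agent.Golay.DodStab
import Cfsg.Agent.Golay.Quartets

/-! Involution centralisers in the smallest Mathieu group, and quartet stabilisers. -/

set_option autoImplicit false
set_option maxRecDepth 20000

namespace Cfsg.Agent.Golay

open scoped Pointwise
open Cfsg.Agent.M24Orbits (Fam toSet actL)

/-! ### GL(2, 3) by tables -/

/-- `GL(2, 3)`. -/
abbrev GL23 : Type := GL (Fin 2) (ZMod 3)

/-- The key of a matrix. -/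
def glKey (g : GL23) : ℕ :=
  27 * (g.1 0 0).val + 9 * (g.1 0 1).val + 3 * (g.1 1 0).val + (g.1 1 1).val

/-- The key of a product. -/
def glMulKey (k l : ℕ) : ℕ :=
  27 * ((k / 27 * (l / 27) + k / 9 % 3 * (l / 3 % 3)) % 3) +
    9 * ((k / 27 * (l / 9 % 3) + k / 9 % 3 * (l % 3)) % 3) +
    3 * ((k / 3 % 3 * (l / 27) + k % 3 * (l / 3 % 3)) % 3) +
    (k / 3 % 3 * (l / 9 % 3) + k % 3 * (l % 3)) % 3

/-- A key has non-zero determinant. -/
def glDet (k : ℕ) : Bool := !((k / 27 * (k % 3) + 2 * (k / 9 % 3) * (k / 3 % 3)) % 3 == 0)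

/-- The check of a table for `GL(2, 3)`. -/
def glTableOK (l : List ℕ) : Bool :=
  ((List.range 81).all fun k => !glDet k || (permOK (l.getD k 0) && (k == 28 || !isId (l.getD k 0)))) &&
  ((List.range 81).all fun k => !glDet k || (List.range 81).all fun j => !glDet j ||
    isComp (l.getD (glMulKey k j) 0) (l.getD k 0) (l.getD j 0)) &&
  (l.getD 28 0 == idCode)

theorem glKey_lt (g : GL23) : glKey g < 81 := by
  have h1 := ZMod.val_lt (g.1 0 0)
  have h2 := ZMod.val_lt (g.1 0 1)
  have h3 := ZMod.val_lt (g.1 1 0)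
  have h4 := ZMod.val_lt (g.1 1 1)
  simp only [glKey]
  omega

theorem glKey_det (g : GL23) : glDet (glKey g) = true := by
  have h : g.1.det ≠ 0 := ((Matrix.isUnit_iff_isUnit_det g.1).1 g.isUnit).ne_zero
  rw [Matrix.det_fin_two] at h
  have key : ∀ a b c d : ZMod 3, a * d - b * c ≠ 0 →
      glDet (27 * a.val + 9 * b.val + 3 * c.val + d.val) = true := by decide +kernel
  exact key _ _ _ _ h

theorem glKey_mul (g h : GL23) : glKey (g * h) = glMulKey (glKey g) (glKey h) := by
  have dig : ∀ a b c d : ZMod 3,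
      (27 * a.val + 9 * b.val + 3 * c.val + d.val) / 27 = a.val ∧
      (27 * a.val + 9 * b.val + 3 * c.val + d.val) / 9 % 3 = b.val ∧
      (27 * a.val + 9 * b.val + 3 * c.val + d.val) / 3 % 3 = c.val ∧
      (27 * a.val + 9 * b.val + 3 * c.val + d.val) % 3 = d.val := by decide +kernel
  have hval : ∀ x y z w : ZMod 3, (x * y + z * w).val = (x.val * y.val + z.val * w.val) % 3 := by
    decide +kernel
  obtain ⟨a1, a2, a3, a4⟩ := dig (g.1 0 0) (g.1 0 1) (g.1 1 0) (g.1 1 1)
  obtain ⟨b1, b2, b3, b4⟩ := dig (h.1 0 0) (h.1 0 1) (h.1 1 0) (h.1 1 1)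
  simp only [glKey, glMulKey, a1, a2, a3, a4, b1, b2, b3, b4, Units.val_mul, Matrix.mul_apply,
    Fin.sum_univ_two, hval]

theorem glKey_inj {g h : GL23} (e : glKey g = glKey h) : g = h := by
  have key : ∀ a b c d : ZMod 3, ∀ n, 27 * a.val + 9 * b.val + 3 * c.val + d.val = n →
      a.val = n / 27 ∧ b.val = n / 9 % 3 ∧ c.val = n / 3 % 3 ∧ d.val = n % 3 := by
    rintro a b c d n rfl
    have h1 := ZMod.val_lt a
    have h2 := ZMod.val_lt b
    have h3 := ZMod.val_lt c
    have h4 := ZMod.val_lt d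
    omega
  obtain ⟨a1, a2, a3, a4⟩ := key (g.1 0 0) (g.1 0 1) (g.1 1 0) (g.1 1 1) _ e
  obtain ⟨b1, b2, b3, b4⟩ := key (h.1 0 0) (h.1 0 1) (h.1 1 0) (h.1 1 1) _ rfl
  refine Units.ext (Matrix.ext fun i j => ZMod.val_injective _ ?_)
  fin_cases i <;> fin_cases j
  · exact a1.trans b1.symm
  · exact a2.trans b2.symm
  · exact a3.trans b3.symm
  · exact a4.trans b4.symm

theorem glKey_one : glKey (1 : GL23) = 28 := by decide +kernel

theorem gl_card : Nat.card GL23 = 48 := by
  haveI : Fact (Nat.Prime 3) := ⟨by norm_num⟩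
  rw [Matrix.card_GL_field]
  simp [Fin.prod_univ_two, Nat.card_eq_fintype_card]

theorem glTable_hom {l : List ℕ} (h : glTableOK l = true) :
    ∃ φ : GL23 →* Equiv.Perm GolayPt, Function.Injective φ ∧
      ∀ g, φ g = permOf (l.getD (glKey g) 0) := by
  simp only [glTableOK, Bool.and_eq_true, List.all_eq_true, List.mem_range, Bool.or_eq_true,
    Bool.not_eq_true', beq_iff_eq] at h
  obtain ⟨⟨h1, h2⟩, h3⟩ := h
  have hok : ∀ g : GL23, permOK (l.getD (glKey g) 0) = true ∧
      (glKey g = 28 ∨ isId (l.getD (glKey g) 0) = false) := fun g => by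
    rcases h1 _ (glKey_lt g) with e | e
    · rw [glKey_det] at e; cases e
    · exact e
  let φ : GL23 →* Equiv.Perm GolayPt :=
    { toFun := fun g => permOf (l.getD (glKey g) 0)
      map_one' := by rw [glKey_one, h3, permOf_idCode]
      map_mul' := fun a b => by
        refine permOf_mul (hok _).1 (hok _).1 (hok _).1 ?_
        rw [glKey_mul]
        rcases h2 _ (glKey_lt a) with e | e
        · rw [glKey_det] at e; cases e
        rcases e _ (glKey_lt b) with e | e
        · rw [glKey_det] at e; cases e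
        · exact e }
  refine ⟨φ, ?_, fun g => rfl⟩
  rw [← MonoidHom.ker_eq_bot_iff, eq_bot_iff]
  intro g hg
  rcases (hok g).2 with e | e
  · exact glKey_inj (e.trans glKey_one.symm)
  · rw [isId_of_eq_one (hok g).1 (MonoidHom.mem_ker.1 hg)] at e; cases e

/-! ### The centraliser of an involution -/

/-- The stabiliser of the standard dodecad and point. -/
abbrev m11Std : Subgroup (Equiv.Perm GolayPt) :=
  M24 ⊓ MulAction.stabilizer (Equiv.Perm GolayPt) (bset sqMask) ⊓
    MulAction.stabilizer (Equiv.Perm GolayPt) (pt 0)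

/-- A code lies in the stabiliser of the standard dodecad and point. -/
def inM11 (c : ℕ) : Bool := isAut c && mapMask c sqMask == sqMask && app c 0 == 0

theorem inM11_spec {c : ℕ} (h : inM11 c = true) : permOK c = true ∧ permOf c ∈ m11Std := by
  simp only [inM11, Bool.and_eq_true, beq_iff_eq] at h
  obtain ⟨⟨h1, h2⟩, h3⟩ := h
  have hok := permOK_of_isAut h1
  refine ⟨hok, ⟨permOf_mem_M24 h1, ?_⟩, ?_⟩
  · show permOf c • bset sqMask = bset sqMask
    rw [← bset_mapMask hok, h2]
  · show permOf c (pt 0) = pt 0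
    rw [permOf_pt hok (by norm_num), h3]

/-- An involution code. -/
def isInvol (c : ℕ) : Bool := ((List.range 24).all fun i => app c (app c i) == i) && !isId c

theorem cent_checks :
    glTableOK centTable = true ∧
    ((List.range 81).all fun k => !glDet k || (inM11 (centTable.getD k 0) &&
      (List.range 24).all fun i =>
        app (centTable.getD k 0) (app invX i) == app invX (app (centTable.getD k 0) i))) = true ∧
    inM11 invX = true ∧ isInvol invX = true ∧ app invX 1 = 2 ∧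
    swap72.all (fun c => inM11 c && app c 1 == 2 && app c 2 == 1) = true ∧ swap72.length = 72 ∧
    distinctAux 35 (swap72.map baseKey) .emp = true ∧
    stab72.all (fun c => inM11 c && app c 1 == 1 && app c 2 == 2) = true ∧ stab72.length = 72 ∧
    distinctAux 35 (stab72.map baseKey) .emp = true ∧
    ((swap72.zip swapWit).all fun p => !isInvol p.1 || (inM11 p.2 &&
      (List.range 24).all fun i => app p.2 (app p.1 i) == app invX (app p.2 i))) = true ∧
    swapWit.length = 72 ∧
    (stab72.filter fun c => (List.range 24).all fun i => app c (app invX i) == app invX (app c i)).length = 6 ∧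
    ((bset sqMask).filter fun q => q ≠ pt 0 ∧ app invX (idx q) ≠ idx q).card = 8 ∧
    pt 1 ∈ bset sqMask ∧ pt 2 ∈ bset sqMask ∧ pt 1 ≠ pt 0 ∧ pt 2 ≠ pt 0 ∧ pt 1 ≠ pt 2 := by
  decide +kernel

theorem commute_of_app {a b : ℕ} (ha : permOK a = true) (hb : permOK b = true)
    (h : ((List.range 24).all fun i => app a (app b i) == app b (app a i)) = true) :
    permOf a * permOf b = permOf b * permOf a := by
  simp only [List.all_eq_true, List.mem_range, beq_iff_eq] at h
  refine Equiv.ext fun p => idx_injective ?_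
  rw [Equiv.Perm.mul_apply, Equiv.Perm.mul_apply, idx_permOf ha, idx_permOf hb, idx_permOf hb, idx_permOf ha]
  exact h _ (idx_lt p)

theorem app_of_commute {a b : ℕ} (ha : permOK a = true) (hb : permOK b = true)
    (h : permOf a * permOf b = permOf b * permOf a) :
    ((List.range 24).all fun i => app a (app b i) == app b (app a i)) = true := by
  simp only [List.all_eq_true, List.mem_range, beq_iff_eq]
  intro i hi
  have := congrArg (fun σ : Equiv.Perm GolayPt => idx (σ (pt i))) h
  simpa [idx_permOf ha, idx_permOf hb, idx_pt hi] using this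

theorem dodPoint_three_std {a b a' b' : GolayPt} (ha : a ∈ bset sqMask) (hb : b ∈ bset sqMask)
    (ha' : a' ∈ bset sqMask) (hb' : b' ∈ bset sqMask) (h0 : a ≠ pt 0) (h1 : b ≠ pt 0) (h2 : a ≠ b)
    (h0' : a' ≠ pt 0) (h1' : b' ≠ pt 0) (h2' : a' ≠ b') :
    ∃ g ∈ m11Std, g a = a' ∧ g b = b' := by
  have hp := std_pts.1
  obtain ⟨g, hg, hgd, hgi⟩ := exists_mem_dodecad_stab sqMask_dodecad (k := [pt 0, a, b].length) (by simp)
    (embOfList _ (by simp [h0.symm, h1.symm, h2])) (embOfList [pt 0, a', b'] (by simp [h0'.symm, h1'.symm, h2']))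
    (fun i => (by simp [hp, ha, hb] : ∀ z ∈ [pt 0, a, b], z ∈ bset sqMask) _ (List.get_mem [pt 0, a, b] i))
    (fun i => (by simp [hp, ha', hb'] : ∀ z ∈ [pt 0, a', b'], z ∈ bset sqMask) _ (List.get_mem [pt 0, a', b'] i))
  exact ⟨g, ⟨⟨hg, hgd⟩, hgi ⟨0, by simp⟩⟩, hgi ⟨1, by simp⟩, hgi ⟨2, by simp⟩⟩

theorem list_eq_set {L : List ℕ} {P : Equiv.Perm GolayPt → Prop}
    (hdist : distinctAux 35 (L.map baseKey) .emp = true)
    (hL : ∀ c ∈ L, permOK c = true ∧ P (permOf c)) (hcard : {g | P g}.ncard ≤ L.length)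
    {g : Equiv.Perm GolayPt} (hg : P g) : ∃ c ∈ L, permOf c = g := by
  classical
  have hnd : (L.map baseKey).Nodup := nodup_of_distinct hdist
  have hinj : ∀ a ∈ L, ∀ b ∈ L, permOf a = permOf b → a = b := fun a ha b hb e =>
    List.inj_on_of_nodup_map hnd ha hb (baseKey_congr (hL a ha).1 (hL b hb).1 e)
  have hset : ((L.map permOf).toFinset : Set (Equiv.Perm GolayPt)) = {g | P g} := by
    refine Set.eq_of_subset_of_ncard_le ?_ ?_ (Set.toFinite _)
    · intro x hx
      simp only [Finset.mem_coe, List.mem_toFinset, List.mem_map] at hx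
      obtain ⟨c, hc, rfl⟩ := hx
      exact (hL c hc).2
    · rw [Set.ncard_coe_finset, List.toFinset_card_of_nodup
        (List.Nodup.map_on hinj (List.Nodup.of_map _ hnd)), List.length_map]
      exact hcard
  have : g ∈ ((L.map permOf).toFinset : Set (Equiv.Perm GolayPt)) := hset ▸ hg
  simpa using this

theorem stab_pair_count :
    {g : Equiv.Perm GolayPt | g ∈ m11Std ∧ g (pt 1) = pt 1 ∧ g (pt 2) = pt 2}.ncard = 72 := by
  obtain ⟨-, -, -, -, -, -, -, -, -, -, -, -, -, -, -, h1, h2, h10, h20, h12⟩ := cent_checks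
  rw [← Nat.card_coe_set_eq, ← dod_three_stab_card sqMask_dodecad std_pts.1 h1 h2 h10.symm h20.symm h12]
  exact Nat.card_congr
    { toFun := fun g => ⟨g.1, ⟨g.2.1, g.2.2.1⟩, g.2.2.2⟩
      invFun := fun g => ⟨g.1, g.2.1.1, g.2.1.2, g.2.2⟩
      left_inv := fun _ => rfl
      right_inv := fun _ => rfl }

theorem swap_list {g : Equiv.Perm GolayPt} (hg : g ∈ m11Std) (h1 : g (pt 1) = pt 2) (h2 : g (pt 2) = pt 1) :
    ∃ c ∈ swap72, permOf c = g := by
  obtain ⟨-, -, -, -, -, hsw, hlen, hdist, -⟩ := cent_checks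
  simp only [List.all_eq_true, Bool.and_eq_true, beq_iff_eq] at hsw
  have hspec : ∀ c ∈ swap72, permOK c = true ∧ (permOf c ∈ m11Std ∧ permOf c (pt 1) = pt 2 ∧ permOf c (pt 2) = pt 1) := by
    intro c hc
    obtain ⟨⟨a, b⟩, d⟩ := hsw c hc
    obtain ⟨hok, hm⟩ := inM11_spec a
    exact ⟨hok, hm, by rw [permOf_pt hok (by norm_num), b], by rw [permOf_pt hok (by norm_num), d]⟩
  refine list_eq_set (P := fun g => g ∈ m11Std ∧ g (pt 1) = pt 2 ∧ g (pt 2) = pt 1) hdist hspec ?_
    ⟨hg, h1, h2⟩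
  rw [hlen, ← stab_pair_count]
  refine Set.ncard_le_ncard_of_injOn (fun x => g⁻¹ * x) ?_ (fun x _ y _ e => mul_left_cancel e) (Set.toFinite _)
  rintro x ⟨hx, x1, x2⟩
  refine ⟨mul_mem (inv_mem hg) hx, ?_, ?_⟩
  · rw [Equiv.Perm.mul_apply, x1, Equiv.Perm.inv_def, Equiv.symm_apply_eq, h1]
  · rw [Equiv.Perm.mul_apply, x2, Equiv.Perm.inv_def, Equiv.symm_apply_eq, h2]

theorem invol_conj_std {x : Equiv.Perm GolayPt} (hx : x ∈ m11Std) (h2 : x * x = 1) (hne : x ≠ 1) :
    ∃ g ∈ m11Std, g * x * g⁻¹ = permOf invX := by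
  classical
  obtain ⟨hgt, -, hX, -, -, -, hlen, -, -, -, -, hwit, hwlen, -, -, p1, p2, p10, p20, p12⟩ := cent_checks
  have hxd : x • bset sqMask = bset sqMask := hx.1.2
  have hx0 : x (pt 0) = pt 0 := hx.2
  obtain ⟨a, ha, hax⟩ : ∃ a ∈ bset sqMask, x a ≠ a := by
    by_contra hall
    simp only [not_exists, not_and, not_not] at hall
    obtain ⟨s, hs, hsc⟩ := Finset.exists_subset_card_eq (show 5 ≤ (bset sqMask).card by
      rw [card_dodecad sqMask_dodecad]; norm_num)
    obtain ⟨e⟩ : Nonempty (Fin 5 ≃ s) := ⟨(Fintype.equivFinOfCardEq (by rw [Fintype.card_coe, hsc])).symm⟩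
    exact hne (eq_one_of_fix_five sqMask_dodecad hx.1.1 hxd (e.toEmbedding.trans (Function.Embedding.subtype _))
      (fun i => hs (e i).2) (fun i => hall _ (hs (e i).2)))
  have ha0 : a ≠ pt 0 := fun e => hax (by rw [e, hx0])
  have hxa : x a ∈ bset sqMask := by
    have := Finset.smul_mem_smul_finset (a := x) ha
    rwa [hxd] at this
  have hxa0 : x a ≠ pt 0 := fun e => ha0 (x.injective (e.trans hx0.symm))
  obtain ⟨g, hg, hga, hgb⟩ := dodPoint_three_std ha hxa p1 p2 ha0 hxa0 (Ne.symm hax) p10 p20 p12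
  have hxx : x (x a) = a := by rw [← Equiv.Perm.mul_apply, h2]; rfl
  have hc1 : (g * x * g⁻¹) (pt 1) = pt 2 := by
    rw [Equiv.Perm.mul_apply, Equiv.Perm.mul_apply, ← hga, Equiv.Perm.coe_inv, Equiv.symm_apply_apply, hgb]
  have hc2 : (g * x * g⁻¹) (pt 2) = pt 1 := by
    rw [Equiv.Perm.mul_apply, Equiv.Perm.mul_apply, ← hgb, Equiv.Perm.coe_inv, Equiv.symm_apply_apply, hxx, hga]
  obtain ⟨c, hc, hce⟩ := swap_list (mul_mem (mul_mem hg hx) (inv_mem hg)) hc1 hc2
  obtain ⟨i, hi, rfl⟩ := List.getElem_of_mem hc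
  simp only [List.all_eq_true, Bool.or_eq_true, Bool.not_eq_true', Bool.and_eq_true] at hwit
  obtain ⟨w, hw⟩ : ∃ w, (swap72[i], w) ∈ swap72.zip swapWit :=
    ⟨swapWit[i]'(by rw [hwlen, ← hlen]; exact hi), List.mem_iff_getElem.2
      ⟨i, by rw [List.length_zip, hwlen]; omega, List.getElem_zip⟩⟩
  have hokc : permOK swap72[i] = true := by
    have := List.all_eq_true.1 cent_checks.2.2.2.2.2.1 _ (List.getElem_mem hi)
    simp only [Bool.and_eq_true] at this
    exact (inM11_spec this.1.1).1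
  rcases hwit _ hw with h | ⟨hwm, hwa⟩
  · exfalso
    rw [← Bool.not_eq_true] at h
    refine h ?_
    simp only [isInvol, Bool.and_eq_true, List.all_eq_true, List.mem_range, beq_iff_eq, Bool.not_eq_true']
    refine ⟨fun j hj => ?_, ?_⟩
    · have e : permOf swap72[i] * permOf swap72[i] = 1 := by
        rw [hce, show g * x * g⁻¹ * (g * x * g⁻¹) = g * (x * x) * g⁻¹ by group, h2]; group
      have := congrArg (fun σ : Equiv.Perm GolayPt => idx (σ (pt j))) e
      simpa [idx_permOf hokc, idx_pt hj] using this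
    · rw [← Bool.not_eq_true]
      intro hid
      simp only [isId, List.all_eq_true, List.mem_range, beq_iff_eq] at hid
      have := congrArg idx hc1
      rw [← hce, idx_permOf hokc, idx_pt (by norm_num), hid 1 (by norm_num), idx_pt (by norm_num)] at this
      omega
  · obtain ⟨hokw, hwH⟩ := inM11_spec hwm
    refine ⟨permOf w * g, mul_mem hwH hg, ?_⟩
    rw [show permOf w * g * x * (permOf w * g)⁻¹ = permOf w * (g * x * g⁻¹) * (permOf w)⁻¹ by group,
      ← hce, mul_inv_eq_iff_eq_mul]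
    refine Equiv.ext fun p => idx_injective ?_
    rw [Equiv.Perm.mul_apply, Equiv.Perm.mul_apply, idx_permOf hokw, idx_permOf hokc,
      idx_permOf (inM11_spec hX).1, idx_permOf hokw]
    exact (by simpa using hwa : ∀ j < 24, app w (app swap72[i] j) = app invX (app w j)) _ (idx_lt p)

/-- The centraliser of the standard involution. -/
abbrev centStd : Subgroup (Equiv.Perm GolayPt) :=
  m11Std ⊓ Subgroup.centralizer {permOf invX}

theorem centStd_le : Nat.card ↥centStd ≤ 48 := by
  classical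
  obtain ⟨-, -, hX, -, hX1, -, -, -, hst, hlen, hdist, -, -, hcount, h8, p1, p2, p10, p20, p12⟩ := cent_checks
  have hokX := (inM11_spec hX).1
  set T : Set GolayPt := {t | ∃ h ∈ centStd, h • pt 1 = t}
  have h := card_eq_ncard_mul_stab centStd (pt 1) T (fun t ht => ht) (fun g hg => ⟨g, hg, rfl⟩)
  have hX1' : permOf invX (pt 1) = pt 2 := by rw [permOf_pt hokX (by norm_num), hX1]
  have hcomm : ∀ g ∈ centStd, ∀ p, g (permOf invX p) = permOf invX (g p) := by
    intro g hg p
    have := Subgroup.mem_centralizer_iff.1 hg.2 (permOf invX) (Set.mem_singleton _)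
    rw [← Equiv.Perm.mul_apply, ← this]; rfl
  have hT : T.ncard ≤ 8 := by
    rw [← h8, ← Set.ncard_coe_finset]
    refine Set.ncard_le_ncard ?_ (Finset.finite_toSet _)
    rintro _ ⟨g, hg, rfl⟩
    simp only [Finset.coe_filter, Set.mem_ofPred_eq]
    have hgd : g • bset sqMask = bset sqMask := hg.1.1.2
    have hg0 : g (pt 0) = pt 0 := hg.1.2
    refine ⟨?_, fun e => p10 (g.injective (e.trans hg0.symm)), fun e => ?_⟩
    · rw [← hgd]; exact Finset.smul_mem_smul_finset p1
    · rw [← idx_permOf hokX, Equiv.Perm.smul_def, ← hcomm g hg, hX1'] at e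
      exact p12 (g.injective (idx_injective e)).symm
  have hS : Nat.card ↥(centStd ⊓ MulAction.stabilizer (Equiv.Perm GolayPt) (pt 1)) ≤ 6 := by
    rw [← hcount]
    set L := stab72.filter fun c => (List.range 24).all fun i => app c (app invX i) == app invX (app c i)
    calc Nat.card ↥(centStd ⊓ MulAction.stabilizer (Equiv.Perm GolayPt) (pt 1))
        = ((centStd ⊓ MulAction.stabilizer (Equiv.Perm GolayPt) (pt 1) : Subgroup _) :
            Set (Equiv.Perm GolayPt)).ncard := Nat.card_coe_set_eq _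
      _ ≤ ((L.map permOf).toFinset : Set (Equiv.Perm GolayPt)).ncard := by
          refine Set.ncard_le_ncard ?_ (Finset.finite_toSet _)
          rintro g ⟨hg, hg1⟩
          have hg1' : g (pt 1) = pt 1 := hg1
          have hg2 : g (pt 2) = pt 2 := by rw [← hX1', hcomm g hg, hg1']
          simp only [List.all_eq_true, Bool.and_eq_true, beq_iff_eq] at hst
          obtain ⟨c, hc, rfl⟩ := list_eq_set (P := fun g => g ∈ m11Std ∧ g (pt 1) = pt 1 ∧ g (pt 2) = pt 2)
            hdist (fun c hc => by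
              obtain ⟨⟨a, b⟩, d⟩ := hst c hc
              obtain ⟨hok, hm⟩ := inM11_spec a
              exact ⟨hok, hm, by rw [permOf_pt hok (by norm_num), b], by rw [permOf_pt hok (by norm_num), d]⟩)
            (by rw [hlen, stab_pair_count]) ⟨hg.1, hg1', hg2⟩
          simp only [Finset.mem_coe, List.mem_toFinset, List.mem_map]
          refine ⟨c, List.mem_filter.2 ⟨hc, app_of_commute (inM11_spec (hst c hc).1.1).1 hokX ?_⟩, rfl⟩
          exact Equiv.ext fun p => by rw [Equiv.Perm.mul_apply, Equiv.Perm.mul_apply, hcomm _ hg]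
      _ ≤ L.length := by
          rw [Set.ncard_coe_finset]
          exact (List.toFinset_card_le _).trans (by rw [List.length_map])
  rw [h]
  calc T.ncard * _ ≤ 8 * 6 := Nat.mul_le_mul hT hS
    _ = 48 := rfl

theorem cent_iso_std : Nonempty (↥centStd ≃* GL23) := by
  obtain ⟨hgt, hmem, hX, -⟩ := cent_checks
  obtain ⟨φ, hinj, hφ⟩ := glTable_hom hgt
  simp only [List.all_eq_true, List.mem_range, Bool.or_eq_true, Bool.not_eq_true', Bool.and_eq_true] at hmem
  have hle : φ.range ≤ centStd := by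
    rintro _ ⟨g, rfl⟩
    rw [hφ]
    rcases hmem _ (glKey_lt g) with e | ⟨e1, e2⟩
    · rw [glKey_det] at e; cases e
    obtain ⟨hok, hm⟩ := inM11_spec e1
    refine ⟨hm, Subgroup.mem_centralizer_iff.2 fun y hy => ?_⟩
    rw [Set.mem_singleton_iff] at hy
    subst hy
    exact (commute_of_app hok (inM11_spec hX).1 (List.all_eq_true.2 fun i hi => e2 i (List.mem_range.1 hi))).symm
  have hrange : φ.range = centStd := Subgroup.eq_of_le_of_card_ge hle (by
    rw [Nat.card_congr (MonoidHom.ofInjective hinj).toEquiv.symm, gl_card]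
    exact centStd_le)
  exact ⟨((MonoidHom.ofInjective hinj).trans (MulEquiv.subgroupCongr hrange)).symm⟩

theorem involution_centralizer_iso {d : Finset GolayPt} (hd : d ∈ dodecads) {p : GolayPt} (hp : p ∈ d)
    (x : ↥(MulAction.stabilizer M24 d ⊓ MulAction.stabilizer M24 p)) (hx : orderOf x = 2) :
    Nonempty (↥(Subgroup.centralizer ({x} : Set ↥(MulAction.stabilizer M24 d ⊓ MulAction.stabilizer M24 p))) ≃* GL23) := by
  classical
  obtain ⟨e, he, rfl⟩ := exists_mem_M24_sqMask hd
  obtain ⟨f, hf, hfd, hfp⟩ := exists_mem_dodecad_stab hd (k := 1) (by norm_num)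
    ⟨fun _ => e (pt 0), fun a b _ => Subsingleton.elim a b⟩
    ⟨fun _ => p, fun a b _ => Subsingleton.elim a b⟩
    (fun _ => Finset.smul_mem_smul_finset std_pts.1) (fun _ => hp)
  set k := f * e with hk
  have hkd : k • bset sqMask = e • bset sqMask := by rw [hk, mul_smul, hfd]
  have hkp : k (pt 0) = p := hfp 0
  have hkm : k ∈ M24 := mul_mem hf he
  set σ : Equiv.Perm GolayPt := x.1.1 with hσ
  have hpow : σ * σ = 1 := by
    have h := pow_orderOf_eq_one x
    rw [hx, sq] at h
    exact congrArg (fun z : ↥(MulAction.stabilizer M24 (e • bset sqMask) ⊓ MulAction.stabilizer M24 p) => z.1.1) h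
  have hne : σ ≠ 1 := by
    intro h
    have : x = 1 := Subtype.ext (Subtype.ext h)
    rw [this, orderOf_one] at hx
    omega
  have hconj : ∀ y, y ∈ m11Std ↔ k * y * k⁻¹ ∈ M24 ∧ (k * y * k⁻¹) • (e • bset sqMask) = e • bset sqMask ∧
      (k * y * k⁻¹) p = p := by
    intro y
    rw [← hkd, ← hkp]
    simp only [m11Std, Subgroup.mem_inf, MulAction.mem_stabilizer_iff, Equiv.Perm.smul_def]
    constructor
    · rintro ⟨⟨h1, h2⟩, h3⟩
      exact ⟨mul_mem (mul_mem hkm h1) (inv_mem hkm), by rw [mul_smul, inv_smul_smul, mul_smul, h2],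
        by simp [h3]⟩
    · rintro ⟨h1, h2, h3⟩
      refine ⟨⟨by simpa [mul_assoc] using mul_mem (mul_mem (inv_mem hkm) h1) hkm, ?_⟩, ?_⟩
      · rwa [mul_smul, inv_smul_smul, mul_smul, smul_left_cancel_iff] at h2
      · simpa using h3
  have hy : k⁻¹ * σ * k ∈ m11Std := by
    rw [hconj, show k * (k⁻¹ * σ * k) * k⁻¹ = σ by group]
    exact ⟨x.1.2, x.2.1, x.2.2⟩
  obtain ⟨g, hg, hge⟩ := invol_conj_std hy
    (by rw [show k⁻¹ * σ * k * (k⁻¹ * σ * k) = k⁻¹ * (σ * σ) * k by group, hpow]; group)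
    (fun h => hne (by
      have h2 := congrArg (fun z => k * z * k⁻¹) h
      simpa [mul_assoc] using h2))
  -- conjugation by `g * k⁻¹` carries the centraliser to the standard one
  set m := g * k⁻¹ with hm
  have hmσ : m * σ * m⁻¹ = permOf invX := by rw [hm, ← hge]; group
  have hmem : ∀ y : Equiv.Perm GolayPt, m * y * m⁻¹ ∈ m11Std ↔
      y ∈ M24 ∧ y • (e • bset sqMask) = e • bset sqMask ∧ y p = p := by
    intro y
    constructor
    · intro h
      have h2 := mul_mem (mul_mem (inv_mem hg) h) hg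
      rw [show g⁻¹ * (m * y * m⁻¹) * g = k⁻¹ * y * k by rw [hm]; group, hconj,
        show k * (k⁻¹ * y * k) * k⁻¹ = y by group] at h2
      exact h2
    · intro h
      have h2 : k⁻¹ * y * k ∈ m11Std := by
        rw [hconj, show k * (k⁻¹ * y * k) * k⁻¹ = y by group]; exact h
      rw [show m * y * m⁻¹ = g * (k⁻¹ * y * k) * g⁻¹ by rw [hm]; group]
      exact mul_mem (mul_mem hg h2) (inv_mem hg)
  obtain ⟨iso⟩ := cent_iso_std
  refine ⟨MulEquiv.trans ?_ iso⟩
  exact
    { toFun := fun z => ⟨m * z.1.1.1 * m⁻¹, (hmem _).2 ⟨z.1.1.2, z.1.2.1, z.1.2.2⟩,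
        Subgroup.mem_centralizer_iff.2 fun w hw => by
          rw [Set.mem_singleton_iff] at hw
          subst hw
          have hc : σ * z.1.1.1 = z.1.1.1 * σ :=
            congrArg (fun v : ↥(MulAction.stabilizer M24 (e • bset sqMask) ⊓ MulAction.stabilizer M24 p) => v.1.1)
              (Subgroup.mem_centralizer_iff.1 z.2 x (Set.mem_singleton x))
          rw [← hmσ, show m * σ * m⁻¹ * (m * z.1.1.1 * m⁻¹) = m * (σ * z.1.1.1) * m⁻¹ by group, hc]
          group⟩
      invFun := fun w => ⟨⟨⟨m⁻¹ * w.1 * m, ((hmem _).1 (by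
            rw [show m * (m⁻¹ * w.1 * m) * m⁻¹ = w.1 by group]; exact w.2.1)).1⟩,
          ((hmem _).1 (by rw [show m * (m⁻¹ * w.1 * m) * m⁻¹ = w.1 by group]; exact w.2.1)).2.1,
          ((hmem _).1 (by rw [show m * (m⁻¹ * w.1 * m) * m⁻¹ = w.1 by group]; exact w.2.1)).2.2⟩,
        Subgroup.mem_centralizer_iff.2 fun v hv => by
          rw [Set.mem_singleton_iff] at hv
          subst hv
          have hc := Subgroup.mem_centralizer_iff.1 w.2.2 (permOf invX) (Set.mem_singleton _)
          rw [← hmσ] at hc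
          refine Subtype.ext (Subtype.ext ?_)
          show σ * (m⁻¹ * w.1 * m) = m⁻¹ * w.1 * m * σ
          calc σ * (m⁻¹ * w.1 * m) = m⁻¹ * (m * σ * m⁻¹ * w.1) * m := by group
            _ = m⁻¹ * (w.1 * (m * σ * m⁻¹)) * m := by rw [hc]
            _ = m⁻¹ * w.1 * m * σ := by group⟩
      left_inv := fun z => by
        refine Subtype.ext (Subtype.ext (Subtype.ext ?_))
        show m⁻¹ * (m * z.1.1.1 * m⁻¹) * m = z.1.1.1
        group
      right_inv := fun w => by
        refine Subtype.ext ?_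
        show m * (m⁻¹ * w.1 * m) * m⁻¹ = w.1
        group
      map_mul' := fun a b => by
        refine Subtype.ext ?_
        show m * (a.1.1.1 * b.1.1.1) * m⁻¹ = m * a.1.1.1 * m⁻¹ * (m * b.1.1.1 * m⁻¹)
        group }

/-! ### Quartet stabilisers -/

/-- The standard quartet. -/
abbrev quartStd : Fam := toSet quartPart0.2.1

/-- The stabiliser of the standard dodecad and quartet. -/
abbrev qStab : Subgroup (Equiv.Perm GolayPt) :=
  M24 ⊓ MulAction.stabilizer (Equiv.Perm GolayPt) (bset sqMask) ⊓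
    MulAction.stabilizer (Equiv.Perm GolayPt) quartStd

/-- A code lies in the stabiliser of the standard dodecad and quartet. -/
def inQ (c : ℕ) : Bool :=
  isAut c && mapMask c sqMask == sqMask && actL c quartPart0.2.1 == quartPart0.2.1

theorem inQ_spec {c : ℕ} (h : inQ c = true) : permOK c = true ∧ permOf c ∈ qStab := by
  simp only [inQ, Bool.and_eq_true, beq_iff_eq] at h
  obtain ⟨⟨h1, h2⟩, h3⟩ := h
  have hok := permOK_of_isAut h1
  refine ⟨hok, ⟨permOf_mem_M24 h1, ?_⟩, ?_⟩
  · show permOf c • bset sqMask = bset sqMask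
    rw [← bset_mapMask hok, h2]
  · show permOf c • quartStd = quartStd
    rw [← M24Orbits.toSet_actL hok, h3]

/-- Two codes differ by right multiplication with `b`. -/
def isProd (e a b : ℕ) : Bool := (List.range 24).all fun i => app e i == app a (app b i)

theorem quot_checks :
    glTableOK quotTable = true ∧
    ((List.range 81).all fun k => !glDet k || (inQ (quotTable.getD k 0) &&
      quartNorm.all fun n => quartNorm.any fun n' => (List.range 24).all fun i =>
        app (quotTable.getD k 0) (app n i) == app n' (app (quotTable.getD k 0) i))) = true ∧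
    quartNorm.all (fun a => inQ a && quartNorm.all fun b => quartNorm.any fun e => isProd e a b) = true ∧
    quartNorm.contains idCode = true ∧ quartNorm.length = 9 ∧
    distinctAux 35 (quartNorm.map baseKey) .emp = true ∧
    ((List.range 81).all fun k => !glDet k || k == 28 || quartNorm.all fun n =>
      !((List.range 24).all fun i => app (quotTable.getD k 0) i == app n i)) = true ∧
    quartTrans.all (fun c => inQ c) = true ∧
    (List.range 24).all (fun i => !sqMask.testBit i || quartTrans.any fun c => app c 0 == i) = true ∧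
    quartList.getD 0 [] = quartPart0.2.1 ∧ quartList.contains quartPart0.2.1 = true := by
  decide +kernel

theorem quartStd_mem : quartStd ∈ quartets (bset sqMask) := by
  rw [quartets_std]
  exact ⟨_, List.contains_iff_mem.1 quot_checks.2.2.2.2.2.2.2.2.2.2, rfl⟩

theorem qStab_card : Nat.card ↥qStab = 432 := by
  have h := card_eq_ncard_mul_stab (M24 ⊓ MulAction.stabilizer (Equiv.Perm GolayPt) (bset sqMask))
    quartStd (quartets (bset sqMask))
    (fun t ht => by
      obtain ⟨g, hg, e⟩ := quartet_std_transitive ht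
      rw [quot_checks.2.2.2.2.2.2.2.2.2.1] at e
      exact ⟨g, ⟨(mem_fixSub.1 hg).1, (mem_fixSub.1 hg).2 sqMask (by simp)⟩, e⟩)
    (fun g hg => by
      have h := smul_quartets hg.1 quartStd_mem
      rwa [(hg.2 : g • bset sqMask = bset sqMask)] at h)
  rw [M24_dodecad_stab_card sqMask_dodecad, quartets_std_ncard] at h
  change 95040 = 220 * Nat.card ↥qStab at h
  omega

/-- The normal subgroup of order nine. -/
def quartN : Subgroup (Equiv.Perm GolayPt) :=
  Subgroup.closure {x | ∃ c ∈ quartNorm, permOf c = x}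

theorem mem_quartN {x : Equiv.Perm GolayPt} : x ∈ quartN ↔ ∃ c ∈ quartNorm, permOf c = x := by
  refine ⟨fun h => ?_, fun h => Subgroup.subset_closure h⟩
  let M : Submonoid (Equiv.Perm GolayPt) :=
    { carrier := {x | ∃ c ∈ quartNorm, permOf c = x}
      one_mem' := ⟨idCode, List.contains_iff_mem.1 quot_checks.2.2.2.1, permOf_idCode⟩
      mul_mem' := by
        rintro _ _ ⟨a, ha, rfl⟩ ⟨b, hb, rfl⟩
        have h := quot_checks.2.2.1
        simp only [List.all_eq_true, Bool.and_eq_true, List.any_eq_true] at h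
        obtain ⟨e, he, hc⟩ := (h a ha).2 b hb
        exact ⟨e, he, permOf_mul (inQ_spec (h e he).1).1 (inQ_spec (h a ha).1).1 (inQ_spec (h b hb).1).1
          hc⟩ }
  have h' : x ∈ (Subgroup.closure {x | ∃ c ∈ quartNorm, permOf c = x}).toSubmonoid := h
  rw [Subgroup.closure_toSubmonoid_of_finite] at h'
  exact (Submonoid.closure_le (S := M)).2 (fun _ hy => hy) h'

theorem quartet_structure_std :
    quartN ≤ qStab ∧ Nat.card ↥quartN = 9 ∧ (∀ h ∈ qStab, ∀ n ∈ quartN, h * n * h⁻¹ ∈ quartN) ∧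
    (∃ φ : GL23 →* Equiv.Perm GolayPt, φ.range ≤ qStab ∧ Function.Injective φ ∧
      ∀ g, φ g ∈ quartN → g = 1) ∧
    ∀ q ∈ bset sqMask, ∃ g ∈ qStab, g (pt 0) = q := by
  classical
  obtain ⟨hgt, hnorm, hN, -, hlen, hdist, hinter, htr, htr2, -⟩ := quot_checks
  simp only [List.all_eq_true, List.mem_range, Bool.or_eq_true, Bool.not_eq_true', Bool.and_eq_true,
    List.any_eq_true, beq_iff_eq] at hnorm hN hinter htr htr2
  have hle : quartN ≤ qStab := fun x hx => by
    obtain ⟨c, hc, rfl⟩ := mem_quartN.1 hx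
    exact (inQ_spec (hN c hc).1).2
  have hcard : Nat.card ↥quartN = 9 := by
    have hset : (quartN : Set (Equiv.Perm GolayPt)) = ↑((quartNorm.map permOf).toFinset) := by
      ext x
      simp [mem_quartN]
    rw [← SetLike.coe_sort_coe, hset, Nat.card_coe_set_eq, Set.ncard_coe_finset,
      List.toFinset_card_of_nodup, List.length_map, hlen]
    refine List.Nodup.map_on (fun a ha b hb e => List.inj_on_of_nodup_map (nodup_of_distinct hdist) ha hb
      (baseKey_congr (inQ_spec (hN a ha).1).1 (inQ_spec (hN b hb).1).1 e)) ?_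
    exact List.Nodup.of_map _ (nodup_of_distinct hdist)
  obtain ⟨φ, hinj, hφ⟩ := glTable_hom hgt
  have hrow : ∀ g : GL23, inQ (quotTable.getD (glKey g) 0) = true ∧ _ := fun g =>
    (hnorm _ (glKey_lt g)).resolve_left (by rw [glKey_det]; simp)
  have hφle : φ.range ≤ qStab := by
    rintro _ ⟨g, rfl⟩
    rw [hφ]; exact (inQ_spec (hrow g).1).2
  have hinter' : ∀ g, φ g ∈ quartN → g = 1 := by
    intro g hg
    obtain ⟨c, hc, e⟩ := mem_quartN.1 hg
    rcases hinter _ (glKey_lt g) with (h | h) | h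
    · rw [glKey_det] at h; cases h
    · exact glKey_inj (h.trans glKey_one.symm)
    · exfalso
      have h2 := h c hc
      rw [← Bool.not_eq_true] at h2
      refine h2 ?_
      simp only [List.all_eq_true, List.mem_range, beq_iff_eq]
      intro i hi
      rw [hφ] at e
      have := congrArg (fun σ : Equiv.Perm GolayPt => idx (σ (pt i))) e
      simp only [idx_permOf (inQ_spec (hrow g).1).1, idx_permOf (inQ_spec (hN c hc).1).1, idx_pt hi] at this
      exact this.symm
  have hφN : ∀ g, ∀ n ∈ quartN, φ g * n * (φ g)⁻¹ ∈ quartN := by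
    intro g n hn
    obtain ⟨c, hc, rfl⟩ := mem_quartN.1 hn
    obtain ⟨c', hc', h⟩ := (hrow g).2 c hc
    refine mem_quartN.2 ⟨c', hc', ?_⟩
    rw [eq_mul_inv_iff_mul_eq, hφ]
    refine Equiv.ext fun p => idx_injective ?_
    rw [Equiv.Perm.mul_apply, Equiv.Perm.mul_apply, idx_permOf (inQ_spec (hN c' hc').1).1,
      idx_permOf (inQ_spec (hrow g).1).1, idx_permOf (inQ_spec (hrow g).1).1,
      idx_permOf (inQ_spec (hN c hc).1).1]
    exact (h _ (idx_lt p)).symm
  have hprod : ∀ h ∈ qStab, ∃ g, ∃ n ∈ quartN, h = φ g * n := by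
    let F : GL23 × ↥quartN → ↥qStab := fun z => ⟨φ z.1 * z.2.1, mul_mem (hφle ⟨z.1, rfl⟩) (hle z.2.2)⟩
    have hF : Function.Injective F := by
      rintro ⟨a, n⟩ ⟨b, m⟩ e
      have e' : φ a * n.1 = φ b * m.1 := congrArg Subtype.val e
      have hmem : φ (b⁻¹ * a) ∈ quartN := by
        rw [map_mul, map_inv, show (φ b)⁻¹ * φ a = m.1 * n.1⁻¹ by
          rw [eq_mul_inv_iff_mul_eq, mul_assoc, e', inv_mul_cancel_left]]
        exact mul_mem m.2 (inv_mem n.2)
      obtain rfl := inv_mul_eq_one.1 (hinter' _ hmem)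
      exact Prod.ext rfl (Subtype.ext (mul_left_cancel e'))
    have hb := (Nat.bijective_iff_injective_and_card F).2 ⟨hF, by
      rw [Nat.card_prod, gl_card, hcard, qStab_card]⟩
    intro h hh
    obtain ⟨⟨g, n⟩, e⟩ := hb.2 ⟨h, hh⟩
    exact ⟨g, n.1, n.2, (congrArg Subtype.val e).symm⟩
  refine ⟨hle, hcard, fun h hh n hn => ?_, ⟨φ, hφle, hinj, hinter'⟩, fun q hq => ?_⟩
  · obtain ⟨g, n', hn', rfl⟩ := hprod h hh
    rw [show φ g * n' * n * (φ g * n')⁻¹ = φ g * (n' * n * n'⁻¹) * (φ g)⁻¹ by group]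
    exact hφN g _ (mul_mem (mul_mem hn' hn) (inv_mem hn'))
  · rcases htr2 (idx q) (idx_lt q) with e | ⟨c, hc, e⟩
    · rw [mem_bset.1 hq] at e; cases e
    · exact ⟨permOf c, (inQ_spec (htr c hc)).2, by
        rw [permOf_pt (inQ_spec (htr c hc)).1 (by norm_num), e, pt_idx]⟩

theorem quartet_stab_structure {d : Finset GolayPt} (hd : d ∈ dodecads) {Q : Fam} (hQ : Q ∈ quartets d) :
    Nat.card ↥(MulAction.stabilizer M24 d ⊓ MulAction.stabilizer M24 Q) = 432 ∧
    (∃ (N : Subgroup ↥(MulAction.stabilizer M24 d ⊓ MulAction.stabilizer M24 Q)) (_ : N.Normal),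
      Nat.card N = 9 ∧
      Nonempty (↥(MulAction.stabilizer M24 d ⊓ MulAction.stabilizer M24 Q) ⧸ N ≃* GL23)) ∧
    ∀ p ∈ d, ∀ q ∈ d, ∃ g ∈ (MulAction.stabilizer M24 d ⊓ MulAction.stabilizer M24 Q),
      ((g : ↥M24) : Equiv.Perm GolayPt) p = q := by
  classical
  obtain ⟨e, he, rfl⟩ := exists_mem_M24_sqMask hd
  obtain ⟨f, hf, hfd, hfQ⟩ := quartet_transitive hd (smul_quartets he quartStd_mem) hQ
  obtain ⟨k, hkm, hkd, rfl⟩ : ∃ k ∈ M24, k • bset sqMask = e • bset sqMask ∧ k • quartStd = Q :=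
    ⟨f * e, mul_mem hf he, by rw [mul_smul, hfd], by rw [mul_smul, hfQ]⟩
  have hiff : ∀ y, k * y * k⁻¹ ∈ M24 ⊓ MulAction.stabilizer (Equiv.Perm GolayPt) (e • bset sqMask) ⊓
      MulAction.stabilizer (Equiv.Perm GolayPt) (k • quartStd) ↔ y ∈ qStab := by
    intro y
    rw [← hkd]
    simp only [qStab, Subgroup.mem_inf, MulAction.mem_stabilizer_iff]
    constructor
    · rintro ⟨⟨h1, h2⟩, h3⟩
      rw [mul_smul, inv_smul_smul, mul_smul, smul_left_cancel_iff] at h2 h3
      exact ⟨⟨by simpa [mul_assoc] using mul_mem (mul_mem (inv_mem hkm) h1) hkm, h2⟩, h3⟩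
    · rintro ⟨⟨h1, h2⟩, h3⟩
      exact ⟨⟨mul_mem (mul_mem hkm h1) (inv_mem hkm), by rw [mul_smul, inv_smul_smul, mul_smul, h2]⟩,
        by rw [mul_smul, inv_smul_smul, mul_smul, h3]⟩
  let E : ↥qStab ≃* ↥(MulAction.stabilizer M24 (e • bset sqMask) ⊓ MulAction.stabilizer M24 (k • quartStd)) :=
    { toFun := fun y => ⟨⟨k * y.1 * k⁻¹, ((hiff y.1).2 y.2).1.1⟩, ((hiff y.1).2 y.2).1.2, ((hiff y.1).2 y.2).2⟩
      invFun := fun z => ⟨k⁻¹ * z.1.1 * k, (hiff _).1 (by
        rw [show k * (k⁻¹ * z.1.1 * k) * k⁻¹ = z.1.1 by group]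
        exact ⟨⟨z.1.2, z.2.1⟩, z.2.2⟩)⟩
      left_inv := fun y => by
        refine Subtype.ext ?_
        show k⁻¹ * (k * y.1 * k⁻¹) * k = y.1
        group
      right_inv := fun z => by
        refine Subtype.ext (Subtype.ext ?_)
        show k * (k⁻¹ * z.1.1 * k) * k⁻¹ = z.1.1
        group
      map_mul' := fun a b => by
        refine Subtype.ext (Subtype.ext ?_)
        show k * (a.1 * b.1) * k⁻¹ = k * a.1 * k⁻¹ * (k * b.1 * k⁻¹)
        group }
  obtain ⟨hle, hN9, hnormal, ⟨φ, hφle, hinj, hinter⟩, htrans⟩ := quartet_structure_std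
  have hcard : Nat.card ↥(MulAction.stabilizer M24 (e • bset sqMask) ⊓
      MulAction.stabilizer M24 (k • quartStd)) = 432 := by
    rw [← Nat.card_congr E.toEquiv, qStab_card]
  refine ⟨hcard, ?_, fun p hp q hq => ?_⟩
  · let N := (quartN.subgroupOf qStab).map E.toMonoidHom
    have hsN : (quartN.subgroupOf qStab).Normal :=
      ⟨fun n hn h => hnormal h.1 h.2 n.1 hn⟩
    have hNn : N.Normal := hsN.map _ E.surjective
    have hN9' : Nat.card N = 9 := by
      rw [Subgroup.card_map_of_injective E.injective, Nat.card_congr (Subgroup.subgroupOfEquivOfLe hle).toEquiv, hN9]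
    refine ⟨N, hNn, hN9', ?_⟩
    let ψ : GL23 →* ↥(MulAction.stabilizer M24 (e • bset sqMask) ⊓
        MulAction.stabilizer M24 (k • quartStd)) ⧸ N :=
      (QuotientGroup.mk' N).comp (E.toMonoidHom.comp (φ.codRestrict qStab fun g => hφle ⟨g, rfl⟩))
    have hψ : Function.Injective ψ := by
      rw [← MonoidHom.ker_eq_bot_iff, eq_bot_iff]
      intro g hg
      rw [MonoidHom.mem_ker] at hg
      have h1 := (QuotientGroup.eq_one_iff _).1 hg
      obtain ⟨n, hn, hne⟩ := Subgroup.mem_map.1 h1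
      rw [E.injective hne] at hn
      exact hinter g hn
    have hb := (Nat.bijective_iff_injective_and_card ψ).2 ⟨hψ, by
      have h := Subgroup.card_eq_card_quotient_mul_card_subgroup N
      rw [hcard, hN9'] at h
      rw [gl_card]
      omega⟩
    exact ⟨(MulEquiv.ofBijective ψ hb).symm⟩
  · have hin : ∀ z ∈ e • bset sqMask, k⁻¹ z ∈ bset sqMask := by
      intro z hz
      rw [← hkd] at hz
      obtain ⟨w, hw, rfl⟩ := Finset.mem_smul_finset.1 hz
      simpa using hw
    obtain ⟨a, ha, hap⟩ := htrans _ (hin p hp)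
    obtain ⟨b, hb, hbq⟩ := htrans _ (hin q hq)
    refine ⟨(E ⟨b * a⁻¹, mul_mem hb (inv_mem ha)⟩).1, (E _).2, ?_⟩
    show (k * (b * a⁻¹) * k⁻¹) p = q
    simp only [Equiv.Perm.mul_apply]
    rw [show a⁻¹ (k⁻¹ p) = pt 0 by rw [← hap]; simp, hbq]
    simp

end Cfsg.Agent.Golay
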