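import Cfsg.Agent.Golay.Co3RankTree

set_option autoImplicit false
set_option maxRecDepth 100000

namespace Cfsg.Agent.Golay.Co3Rank

theorem t352_a : segOK T352 0 176 = true := by decide +kernel

theorem t352_b : segOK T352 176 176 = true := by decide +kernel

theorem t352_d : blockDistinct T352 352 = true := by decide +kernel

theorem t1100_a : segOK T1100 0 550 = true := by decide +kernel

theorem t1100_b : segOK T1100 550 550 = true := by decide +kernel

theorem t1100_d : blockDistinct T1100 1100 = true := by decide +kernel

theorem t5600_d : blockDistinct T5600 5600 = true := by decide +kernel

end Cfsg.Agent.Golay.Co3Rank
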