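import Cfsg.Agent.Golay.LeechMcL
import Cfsg.Agent.Golay.OrbitTools
import Cfsg.Agent.Golay.Co3RankData

/-! Spanning trees for the four suborbits on the 11178 cosets, stored in blocks. -/

set_option autoImplicit false
set_option maxRecDepth 100000

namespace Cfsg.Agent.Golay.Co3Rank

/-- An entry of a table in blocks. -/
def look (T : List (List (ℕ × ℕ × ℕ))) (k : ℕ) : ℕ × ℕ × ℕ := (T.getD (k / 64) []).getD (k % 64) (0, 0, 0)

/-- The value at a position of a packed vector, shifted by 8. -/
def nib (N i : ℕ) : ℕ := (N >>> (4 * i)) &&& 15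

theorem nib_le (N i : ℕ) : nib N i ≤ 15 := Nat.and_le_right

theorem numVec_inj {N M : ℕ} (hN : N < 2 ^ 96) (hM : M < 2 ^ 96) (h : numVec N = numVec M) : N = M := by
  refine Nat.eq_of_testBit_eq fun b => ?_
  rcases Nat.lt_or_ge b 96 with hb | hb
  · have e := congrFun h (pt (b / 4))
    simp only [numVec, idx_pt (show b / 4 < 24 by omega), sub_left_inj, Nat.cast_inj] at e
    have e' := congrArg (fun v => v.testBit (b % 4)) e
    have h15 : (15 : ℕ).testBit (b % 4) = true :=
      (by decide : ∀ r < 4, (15 : ℕ).testBit r = true) _ (Nat.mod_lt _ (by norm_num))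
    simpa [Nat.testBit_and, Nat.testBit_shiftRight, h15, Nat.div_add_mod] using e'
  · have h2 : (2 : ℕ) ^ 96 ≤ 2 ^ b := Nat.pow_le_pow_right (by norm_num) hb
    rw [Nat.testBit_eq_false_of_lt (lt_of_lt_of_le hN h2), Nat.testBit_eq_false_of_lt (lt_of_lt_of_le hM h2)]

/-- A monomial step on packed vectors. -/
def fastStep (p c N M : ℕ) : Bool :=
  (List.range 24).all fun i => decide (app p i < 24) &&
    (nib M i == bif c.testBit i then 16 - nib N (app p i) else nib N (app p i))

theorem fastStep_sound {p c N M : ℕ} (h : fastStep p c N M = true) :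
    wordList [(false, p, c)] (matl (numVec N)) = matl (numVec M) := by
  rw [wordList_matl]
  simp only [List.foldl_cons, List.foldl_nil, matl]
  refine List.map_congr_left fun i hi => ?_
  have hi' := List.mem_range.1 hi
  have hh := List.all_eq_true.1 h i hi
  simp only [Bool.and_eq_true, decide_eq_true_eq, beq_iff_eq] at hh
  obtain ⟨h1, h2⟩ := hh
  simp only [opFun, cond_false, permFun, numVec, idx_pt hi', idx_pt h1]
  have e1 : (M >>> (4 * i)) &&& 15 = nib M i := rfl
  have e2 : (N >>> (4 * app p i)) &&& 15 = nib N (app p i) := rfl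
  rw [e1, e2, h2]
  have := nib_le N (app p i)
  cases c.testBit i
  · simp
  · simp only [if_true, cond_true]
    omega

/-- A step by a word. -/
def stepOK : List (Bool × ℕ × ℕ) → ℕ → ℕ → Bool
  | [(false, p, c)], N, M => fastStep p c N M
  | w, N, M => wordList w (matl (numVec N)) == matl (numVec M)

theorem stepOK_sound : ∀ {w : List (Bool × ℕ × ℕ)} {N M : ℕ}, stepOK w N M = true →
    wordList w (matl (numVec N)) = matl (numVec M) := by
  intro w N M h
  unfold stepOK at h
  split at h
  · exact fastStep_sound h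
  · exact beq_iff_eq.1 h

/-- One edge of a table. -/
def edgeOK (T : List (List (ℕ × ℕ × ℕ))) (k : ℕ) : Bool :=
  decide ((look T k).1 < 79228162514264337593543950336) && (k == 0 ||
    decide ((look T k).2.1 < k) &&
      stepOK (gens.getD (look T k).2.2 []) (look T (look T k).2.1).1 (look T k).1)

/-- The vectors of the table are different. -/
def blockDistinct (T : List (List (ℕ × ℕ × ℕ))) (n : ℕ) : Bool :=
  distinctAux 96 ((List.range n).map fun k => (look T k).1) .emp

/-- A segment of the edges is correct. -/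
def segOK (T : List (List (ℕ × ℕ × ℕ))) (a n : ℕ) : Bool := (List.range' a n).all (edgeOK T)

theorem edge_of_segs {T : List (List (ℕ × ℕ × ℕ))} {a b : ℕ} (h1 : segOK T 0 a = true)
    (h2 : segOK T a b = true) : ∀ k < a + b, edgeOK T k = true := by
  intro k hk
  rcases Nat.lt_or_ge k a with h | h
  · exact List.all_eq_true.1 h1 k (List.mem_range'_1.2 ⟨Nat.zero_le _, by omega⟩)
  · exact List.all_eq_true.1 h2 k (List.mem_range'_1.2 ⟨h, hk⟩)

end Cfsg.Agent.Golay.Co3Rank
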