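import Cfsg.Agent.Golay.LeechCo1
import Cfsg.Agent.Golay.LeechTrans

/-! The stabilizer of the standard cross is maximal. -/

set_option autoImplicit false
set_option maxRecDepth 20000

namespace Cfsg.Agent.Golay

open scoped Pointwise

namespace CrossMax

/-- The images of the standard cross under a set of automorphisms. -/
def Orb (K : Subgroup ↥Co0) (u : GolayPt → ℤ) : Prop :=
  ∃ k ∈ K, ∃ a : ↥leechLattice, (a : GolayPt → ℤ) ∈ stdCross ∧ ((k • a : ↥leechLattice) : GolayPt → ℤ) = u

variable {K : Subgroup ↥Co0}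

theorem Orb.mem {u : GolayPt → ℤ} (h : Orb K u) : u ∈ leechLattice := by
  obtain ⟨k, -, a, -, rfl⟩ := h
  exact Subtype.prop _

theorem Orb.act {u : GolayPt → ℤ} (h : Orb K u) {g : ↥Co0} (hg : g ∈ K) :
    ∀ hu : u ∈ leechLattice, Orb K ((g • (⟨u, hu⟩ : ↥leechLattice) : ↥leechLattice) : GolayPt → ℤ) := by
  obtain ⟨k, hk, a, ha, rfl⟩ := h
  exact fun hu => ⟨g * k, mul_mem hg hk, a, ha, by rw [mul_smul]⟩

theorem Orb.norm {u : GolayPt → ℤ} (h : Orb K u) : sqNorm u = 64 := by
  obtain ⟨k, -, a, ⟨i, s, hs, e⟩, rfl⟩ := h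
  rw [co0_norm, e]
  have : sqNorm (Pi.single i s : GolayPt → ℤ) = s * s := by
    rw [← dotInt_self_eq, dotInt_single, Pi.single_eq_same]
  rw [this]
  rcases hs with rfl | rfl <;> norm_num

variable (hK : ∀ g : ↥Co0, CrossFix g → g ∈ K)
include hK

theorem mono_mem {σ : Equiv.Perm GolayPt} (hσ : σ ∈ M24) {c : Finset GolayPt}
    (hc : c ∈ supports (golayCode : Set (GolayPt → ZMod 2))) : monoEl σ hσ c hc ∈ K :=
  hK _ (monoEl_crossFix _ _ _ _)

theorem Orb.perm {u : GolayPt → ℤ} (h : Orb K u) {σ : Equiv.Perm GolayPt} (hσ : σ ∈ M24) :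
    Orb K fun i => u (σ i) := by
  have h' := h.act (mono_mem hK (inv_mem hσ) empty_mem_supports) h.mem
  convert h' using 1
  funext i
  rw [monoEl_apply, signedPerm_eq]
  simp [sgnOf, Equiv.Perm.inv_def]

theorem Orb.sign {u : GolayPt → ℤ} (h : Orb K u) {c : Finset GolayPt}
    (hc : c ∈ supports (golayCode : Set (GolayPt → ZMod 2))) : Orb K fun i => sgnOf c i * u i := by
  have h' := h.act (mono_mem hK (one_mem M24) hc) h.mem
  convert h' using 1
  funext i
  rw [monoEl_apply, signedPerm_eq]
  rfl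

omit hK in
/-- A monomial step as an element. -/
theorem mono_elem {p m : ℕ} (hp : isAut p = true) (hm : inC m = true) :
    ∃ g : ↥Co0, CrossFix g ∧ ∀ v : ↥leechLattice, ((g • v : ↥leechLattice) : GolayPt → ℤ) =
      fun i => (if m.testBit (idx i) then -1 else 1) * (v : GolayPt → ℤ) (permFun p i) := by
  refine ⟨monoEl 1 (one_mem _) (bset m) (bset_mem_supports hm) *
    monoEl (permOf p)⁻¹ (inv_mem (permOf_mem_M24 hp)) ∅ empty_mem_supports, ?_, fun v => funext fun i => ?_⟩
  · intro v hv
    rw [mul_smul]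
    exact monoEl_crossFix _ _ _ _ _ (monoEl_crossFix _ _ _ _ _ hv)
  · simp only [mul_smul, monoEl_apply, signedPerm_eq, sgnOf, Finset.notMem_empty, if_false, one_mul,
      Equiv.Perm.inv_def, Equiv.symm_symm, mem_bset, permOf_apply (permOK_of_isAut hp)]
    rfl

omit hK in
theorem link_elem : ∀ l : List (ℕ × ℕ), linkOK l = true → ∃ g : ↥Co0, ∀ v : ↥leechLattice,
    ((g • v : ↥leechLattice) : GolayPt → ℤ) = l.foldl (fun x p => linkStep p x) (v : GolayPt → ℤ)
  | [], _ => ⟨1, fun v => by rw [one_smul]; rfl⟩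
  | p :: l, h => by
    simp only [linkOK, List.all_cons, Bool.and_eq_true] at h
    obtain ⟨⟨h1, h2⟩, h3⟩ := h
    obtain ⟨m, -, hm⟩ := mono_elem h1 h2
    obtain ⟨g, hg⟩ := link_elem l h3
    refine ⟨g * (etaEl * m), fun v => ?_⟩
    rw [mul_smul, hg, mul_smul]
    show l.foldl _ (etaFun ((m • v : ↥leechLattice) : GolayPt → ℤ)) = _
    rw [hm]
    rfl

omit hK in
theorem std_transitive {a : ↥leechLattice} (ha : (a : GolayPt → ℤ) ∈ stdCross) :
    ∃ g : ↥Co0, CrossFix g ∧ g • e8 none = a := by
  obtain ⟨i, s, hs, e⟩ := ha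
  obtain ⟨σ, hσ, hmap⟩ := exists_mem_M24_list [none] [i] (by simp) (by simp) (by simp) (by simp)
  simp only [List.map_cons, List.map_nil, List.cons.injEq, and_true] at hmap
  obtain ⟨c, hc, hs'⟩ : ∃ c ∈ supports (golayCode : Set (GolayPt → ZMod 2)), sgnOf c i * 8 = s := by
    rcases hs with rfl | rfl
    · exact ⟨∅, empty_mem_supports, by simp [sgnOf]⟩
    · refine ⟨bset 16777215, bset_mem_supports (by decide +kernel), ?_⟩
      rw [sgnOf, if_pos (by rw [mem_bset]; exact mem_bset.1 (by simp [bset_full]))]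
      norm_num
  refine ⟨monoEl σ hσ c hc, monoEl_crossFix _ _ _ _, Subtype.ext ?_⟩
  rw [monoEl_apply, e, ← hs', ← hmap]
  exact signedPerm_single σ c none 8

/-- An automorphism moving a member of the orbit into the cross is in the group. -/
theorem mem_of_moves {u : GolayPt → ℤ} (h : Orb K u) {g : ↥Co0} {b : ↥leechLattice}
    (hb : (b : GolayPt → ℤ) = u) (hg : ((g • b : ↥leechLattice) : GolayPt → ℤ) ∈ stdCross) : g ∈ K := by
  obtain ⟨k, hk, a, ha, e⟩ := h
  obtain rfl : b = k • a := Subtype.ext (hb.trans e.symm)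
  obtain ⟨h1, c1, e1⟩ := std_transitive ha
  obtain ⟨h2, c2, e2⟩ := std_transitive hg
  have hfix : (h2⁻¹ * (g * (k * h1))) • e8 none = e8 none := by
    rw [mul_smul, mul_smul, mul_smul, e1, ← e2, inv_smul_smul]
  have := mul_mem (mul_mem (hK _ c2) (hK _ (crossFix_of_fix rfl hfix))) (inv_mem (mul_mem hk (hK _ c1)))
  simpa [mul_assoc] using this

theorem top_of_eta (h : etaEl ∈ K) : K = ⊤ := by
  rw [eq_top_iff, ← gen_top, genCo0, Subgroup.closure_le]
  rintro g (hg | rfl)
  · exact hK g hg
  · exact h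

theorem tet_four {x : GolayPt → ℤ} (hx : Orb K x) (S : Finset GolayPt)
    (h1 : ∀ i ∈ S, x i = 4 ∨ x i = -4) (h0 : ∀ i ∉ S, x i = 0) (hS : S.card = 4) : Orb K (fourVec tet0 4) := by
  classical
  obtain ⟨σ, hσ, hmap⟩ := exists_mem_M24_list tet0 S.toList (by decide +kernel) S.nodup_toList
    (by simp [tet0, hS]) (by simp [tet0])
  have hmem : ∀ i, i ∈ tet0 ↔ σ i ∈ S := fun i => by
    rw [← Finset.mem_toList, ← hmap, List.mem_map_of_injective σ.injective]
  obtain ⟨c, hc, hcn⟩ := exists_code_pattern (fun p => decide (x (σ p) = -4))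
  have e : (fun i => sgnOf c i * x (σ i)) = fourVec tet0 4 := funext fun i => by
    rw [fourVec, sgnOf]
    by_cases hi : i ∈ tet0
    · have := hcn i hi
      rw [decide_eq_true_eq] at this
      rw [if_pos hi]
      rcases h1 _ ((hmem i).1 hi) with h | h
      · rw [if_neg (fun hin => by have := this.1 hin; omega), h, one_mul]
      · rw [if_pos (this.2 h), h]; ring
    · rw [if_neg hi, h0 _ (fun h => hi ((hmem i).2 h)), mul_zero]
  exact e ▸ (hx.perm hK hσ).sign hK hc

theorem top_of_tet (h : Orb K (fourVec tet0 4)) : K = ⊤ := by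
  obtain ⟨p, m, hq, hval⟩ : ∃ p m, linkQ = [(p, m)] ∧ ∀ i, etaFun (fun i =>
      (if m.testBit (idx i) then -1 else 1) * fourVec tet0 4 (permFun p i)) i = (Pi.single (pt 1) (-8) : GolayPt → ℤ) i :=
    ⟨984818244535754528103549039458486304, 4845570, by decide +kernel, by decide +kernel⟩
  have hok := link_valid.2.2.2.2
  simp only [hq, linkOK, List.all_cons, List.all_nil, Bool.and_eq_true, and_true] at hok
  obtain ⟨g, hgc, hg⟩ := mono_elem hok.1 hok.2
  refine top_of_eta hK ?_
  have := mem_of_moves hK h (g := etaEl * g) (b := ⟨_, h.mem⟩) rfl (by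
    refine ⟨pt 1, -8, Or.inr rfl, ?_⟩
    rw [mul_smul]
    show etaFun ((g • (⟨_, h.mem⟩ : ↥leechLattice) : ↥leechLattice) : GolayPt → ℤ) = _
    rw [hg]
    exact funext hval)
  simpa using mul_mem this (inv_mem (hK g hgc))

theorem odd_cases {x : GolayPt → ℤ} (hx : Orb K x) (h : ¬ ∀ i, (2 : ℤ) ∣ x i) :
    Orb K (oddVec [none, pt 0, pt 1, pt 2, pt 3] []) ∨ Orb K (oddVec [pt 0, pt 1] [none]) := by
  classical
  have hn := hx.norm
  obtain ⟨c, hc, f, -, rfl⟩ := exists_odd_class hx.mem h
  rw [odd_sqNorm] at hn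
  simp only [ite_self] at hn
  have hz : ∀ i, f i = 0 ∨ f i = -1 ∨ f i = 1 := fun i => by
    have hu : zUnit 1 (f i) ≤ 5 :=
      le_trans (Finset.single_le_sum (f := fun i => zUnit 1 (f i)) (fun _ _ => Nat.zero_le _) (Finset.mem_univ i))
        (by omega)
    have h2 := zUnit_cast 1 (f i)
    simp only [if_true] at h2
    have h3 : 2 * f i ^ 2 + f i ≤ 5 := by omega
    have h4 : -2 < f i := by by_contra; nlinarith
    have h5 : f i < 2 := by by_contra; nlinarith
    omega
  obtain ⟨S3, hS3⟩ : ∃ S : Finset GolayPt, ∀ i, i ∈ S ↔ f i = -1 :=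
    ⟨Finset.univ.filter fun i => f i = -1, fun i => by simp⟩
  obtain ⟨S5, hS5⟩ : ∃ S : Finset GolayPt, ∀ i, i ∈ S ↔ f i = 1 :=
    ⟨Finset.univ.filter fun i => f i = 1, fun i => by simp⟩
  have hsum : ∑ i, zUnit 1 (f i) = S3.card + 3 * S5.card := by
    have e : ∀ i, zUnit 1 (f i) = (if i ∈ S3 then 1 else 0) + 3 * (if i ∈ S5 then 1 else 0) := fun i => by
      rcases hz i with h | h | h <;> simp [h, hS3, hS5, zUnit]
    rw [Finset.sum_congr rfl fun i _ => e i, Finset.sum_add_distrib, ← Finset.mul_sum]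
    simp
  rw [hsum] at hn
  have hl : ∀ l3 l5 : List GolayPt, (l3 ++ l5).Nodup → l3.length = S3.card → l5.length = S5.card →
      l3.length + l5.length ≤ 5 → Orb K (oddVec l3 l5) := fun l3 l5 hnd h3 h5 hlt => by
    have hdis : (S3.toList ++ S5.toList).Nodup := List.nodup_append.2 ⟨S3.nodup_toList, S5.nodup_toList,
      fun a ha b hb e => by
        rw [Finset.mem_toList, hS3] at ha
        rw [Finset.mem_toList, hS5, ← e] at hb
        omega⟩
    obtain ⟨σ, hσ, hmap⟩ := exists_mem_M24_list (l3 ++ l5) (S3.toList ++ S5.toList) hnd hdis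
      (by simp [h3, h5]) (by simp; omega)
    rw [List.map_append] at hmap
    obtain ⟨m3, m5⟩ := List.append_inj hmap (by simp [h3])
    have i3 : ∀ i, i ∈ l3 ↔ f (σ i) = -1 := fun i => by
      rw [← hS3, ← Finset.mem_toList, ← m3, List.mem_map_of_injective σ.injective]
    have i5 : ∀ i, i ∈ l5 ↔ f (σ i) = 1 := fun i => by
      rw [← hS5, ← Finset.mem_toList, ← m5, List.mem_map_of_injective σ.injective]
    have e : (fun i => (fun j => sgnOf c j * (sgnOf c j * (1 + 4 * f j))) (σ i)) = oddVec l3 l5 := funext fun i => by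
      show sgnOf c (σ i) * (sgnOf c (σ i) * _) = _
      rw [← mul_assoc, sgnOf_sq, one_mul, oddVec]
      rcases hz (σ i) with h | h | h <;> simp [i3, i5, h]
    exact e ▸ (hx.sign hK hc).perm hK hσ
  have hnd1 : ([none, pt 0, pt 1, pt 2, pt 3] ++ [] : List GolayPt).Nodup := by decide +kernel
  have hnd2 : ([pt 0, pt 1] ++ [none] : List GolayPt).Nodup := by decide +kernel
  rcases (by omega : (S3.card = 5 ∧ S5.card = 0) ∨ (S3.card = 2 ∧ S5.card = 1)) with ⟨a, b⟩ | ⟨a, b⟩
  · exact Or.inl (hl _ _ hnd1 (by simp [a]) (by simp [b]) (by simp))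
  · exact Or.inr (hl _ _ hnd2 (by simp [a]) (by simp [b]) (by simp))

theorem top_of_link {y : GolayPt → ℤ} (hy : Orb K y) {l : List (ℕ × ℕ)} (hl : linkOK l = true) {q : GolayPt}
    {s : ℤ} (hs : s = 8 ∨ s = -8) (hval : ∀ i, l.foldl (fun x p => linkStep p x) y i = fourVec [q] s i)
    {p m : ℕ} (hp : isAut p = true) (hm : inC m = true) (j : GolayPt)
    (hcert : (decide (∀ i, l.foldl (fun x p => linkStep p x)
        (fun i => (if m.testBit (idx i) then -1 else 1) *
          (l.foldl (fun x p => linkStep p x) (e8 j : GolayPt → ℤ)) (permFun p i)) i ∈ ([0, 4, -4] : List ℤ)) &&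
      decide ((Finset.univ.filter fun i => l.foldl (fun x p => linkStep p x)
        (fun i => (if m.testBit (idx i) then -1 else 1) *
          (l.foldl (fun x p => linkStep p x) (e8 j : GolayPt → ℤ)) (permFun p i)) i ≠ 0).card = 4)) = true) :
    K = ⊤ := by
  simp only [Bool.and_eq_true, decide_eq_true_eq] at hcert
  obtain ⟨g, hg⟩ := link_elem l hl
  have hgK : g ∈ K := mem_of_moves hK hy (b := ⟨y, hy.mem⟩) rfl ⟨q, s, hs, by
    rw [hg]
    funext i
    rw [hval, fourVec]
    simp [Pi.single_apply]⟩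
  obtain ⟨h, hh, hhv⟩ := mono_elem hp hm
  have hv : Orb K ((g • h • g • e8 j : ↥leechLattice) : GolayPt → ℤ) :=
    ⟨g * (h * g), mul_mem hgK (mul_mem (hK h hh) hgK), e8 j, ⟨j, 8, Or.inl rfl, rfl⟩, by rw [mul_smul, mul_smul]⟩
  rw [hg, hhv, hg] at hv
  refine top_of_tet hK (tet_four hK hv _ (fun i hi => ?_) (fun i hi => ?_) hcert.2)
  · simp only [Finset.mem_filter, Finset.mem_univ, true_and] at hi
    have := hcert.1 i
    simp only [List.mem_cons, List.not_mem_nil, or_false] at this
    tauto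
  · simpa using hi

omit hK in
theorem card_range_eq (P : GolayPt → Bool) :
    (Finset.univ.filter fun i => P i = true).card = (List.range 24).countP fun k => P (pt k) := by
  classical
  rw [List.countP_eq_length_filter, ← List.toFinset_card_of_nodup ((List.nodup_range).filter _)]
  refine Finset.card_bij' (fun i _ => idx i) (fun k _ => pt k) (fun i hi => ?_) (fun k hk => ?_)
    (fun i _ => pt_idx i) (fun k hk => ?_)
  · simp only [Finset.mem_filter, Finset.mem_univ, true_and] at hi
    simp [List.mem_filter, idx_lt i, pt_idx, hi]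
  · simp only [List.mem_toFinset, List.mem_filter, List.mem_range] at hk
    simp [hk.2]
  · simp only [List.mem_toFinset, List.mem_filter, List.mem_range] at hk
    exact idx_pt hk.1

/-- Two permutations. -/
def moves : List ℕ := [957316225099133873385554888546685171, 956302485175575353788796878166559809]

/-- Some word meets the intersection of a word with an image oddly. -/
def oddTest (c : ℕ) : Bool :=
  c == 0 || c == 16777215 || moves.any fun s => rows.any fun r =>
    ((List.range 24).countP fun k => c.testBit k && c.testBit (app s k) && r.testBit k) % 2 == 1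

omit hK in
theorem oddTest_all : allB (fun i => oddTest (encode i)) 12 0 = true := by decide +kernel

omit hK in
theorem moves_ok : ((moves.all fun s => isAut s) && (rows.all fun r => inC r)) = true := by decide +kernel

theorem exists_odd {x : GolayPt → ℤ} (hx : Orb K x) (h2 : ∀ i, (2 : ℤ) ∣ x i) (h4 : ¬ ∀ i, (4 : ℤ) ∣ x i) :
    ∃ z, Orb K z ∧ ¬ ∀ i, (2 : ℤ) ∣ z i := by
  classical
  by_contra hall
  push Not at hall
  -- the inner products inside the orbit
  obtain ⟨k, hk, a, ha, hka⟩ := id hx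
  have hdot : ∀ z, Orb K z → (16 : ℤ) ∣ dotInt x z := by
    intro z hz
    have hz' := hz.act (inv_mem hk) hz.mem
    have he := hall _ hz'
    obtain ⟨i, s, hs, e⟩ := ha
    have hd := co0_dot k a (k⁻¹ • (⟨z, hz.mem⟩ : ↥leechLattice))
    rw [smul_inv_smul, hka] at hd
    rw [hd, e]
    have : dotInt (Pi.single i s : GolayPt → ℤ) ((k⁻¹ • (⟨z, hz.mem⟩ : ↥leechLattice) : ↥leechLattice) : GolayPt → ℤ)
        = s * ((k⁻¹ • (⟨z, hz.mem⟩ : ↥leechLattice) : ↥leechLattice) : GolayPt → ℤ) i := by
      simp only [dotInt]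
      rw [Finset.sum_eq_single i (fun j _ hj => by simp [hj]) (by simp), Pi.single_eq_same]
    rw [this]
    obtain ⟨w, hw⟩ := he i
    rw [hw]
    rcases hs with rfl | rfl
    · exact ⟨w, by ring⟩
    · exact ⟨-w, by ring⟩
  -- the support modulo four
  obtain ⟨m, y, hm, hy, hw, -⟩ := (mem_leech_iff.1 hx.mem).normalize
  obtain rfl : m = 0 := by
    have := hy none
    have := h2 none
    omega
  obtain ⟨c, hc, hcm⟩ : ∃ c : ℕ, inC c = true ∧ ∀ i, (c.testBit (idx i) = true ↔ ¬ (2 : ℤ) ∣ y i) := by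
    rw [mem_code_iff_support, support₂_red2, mem_supports_iff] at hw
    exact ⟨_, hw, fun i => by rw [testBit_mask]; simp⟩
  have ht := forall_code oddTest oddTest_all hc
  simp only [oddTest, Bool.or_eq_true, beq_iff_eq, List.any_eq_true] at ht
  rcases ht with (h | h) | ⟨s, hs, r, hr, hodd⟩
  · refine h4 fun i => ?_
    have := hy i
    have h0 : ¬ c.testBit (idx i) = true := by simp [h]
    rw [hcm, not_not] at h0
    omega
  · have hn := hx.norm
    have : ∀ i, 4 ≤ x i ^ 2 := fun i => by
      have h0 : c.testBit (idx i) = true := by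
        rw [h]
        exact mem_bset.1 (by simp [bset_full])
      rw [hcm] at h0
      have := hy i
      rcases le_or_gt (x i) 0 with hle | hle
      · have : x i ≤ -2 := by omega
        nlinarith
      · have : 2 ≤ x i := by omega
        nlinarith
    have hle := Finset.sum_le_sum (s := (Finset.univ : Finset GolayPt)) fun i _ => this i
    simp only [Finset.sum_const, Finset.card_univ, card_golayPt, nsmul_eq_mul] at hle
    simp only [sqNorm] at hn
    omega
  have hok := moves_ok
  simp only [Bool.and_eq_true, List.all_eq_true] at hok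
  have hp := permOf_apply (permOK_of_isAut (hok.1 s hs))
  have hσ := permOf_mem_M24 (hok.1 s hs)
  have o1 := hx.perm hK hσ
  have o2 := o1.sign hK (bset_mem_supports (hok.2 r hr))
  have d1 := hdot _ o1
  have d2 := hdot _ o2
  have hdiff : dotInt x (fun i => x (permOf s i)) - dotInt x (fun i => sgnOf (bset r) i * x (permOf s i)) =
      8 * ∑ i, (if i ∈ bset r then y i * y (permOf s i) else 0) := by
    simp only [dotInt]
    rw [← Finset.sum_sub_distrib, Finset.mul_sum]
    refine Finset.sum_congr rfl fun i _ => ?_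
    rw [hy i, hy (permOf s i), sgnOf]
    split_ifs <;> ring
  have heven : (2 : ℤ) ∣ ∑ i, (if i ∈ bset r then y i * y (permOf s i) else 0) := by
    have := dvd_sub d1 d2
    rw [hdiff] at this
    omega
  rw [show (2 : ℤ) = ((2 : ℕ) : ℤ) from rfl, ← ZMod.intCast_zmod_eq_zero_iff_dvd _ 2, Int.cast_sum] at heven
  have e : ∀ i, (((if i ∈ bset r then y i * y (permOf s i) else 0 : ℤ)) : ZMod 2) =
      if (c.testBit (idx i) && c.testBit (app s (idx i)) && r.testBit (idx i)) = true then 1 else 0 := by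
    intro i
    have hpar : ∀ j, ((y j : ℤ) : ZMod 2) = if c.testBit (idx j) = true then 1 else 0 := fun j => by
      split_ifs with h0
      · rw [hcm] at h0
        have hj : y j = 2 * (y j / 2) + 1 := by omega
        rw [hj]
        push_cast
        rw [show (2 : ZMod 2) = 0 from rfl]
        simp
      · rw [hcm, not_not] at h0
        exact (ZMod.intCast_zmod_eq_zero_iff_dvd _ 2).2 h0
    have hidx : idx (permOf s i) = app s (idx i) := by
      rw [hp, permFun, idx_pt (app_lt (permOK_of_isAut (hok.1 s hs)) (idx_lt i))]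
    rw [apply_ite (Int.cast : ℤ → ZMod 2), Int.cast_mul, hpar, hpar, hidx, Int.cast_zero]
    simp only [mem_bset]
    cases c.testBit (idx i) <;> cases c.testBit (app s (idx i)) <;> cases r.testBit (idx i) <;> simp
  rw [Finset.sum_congr rfl fun i _ => e i, Finset.sum_boole, card_range_eq,
    ZMod.natCast_eq_zero_iff_even] at heven
  rw [List.countP_congr (q := fun k => c.testBit k && c.testBit (app s k) && r.testBit k)
    (fun k hk => by rw [idx_pt (List.mem_range.1 hk)])] at heven
  rw [Nat.even_iff] at heven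
  omega

end CrossMax

open CrossMax in
/-- The cross stabilizer is maximal. -/
theorem crossStab_maximal (H : Subgroup ↥Co0) (hH : ∀ g, g ∈ H ↔ CrossFix g) : IsCoatom H := by
  classical
  refine ⟨fun htop => ?_, fun K hlt => ?_⟩
  · have h : CrossFix etaEl := (hH _).1 (htop ▸ Subgroup.mem_top _)
    obtain ⟨i, s, -, e⟩ := h (e8 none) ⟨none, 8, Or.inl rfl, rfl⟩
    have e' : ∀ j, etaFun (Pi.single none 8 : GolayPt → ℤ) j = (Pi.single i s : GolayPt → ℤ) j := congrFun e
    have h2 : etaFun (Pi.single none 8 : GolayPt → ℤ) none ≠ 0 ∧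
        etaFun (Pi.single none 8 : GolayPt → ℤ) (pt 0) ≠ 0 := by decide +kernel
    rw [e', e'] at h2
    rcases eq_or_ne none i with rfl | hi
    · exact h2.2 (Pi.single_eq_of_ne (by decide) _)
    · exact h2.1 (Pi.single_eq_of_ne hi _)
  obtain ⟨g, hgK, hgH⟩ := SetLike.exists_of_lt hlt
  have hK : ∀ g : ↥Co0, CrossFix g → g ∈ K := fun g hg => hlt.le ((hH g).2 hg)
  obtain ⟨v, hv, hvn⟩ : ∃ v, Orb K v ∧ v ∉ stdCross := by
    by_contra hc
    push Not at hc
    refine hgH ((hH g).2 fun a ha => ?_)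
    exact hc _ ⟨g, hgK, a, ha, rfl⟩
  obtain ⟨-, -, hP, hP', -, -⟩ := link_values
  obtain ⟨-, -, ok5, ok53, -⟩ := link_valid
  have odd : ∀ z, Orb K z → (¬ ∀ i, (2 : ℤ) ∣ z i) → K = ⊤ := fun z hz ho => by
    rcases odd_cases hK hz ho with h | h
    · exact top_of_link hK h ok5 (Or.inl rfl) hP (p := 971573502535564247891880895701956640) (m := 13576345)
        (by decide +kernel) (by decide +kernel) (pt 22) (by decide +kernel)
    · exact top_of_link hK h ok53 (Or.inr rfl) hP' (p := 549981167584893152184166530255793365) (m := 10278476)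
        (by decide +kernel) (by decide +kernel) (pt 5) (by decide +kernel)
  by_cases h2 : ∀ i, (2 : ℤ) ∣ v i
  · by_cases h4 : ∀ i, (4 : ℤ) ∣ v i
    · have hn := hv.norm
      obtain ⟨f, hf⟩ : ∃ f : GolayPt → ℤ, ∀ i, v i = 4 * f i :=
        ⟨fun i => v i / 4, fun i => by have := h4 i; beta_reduce; omega⟩
      have hk : ∑ i, f i ^ 2 = 4 := by
        have : sqNorm v = 16 * ∑ i, f i ^ 2 := by
          rw [sqNorm, Finset.mul_sum]
          exact Finset.sum_congr rfl fun i _ => by rw [hf]; ring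
        omega
      have h1 : ∀ i, f i ^ 2 ≤ 4 := fun i =>
        hk ▸ Finset.single_le_sum (fun j _ => sq_nonneg (f j)) (Finset.mem_univ i)
      have hsmall : ∀ i, f i = 0 ∨ f i = 1 ∨ f i = -1 := fun i => by
        have := h1 i
        have : -3 < f i := by by_contra; nlinarith
        have : f i < 3 := by by_contra; nlinarith
        by_contra hbig
        have h2' : f i = 2 ∨ f i = -2 := by omega
        refine hvn ⟨i, v i, by have := hf i; omega, funext fun j => ?_⟩
        rcases eq_or_ne j i with rfl | hj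
        · simp
        rw [Pi.single_eq_of_ne hj, hf]
        have h3 : ∑ k ∈ ({i, j} : Finset GolayPt), f k ^ 2 ≤ ∑ k, f k ^ 2 :=
          Finset.sum_le_univ_sum_of_nonneg fun k => sq_nonneg (f k)
        rw [Finset.sum_pair hj.symm, hk] at h3
        have : f i ^ 2 = 4 := by rcases h2' with h | h <;> rw [h] <;> norm_num
        rw [pow_eq_zero_iff two_ne_zero |>.1 (le_antisymm (by omega) (sq_nonneg (f j))), mul_zero]
      refine top_of_tet hK (tet_four hK hv (Finset.univ.filter fun i => f i ≠ 0) (fun i hi => ?_) (fun i hi => ?_) ?_)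
      · have := hsmall i
        have := hf i
        simp at hi
        omega
      · have := hf i
        simp at hi
        omega
      · have e : ∀ i, f i ^ 2 = if f i ≠ 0 then 1 else 0 := fun i => by rcases hsmall i with h | h | h <;> simp [h]
        rw [Finset.sum_congr rfl fun i _ => e i, Finset.sum_boole] at hk
        exact_mod_cast hk
    · obtain ⟨z, hz, ho⟩ := exists_odd hK hv h2 h4
      exact odd z hz ho
  · exact odd v hv h2

end Cfsg.Agent.Golay
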