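import Cfsg.Agent.Golay.FamSelfData
import Cfsg.Agent.Golay.OrbitTools
import Cfsg.Agent.M24Orbits.Orbits

/-! Sextet, trio and dodecad-pair stabilisers: orbits on their own kind, and maximality. -/

set_option autoImplicit false
set_option maxRecDepth 20000

namespace Cfsg.Agent.Golay

open scoped Pointwise
open Cfsg.Agent.M24Orbits (Fam Part partsOK orbitSet crossL toSet)

theorem sexSelf_ok : partsOK M24Orbits.rootSex M24Orbits.gensSex
    [sexSelf0, sexSelf1, sexSelf2, sexSelf3] 1771 = true := by decide +kernel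

theorem triSelf_ok : partsOK M24Orbits.rootTri M24Orbits.gensTri
    [triSelf0, triSelf1, triSelf2, triSelf3, triSelf4] 3795 = true := by decide +kernel

theorem dodSelf_ok : partsOK M24Orbits.rootDod M24Orbits.gensDod
    [dodSelf0, dodSelf1, dodSelf2] 1288 = true := by decide +kernel

/-- Maximality from an orbit certificate. -/
theorem isCoatom_of_parts {R gens : List ℕ} {Ps : List Part} {N : ℕ} {A : Set Fam}
    (h : partsOK R gens Ps N = true) (hA : ∀ g ∈ M24, ∀ X ∈ A, g • X ∈ A) (hN : A.ncard = N)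
    (hroot : ∀ P ∈ Ps, toSet P.2.1 ∈ A) {R' : Fam} (hR' : ∃ g ∈ M24, g • toSet R = R')
    (hRA : R' ∈ A) (htr : ∀ X ∈ A, ∃ g ∈ M24, g • R' = X) (hN1 : 1 < N)
    (hblocks : noBlocks (crossL R R) (Ps.map fun P => (P.2.2.1, P.2.2.2)) N = true) :
    IsCoatom (MulAction.stabilizer M24 R') := by
  classical
  obtain ⟨g0, hg0, rfl⟩ := hR'
  obtain ⟨F, h1, h2, h3⟩ := M24Orbits.orbits_at h hA hN hroot ⟨g0, hg0, rfl⟩
  have hasc : M24Orbits.ascB R = true := by
    simp only [partsOK, Bool.and_eq_true] at h; exact h.1.1.1.1.1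
  have hkeys : (Ps.map fun P => P.2.2.1).Nodup := by
    simp only [partsOK, Bool.and_eq_true, decide_eq_true_eq] at h; exact h.1.1.2
  obtain ⟨X, hX⟩ : ∃ X : Finset Fam, ∀ Y, Y ∈ X ↔ Y ∈ A :=
    ⟨(Set.toFinite A).toFinset, fun Y => Set.Finite.mem_toFinset _⟩
  have hXA : (X : Set Fam) = A := Set.ext fun Y => hX Y
  have hcard : X.card = N := by rw [← hN, ← hXA, Set.ncard_coe_finset]
  have hclass : ∀ P ∈ Ps, ∀ Y ∈ A, M24Orbits.cross (g0 • toSet R) Y = P.2.2.1 →
      Y ∈ orbitSet (g0 • toSet R) (F P) := by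
    intro P hP Y hY e
    obtain ⟨Q, hQ, hYQ⟩ := h2 Y hY
    rw [h3 Q hQ Y hYQ] at e
    rwa [← List.inj_on_of_nodup_map hkeys hQ hP e]
  refine isCoatom_stabilizer X ((hX _).2 hRA) (fun g Y hY => (hX _).2 (hA g.1 g.2 Y ((hX Y).1 hY)))
    (fun Y hY => ?_) (by omega) (fun Y => M24Orbits.cross (g0 • toSet R) Y) ?_
    (Ps.map fun P => (P.2.2.1, P.2.2.2)) (by rw [List.map_map]; exact hkeys) ?_ ?_ ?_
  · obtain ⟨g, hg, e⟩ := htr Y ((hX Y).1 hY)
    exact ⟨⟨g, hg⟩, e⟩
  · intro Y hY Z hZ e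
    obtain ⟨P, hP, hYP⟩ := h2 Y ((hX Y).1 hY)
    rw [h3 P hP Y hYP] at e
    obtain ⟨a, ha, haR, rfl⟩ := hYP
    obtain ⟨b, hb, hbR, rfl⟩ := hclass P hP Z ((hX Z).1 hZ) e.symm
    refine ⟨⟨b, hb⟩ * ⟨a, ha⟩⁻¹, ?_, ?_⟩
    · refine mul_mem ?_ (inv_mem ?_)
      · exact hbR
      · exact haR
    · show (b * a⁻¹) • a • F P = b • F P
      rw [mul_smul, inv_smul_smul]
  · intro Y hY
    obtain ⟨P, hP, hYP⟩ := h2 Y ((hX Y).1 hY)
    rw [List.map_map]
    exact List.mem_map.2 ⟨P, hP, (h3 P hP Y hYP).symm⟩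
  · intro p hp
    obtain ⟨P, hP, rfl⟩ := List.mem_map.1 hp
    rw [← Set.ncard_coe_finset, ← (h1 P hP).2]
    congr 1
    ext Y
    simp only [Finset.coe_filter, Set.mem_ofPred_eq, hX]
    exact ⟨fun hY => hclass P hP Y hY.1 hY.2, fun hY =>
      ⟨M24Orbits.orbitSet_subset hA (h1 P hP).1 hY, h3 P hP Y hY⟩⟩
  · rw [M24Orbits.cross_smul, M24Orbits.crossL_eq hasc hasc, hcard]
    exact hblocks

/-- The root structure lies in one orbit only, its own. -/
theorem orbitSet_eq_singleton {R : Fam} {X : Fam} (hX : (orbitSet R X).ncard = 1)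
    (hR : R ∈ orbitSet R X) : orbitSet R X = {R} := by
  obtain ⟨a, ha⟩ := Set.ncard_eq_one.1 hX
  rw [ha] at hR ⊢
  rw [Set.mem_singleton_iff.1 hR]

theorem sextet_self (S : Fam) (hS : S ∈ sextets) :
    (∃ X₁ ∈ sextets, ∃ X₂ ∈ sextets, ∃ X₃ ∈ sextets,
      (orbitSet S X₁).ncard = 90 ∧ (orbitSet S X₂).ncard = 240 ∧ (orbitSet S X₃).ncard = 1440 ∧
      sextets = {S} ∪ orbitSet S X₁ ∪ orbitSet S X₂ ∪ orbitSet S X₃) ∧
    IsCoatom (MulAction.stabilizer M24 S) := by
  have hA : ∀ g ∈ M24, ∀ X ∈ sextets, g • X ∈ sextets := fun _ hg _ => M24Orbits.smul_mem_sextets hg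
  have hroot : ∀ P ∈ [sexSelf0, sexSelf1, sexSelf2, sexSelf3], toSet P.2.1 ∈ sextets := by
    intro P hP
    refine M24Orbits.sextet_of_list ?_
    revert P; decide +kernel
  refine ⟨?_, isCoatom_of_parts sexSelf_ok hA sextets_ncard hroot (M24Orbits.sextet_of_root hS) hS
    (fun X hX => M24Orbits.sextet_transitive hS hX) (by norm_num) (by decide +kernel)⟩
  obtain ⟨g0, hg0, rfl⟩ := M24Orbits.sextet_of_root hS
  obtain ⟨F, h1, h2, h3⟩ := M24Orbits.orbits_at sexSelf_ok hA sextets_ncard hroot ⟨g0, hg0, rfl⟩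
  have hself : g0 • toSet M24Orbits.rootSex ∈ orbitSet (g0 • toSet M24Orbits.rootSex) (F sexSelf0) := by
    obtain ⟨P, hP, hm⟩ := h2 _ hS
    have e := h3 P hP _ hm
    rw [M24Orbits.cross_smul, M24Orbits.crossL_eq (by decide +kernel) (by decide +kernel)] at e
    have key : ∀ Q ∈ [sexSelf0, sexSelf1, sexSelf2, sexSelf3],
        crossL M24Orbits.rootSex M24Orbits.rootSex = Q.2.2.1 → Q.2.1 = sexSelf0.2.1 ∧ Q = sexSelf0 := by
      intro Q hQ
      simp only [List.mem_cons, List.not_mem_nil, or_false] at hQ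
      rcases hQ with rfl | rfl | rfl | rfl
      · exact fun _ => ⟨rfl, rfl⟩
      all_goals exact fun h => absurd h (by decide +kernel)
    rwa [← (key P hP e).2]
  refine ⟨F sexSelf1, (h1 _ (by simp)).1, F sexSelf2, (h1 _ (by simp)).1, F sexSelf3, (h1 _ (by simp)).1,
    (h1 _ (by simp)).2, (h1 _ (by simp)).2, (h1 _ (by simp)).2, ?_⟩
  rw [← orbitSet_eq_singleton (h1 _ (by simp)).2 hself]
  exact M24Orbits.four_parts hA h1 h2

theorem trio_transitive {T T' : Fam} (hT : T ∈ trios) (hT' : T' ∈ trios) :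
    ∃ g ∈ M24, g • T = T' := by
  obtain ⟨a, ha, rfl⟩ := M24Orbits.trio_of_root hT
  obtain ⟨b, hb, rfl⟩ := M24Orbits.trio_of_root hT'
  exact ⟨b * a⁻¹, mul_mem hb (inv_mem ha), by rw [mul_smul, inv_smul_smul]⟩

theorem trio_self (T : Fam) (hT : T ∈ trios) :
    (∃ X₁ ∈ trios, ∃ X₂ ∈ trios, ∃ X₃ ∈ trios, ∃ X₄ ∈ trios,
      (orbitSet T X₁).ncard = 42 ∧ (orbitSet T X₂).ncard = 56 ∧ (orbitSet T X₃).ncard = 1008 ∧
      (orbitSet T X₄).ncard = 2688 ∧
      trios = {T} ∪ orbitSet T X₁ ∪ orbitSet T X₂ ∪ orbitSet T X₃ ∪ orbitSet T X₄) ∧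
    IsCoatom (MulAction.stabilizer M24 T) := by
  have hA : ∀ g ∈ M24, ∀ X ∈ trios, g • X ∈ trios := fun _ hg _ => M24Orbits.smul_mem_trios hg
  have hroot : ∀ P ∈ [triSelf0, triSelf1, triSelf2, triSelf3, triSelf4], toSet P.2.1 ∈ trios := by
    intro P hP
    refine M24Orbits.trio_of_list ?_
    revert P; decide +kernel
  refine ⟨?_, isCoatom_of_parts triSelf_ok hA trios_ncard hroot (M24Orbits.trio_of_root hT) hT
    (fun X hX => trio_transitive hT hX) (by norm_num) (by decide +kernel)⟩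
  obtain ⟨g0, hg0, rfl⟩ := M24Orbits.trio_of_root hT
  obtain ⟨F, h1, h2, h3⟩ := M24Orbits.orbits_at triSelf_ok hA trios_ncard hroot ⟨g0, hg0, rfl⟩
  have hself : g0 • toSet M24Orbits.rootTri ∈ orbitSet (g0 • toSet M24Orbits.rootTri) (F triSelf0) := by
    obtain ⟨P, hP, hm⟩ := h2 _ hT
    have e := h3 P hP _ hm
    rw [M24Orbits.cross_smul, M24Orbits.crossL_eq (by decide +kernel) (by decide +kernel)] at e
    have key : ∀ Q ∈ [triSelf0, triSelf1, triSelf2, triSelf3, triSelf4],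
        crossL M24Orbits.rootTri M24Orbits.rootTri = Q.2.2.1 → Q = triSelf0 := by
      intro Q hQ
      simp only [List.mem_cons, List.not_mem_nil, or_false] at hQ
      rcases hQ with rfl | rfl | rfl | rfl | rfl
      · exact fun _ => rfl
      all_goals exact fun h => absurd h (by decide +kernel)
    rwa [← key P hP e]
  refine ⟨F triSelf1, (h1 _ (by simp)).1, F triSelf2, (h1 _ (by simp)).1, F triSelf3, (h1 _ (by simp)).1,
    F triSelf4, (h1 _ (by simp)).1,
    (h1 _ (by simp)).2, (h1 _ (by simp)).2, (h1 _ (by simp)).2, (h1 _ (by simp)).2, ?_⟩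
  rw [← orbitSet_eq_singleton (h1 _ (by simp)).2 hself]
  refine Set.Subset.antisymm (fun X hX => ?_) ?_
  · obtain ⟨P, hP, hm⟩ := h2 X hX
    simp only [List.mem_cons, List.not_mem_nil, or_false] at hP
    rcases hP with rfl | rfl | rfl | rfl | rfl
    · exact Or.inl (Or.inl (Or.inl (Or.inl hm)))
    · exact Or.inl (Or.inl (Or.inl (Or.inr hm)))
    · exact Or.inl (Or.inl (Or.inr hm))
    · exact Or.inl (Or.inr hm)
    · exact Or.inr hm
  · refine Set.union_subset (Set.union_subset (Set.union_subset (Set.union_subset ?_ ?_) ?_) ?_) ?_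
    all_goals exact M24Orbits.orbitSet_subset hA (h1 _ (by simp)).1

theorem octad_stab_maximal (o : Finset GolayPt) (ho : o ∈ octads) :
    IsCoatom (MulAction.stabilizer M24 o) := by
  have e : MulAction.stabilizer M24 o = MulAction.stabilizer M24 ({o} : Fam) := by
    ext g
    simp [MulAction.mem_stabilizer_iff, Finset.smul_finset_singleton]
  rw [e]
  refine isCoatom_of_parts M24Orbits.okOctOct (fun _ hg _ => M24Orbits.smul_mem_octFams hg)
    M24Orbits.octFams_ncard (fun P hP => M24Orbits.roots_octad P (by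
      simp only [List.mem_append]; exact Or.inl (Or.inl hP)))
    (M24Orbits.octad_of_root ho) ⟨o, ho, rfl⟩ ?_ (by norm_num) (by decide +kernel)
  rintro X ⟨o', ho', rfl⟩
  obtain ⟨g, hg, e'⟩ := M24_octad_transitive ho ho'
  exact ⟨g, hg, by rw [Finset.smul_finset_singleton, e']⟩

/-- A dodecad with its complement. -/
def dodPairs : Set Fam := (fun d => ({d, dᶜ} : Fam)) '' dodecads

theorem smul_pair (g : Equiv.Perm GolayPt) (d : Finset GolayPt) :
    g • ({d, dᶜ} : Fam) = {g • d, (g • d)ᶜ} := by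
  rw [Finset.smul_finset_insert, Finset.smul_finset_singleton, Finset.compl_eq_univ_sdiff,
    Finset.compl_eq_univ_sdiff, Finset.smul_finset_sdiff, Finset.smul_finset_univ]

theorem compl_dodecad {d : Finset GolayPt} (hd : d ∈ dodecads) : dᶜ ∈ dodecads :=
  ⟨compl_mem_supports hd.1, by rw [Finset.card_compl, card_golayPt, card_dodecad hd]⟩

theorem dodPairs_ncard : dodPairs.ncard = 1288 := by
  have himg : dodPairs = (fun d => ({d, dᶜ} : Fam)) '' {d | d ∈ dodecads ∧ none ∈ d} := by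
    ext Y
    constructor
    · rintro ⟨d, hd, rfl⟩
      by_cases h : none ∈ d
      · exact ⟨d, ⟨hd, h⟩, rfl⟩
      · exact ⟨dᶜ, ⟨compl_dodecad hd, Finset.mem_compl.2 h⟩, by simp only [compl_compl, Finset.pair_comm]⟩
    · rintro ⟨d, hd, rfl⟩; exact ⟨d, hd.1, rfl⟩
  rw [himg, Set.InjOn.ncard_image]
  · rw [ncard_supports_filter (fun n => pc n == 12 && n.testBit 23) _ (fun s => by
      simp [mem_dodecads_iff, show (mask s).testBit 23 = decide (none ∈ s) from testBit_mask s none,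
        and_assoc])]
    decide +kernel
  · intro a ha b hb e
    dsimp only at e
    have h : a ∈ ({b, bᶜ} : Fam) := e ▸ Finset.mem_insert_self a _
    rcases Finset.mem_insert.1 h with h | h
    · exact h
    · exact absurd hb.2 (Finset.mem_compl.1 (Finset.mem_singleton.1 h ▸ ha.2))

theorem dodecad_pair_stab_maximal (d : Finset GolayPt) (hd : d ∈ dodecads) :
    IsCoatom (MulAction.stabilizer M24 ({d, dᶜ} : Fam)) := by
  refine isCoatom_of_parts (A := dodPairs) dodSelf_ok ?_ dodPairs_ncard ?_ ?_ ⟨d, hd, rfl⟩ ?_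
    (by norm_num) (by decide +kernel)
  · rintro g hg _ ⟨d', hd', rfl⟩
    exact ⟨g • d', smul_mem_dodecads hg hd', (smul_pair g d').symm⟩
  · have key : ∀ P ∈ [dodSelf0, dodSelf1, dodSelf2],
        (match P.2.1 with
          | [a, b] => inC a && pc a == 12 && b == 16777215 ^^^ a
          | _ => false) = true := by decide +kernel
    intro P hP
    have h := key P hP
    split at h
    · next a b e =>
      simp only [Bool.and_eq_true, beq_iff_eq] at h
      obtain ⟨⟨ha, h12⟩, rfl⟩ := h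
      refine ⟨bset a, by rw [mem_dodecads_iff, mask_bset (lt_of_inC ha)]; exact ⟨ha, h12⟩, ?_⟩
      rw [e]
      simp [toSet, bset_compl]
    · cases h
  · obtain ⟨g, hg, e⟩ := M24Orbits.dod_of_root hd
    exact ⟨g, hg, by rw [e, Finset.compl_eq_univ_sdiff]⟩
  · rintro X ⟨d', hd', rfl⟩
    obtain ⟨g, hg, e⟩ := M24_dodecad_transitive hd hd'
    exact ⟨g, hg, by rw [smul_pair, e]⟩

end Cfsg.Agent.Golay
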