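import Cfsg.Agent.FGS3.TTLayer
import Cfsg.Agent.Screen.Width1

/-! Commuting pairs in a 3-transposition group with trivial solvable radical and perfect derived group. -/

set_option autoImplicit false
open Cfsg
open scoped commutatorElement

namespace Cfsg.Agent.Golay

open Cfsg.Agent

variable {G : Type*} [Group G] [Finite G] {D : Set G}

theorem fischer_prim (hsol : ∀ N : Subgroup G, N.Normal → Group.IsSolvable ↥N → N = ⊥)
    (hperf : ⁅commutator G, commutator G⁆ = commutator G) (hD : IsThreeTranspositionClass D)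
    (hw : ∃ a ∈ D, ∃ b ∈ D, a ≠ b ∧ Commute a b) : FGS3.TT.Prim D := by
  haveI := Fact.mk Nat.prime_two
  haveI := Fact.mk Nat.prime_three
  have hD2 : ∃ a ∈ D, ∃ b ∈ D, a ≠ b := by
    obtain ⟨a, ha, b, hb, hab, -⟩ := hw
    exact ⟨a, ha, b, hb, hab⟩
  have hs : FGS3.TT.Semisimple D := ⟨hD, hD2,
    (hsol _ inferInstance (FGS3.TT.isSolvable_pCore 2)).le.trans bot_le,
    (hsol _ inferInstance (FGS3.TT.isSolvable_pCore 3)).le.trans bot_le⟩
  have hL := hs.layer_isQuasisimple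
  obtain ⟨a, ha, -⟩ := id hD2
  let π := QuotientGroup.mk' (layer G)
  have hsq : ∀ x ∈ D, x * x = 1 := fun x hx => Screen.tt_mul_self hD.1 hx
  have hwid : Screen.Width1 (π '' D) := by
    refine ⟨?_, ?_, ?_⟩
    · rintro _ ⟨d, hd, rfl⟩
      rw [← map_mul, hsq d hd, map_one]
    · rintro q _ ⟨d, hd, rfl⟩
      obtain ⟨g, rfl⟩ := QuotientGroup.mk'_surjective (layer G) q
      exact ⟨g * d * g⁻¹, FGS3.TT.conj_mem hD g hd, by simp [π]⟩
    · rintro _ ⟨d, hd, rfl⟩ _ ⟨e, he, rfl⟩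
      rw [← map_mul, ← map_pow]
      rcases hD.1.2 d hd e he with h | h
      · have h1 : π (d * e) = 1 :=
          (QuotientGroup.eq_one_iff _).2 (hs.mul_mem_of_sq_mem hL hd he (by rw [h]; exact one_mem _))
        rw [map_pow, h1, one_pow]
      · rw [h, map_one]
  have hN : ∀ e ∈ D, a * e ∈ (pCore 3 (G ⧸ layer G)).comap π := fun e he => by
    rw [Subgroup.mem_comap, map_mul]
    exact hwid.mul_mem_pCore ⟨a, ha, rfl⟩ ⟨e, he, rfl⟩
  have hc3 : commutator G ≤ (pCore 3 (G ⧸ layer G)).comap π := by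
    rw [commutator_eq_closure, Subgroup.closure_le]
    rintro _ ⟨u, v, rfl⟩
    rw [SetLike.mem_coe, ← QuotientGroup.eq_one_iff, ← QuotientGroup.mk'_apply, map_commutatorElement,
      commutatorElement_eq_one_iff_mul_comm]
    exact FGS3.TT.Semisimple.quotient_comm (hs.index_le_two ha hN) _ _
  have hcL : commutator G ≤ layer G := by
    set K := (commutator G).map π with hK
    have hle : K ≤ pCore 3 (G ⧸ layer G) := Subgroup.map_le_iff_le_comap.2 hc3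
    have hKp : ⁅K, K⁆ = K := by rw [hK, ← Subgroup.map_commutator, hperf]
    have hKc := FGS3.TT.perfect_type hKp
    haveI : Group.IsSolvable (pCore 3 (G ⧸ layer G)) := FGS3.TT.isSolvable_pCore 3
    haveI : Group.IsSolvable K :=
      solvable_of_solvable_injective (f := Subgroup.inclusion hle) (Subgroup.inclusion_injective hle)
    have hbot : K = ⊥ := by
      by_contra hne
      haveI : Nontrivial K := (Subgroup.nontrivial_iff_ne_bot K).2 hne
      exact (Group.IsSolvable.commutator_lt_top_of_nontrivial K).ne hKc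
    rw [hK, Subgroup.map_eq_bot_iff, QuotientGroup.ker_mk'] at hbot
    exact hbot
  have hi : (layer G).index ≤ 2 := hs.index_le_two ha fun e he => hs.mul_mem_of_sq_mem hL ha he (by
    have h : (a * e) ^ 2 = ⁅a, e⁆ := by
      rw [commutatorElement_def, FGS3.TT.inv_eq hD.1 ha, FGS3.TT.inv_eq hD.1 he, pow_two, mul_assoc,
        mul_assoc, mul_assoc]
    rw [h]
    exact hcL (Subgroup.commutator_mem_commutator (Subgroup.mem_top a) (Subgroup.mem_top e)))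
  exact ⟨hD, (hs.dich hL hs.generalizedFitting_eq hi).primitive, hw⟩

theorem conj_of_comp (hD : IsThreeTranspositionClass D) {x y z : G} (h : z ∈ FGS3.TT.comp D x y) :
    ∃ g ∈ Subgroup.closure {w : G | w ∈ D ∧ w ≠ x ∧ Commute x w}, g * y * g⁻¹ = z := by
  induction h with
  | refl => exact ⟨1, one_mem _, by simp⟩
  | @tail b c _ hbc ih =>
    obtain ⟨g, hg, rfl⟩ := ih
    obtain ⟨hb, hc, hn⟩ := hbc
    have hbr := Screen.tt_braid hD.1 hb.1 hc.1 hn
    refine ⟨g * y * g⁻¹ * c * g,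
      mul_mem (mul_mem (Subgroup.subset_closure hb) (Subgroup.subset_closure hc)) hg, ?_⟩
    have e : ∀ b : G, b = g * y * g⁻¹ → g * y * g⁻¹ * c * g * y * (g * y * g⁻¹ * c * g)⁻¹ =
        b * c * b * c⁻¹ * b⁻¹ := by
      rintro b rfl; group
    rw [e _ rfl, hbr]
    group

theorem nb_conj_closure (hsol : ∀ N : Subgroup G, N.Normal → Group.IsSolvable ↥N → N = ⊥)
    (hperf : ⁅commutator G, commutator G⁆ = commutator G) (hD : IsThreeTranspositionClass D) {x : G}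
    (hx : x ∈ D) {y y' : G} (hy : y ∈ D ∧ y ≠ x ∧ Commute x y) (hy' : y' ∈ D ∧ y' ≠ x ∧ Commute x y') :
    ∃ g ∈ Subgroup.closure {w : G | w ∈ D ∧ w ≠ x ∧ Commute x w}, g * y * g⁻¹ = y' := by
  have hp := fischer_prim hsol hperf hD ⟨x, hx, y, hy.1, hy.2.1.symm, hy.2.2⟩
  refine conj_of_comp hD ?_
  rw [hp.comp_eq_nb hx (show y ∈ FGS3.TT.Nb D x from hy)]
  exact hy'

theorem sylow_contains_max (hD : IsThreeTranspositionClass D) {E : Set G} (hE : E ⊆ D)
    (hc : ∀ a ∈ E, ∀ b ∈ E, Commute a b)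
    (hmax : ∀ E' : Set G, E' ⊆ D → (∀ a ∈ E', ∀ b ∈ E', Commute a b) → E'.ncard ≤ E.ncard)
    {H : Subgroup G} (hEH : E ⊆ H) :
    ∃ P : Sylow 2 H, {g | g ∈ D ∧ g ∈ (P : Subgroup H).map H.subtype} = E := by
  haveI := Fact.mk Nat.prime_two
  let Q : Subgroup G := Subgroup.closure E
  have hQH : Q ≤ H := (Subgroup.closure_le _).2 hEH
  have hcent : ∀ a ∈ Q, ∀ b ∈ Q, Commute a b := by
    have hle : Q ≤ Subgroup.centralizer (Q : Set G) := by
      rw [Subgroup.closure_le]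
      intro a ha
      rw [SetLike.mem_coe, Subgroup.mem_centralizer_iff]
      have : Q ≤ Subgroup.centralizer ({a} : Set G) := (Subgroup.closure_le _).2 fun b hb =>
        Subgroup.mem_centralizer_singleton_iff.2 (hc b hb a ha).eq
      exact fun b hb => Subgroup.mem_centralizer_singleton_iff.1 (this hb)
    exact fun a ha b hb => (Subgroup.mem_centralizer_iff.1 (hle hb) a ha)
  have hQ2 : ∀ a ∈ Q, a ^ 2 = 1 := by
    intro a ha
    induction ha using Subgroup.closure_induction with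
    | mem x hx => rw [pow_two]; exact Screen.tt_mul_self hD.1 (hE hx)
    | one => exact one_pow _
    | mul x y hx hy e1 e2 => rw [(hcent x hx y hy).mul_pow, e1, e2, one_mul]
    | inv x _ e => rw [inv_pow, e, inv_one]
  have hQp : IsPGroup 2 (Q.subgroupOf H) := fun q => ⟨1, Subtype.ext (Subtype.ext (by
    simpa using hQ2 _ q.2))⟩
  obtain ⟨P, hP⟩ := hQp.exists_le_sylow
  refine ⟨P, ?_⟩
  have hsub : E ⊆ {g | g ∈ D ∧ g ∈ (P : Subgroup H).map H.subtype} := fun e he =>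
    ⟨hE he, ⟨⟨e, hEH he⟩, hP (Subgroup.subset_closure he), rfl⟩⟩
  have hcomm : ∀ a ∈ {g | g ∈ D ∧ g ∈ (P : Subgroup H).map H.subtype},
      ∀ b ∈ {g | g ∈ D ∧ g ∈ (P : Subgroup H).map H.subtype}, Commute a b := by
    rintro a ⟨ha, ha'⟩ b ⟨hb, hb'⟩
    by_contra hne
    have h3 := FGS3.TT.cube_of_not_commute hD.1 ha hb hne
    obtain ⟨k, hk⟩ := (P.isPGroup'.map H.subtype) ⟨a * b, mul_mem ha' hb'⟩
    have hk' : (a * b) ^ 2 ^ k = 1 := by simpa using congrArg Subtype.val hk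
    have h1 : orderOf (a * b) ∣ Nat.gcd (2 ^ k) 3 :=
      Nat.dvd_gcd (orderOf_dvd_of_pow_eq_one hk') (orderOf_dvd_of_pow_eq_one h3)
    rw [(Nat.Coprime.pow_left k (by norm_num : Nat.Coprime 2 3)), Nat.dvd_one, orderOf_eq_one_iff] at h1
    exact hne (by rw [eq_inv_of_mul_eq_one_left h1]; exact (Commute.refl b).inv_left)
  exact (Set.eq_of_subset_of_ncard_le hsub (hmax _ (fun g hg => hg.1) hcomm) (Set.toFinite _)).symm

theorem max_commuting_sylow (hD : IsThreeTranspositionClass D) {E : Set G} (hE : E ⊆ D)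
    (hc : ∀ a ∈ E, ∀ b ∈ E, Commute a b)
    (hmax : ∀ E' : Set G, E' ⊆ D → (∀ a ∈ E', ∀ b ∈ E', Commute a b) → E'.ncard ≤ E.ncard) :
    ∃ P : Sylow 2 G, (P : Subgroup G) ≤ Subgroup.normalizer E := by
  obtain ⟨P, hP⟩ := sylow_contains_max hD hE hc hmax (H := ⊤) (fun _ _ => Subgroup.mem_top _)
  have hsurj : Function.Surjective (⊤ : Subgroup G).subtype := fun g => ⟨⟨g, Subgroup.mem_top g⟩, rfl⟩
  refine ⟨P.mapSurjective hsurj, fun g hg => ?_⟩
  rw [Sylow.coe_mapSurjective] at hg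
  rw [Subgroup.mem_set_normalizer_iff]
  intro e
  rw [← hP]
  refine and_congr ?_ ?_
  · exact ⟨fun h => FGS3.TT.conj_mem hD g h, fun h => by simpa [mul_assoc] using FGS3.TT.conj_mem hD g⁻¹ h⟩
  · exact ⟨fun h => mul_mem (mul_mem hg h) (inv_mem hg),
      fun h => by simpa [mul_assoc] using mul_mem (mul_mem (inv_mem hg) h) hg⟩

theorem max_commuting_two_transitive (hsol : ∀ N : Subgroup G, N.Normal → Group.IsSolvable ↥N → N = ⊥)
    (hperf : ⁅commutator G, commutator G⁆ = commutator G) (hD : IsThreeTranspositionClass D) {E : Set G}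
    (hE : E ⊆ D) (hc : ∀ a ∈ E, ∀ b ∈ E, Commute a b)
    (hmax : ∀ E' : Set G, E' ⊆ D → (∀ a ∈ E', ∀ b ∈ E', Commute a b) → E'.ncard ≤ E.ncard)
    {a b c d : G} (ha : a ∈ E) (hb : b ∈ E) (hc' : c ∈ E) (hd : d ∈ E) (hab : a ≠ b) (hcd : c ≠ d) :
    ∃ g ∈ Subgroup.normalizer E, g * a * g⁻¹ = c ∧ g * b * g⁻¹ = d := by
  haveI := Fact.mk Nat.prime_two
  obtain ⟨g₁, hg₁⟩ := FGS3.TT.exists_conj hD (hE ha) (hE hc')
  have hb1 : g₁ * b * g₁⁻¹ ∈ D ∧ g₁ * b * g₁⁻¹ ≠ c ∧ Commute c (g₁ * b * g₁⁻¹) := by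
    refine ⟨FGS3.TT.conj_mem hD _ (hE hb), fun e => hab ?_, ?_⟩
    · exact (conj_injective (e.trans hg₁.symm)).symm
    · rw [← hg₁]; exact (FGS3.TT.commute_conj_iff _ _ _).2 (hc a ha b hb)
  obtain ⟨g₂, hg₂, hg₂b⟩ :=
    nb_conj_closure hsol hperf hD (hE hc') hb1 ⟨hE hd, hcd.symm, hc c hc' d hd⟩
  have hg₂c : g₂ * c * g₂⁻¹ = c := by
    have : Subgroup.closure {w : G | w ∈ D ∧ w ≠ c ∧ Commute c w} ≤ Subgroup.centralizer ({c} : Set G) :=
      (Subgroup.closure_le _).2 fun w hw => Subgroup.mem_centralizer_singleton_iff.2 hw.2.2.eq.symm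
    rw [Subgroup.mem_centralizer_singleton_iff.1 (this hg₂), mul_inv_cancel_right]
  have hga : g₂ * g₁ * a * (g₂ * g₁)⁻¹ = c := by
    rw [show g₂ * g₁ * a * (g₂ * g₁)⁻¹ = g₂ * (g₁ * a * g₁⁻¹) * g₂⁻¹ by group, hg₁, hg₂c]
  have hgb : g₂ * g₁ * b * (g₂ * g₁)⁻¹ = d := by
    rw [show g₂ * g₁ * b * (g₂ * g₁)⁻¹ = g₂ * (g₁ * b * g₁⁻¹) * g₂⁻¹ by group, hg₂b]
  obtain ⟨g, hg⟩ : ∃ g, g = g₂ * g₁ := ⟨_, rfl⟩
  rw [← hg] at hga hgb
  set E' : Set G := (fun e => g * e * g⁻¹) '' E with hE'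
  have hE'D : E' ⊆ D := by rintro _ ⟨e, he, rfl⟩; exact FGS3.TT.conj_mem hD g (hE he)
  have hc2 : ∀ x ∈ E', ∀ y ∈ E', Commute x y := by
    rintro _ ⟨x, hx, rfl⟩ _ ⟨y, hy, rfl⟩; exact (FGS3.TT.commute_conj_iff _ _ _).2 (hc x hx y hy)
  have hinj : Function.Injective (fun e => g * e * g⁻¹) := fun x y e => by simpa using e
  have hcard : E'.ncard = E.ncard := Set.ncard_image_of_injective _ hinj
  let H : Subgroup G := Subgroup.centralizer ({c, d} : Set G)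
  have hcE' : c ∈ E' := ⟨a, ha, hga⟩
  have hdE' : d ∈ E' := ⟨b, hb, hgb⟩
  have hH : ∀ S : Set G, c ∈ S → d ∈ S → (∀ x ∈ S, ∀ y ∈ S, Commute x y) → S ⊆ H := by
    intro S h1 h2 hS x hx
    rw [SetLike.mem_coe, Subgroup.mem_centralizer_iff]
    rintro y (rfl | rfl)
    · exact (hS y h1 x hx).eq
    · exact (hS y h2 x hx).eq
  obtain ⟨P, hP⟩ := sylow_contains_max hD hE hc hmax (hH E hc' hd hc)
  obtain ⟨P', hP'⟩ := sylow_contains_max hD hE'D hc2 (fun S h1 h2 => hcard ▸ hmax S h1 h2) (hH E' hcE' hdE' hc2)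
  obtain ⟨k, hk⟩ := MulAction.exists_smul_eq ↥H P' P
  have hkE : ∀ x ∈ E', (k : G) * x * (k : G)⁻¹ ∈ E := by
    intro x hx
    rw [← hP'] at hx
    obtain ⟨hxD, q, hq, rfl⟩ := hx
    rw [← hP]
    refine ⟨FGS3.TT.conj_mem hD _ hxD, k * q * k⁻¹, ?_, rfl⟩
    rw [← hk]
    exact ⟨q, hq, rfl⟩
  have hkc : ∀ x ∈ ({c, d} : Set G), (k : G) * x * (k : G)⁻¹ = x := fun x hx => by
    rw [← Subgroup.mem_centralizer_iff.1 k.2 x hx, mul_inv_cancel_right]
  refine ⟨(k : G) * g, ?_, ?_, ?_⟩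
  · rw [Subgroup.mem_set_normalizer_iff]
    have hmaps : ∀ e ∈ E, (k : G) * g * e * ((k : G) * g)⁻¹ ∈ E := fun e he => by
      have := hkE _ ⟨e, he, rfl⟩
      rwa [show (k : G) * g * e * ((k : G) * g)⁻¹ = (k : G) * (g * e * g⁻¹) * (k : G)⁻¹ by group]
    intro e
    refine ⟨hmaps e, fun he => ?_⟩
    obtain ⟨e₀, he₀, e₁⟩ : ∃ e₀ ∈ E, (k : G) * g * e₀ * ((k : G) * g)⁻¹ = (k : G) * g * e * ((k : G) * g)⁻¹ :=
      Set.surj_on_of_inj_on_of_ncard_le (fun e _ => (k : G) * g * e * ((k : G) * g)⁻¹) hmaps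
        (fun x y _ _ h => by simpa using h) le_rfl (Set.toFinite _) _ he |>.imp fun x ⟨h1, h2⟩ => ⟨h1, h2.symm⟩
    have : e₀ = e := by simpa using e₁
    exact this ▸ he₀
  · rw [show (k : G) * g * a * ((k : G) * g)⁻¹ = (k : G) * (g * a * g⁻¹) * (k : G)⁻¹ by group, hga]
    exact hkc c (Or.inl rfl)
  · rw [show (k : G) * g * b * ((k : G) * g)⁻¹ = (k : G) * (g * b * g⁻¹) * (k : G)⁻¹ by group, hgb]
    exact hkc d (Or.inr rfl)

end Cfsg.Agent.Golay
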