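import Cfsg.Prelude.Def_SporadicCombinatorics

/-! The hexacode over a field with four elements, through a tabulated model. -/

set_option autoImplicit false

namespace Cfsg.Agent.Golay

variable {F : Type*} [Field F] [Fintype F] [DecidableEq F]

/-- Addition table of the four-element field on `0, 1, ω, ω + 1` coded `0, 1, 2, 3`. -/
def q4Add (a b : Fin 4) : Fin 4 := Fin.ofNat 4 (a.val ^^^ b.val)

/-- Multiplication table of the four-element field. -/
def q4Mul (a b : Fin 4) : Fin 4 :=
  if a = 0 ∨ b = 0 then 0 else Fin.ofNat 4 ((((a.val - 1) + (b.val - 1)) % 3) + 1)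

/-- The element with a given code. -/
def q4 (ω : F) (i : Fin 4) : F :=
  if i.val = 0 then 0 else if i.val = 1 then 1 else if i.val = 2 then ω else ω + 1

theorem char_two_of_card_four (hF : Fintype.card F = 4) : (2 : F) = 0 := by
  have h := FiniteField.cast_card_eq_zero F
  rw [hF] at h
  have h4 : (2 : F) * 2 = 0 := by
    have : ((4 : ℕ) : F) = (2 : F) * 2 := by norm_num
    rwa [this] at h
  exact mul_self_eq_zero.1 h4

theorem q4_bijective (hF : Fintype.card F = 4) {ω : F} (hω : ω ^ 2 + ω + 1 = 0) :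
    Function.Bijective (q4 ω) := by
  have h2 := char_two_of_card_four hF
  rw [Fintype.bijective_iff_injective_and_card]
  refine ⟨?_, by rw [hF]; rfl⟩
  have h1 : ω ≠ 0 := fun e => by simp [e] at hω
  have h3 : ω ≠ 1 := fun e => by
    subst e
    exact one_ne_zero (by linear_combination hω - h2 : (1 : F) = 0)
  have h4 : ω + 1 ≠ 0 := fun e => h3 (by linear_combination e - h2)
  intro i j h
  fin_cases i <;> fin_cases j <;> simp [q4] at h ⊢ <;>
    first
    | exact h1 h | exact h1 h.symm | exact h3 h | exact h3 h.symm | exact h4 h | exact h4 h.symm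

theorem q4_mul (hF : Fintype.card F = 4) {ω : F} (hω : ω ^ 2 + ω + 1 = 0) (a b : Fin 4) :
    q4 ω a * q4 ω b = q4 ω (q4Mul a b) := by
  have h2 := char_two_of_card_four hF
  fin_cases a <;> fin_cases b <;> simp [q4, q4Mul, Fin.ofNat, Fin.val_ofNat] <;>
    first
    | linear_combination hω - (ω + 1) * h2 | linear_combination hω - h2 | linear_combination hω
    | ring_nf

theorem q4_add (hF : Fintype.card F = 4) {ω : F} (hω : ω ^ 2 + ω + 1 = 0) (a b : Fin 4) :
    q4 ω a + q4 ω b = q4 ω (q4Add a b) := by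
  have h2 := char_two_of_card_four hF
  fin_cases a <;> fin_cases b <;> simp [q4, q4Add, Fin.ofNat, Fin.val_ofNat] <;>
    first
    | linear_combination h2 | linear_combination ω * h2 | linear_combination (ω + 1) * h2 | ring_nf

/-- The three generators, coded. -/
def hexGen : List (List (Fin 4)) := [[2, 3, 3, 2, 3, 2], [3, 2, 2, 3, 3, 2], [3, 2, 3, 2, 2, 3]]

/-- The word with given coefficients, coded. -/
def hexWord (a b c : Fin 4) (i : Fin 6) : Fin 4 :=
  q4Add (q4Add (q4Mul a ((hexGen.getD 0 []).getD i.val 0)) (q4Mul b ((hexGen.getD 1 []).getD i.val 0)))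
    (q4Mul c ((hexGen.getD 2 []).getD i.val 0))

/-- The word with given coefficient triple, in the field. -/
def hexWordF (ω : F) (t : Fin 4 × Fin 4 × Fin 4) : Fin 6 → F :=
  fun i => q4 ω (hexWord t.1 t.2.1 t.2.2 i)

theorem hexacode_eq_range (hF : Fintype.card F = 4) {ω : F} (hω : ω ^ 2 + ω + 1 = 0) :
    (hexacode F ω : Set (Fin 6 → F)) = Set.range (hexWordF ω) := by
  have h2 := char_two_of_card_four hF
  have e2 : q4 ω 2 = ω := rfl
  have e3 : q4 ω 3 = ω ^ 2 := by
    show ω + 1 = ω ^ 2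
    linear_combination (ω + 1) * h2 - hω
  have hg : ∀ a b c : Fin 4, q4 ω a • ![ω, ω ^ 2, ω ^ 2, ω, ω ^ 2, ω]
      + q4 ω b • ![ω ^ 2, ω, ω, ω ^ 2, ω ^ 2, ω] + q4 ω c • ![ω ^ 2, ω, ω ^ 2, ω, ω, ω ^ 2]
      = hexWordF ω (a, b, c) := by
    intro a b c
    funext i
    simp only [hexWordF, hexWord, Pi.add_apply, Pi.smul_apply, smul_eq_mul, ← q4_add hF hω,
      ← q4_mul hF hω]
    fin_cases i <;> simp [hexGen, e2, e3]
  ext x
  simp only [SetLike.mem_coe, hexacode, Submodule.mem_span_triple, Set.mem_range, Prod.exists]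
  constructor
  · rintro ⟨a, b, c, rfl⟩
    obtain ⟨a, rfl⟩ := (q4_bijective hF hω).2 a
    obtain ⟨b, rfl⟩ := (q4_bijective hF hω).2 b
    obtain ⟨c, rfl⟩ := (q4_bijective hF hω).2 c
    exact ⟨a, b, c, (hg a b c).symm⟩
  · rintro ⟨a, b, c, rfl⟩
    exact ⟨_, _, _, hg a b c⟩

theorem hexWord_inj : ∀ t t' : Fin 4 × Fin 4 × Fin 4,
    (∀ i, hexWord t.1 t.2.1 t.2.2 i = hexWord t'.1 t'.2.1 t'.2.2 i) → t = t' := by
  have key : ∀ t : Fin 4 × Fin 4 × Fin 4, t = ((fun w : Fin 6 → Fin 4 =>
      (List.finRange 4).flatMap fun a => (List.finRange 4).flatMap fun b =>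
        (List.finRange 4).filterMap fun c =>
          if (List.finRange 6).all (fun i => hexWord a b c i == w i) then some (a, b, c) else none)
      (hexWord t.1 t.2.1 t.2.2)).headD (0, 0, 0) := by decide +kernel
  intro t t' h
  rw [key t, key t', funext h]

theorem hexWordF_injective (hF : Fintype.card F = 4) {ω : F} (hω : ω ^ 2 + ω + 1 = 0) :
    Function.Injective (hexWordF ω) := fun t t' h =>
  hexWord_inj t t' fun i => (q4_bijective hF hω).1 (congrFun h i)

theorem hexWordF_support (hF : Fintype.card F = 4) {ω : F} (hω : ω ^ 2 + ω + 1 = 0)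
    (t : Fin 4 × Fin 4 × Fin 4) : (Finset.univ.filter fun i => hexWordF ω t i ≠ 0) =
      Finset.univ.filter fun i => hexWord t.1 t.2.1 t.2.2 i ≠ 0 := by
  have h0 : (0 : F) = q4 ω 0 := rfl
  refine Finset.filter_congr fun i _ => ?_
  rw [hexWordF, h0, (q4_bijective hF hω).1.ne_iff]

theorem hexWord_weights : ∀ t : Fin 4 × Fin 4 × Fin 4, t ≠ (0, 0, 0) →
    (Finset.univ.filter fun i => hexWord t.1 t.2.1 t.2.2 i ≠ 0).card = 4 ∨
    (Finset.univ.filter fun i => hexWord t.1 t.2.1 t.2.2 i ≠ 0).card = 6 := by decide +kernel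

theorem hexWord_count (n : ℕ) (hn : n = 4 ∨ n = 6) : (Finset.univ.filter fun t : Fin 4 × Fin 4 × Fin 4 =>
    (Finset.univ.filter fun i => hexWord t.1 t.2.1 t.2.2 i ≠ 0).card = n).card
      = if n = 4 then 45 else 18 := by
  rcases hn with rfl | rfl <;> decide +kernel

end Cfsg.Agent.Golay
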