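import Cfsg.Agent.Golay.Hexacode
import Mathlib.GroupTheory.SpecificGroups.Alternating

/-! Monomial automorphisms of the hexacode. -/

set_option autoImplicit false
set_option maxRecDepth 20000
open Cfsg

namespace Cfsg.Agent.Golay

/-- Inverse in the tabulated field. -/
def q4Inv (a : Fin 4) : Fin 4 := if a = 2 then 3 else if a = 3 then 2 else a

/-- The coded words as a bit set. -/
def hexMask : ℕ := 15936109640703621012752996146547452567624007270905024365018011038221850692485324561270740746450941254939322419320739101985598172768020259715960908334670033575885057798287373467775661163029513492818397235503800534144300529066610297535609585979184535653561298574200659972787938960755106975224950041905358774774402567509053140054033726118933697981023298167992359376127296493447154700525515720950481920073218405542402860021512233722597791561416840422872251943986523302195987331409109478822753007686838851328743034935700110173937536016384151022152209797616787386177940364193462243144044580679504639441708371435193478723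240328002550209466620851020090052241130453400108202998835288154409138019100076475440502330193490173069219740879175789587647782078240515513035029345884450202438265290643246947196003675334081798523450300290716076459051855200496187886916677654781911455153070666641470937264148011627284351033721204138925524692498526816446989638678840133581204897183874797561855980026512046456025086024131550686483551368135784902933040555005792160154558948096275402864844131974528765259234055239994371268127507508356081506202671245876262197883489361740626226294258822557758488605950932915381609774502691439001733660959279681850797195265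

/-- A number for a list of field codes. -/
def hexEnc (c : List (Fin 4)) : ℕ := c.foldr (fun a n => a.val + 4 * n) 0

/-- Coded generators. -/
def hexG (k : ℕ) (i : Fin 6) : Fin 4 := (hexGen.getD k []).getD i.val 0

/-- All coefficient triples. -/
def hexTriples : List (Fin 4 × Fin 4 × Fin 4) :=
  (List.finRange 4).flatMap fun a => (List.finRange 4).flatMap fun b => (List.finRange 4).map fun c => (a, b, c)

/-- All words. -/
def hexWords : List (List (Fin 4)) :=
  hexTriples.map fun t => List.ofFn fun i => hexWord t.1 t.2.1 t.2.2 i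

/-- Words without zero entries. -/
def hexFull : List (List (Fin 4)) := hexWords.filter fun w => w.all fun a => a != 0

/-- Does the map send a generator into the code. -/
def hexChk (p : List (Fin 6)) (c : List (Fin 4)) (k : ℕ) : Bool :=
  hexMask.testBit (hexEnc ((c.zip p).map fun q => q4Mul q.1 (hexG k q.2)))

/-- The scalings admissible with a permutation. -/
def hexSol (p : List (Fin 6)) : List (List (Fin 4)) :=
  (hexFull.map fun w => (w.zip p).map fun q => q4Mul q.1 (q4Inv (hexG 0 q.2))).filter fun c =>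
    hexChk p c 1 && hexChk p c 2

/-- Parity of inversions. -/
def invPar : List (Fin 6) → Bool
  | [] => false
  | a :: l => Bool.xor ((l.filter fun b => decide (b < a)).length % 2 == 1) (invPar l)

theorem hexMask_ok : ((List.range 4096).all fun n => hexMask.testBit n == (hexWords.map hexEnc).contains n) = true := by
  decide +kernel

theorem hexSol_ok : ((List.finRange 6).permutations'.all fun p =>
    (hexSol p).length == (bif invPar p then 0 else 3) && decide (hexSol p).Nodup &&
      (hexSol p).all fun c => p != List.finRange 6 || c.all fun a => c.all fun b => a == b) = true := by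
  decide +kernel

theorem sign_invPar : ∀ σ : Equiv.Perm (Fin 6), decide (Equiv.Perm.sign σ = 1) = !invPar (List.ofFn σ) := by
  decide +kernel

theorem hexEnc_inj : ∀ l l' : List (Fin 4), l.length = l'.length → hexEnc l = hexEnc l' → l = l'
  | [], [], _, _ => rfl
  | a :: l, b :: l', hl, h => by
    simp only [hexEnc, List.foldr_cons] at h
    have ha := a.isLt
    have hb := b.isLt
    obtain rfl : a = b := Fin.ext (by omega)
    rw [hexEnc_inj l l' (by simpa using hl) (by simp only [hexEnc]; omega)]
  | [], _ :: _, hl, _ => by simp at hl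
  | _ :: _, [], hl, _ => by simp at hl

theorem hexEnc_lt : ∀ l : List (Fin 4), hexEnc l < 4 ^ l.length
  | [] => by simp [hexEnc]
  | a :: l => by
    have := hexEnc_lt l
    have ha := a.isLt
    simp only [hexEnc, List.foldr_cons, List.length_cons, pow_succ] at this ⊢
    omega

theorem hexWord_mask (w : Fin 6 → Fin 4) :
    hexMask.testBit (hexEnc (List.ofFn w)) = true ↔ ∃ t : Fin 4 × Fin 4 × Fin 4, (fun i => hexWord t.1 t.2.1 t.2.2 i) = w := by
  have hlt : hexEnc (List.ofFn w) < 4096 := by simpa using hexEnc_lt (List.ofFn w)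
  have h := List.all_eq_true.1 hexMask_ok _ (List.mem_range.2 hlt)
  rw [beq_iff_eq] at h
  rw [h, List.contains_iff_mem, List.mem_map]
  constructor
  · rintro ⟨l, hl, e⟩
    obtain ⟨t, -, rfl⟩ := List.mem_map.1 hl
    exact ⟨t, List.ofFn_injective (hexEnc_inj _ _ (by simp) e)⟩
  · rintro ⟨t, rfl⟩
    exact ⟨_, List.mem_map.2 ⟨t, by simp [hexTriples], rfl⟩, rfl⟩

theorem ofFn_mem_perms (σ : Equiv.Perm (Fin 6)) : List.ofFn σ ∈ (List.finRange 6).permutations' :=
  List.mem_permutations'.2 (List.perm_of_nodup_nodup_toFinset_eq (List.nodup_ofFn.2 σ.injective)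
    (List.nodup_finRange 6) (by
      ext i
      simp only [List.mem_toFinset, List.mem_ofFn, List.mem_finRange, iff_true]
      exact ⟨σ.symm i, by simp⟩))

theorem q4_cancel : ∀ a b : Fin 4, b ≠ 0 → q4Mul (q4Mul a b) (q4Inv b) = a ∧ q4Mul (q4Mul a (q4Inv b)) b = a := by
  decide +kernel

theorem q4_nonzero : ∀ a b : Fin 4, a ≠ 0 → b ≠ 0 → q4Mul a b ≠ 0 ∧ q4Mul a (q4Inv b) ≠ 0 := by decide +kernel

theorem hexG_ne : ∀ i, hexG 0 i ≠ 0 := by decide +kernel

theorem hexG_word : ∀ (k : Fin 3) (i : Fin 6), hexWord (if k = 0 then 1 else 0) (if k = 1 then 1 else 0)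
    (if k = 2 then 1 else 0) i = hexG k.val i := by decide +kernel

theorem zip_map_ofFn {n : ℕ} {α β γ : Type*} (f : Fin n → α) (g : Fin n → β) (h : α → β → γ) :
    ((List.ofFn f).zip (List.ofFn g)).map (fun q => h q.1 q.2) = List.ofFn fun i => h (f i) (g i) := by
  apply List.ext_getElem <;> simp

/-- Coded form of the condition. -/
def CodedAut (σ : Equiv.Perm (Fin 6)) (cc : Fin 6 → Fin 4) : Prop :=
  (∀ i, cc i ≠ 0) ∧ ∀ k < 3, ∃ t : Fin 4 × Fin 4 × Fin 4,
    (fun i => hexWord t.1 t.2.1 t.2.2 i) = fun i => q4Mul (cc i) (hexG k (σ.symm i))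

theorem codedAut_iff (σ : Equiv.Perm (Fin 6)) (cc : Fin 6 → Fin 4) :
    CodedAut σ cc ↔ List.ofFn cc ∈ hexSol (List.ofFn σ.symm) := by
  have hchk : ∀ k, hexChk (List.ofFn σ.symm) (List.ofFn cc) k = true ↔ ∃ t : Fin 4 × Fin 4 × Fin 4,
      (fun i => hexWord t.1 t.2.1 t.2.2 i) = fun i => q4Mul (cc i) (hexG k (σ.symm i)) := fun k => by
    rw [hexChk, zip_map_ofFn cc σ.symm fun a b => q4Mul a (hexG k b), hexWord_mask]
  simp only [hexSol, List.mem_filter, List.mem_map, Bool.and_eq_true, hchk]
  constructor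
  · rintro ⟨h0, h⟩
    refine ⟨?_, h 1 (by norm_num), h 2 (by norm_num)⟩
    obtain ⟨t, ht⟩ := h 0 (by norm_num)
    refine ⟨List.ofFn fun i => hexWord t.1 t.2.1 t.2.2 i, ?_, ?_⟩
    · simp only [hexFull, List.mem_filter, List.all_eq_true, bne_iff_ne, List.mem_ofFn, forall_exists_index,
        forall_apply_eq_imp_iff]
      refine ⟨List.mem_map.2 ⟨t, by simp [hexTriples], rfl⟩, fun i => ?_⟩
      rw [congrFun ht i]
      exact (q4_nonzero _ _ (h0 i) (hexG_ne _)).1
    · rw [zip_map_ofFn _ σ.symm fun a b => q4Mul a (q4Inv (hexG 0 b))]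
      refine congrArg List.ofFn (funext fun i => ?_)
      rw [congrFun ht i]
      exact (q4_cancel _ _ (hexG_ne _)).1
  · rintro ⟨⟨w, hw, e⟩, h1, h2⟩
    simp only [hexFull, List.mem_filter, List.all_eq_true, bne_iff_ne, hexWords, List.mem_map] at hw
    obtain ⟨⟨t, -, rfl⟩, hne⟩ := hw
    rw [zip_map_ofFn _ σ.symm fun a b => q4Mul a (q4Inv (hexG 0 b))] at e
    have e' := congrFun (List.ofFn_injective e)
    refine ⟨fun i => ?_, fun k hk => ?_⟩
    · rw [← e' i]
      exact (q4_nonzero _ _ (hne _ (List.mem_ofFn.2 ⟨i, rfl⟩)) (hexG_ne _)).2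
    · interval_cases k
      · exact ⟨t, funext fun i => by rw [← e' i, (q4_cancel _ _ (hexG_ne _)).2]⟩
      · exact h1
      · exact h2

section
variable {F : Type*} [Field F] [Fintype F] [DecidableEq F]

theorem hexWordF_gen (ω : F) (k : Fin 3) : ∃ t, hexWordF ω t = fun i => q4 ω (hexG k.val i) :=
  ⟨(if k = 0 then 1 else 0, if k = 1 then 1 else 0, if k = 2 then 1 else 0),
    funext fun i => by rw [hexWordF, hexG_word]⟩

theorem hexMon_iff (hF : Fintype.card F = 4) {ω : F} (hω : ω ^ 2 + ω + 1 = 0) (σ : Equiv.Perm (Fin 6))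
    (c : Fin 6 → Fˣ) (cc : Fin 6 → Fin 4) (hcc : ∀ i, q4 ω (cc i) = c i) :
    (∀ x ∈ hexacode F ω, monomialMap σ c x ∈ hexacode F ω) ↔ CodedAut σ cc := by
  have hq := (q4_bijective hF hω).1
  have hmem : ∀ x, x ∈ hexacode F ω ↔ ∃ t, hexWordF ω t = x := fun x => by
    rw [← SetLike.mem_coe, hexacode_eq_range hF hω]; rfl
  have himg : ∀ k : Fin 3, monomialMap σ c (fun i => q4 ω (hexG k.val i)) =
      fun i => q4 ω (q4Mul (cc i) (hexG k.val (σ.symm i))) := fun k => funext fun i => by
    rw [monomialMap, ← hcc i, q4_mul hF hω]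
  constructor
  · intro h
    refine ⟨fun i e => (c i).ne_zero ?_, fun k hk => ?_⟩
    · rw [← hcc i, e]; rfl
    · obtain ⟨t, ht⟩ := hexWordF_gen ω ⟨k, hk⟩
      obtain ⟨t', ht'⟩ := (hmem _).1 (h _ ((hmem _).2 ⟨t, ht⟩))
      rw [himg ⟨k, hk⟩] at ht'
      exact ⟨t', funext fun i => hq (congrFun ht' i)⟩
  · rintro ⟨-, h⟩
    let L : (Fin 6 → F) →ₗ[F] (Fin 6 → F) :=
      { toFun := monomialMap σ c
        map_add' := fun x y => funext fun i => by simp [monomialMap, mul_add]
        map_smul' := fun a x => funext fun i => by simp [monomialMap, mul_left_comm] }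
    have e2 : q4 ω 2 = ω := rfl
    have e3 : q4 ω 3 = ω ^ 2 := by
      show ω + 1 = ω ^ 2
      linear_combination (ω + 1) * char_two_of_card_four hF - hω
    suffices hle : hexacode F ω ≤ Submodule.comap L (hexacode F ω) by
      intro x hx
      exact Submodule.mem_comap.1 (hle hx)
    conv_lhs => rw [hexacode]
    have step : ∀ (k : Fin 3) (v : Fin 6 → F), v = (fun i => q4 ω (hexG k.val i)) →
        v ∈ (hexacode F ω).comap L := by
      rintro k v rfl
      rw [Submodule.mem_comap]
      show monomialMap σ c (fun i => q4 ω (hexG k.val i)) ∈ hexacode F ω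
      rw [himg, hmem]
      obtain ⟨t, ht⟩ := h k.val k.isLt
      exact ⟨t, funext fun i => by rw [hexWordF, congrFun ht i]⟩
    rw [Submodule.span_le]
    rintro v (rfl | rfl | rfl)
    · exact step 0 _ (funext fun i => by fin_cases i <;> simp [hexG, hexGen, e2, e3])
    · exact step 1 _ (funext fun i => by fin_cases i <;> simp [hexG, hexGen, e2, e3])
    · exact step 2 _ (funext fun i => by fin_cases i <;> simp [hexG, hexGen, e2, e3])

theorem hexAut_facts (hF : Fintype.card F = 4) {ω : F} (hω : ω ^ 2 + ω + 1 = 0) :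
    Nat.card {f : Equiv.Perm (Fin 6) × (Fin 6 → Fˣ) //
        (∀ x ∈ hexacode F ω, monomialMap f.1 f.2 x ∈ hexacode F ω)} = 1080 ∧
      (∀ c : Fin 6 → Fˣ, (∀ x ∈ hexacode F ω, monomialMap 1 c x ∈ hexacode F ω) → ∀ i j, c i = c j) ∧
      {σ : Equiv.Perm (Fin 6) | ∃ c : Fin 6 → Fˣ, (∀ x ∈ hexacode F ω, monomialMap σ c x ∈ hexacode F ω)} =
        (alternatingGroup (Fin 6) : Set (Equiv.Perm (Fin 6))) := by
  classical
  obtain ⟨code, hcode⟩ : ∃ code : F → Fin 4, ∀ a, q4 ω (code a) = a :=
    ⟨_, Function.surjInv_eq (q4_bijective hF hω).2⟩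
  have hq := (q4_bijective hF hω).1
  let key : (Fin 6 → Fˣ) → List (Fin 4) := fun c => List.ofFn fun i => code (c i)
  have hiff : ∀ σ c, (∀ x ∈ hexacode F ω, monomialMap σ c x ∈ hexacode F ω) ↔ key c ∈ hexSol (List.ofFn σ.symm) :=
    fun σ c => (hexMon_iff hF hω σ c _ fun i => hcode _).trans (codedAut_iff σ _)
  have hkey : Function.Injective key := fun c c' e => funext fun i => Units.ext (by
    rw [← hcode (c i : F), ← hcode (c' i : F), congrFun (List.ofFn_injective e) i])
  have hsol : ∀ σ : Equiv.Perm (Fin 6), (hexSol (List.ofFn σ.symm)).length = (if Equiv.Perm.sign σ = 1 then 3 else 0) ∧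
      (hexSol (List.ofFn σ.symm)).Nodup ∧ (σ = 1 → ∀ c ∈ hexSol (List.ofFn σ.symm), ∀ a ∈ c, ∀ b ∈ c, a = b) := by
    intro σ
    have h := List.all_eq_true.1 hexSol_ok _ (ofFn_mem_perms σ.symm)
    simp only [Bool.and_eq_true, beq_iff_eq, decide_eq_true_eq, List.all_eq_true, Bool.or_eq_true,
      bne_iff_ne] at h
    obtain ⟨⟨h1, h2⟩, h3⟩ := h
    refine ⟨?_, h2, fun hσ c hc a ha b hb => ?_⟩
    · have hs := sign_invPar σ.symm
      rw [Equiv.Perm.sign_symm] at hs
      rw [h1]
      cases hp : invPar (List.ofFn σ.symm) <;> simp_all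
    · subst hσ
      exact (h3 c hc).resolve_left (fun e => e (by rfl)) a ha b hb
  have hsurj : ∀ σ : Equiv.Perm (Fin 6), ∀ l ∈ hexSol (List.ofFn σ.symm), ∃ c, key c = l := by
    intro σ l hl
    obtain ⟨cc, rfl⟩ : ∃ cc : Fin 6 → Fin 4, List.ofFn cc = l := by
      have hlen : l.length = 6 := by
        simp only [hexSol, List.mem_filter, List.mem_map, hexFull, hexWords] at hl
        obtain ⟨⟨w, ⟨⟨t, -, rfl⟩, -⟩, rfl⟩, -⟩ := hl
        simp
      exact ⟨fun i => l[i.val]'(by omega), List.ext_getElem (by simp [hlen]) fun n h1 h2 => by simp only [List.getElem_ofFn]⟩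
    obtain ⟨hne, -⟩ := (codedAut_iff σ cc).2 hl
    refine ⟨fun i => Units.mk0 (q4 ω (cc i)) fun e => hne i (hq e), congrArg List.ofFn (funext fun i => hq ?_)⟩
    rw [hcode]
    rfl
  refine ⟨?_, fun c hc i j => ?_, ?_⟩
  · rw [Nat.card_congr (Equiv.subtypeProdEquivSigmaSubtype fun σ c =>
      ∀ x ∈ hexacode F ω, monomialMap σ c x ∈ hexacode F ω), Nat.card_sigma]
    have hfib : ∀ σ : Equiv.Perm (Fin 6),
        Nat.card {c : Fin 6 → Fˣ // ∀ x ∈ hexacode F ω, monomialMap σ c x ∈ hexacode F ω} =
          if Equiv.Perm.sign σ = 1 then 3 else 0 := by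
      intro σ
      obtain ⟨h1, h2, -⟩ := hsol σ
      rw [← h1, ← List.toFinset_card_of_nodup h2, ← Nat.card_eq_finsetCard]
      refine Nat.card_eq_of_bijective (fun c => ⟨key c.1, List.mem_toFinset.2 ((hiff σ c.1).1 c.2)⟩) ⟨?_, ?_⟩
      · exact fun a b e => Subtype.ext (hkey (congrArg Subtype.val e))
      · rintro ⟨l, hl⟩
        obtain ⟨c, rfl⟩ := hsurj σ l (List.mem_toFinset.1 hl)
        exact ⟨⟨c, (hiff σ c).2 (List.mem_toFinset.1 hl)⟩, rfl⟩
    rw [Finset.sum_congr rfl fun σ _ => hfib σ]
    decide +kernel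
  · obtain ⟨-, -, h⟩ := hsol 1
    refine Units.ext ?_
    rw [← hcode (c i : F), ← hcode (c j : F), h rfl _ ((hiff 1 c).1 hc) (code (c i)) (List.mem_ofFn.2 ⟨i, rfl⟩)
      (code (c j)) (List.mem_ofFn.2 ⟨j, rfl⟩)]
  · ext σ
    rw [Set.mem_ofPred_eq, SetLike.mem_coe, Equiv.Perm.mem_alternatingGroup]
    obtain ⟨h1, -, -⟩ := hsol σ
    constructor
    · rintro ⟨c, hc⟩
      by_contra hs
      rw [if_neg hs, List.length_eq_zero_iff] at h1
      have := (hiff σ c).1 hc
      rw [h1] at this
      simp at this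
    · intro hs
      rw [if_pos hs] at h1
      obtain ⟨l, hl⟩ : ∃ l, l ∈ hexSol (List.ofFn σ.symm) :=
        List.exists_mem_of_length_pos (by omega)
      obtain ⟨c, rfl⟩ := hsurj σ l hl
      exact ⟨c, (hiff σ c).2 hl⟩

end

end Cfsg.Agent.Golay
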