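import Cfsg.Agent.Golay.J2Data
import Cfsg.Agent.SmallOrder.Basic
import Cfsg.Agent.Golay.Orbits
import Cfsg.Prelude.Def_Sporadic

/-! A simple permutation group of degree 100 and order 604800, from a certified chain. -/

set_option autoImplicit false
set_option maxRecDepth 20000

namespace Cfsg.Agent.Golay.J2

open scoped Pointwise

/-- Entry of a packed permutation. -/
def app (c i : ℕ) : ℕ := (c >>> (7 * i)) &&& 127

/-- Union of the images. -/
def imgMask (c : ℕ) : ℕ := (List.range 100).foldl (fun a i => a ||| (1 <<< app c i)) 0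

/-- The code is a permutation. -/
def permOK (c : ℕ) : Bool :=
  (List.range 100).all (fun i => decide (app c i < 100)) &&
    (List.range 100).all (fun j => (imgMask c).testBit j)

theorem testBit_foldl (c : ℕ) : ∀ (l : List ℕ) (a j : ℕ),
    (l.foldl (fun a i => a ||| (1 <<< app c i)) a).testBit j = true ↔
      a.testBit j = true ∨ ∃ i ∈ l, app c i = j
  | [], a, j => by simp
  | i :: l, a, j => by
    rw [List.foldl_cons, testBit_foldl c l]
    simp [Nat.one_shiftLeft, Nat.testBit_two_pow, or_assoc]

/-- The action of a code. -/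
def fn (c : ℕ) (i : Fin 100) : Fin 100 := ⟨app c i % 100, Nat.mod_lt _ (by norm_num)⟩

theorem fn_val {c : ℕ} (h : permOK c = true) (i : Fin 100) : (fn c i : ℕ) = app c i := by
  simp only [permOK, Bool.and_eq_true, List.all_eq_true, List.mem_range, decide_eq_true_eq] at h
  exact Nat.mod_eq_of_lt (h.1 i i.2)

theorem fn_bij {c : ℕ} (h : permOK c = true) : Function.Bijective (fn c) := by
  refine (Finite.surjective_iff_bijective).1 fun j => ?_
  have hv := fn_val h
  simp only [permOK, Bool.and_eq_true, List.all_eq_true, List.mem_range, imgMask,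
    testBit_foldl, Nat.zero_testBit, Bool.false_eq_true, false_or] at h
  obtain ⟨i, hi, e⟩ := h.2 j j.2
  exact ⟨⟨i, hi⟩, Fin.ext ((hv _).trans e)⟩

open scoped Classical in
/-- The permutation of a code. -/
noncomputable def pOf (c : ℕ) : Equiv.Perm (Fin 100) :=
  if h : permOK c = true then Equiv.ofBijective (fn c) (fn_bij h) else 1

theorem pOf_apply {c : ℕ} (h : permOK c = true) (i : Fin 100) : (pOf c i : ℕ) = app c i := by
  rw [pOf, dif_pos h]; exact fn_val h i

/-- One level: base point, generators, transversal, witnesses, origin of the next generators. -/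
structure Lvl where
  b : ℕ
  gens : List ℕ
  trans : List (ℕ × ℕ × ℕ)
  wit : List (ℕ × List ℕ)
  deriv : List (ℕ × ℕ × ℕ)

/-- A transversal element. -/
def Lvl.t (L : Lvl) (i : ℕ) : ℕ := (L.trans.getD i (0, 0, 0)).1

/-- A generator. -/
def Lvl.g (L : Lvl) (i : ℕ) : ℕ := L.gens.getD i 0

/-- Generators of the head level. -/
def gensOf : List Lvl → List ℕ
  | [] => []
  | L :: _ => L.gens

/-- Product of representatives, applied to a point. -/
def prodApp : List Lvl → List ℕ → ℕ → ℕ
  | L :: rest, j :: js, i => app (L.t j) (prodApp rest js i)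
  | _, _, i => i

/-- Indices are in range. -/
def idxOK : List Lvl → List ℕ → Bool
  | L :: rest, j :: js => decide (j < L.trans.length) && idxOK rest js
  | _, _ => true

/-- Product of the orbit lengths. -/
def total : List Lvl → ℕ
  | [] => 1
  | L :: rest => L.trans.length * total rest

/-- One level is correct. -/
def lvlOK (L : Lvl) (rest : List Lvl) : Bool :=
  decide (L.b < 100) && L.gens.all permOK && decide (0 < L.trans.length) &&
  ((List.range L.trans.length).all fun k =>
    permOK (L.t k) &&
      bif k == 0 then (List.range 100).all (fun i => app (L.t k) i == i)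
      else
        let e := L.trans.getD k (0, 0, 0)
        decide (e.2.2 < k) && decide (e.2.1 < L.gens.length) &&
          (List.range 100).all fun i => app (L.t k) i == app (L.g e.2.1) (app (L.t e.2.2) i)) &&
  ((List.range L.trans.length).all fun k => (List.range k).all fun l =>
    !(app (L.t k) L.b == app (L.t l) L.b)) &&
  ((List.range L.gens.length).all fun s => (List.range L.trans.length).all fun k =>
    let w := L.wit.getD (s * L.trans.length + k) (0, [])
    decide (w.1 < L.trans.length) && idxOK rest w.2 &&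
      (List.range 100).all fun i => app (L.g s) (app (L.t k) i) == app (L.t w.1) (prodApp rest w.2 i)) &&
  ((List.range (gensOf rest).length).all fun j =>
    let d := L.deriv.getD j (0, 0, 0)
    let u := (gensOf rest).getD j 0
    permOK u && decide (d.1 < L.gens.length) && decide (d.2.1 < L.trans.length) &&
      decide (d.2.2 < L.trans.length) && app u L.b == L.b &&
      (List.range 100).all fun i => app (L.g d.1) (app (L.t d.2.1) i) == app (L.t d.2.2) (app u i))

/-- The whole chain is correct. -/
def chainOK : List Lvl → Bool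
  | [] => true
  | L :: rest => lvlOK L rest && chainOK rest

/-- The group at the head of a chain. -/
noncomputable def grp (Ls : List Lvl) : Subgroup (Equiv.Perm (Fin 100)) :=
  Subgroup.closure {p | ∃ c ∈ gensOf Ls, pOf c = p}

theorem app_lt {c : ℕ} (h : permOK c = true) {i : ℕ} (hi : i < 100) : app c i < 100 := by
  simp only [permOK, Bool.and_eq_true, List.all_eq_true, List.mem_range, decide_eq_true_eq] at h
  exact h.1 i hi

/-- Facts read off from a correct level. -/
structure LvlFacts (L : Lvl) (rest : List Lvl) : Prop where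
  hb : L.b < 100
  hpos : 0 < L.trans.length
  tok : ∀ k < L.trans.length, permOK (L.t k) = true
  gok : ∀ s < L.gens.length, permOK (L.g s) = true
  tid : pOf (L.t 0) = 1
  tmem : ∀ k < L.trans.length, pOf (L.t k) ∈ grp (L :: rest)
  tinj : ∀ k < L.trans.length, ∀ l < L.trans.length, app (L.t k) L.b = app (L.t l) L.b → k = l
  wit : ∀ s < L.gens.length, ∀ k < L.trans.length, ∃ w : ℕ × List ℕ, w.1 < L.trans.length ∧
    idxOK rest w.2 = true ∧ ∀ i < 100, app (L.g s) (app (L.t k) i) = app (L.t w.1) (prodApp rest w.2 i)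
  next_mem : grp rest ≤ grp (L :: rest) ⊓ MulAction.stabilizer (Equiv.Perm (Fin 100)) (⟨L.b, hb⟩ : Fin 100)

theorem lvlFacts {L : Lvl} {rest : List Lvl} (h : lvlOK L rest = true) : LvlFacts L rest := by
  simp only [lvlOK, Bool.and_eq_true, List.all_eq_true, List.mem_range, decide_eq_true_eq] at h
  obtain ⟨⟨⟨⟨⟨⟨hb, hg⟩, hpos⟩, ht⟩, hn⟩, hw⟩, hd⟩ := h
  have gok : ∀ s < L.gens.length, permOK (L.g s) = true := fun s hs => by
    rw [Lvl.g, List.getD_eq_getElem _ _ hs]; exact hg _ (List.getElem_mem hs)
  have gmem : ∀ s < L.gens.length, pOf (L.g s) ∈ grp (L :: rest) := fun s hs =>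
    Subgroup.subset_closure ⟨_, by rw [Lvl.g, List.getD_eq_getElem _ _ hs]; exact List.getElem_mem hs, rfl⟩
  have tid : pOf (L.t 0) = 1 := by
    have h0 := ht 0 hpos
    simp only [beq_self_eq_true, cond_true, List.all_eq_true, List.mem_range, beq_iff_eq] at h0
    ext i
    rw [pOf_apply h0.1, h0.2 i i.2]
    rfl
  have tok : ∀ k < L.trans.length, permOK (L.t k) = true := fun k hk => (ht k hk).1
  have tmem : ∀ k < L.trans.length, pOf (L.t k) ∈ grp (L :: rest) := by
    intro k
    induction k using Nat.strong_induction_on with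
    | _ k ih =>
      intro hk
      by_cases h0 : k = 0
      · subst h0; rw [tid]; exact one_mem _
      · have h1 := (ht k hk).2
        rw [show (k == 0) = false from beq_eq_false_iff_ne.2 h0] at h1
        simp only [cond_false, Bool.and_eq_true, decide_eq_true_eq, List.all_eq_true,
          List.mem_range, beq_iff_eq] at h1
        obtain ⟨⟨hp, hs⟩, he⟩ := h1
        have e : pOf (L.t k) = pOf (L.g (L.trans.getD k (0, 0, 0)).2.1) *
            pOf (L.t (L.trans.getD k (0, 0, 0)).2.2) := by
          ext i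
          rw [pOf_apply (tok k hk), he i i.2, Equiv.Perm.mul_apply, pOf_apply (gok _ hs),
            pOf_apply (tok _ (hp.trans hk))]
        rw [e]
        exact mul_mem (gmem _ hs) (ih _ hp (hp.trans hk))
  refine ⟨hb, hpos, tok, gok, tid, tmem, ?_, ?_, ?_⟩
  · intro k hk l hl e
    rcases Nat.lt_trichotomy k l with h | h | h
    · have := hn l hl k h; simp [e] at this
    · exact h
    · have := hn k hk l h; simp [e] at this
  · intro s hs k hk
    have := hw s hs k hk
    simp only [Bool.and_eq_true, decide_eq_true_eq, List.all_eq_true, List.mem_range, beq_iff_eq] at this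
    exact ⟨_, this.1.1, this.1.2, this.2⟩
  · rw [grp, Subgroup.closure_le]
    rintro _ ⟨c, hc, rfl⟩
    obtain ⟨j, hj, rfl⟩ := List.getElem_of_mem hc
    have h1 := hd j hj
    simp only [Bool.and_eq_true, decide_eq_true_eq, List.all_eq_true, List.mem_range, beq_iff_eq,
      List.getD_eq_getElem _ _ hj] at h1
    obtain ⟨⟨⟨⟨⟨hu, hs⟩, hk⟩, hl⟩, hfix⟩, he⟩ := h1
    refine ⟨?_, Fin.ext ?_⟩
    · have e : pOf ((gensOf rest)[j]) = (pOf (L.t (L.deriv.getD j (0, 0, 0)).2.2))⁻¹ *
          (pOf (L.g (L.deriv.getD j (0, 0, 0)).1) * pOf (L.t (L.deriv.getD j (0, 0, 0)).2.1)) := by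
        rw [eq_inv_mul_iff_mul_eq]
        ext i
        rw [Equiv.Perm.mul_apply, Equiv.Perm.mul_apply, pOf_apply (tok _ hl), pOf_apply hu,
          pOf_apply (gok _ hs), pOf_apply (tok _ hk), ← he i i.2]
      rw [e]
      exact (grp (L :: rest)).mul_mem ((grp (L :: rest)).inv_mem (tmem _ hl))
        ((grp (L :: rest)).mul_mem (gmem _ hs) (tmem _ hk))
    · show (pOf ((gensOf rest)[j]) ⟨L.b, hb⟩ : ℕ) = L.b
      rw [pOf_apply hu]; exact hfix

theorem chain_main : ∀ Ls : List Lvl, chainOK Ls = true →
    Nat.card (grp Ls) = total Ls ∧ ∀ js, idxOK Ls js = true →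
      ∃ p ∈ grp Ls, ∀ i : Fin 100, (p i : ℕ) = prodApp Ls js i
  | [], _ => by
    refine ⟨?_, fun js _ => ⟨1, one_mem _, fun i => by cases js <;> rfl⟩⟩
    have : grp [] = ⊥ := by
      rw [grp, Subgroup.closure_eq_bot_iff]
      rintro x ⟨c, hc, -⟩
      exact absurd hc List.not_mem_nil
    rw [this, Subgroup.card_bot]
    rfl
  | L :: rest, h => by
    rw [chainOK, Bool.and_eq_true] at h
    obtain ⟨ihc, ihp⟩ := chain_main rest h.2
    have F := lvlFacts h.1
    let b : Fin 100 := ⟨L.b, F.hb⟩
    have hle : grp rest ≤ grp (L :: rest) := F.next_mem.trans inf_le_left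
    -- every element is a representative times an element fixing the base point
    have hdec : ∀ p ∈ grp (L :: rest), ∃ k < L.trans.length, ∃ q ∈ grp rest, p = pOf (L.t k) * q := by
      intro p hp
      have key : ∀ p ∈ Submonoid.closure {p | ∃ c ∈ L.gens, pOf c = p},
          ∃ k < L.trans.length, ∃ q ∈ grp rest, p = pOf (L.t k) * q := by
        intro p hp
        induction hp using Submonoid.closure_induction_left with
        | one => exact ⟨0, F.hpos, 1, one_mem _, by rw [F.tid, mul_one]⟩
        | mul_left x hx y _ ih =>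
          obtain ⟨k, hk, q, hq, rfl⟩ := ih
          obtain ⟨c, hc, rfl⟩ := hx
          obtain ⟨s, hs, rfl⟩ := List.getElem_of_mem hc
          obtain ⟨⟨l, js⟩, hl, hjs, he⟩ := F.wit s hs k hk
          obtain ⟨r, hr, her⟩ := ihp js hjs
          refine ⟨l, hl, r * q, mul_mem hr hq, ?_⟩
          rw [← mul_assoc, ← mul_assoc]
          congr 1
          have hgs : L.g s = L.gens[s] := List.getD_eq_getElem _ _ hs
          ext i
          rw [Equiv.Perm.mul_apply, Equiv.Perm.mul_apply, pOf_apply (hgs ▸ F.gok s hs),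
            pOf_apply (F.tok k hk), pOf_apply (F.tok l hl), her i, ← hgs]
          exact he i i.2
      refine key p ?_
      rw [grp, ← Subgroup.mem_toSubmonoid, Subgroup.closure_toSubmonoid_of_finite] at hp
      exact hp
    have hq_fix : ∀ q ∈ grp rest, q b = b := fun q hq => (F.next_mem hq).2
    refine ⟨?_, ?_⟩
    · have hT : ((Finset.range L.trans.length).image fun k => pOf (L.t k) b).card = L.trans.length := by
        rw [Finset.card_image_of_injOn, Finset.card_range]
        intro k hk l hl e
        rw [Finset.mem_coe, Finset.mem_range] at hk hl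
        have := congrArg Fin.val e
        simp only [pOf_apply (F.tok k hk), pOf_apply (F.tok l hl)] at this
        exact F.tinj k hk l hl this
      have h1 := card_eq_ncard_mul_stab (grp (L :: rest)) b
        (↑((Finset.range L.trans.length).image fun k => pOf (L.t k) b) : Set (Fin 100))
        (fun t ht => by
          rw [Finset.mem_coe, Finset.mem_image] at ht
          obtain ⟨k, hk, rfl⟩ := ht
          exact ⟨_, F.tmem k (Finset.mem_range.1 hk), rfl⟩)
        (fun p hp => by
          obtain ⟨k, hk, q, hq, rfl⟩ := hdec p hp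
          rw [Finset.mem_coe, Finset.mem_image]
          exact ⟨k, Finset.mem_range.2 hk, by rw [Equiv.Perm.smul_def, Equiv.Perm.mul_apply, hq_fix q hq]⟩)
      rw [Set.ncard_coe_finset, hT] at h1
      have h2 : grp (L :: rest) ⊓ MulAction.stabilizer (Equiv.Perm (Fin 100)) b = grp rest := by
        refine le_antisymm (fun p hp => ?_) F.next_mem
        obtain ⟨k, hk, q, hq, rfl⟩ := hdec p hp.1
        have e : pOf (L.t k) b = pOf (L.t 0) b := by
          rw [F.tid]
          have : (pOf (L.t k) * q) b = b := hp.2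
          rw [Equiv.Perm.mul_apply, hq_fix q hq] at this
          exact this
        have e' := congrArg Fin.val e
        simp only [pOf_apply (F.tok k hk), pOf_apply (F.tok 0 F.hpos)] at e'
        rw [F.tinj k hk 0 F.hpos e', F.tid, one_mul]
        exact hq
      rw [h1, h2, ihc]
      rfl
    · intro js hjs
      cases js with
      | nil => exact ⟨1, one_mem _, fun i => rfl⟩
      | cons j js =>
        simp only [idxOK, Bool.and_eq_true, decide_eq_true_eq] at hjs
        obtain ⟨r, hr, her⟩ := ihp js hjs.2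
        refine ⟨pOf (L.t j) * r, mul_mem (F.tmem j hjs.1) (hle hr), fun i => ?_⟩
        rw [Equiv.Perm.mul_apply, pOf_apply (F.tok j hjs.1), her i]
        rfl

/-- The certified levels. -/
def levels : List Lvl :=
  [⟨0, gens0, trans0, wit0, deriv0⟩, ⟨1, gens1, trans1, wit1, deriv1⟩,
   ⟨2, gens2, trans2, wit2, deriv2⟩, ⟨3, gens3, trans3, wit3, deriv3⟩,
   ⟨4, gens4, trans4, wit4, deriv4⟩, ⟨7, gens5, trans5, wit5, deriv5⟩]

theorem levels_ok : chainOK levels = true := by decide +kernel

/-- The group of degree 100. -/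
noncomputable abbrev G100 : Subgroup (Equiv.Perm (Fin 100)) := grp levels

theorem G100_card : Nat.card G100 = 604800 := by
  rw [(chain_main levels levels_ok).1]; decide +kernel

/-- A number as a point. -/
def fpt (n : ℕ) : Fin 100 := ⟨n % 100, Nat.mod_lt _ (by norm_num)⟩

/-- The first suborbit. -/
def near36 : Finset (Fin 100) := (trans1.map fun t => fpt (app t.1 1)).toFinset

/-- The second suborbit. -/
def far63 : Finset (Fin 100) := (far.map fun e => fpt e.1).toFinset

/-- Root of the second suborbit. -/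
def farRoot : Fin 100 := fpt (far.getD 0 (0, 0, 0)).1

/-- Suborbit certificates and generator orders. -/
theorem small_facts :
    ((List.range 100).all fun i => (trans0.map fun t => app t.1 0).contains i) = true ∧
    ((List.range far.length).all fun k =>
      let e := far.getD k (0, 0, 0)
      k == 0 || (decide (e.2.2 < k) && decide (e.2.1 < gens1.length) &&
        (e.1 == app (gens1.getD e.2.1 0) (far.getD e.2.2 (0, 0, 0)).1))) = true ∧
    gens0.all (fun c => (List.range 100).all fun i =>
      app c (app c (app c (app c (app c i)))) == i) = true ∧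
    far.all (fun e => decide (e.1 < 100)) = true := by
  decide +kernel

theorem suborbit_sets :
    (insert 0 near36).card = 37 ∧ (insert 0 far63).card = 64 ∧
      ∀ i : Fin 100, i = 0 ∨ i ∈ near36 ∨ i ∈ far63 := by
  decide +kernel

theorem levels_facts :
    LvlFacts ⟨0, gens0, trans0, wit0, deriv0⟩ levels.tail ∧
      LvlFacts ⟨1, gens1, trans1, wit1, deriv1⟩ levels.tail.tail := by
  have hok := levels_ok
  simp only [levels, chainOK, Bool.and_eq_true] at hok
  exact ⟨lvlFacts hok.1, lvlFacts hok.2.1⟩

theorem mem_fix_zero {p : Equiv.Perm (Fin 100)} (h : p ∈ grp levels.tail) : p ∈ G100 ∧ p 0 = 0 :=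
  levels_facts.1.next_mem h

theorem G100_transitive (y : Fin 100) : ∃ g : G100, g.1 0 = y := by
  have h := List.all_eq_true.1 small_facts.1 _ (List.mem_range.2 y.2)
  rw [List.contains_iff_mem, List.mem_map] at h
  obtain ⟨t, ht, e⟩ := h
  obtain ⟨k, hk, rfl⟩ := List.getElem_of_mem ht
  refine ⟨⟨_, levels_facts.1.tmem k hk⟩, Fin.ext ?_⟩
  show (pOf _ 0 : ℕ) = y
  rw [pOf_apply (levels_facts.1.tok k hk)]
  show app (trans0.getD k (0, 0, 0)).1 0 = y
  rw [List.getD_eq_getElem _ _ hk]
  exact e

theorem near_reach {y : Fin 100} (hy : y ∈ near36) : ∃ p ∈ grp levels.tail, p 1 = y := by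
  rw [near36, List.mem_toFinset, List.mem_map] at hy
  obtain ⟨t, ht, rfl⟩ := hy
  obtain ⟨k, hk, rfl⟩ := List.getElem_of_mem ht
  have hlt := app_lt (levels_facts.2.tok k hk) (show 1 < 100 by norm_num)
  refine ⟨_, levels_facts.2.tmem k hk, Fin.ext ?_⟩
  rw [pOf_apply (levels_facts.2.tok k hk)]
  have e : Lvl.t ⟨1, gens1, trans1, wit1, deriv1⟩ k = (trans1[k]).1 := by
    show (trans1.getD k (0, 0, 0)).1 = _
    rw [List.getD_eq_getElem _ _ hk]
  rw [e] at hlt ⊢
  show app (trans1[k]).1 1 = app (trans1[k]).1 1 % 100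
  rw [Nat.mod_eq_of_lt hlt]

theorem far_reach {y : Fin 100} (hy : y ∈ far63) : ∃ p ∈ grp levels.tail, p farRoot = y := by
  rw [far63, List.mem_toFinset, List.mem_map] at hy
  obtain ⟨t, ht, rfl⟩ := hy
  obtain ⟨k, hk, rfl⟩ := List.getElem_of_mem ht
  obtain ⟨-, hfar, -, hlt⟩ := small_facts
  have key : ∀ k, k < far.length → ∃ p ∈ grp levels.tail,
      (p farRoot : ℕ) = (far.getD k (0, 0, 0)).1 := by
    intro k
    induction k using Nat.strong_induction_on with
    | _ k ih =>
      intro hk
      by_cases h0 : k = 0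
      · subst h0
        refine ⟨1, one_mem _, ?_⟩
        show (far.getD 0 (0, 0, 0)).1 % 100 = _
        decide +kernel
      · have h1 := List.all_eq_true.1 hfar k (List.mem_range.2 hk)
        simp only [Bool.or_eq_true, beq_iff_eq, Bool.and_eq_true, decide_eq_true_eq] at h1
        obtain ⟨⟨hp, hs⟩, he⟩ := h1.resolve_left h0
        obtain ⟨q, hq, heq⟩ := ih _ hp (hp.trans hk)
        refine ⟨pOf (gens1.getD (far.getD k (0, 0, 0)).2.1 0) * q, mul_mem ?_ hq, ?_⟩
        · exact Subgroup.subset_closure ⟨_, by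
            rw [List.getD_eq_getElem _ _ hs]; exact List.getElem_mem hs, rfl⟩
        · rw [Equiv.Perm.mul_apply]
          exact (pOf_apply (levels_facts.2.gok _ hs) _).trans (by rw [heq, he]; rfl)
  obtain ⟨p, hp, he⟩ := key k hk
  refine ⟨p, hp, Fin.ext ?_⟩
  rw [he, List.getD_eq_getElem _ _ hk]
  show (far[k]).1 = (far[k]).1 % 100
  have := List.all_eq_true.1 hlt _ (List.getElem_mem hk)
  rw [decide_eq_true_eq] at this
  rw [Nat.mod_eq_of_lt this]

theorem G100_simple : IsSimpleGroup G100 := by
  classical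
  haveI : Nontrivial G100 := Finite.one_lt_card_iff_nontrivial.1 (by rw [G100_card]; norm_num)
  refine ⟨fun N hN => ?_⟩
  haveI := hN
  set O := MulAction.orbit N (0 : Fin 100) with hO
  have hinv : ∀ p ∈ grp levels.tail, ∀ y ∈ O, p y ∈ O := by
    rintro p hp _ ⟨n, rfl⟩
    obtain ⟨hpG, hp0⟩ := mem_fix_zero hp
    refine ⟨⟨(⟨p, hpG⟩ : G100) * n.1 * (⟨p, hpG⟩ : G100)⁻¹, hN.conj_mem n.1 n.2 _⟩, ?_⟩
    show (p * n.1.1 * p⁻¹) 0 = p (n.1.1 0)
    have : p⁻¹ 0 = 0 := by rw [Equiv.Perm.inv_def, Equiv.symm_apply_eq]; exact hp0.symm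
    rw [Equiv.Perm.mul_apply, Equiv.Perm.mul_apply, this]
  have h0 : (0 : Fin 100) ∈ O := MulAction.mem_orbit_self _
  set K := MulAction.stabilizer G100 O with hK
  have hNK : N ≤ K := fun n hn => by
    show n • O = O
    exact MulAction.smul_orbit (⟨n, hn⟩ : N) (0 : Fin 100)
  have hG0 : MulAction.stabilizer G100 (0 : Fin 100) ≤ K := by
    intro g hg
    show g • O = O
    rw [hO]
    ext y
    constructor
    · rintro ⟨_, ⟨n, rfl⟩, rfl⟩
      refine ⟨⟨g * n.1 * g⁻¹, hN.conj_mem n.1 n.2 g⟩, ?_⟩
      show (g * n.1 * g⁻¹) • (0 : Fin 100) = g • n.1 • (0 : Fin 100)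
      rw [mul_smul, mul_smul, show g⁻¹ • (0 : Fin 100) = 0 from inv_smul_eq_iff.2 hg.symm]
    · rintro ⟨n, rfl⟩
      refine ⟨(g⁻¹ * n.1 * g) • (0 : Fin 100), ⟨⟨_, ?_⟩, rfl⟩, ?_⟩
      · simpa using hN.conj_mem n.1 n.2 g⁻¹
      · show g • (g⁻¹ * n.1 * g) • (0 : Fin 100) = n.1 • (0 : Fin 100)
        rw [mul_smul, mul_smul, smul_inv_smul, show g • (0 : Fin 100) = 0 from hg]
  have horbK : MulAction.orbit K (0 : Fin 100) = O := by
    refine Set.Subset.antisymm ?_ ?_
    · rintro _ ⟨k, rfl⟩
      have : k.1 • O = O := k.2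
      rw [← this]
      exact Set.smul_mem_smul_set h0
    · rintro _ ⟨n, rfl⟩
      exact ⟨⟨n.1, hNK n.2⟩, rfl⟩
  have hdvd : O.ncard ∣ 100 := by
    have h1 : (MulAction.stabilizer G100 (0 : Fin 100)).relIndex K = O.ncard := by
      rw [← horbK, ← MulAction.index_stabilizer K (0 : Fin 100)]
      rfl
    have h2 : (MulAction.stabilizer G100 (0 : Fin 100)).index = 100 := by
      rw [MulAction.index_stabilizer,
        show MulAction.orbit G100 (0 : Fin 100) = Set.univ from
          Set.eq_univ_of_forall fun y => (G100_transitive y).elim fun g e => ⟨g, e⟩,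
        Set.ncard_univ, Nat.card_fin]
    have h3 := Subgroup.relIndex_mul_index hG0
    rw [h1, h2] at h3
    exact ⟨_, h3.symm⟩
  by_cases htriv : O = {0}
  · left
    rw [eq_bot_iff]
    intro n hn
    refine Subgroup.mem_bot.2 (Subtype.ext (Equiv.ext fun y => ?_))
    obtain ⟨g, hg⟩ := G100_transitive y
    have h3 : (g⁻¹ * n * g) • (0 : Fin 100) = 0 := by
      have : (g⁻¹ * n * g) • (0 : Fin 100) ∈ O :=
        ⟨⟨g⁻¹ * n * g, by simpa using hN.conj_mem n hn g⁻¹⟩, rfl⟩
      rwa [htriv] at this
    rw [mul_smul, mul_smul, inv_smul_eq_iff, show g • (0 : Fin 100) = y from hg] at h3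
    exact h3
  right
  have hback : ∀ p ∈ grp levels.tail, ∀ z, p z ∈ O → z ∈ O := fun p hp z hz => by
    have := hinv p⁻¹ (inv_mem hp) _ hz
    rwa [Equiv.Perm.inv_def, Equiv.symm_apply_apply] at this
  obtain ⟨h37, h64, hcover⟩ := suborbit_sets
  have hnear : (1 : Fin 100) ∈ O → ∀ y ∈ near36, y ∈ O := fun h y hy => by
    obtain ⟨p, hp, rfl⟩ := near_reach hy
    exact hinv p hp _ h
  have hfar : farRoot ∈ O → ∀ y ∈ far63, y ∈ O := fun h y hy => by
    obtain ⟨p, hp, rfl⟩ := far_reach hy
    exact hinv p hp _ h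
  have hnearOne : ∀ y ∈ near36, y ∈ O → (1 : Fin 100) ∈ O := fun y hy hyO => by
    obtain ⟨p, hp, rfl⟩ := near_reach hy
    exact hback p hp _ hyO
  have hfarOne : ∀ y ∈ far63, y ∈ O → farRoot ∈ O := fun y hy hyO => by
    obtain ⟨p, hp, rfl⟩ := far_reach hy
    exact hback p hp _ hyO
  have hOuniv : O.ncard = 100 := by
    by_cases h1 : (1 : Fin 100) ∈ O <;> by_cases hr : farRoot ∈ O
    · rw [show O = Set.univ from Set.eq_univ_of_forall fun y => ?_, Set.ncard_univ, Nat.card_fin]
      rcases hcover y with rfl | h | h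
      exacts [h0, hnear h1 y h, hfar hr y h]
    · have hEq : O = ↑(insert 0 near36) := by
        refine Set.Subset.antisymm (fun y hy => ?_) (fun y hy => ?_)
        · rcases hcover y with h | h | h
          · simp [h]
          · simp [h]
          · exact absurd (hfarOne y h hy) hr
        · rw [Finset.mem_coe, Finset.mem_insert] at hy
          rcases hy with rfl | h
          exacts [h0, hnear h1 y h]
      rw [hEq, Set.ncard_coe_finset, h37] at hdvd
      norm_num at hdvd
    · have hEq : O = ↑(insert 0 far63) := by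
        refine Set.Subset.antisymm (fun y hy => ?_) (fun y hy => ?_)
        · rcases hcover y with h | h | h
          · simp [h]
          · exact absurd (hnearOne y h hy) h1
          · simp [h]
        · rw [Finset.mem_coe, Finset.mem_insert] at hy
          rcases hy with rfl | h
          exacts [h0, hfar hr y h]
      rw [hEq, Set.ncard_coe_finset, h64] at hdvd
      norm_num at hdvd
    · refine absurd (Set.eq_singleton_iff_unique_mem.2 ⟨h0, fun y hy => ?_⟩) htriv
      rcases hcover y with h | h | h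
      exacts [h, absurd (hnearOne y h hy) h1, absurd (hfarOne y h hy) hr]
  have h25 : 25 ∣ Nat.card N := by
    have hd : O.ncard ∣ Nat.card N := by
      rw [hO, ← MulAction.index_stabilizer N (0 : Fin 100)]
      exact Subgroup.index_dvd_card _
    rw [hOuniv] at hd
    exact dvd_trans (by norm_num) hd
  haveI := Fact.mk (by norm_num : Nat.Prime 5)
  obtain ⟨Q⟩ : Nonempty (Sylow 5 N) := inferInstance
  obtain ⟨m, hm⟩ := h25
  have hm5 : ¬ 5 ∣ m := by
    intro h
    have h2 := (Nat.mul_dvd_mul_left 25 h).trans (hm ▸ Subgroup.card_subgroup_dvd_card N)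
    rw [G100_card] at h2
    norm_num at h2
  have hQ : Nat.card Q = 5 ^ 2 := (SmallOrder.sylow_arith Q (a := 2) (m := m) (by rw [hm]; norm_num) hm5).1
  have hsyl : Nat.card ((Q : Subgroup N).map N.subtype) = 5 ^ (Nat.card G100).factorization 5 := by
    rw [← Nat.card_congr (Subgroup.equivMapOfInjective (Q : Subgroup N) N.subtype
      N.subtype_injective).toEquiv, hQ, G100_card,
      show (604800 : ℕ) = 5 ^ 2 * 24192 by norm_num,
      Nat.factorization_mul (by norm_num) (by norm_num), Finsupp.add_apply, Nat.factorization_pow,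
      Finsupp.smul_apply, (show Nat.Prime 5 by norm_num).factorization_self,
      Nat.factorization_eq_zero_of_not_dvd (show ¬ 5 ∣ 24192 by norm_num)]
    norm_num
  let P : Sylow 5 G100 := Sylow.ofCard _ hsyl
  have hPN : (P : Subgroup G100) ≤ N := by
    rintro _ ⟨q, -, rfl⟩
    exact q.2
  have hall : ∀ x : G100, x ^ 5 = 1 → x ∈ N := by
    intro x hx
    have hp : IsPGroup 5 (Subgroup.zpowers x) := by
      rintro ⟨y, hy⟩
      obtain ⟨i, rfl⟩ := Subgroup.mem_zpowers_iff.1 hy
      refine ⟨1, Subtype.ext ?_⟩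
      show (x ^ i) ^ (5 ^ 1) = 1
      rw [pow_one, ← zpow_natCast, ← zpow_mul, mul_comm, zpow_mul, zpow_natCast, hx, one_zpow]
    obtain ⟨R, hR⟩ := hp.exists_le_sylow
    obtain ⟨t, ht⟩ := MulAction.exists_smul_eq G100 P R
    have hxR : x ∈ (R : Subgroup G100) := hR (Subgroup.mem_zpowers x)
    rw [← ht, Sylow.coe_subgroup_smul] at hxR
    obtain ⟨y, hy, rfl⟩ := hxR
    exact hN.conj_mem y (hPN hy) t
  refine eq_top_iff.2 fun x _ => ?_
  have key : ∀ p (hp : p ∈ G100), (⟨p, hp⟩ : G100) ∈ N := by
    intro p hp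
    induction hp using Subgroup.closure_induction with
    | mem y hy =>
      refine hall _ (Subtype.ext ?_)
      obtain ⟨c, hc, rfl⟩ := hy
      obtain ⟨s, hs, rfl⟩ := List.getElem_of_mem hc
      have hok : permOK (gens0[s]) = true := by
        have := levels_facts.1.gok s hs
        rwa [show Lvl.g ⟨0, gens0, trans0, wit0, deriv0⟩ s = gens0[s] from
          List.getD_eq_getElem _ _ hs] at this
      have h5 := List.all_eq_true.1 small_facts.2.2.1 _ (List.getElem_mem hs)
      simp only [List.all_eq_true, List.mem_range, beq_iff_eq] at h5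
      ext i
      show ((pOf gens0[s] ^ 5) i : ℕ) = i
      simp only [pow_succ, pow_zero, one_mul, Equiv.Perm.mul_apply, pOf_apply hok]
      exact h5 i i.2
    | one => exact N.one_mem
    | mul a b _ _ iha ihb => exact N.mul_mem iha ihb
    | inv a _ ih => exact N.inv_mem ih
  exact key x.1 x.2

theorem j2_exists_perm : ∃ G : Subgroup (Equiv.Perm (Fin 100)), Cfsg.IsJ2 G :=
  ⟨G100, G100_simple, G100_card⟩

end Cfsg.Agent.Golay.J2
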