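import Cfsg.Agent.Golay.Leech
import Cfsg.Agent.Golay.SteinerUnique

/-! Integer lattices of Leech type with a coordinate frame come from the length-24 code. -/

set_option autoImplicit false
set_option maxRecDepth 20000

namespace Cfsg.Agent.Golay

theorem zmod2_cases : ∀ a : ZMod 2, a = 0 ∨ a = 1 := by decide

theorem two_cast_zmod2 : ((2 : ℤ) : ZMod 2) = 0 := by decide

theorem cast_parity (a : ℤ) : (a : ZMod 2) = (((if ¬ (2 : ℤ) ∣ a then 1 else 0) : ℕ) : ZMod 2) := by
  by_cases h : (2 : ℤ) ∣ a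
  · rw [if_neg (not_not.2 h), Nat.cast_zero]
    exact (ZMod.intCast_zmod_eq_zero_iff_dvd a 2).2 (by simpa using h)
  · rw [if_pos h, Nat.cast_one]
    refine (zmod2_cases _).resolve_left fun e => h ?_
    simpa using (ZMod.intCast_zmod_eq_zero_iff_dvd a 2).1 e

/-- The double of a vector. -/
def dbl (y : GolayPt → ℤ) : GolayPt → ℤ := fun i => 2 * y i

theorem dbl_add (y z : GolayPt → ℤ) : dbl (y + z) = dbl y + dbl z := by
  funext i; simp [dbl, mul_add]

/-- The scaled lattice conditions. -/
structure GoodL (Λ : AddSubgroup (GolayPt → ℤ)) : Prop where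
  pair : ∀ i j : GolayPt, (Pi.single i 4 + Pi.single j 4 : GolayPt → ℤ) ∈ Λ
  pairSub : ∀ i j : GolayPt, (Pi.single i 4 - Pi.single j 4 : GolayPt → ℤ) ∈ Λ
  parity : ∀ x ∈ Λ, ∀ i j, (2 : ℤ) ∣ x i - x j
  dvd : ∀ x ∈ Λ, (16 : ℤ) ∣ sqNorm x
  low : ∀ x ∈ Λ, x ≠ 0 → 32 ≤ sqNorm x
  dot : ∀ x ∈ Λ, ∀ y ∈ Λ, (8 : ℤ) ∣ dotInt x y

/-- The code of even vectors. -/
def codeOf (Λ : AddSubgroup (GolayPt → ℤ)) : Submodule (ZMod 2) (GolayPt → ZMod 2) where
  carrier := {c | ∃ y, red2 y = c ∧ dbl y ∈ Λ}
  zero_mem' := ⟨0, by funext i; simp [red2], by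
    have : dbl 0 = 0 := by funext i; simp [dbl]
    rw [this]; exact zero_mem _⟩
  add_mem' := by
    rintro _ _ ⟨y, rfl, hy⟩ ⟨z, rfl, hz⟩
    exact ⟨y + z, red2_add y z, by rw [dbl_add]; exact add_mem hy hz⟩
  smul_mem' := by
    intro a c hc
    rcases (by decide : ∀ a : ZMod 2, a = 0 ∨ a = 1) a with rfl | rfl
    · rw [zero_smul]
      exact ⟨0, by funext i; simp [red2], by
        have : dbl 0 = 0 := by funext i; simp [dbl]
        rw [this]; exact zero_mem _⟩
    · rwa [one_smul]

theorem mem_codeOf {Λ : AddSubgroup (GolayPt → ℤ)} {c : GolayPt → ZMod 2} :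
    c ∈ codeOf Λ ↔ ∃ y, red2 y = c ∧ dbl y ∈ Λ := Iff.rfl

theorem red2_eq_zero {y : GolayPt → ℤ} (h : red2 y = 0) : ∃ z : GolayPt → ℤ, ∀ i, y i = 2 * z i := by
  refine ⟨fun i => y i / 2, fun i => ?_⟩
  have h2 := congrFun h i
  simp only [red2, Pi.zero_apply, ZMod.intCast_zmod_eq_zero_iff_dvd, Nat.cast_ofNat] at h2
  beta_reduce
  omega

theorem sqNorm_single_four (a : GolayPt) : sqNorm (Pi.single a 4 : GolayPt → ℤ) = 16 := by
  rw [sqNorm, Finset.sum_eq_single a (fun b _ hb => by rw [Pi.single_eq_of_ne hb]; ring)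
    (fun hn => absurd (Finset.mem_univ a) hn), Pi.single_eq_same]
  norm_num

variable {Λ : AddSubgroup (GolayPt → ℤ)}

theorem GoodL.z_mem (h : GoodL Λ) {z : GolayPt → ℤ} (hz : (2 : ℤ) ∣ ∑ i, z i) :
    (fun i => 4 * z i) ∈ Λ := by
  classical
  obtain ⟨k, hk⟩ := hz
  have e : (fun i => 4 * z i) =
      (∑ i, z i • (Pi.single i 4 - Pi.single none 4 : GolayPt → ℤ)) +
        k • (Pi.single none 4 + Pi.single none 4 : GolayPt → ℤ) := by
    funext j
    simp only [Pi.add_apply, Finset.sum_apply, Pi.smul_apply, Pi.sub_apply, smul_eq_mul, mul_sub,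
      Finset.sum_sub_distrib, ← Finset.sum_mul, hk, Pi.single_apply]
    simp only [mul_ite, mul_zero, Finset.sum_ite_eq, Finset.mem_univ, if_true]
    split_ifs <;> ring
  rw [e]
  exact add_mem (sum_mem fun i _ => zsmul_mem (h.pairSub i none) _) (zsmul_mem (h.pair none none) k)

theorem GoodL.single_notMem (h : GoodL Λ) (a : GolayPt) : (Pi.single a 4 : GolayPt → ℤ) ∉ Λ := by
  intro hm
  have hne : (Pi.single a 4 : GolayPt → ℤ) ≠ 0 := fun e => by
    have := congrFun e a; simp at this
  have := h.low _ hm hne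
  rw [sqNorm_single_four] at this
  norm_num at this

theorem GoodL.zero_class (h : GoodL Λ) {y z : GolayPt → ℤ} (hy : dbl y ∈ Λ) (hz : ∀ i, y i = 2 * z i) :
    (2 : ℤ) ∣ ∑ i, z i := by
  classical
  by_contra hodd
  apply h.single_notMem none
  have h2 : (2 : ℤ) ∣ ∑ i, (z i - (Pi.single none 1 : GolayPt → ℤ) i) := by
    rw [Finset.sum_sub_distrib]
    simp only [Pi.single_apply, Finset.sum_ite_eq', Finset.mem_univ, if_true]
    omega
  have hm := h.z_mem h2
  have e : (Pi.single none 4 : GolayPt → ℤ) = dbl y - fun i => 4 * (z i - (Pi.single none 1 : GolayPt → ℤ) i) := by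
    funext i
    simp only [Pi.sub_apply, dbl, hz i, Pi.single_apply]
    split_ifs <;> ring
  rw [e]
  exact sub_mem hy hm

theorem mem_support₂_red2 {y : GolayPt → ℤ} {i : GolayPt} :
    i ∈ support₂ (red2 y) ↔ ¬ (2 : ℤ) ∣ y i := by
  rw [support₂_red2]; simp

theorem GoodL.normal_form (h : GoodL Λ) {y : GolayPt → ℤ} (hy : dbl y ∈ Λ) (h0 : red2 y ≠ 0) :
    ∃ y', red2 y' = red2 y ∧ dbl y' ∈ Λ ∧
      ∀ i, (i ∈ support₂ (red2 y) → y' i = 1 ∨ y' i = -1) ∧ (i ∉ support₂ (red2 y) → y' i = 0) := by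
  classical
  set S := support₂ (red2 y)
  obtain ⟨s, hs⟩ : S.Nonempty := by
    rw [Finset.nonempty_iff_ne_empty]
    intro e
    refine h0 (funext fun i => ?_)
    have : i ∉ S := e ▸ Finset.notMem_empty i
    simpa [S, support₂] using this
  let y0 : GolayPt → ℤ := fun i => if i ∈ S then 1 else 0
  let z : GolayPt → ℤ := fun i => (y i - y0 i) / 2
  have hz : ∀ i, y i = y0 i + 2 * z i := fun i => by
    have : i ∈ S ↔ ¬ (2 : ℤ) ∣ y i := mem_support₂_red2
    simp only [z, y0]
    by_cases hi : i ∈ S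
    · have := this.1 hi
      rw [if_pos hi]; omega
    · have := not_not.1 (fun h' => hi (this.2 h'))
      rw [if_neg hi]; omega
  have key : ∀ y' : GolayPt → ℤ, ∀ z' : GolayPt → ℤ, (∀ i, y i = y' i + 2 * z' i) →
      (2 : ℤ) ∣ ∑ i, z' i → red2 y' = red2 y ∧ dbl y' ∈ Λ := by
    intro y' z' e hz'
    refine ⟨funext fun i => ?_, ?_⟩
    · simp only [red2, e i, Int.cast_add, Int.cast_mul]
      rw [show ((2 : ℤ) : ZMod 2) = 0 by decide, zero_mul, add_zero]
    · have e2 : dbl y' = dbl y - fun i => 4 * z' i := by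
        funext i; simp only [dbl, Pi.sub_apply, e i]; ring
      rw [e2]
      exact sub_mem hy (h.z_mem hz')
  by_cases hev : (2 : ℤ) ∣ ∑ i, z i
  · obtain ⟨a, b⟩ := key y0 z hz hev
    exact ⟨y0, a, b, fun i => ⟨fun hi => Or.inl (if_pos hi), fun hi => if_neg hi⟩⟩
  · let y1 : GolayPt → ℤ := fun i => if i = s then -1 else y0 i
    let z1 : GolayPt → ℤ := fun i => if i = s then z i + 1 else z i
    have hz1 : ∀ i, y i = y1 i + 2 * z1 i := fun i => by
      simp only [y1, z1]
      by_cases hi : i = s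
      · subst hi; rw [hz, if_pos rfl, if_pos rfl]; simp only [y0, if_pos hs]; ring
      · rw [if_neg hi, if_neg hi]; exact hz i
    have hsum : ∑ i, z1 i = ∑ i, z i + 1 := by
      have : ∀ i, z1 i = z i + (if i = s then 1 else 0) := fun i => by
        simp only [z1]; split_ifs <;> ring
      rw [Finset.sum_congr rfl fun i _ => this i, Finset.sum_add_distrib]
      simp
    obtain ⟨a, b⟩ := key y1 z1 hz1 (by omega)
    refine ⟨y1, a, b, fun i => ⟨fun hi => ?_, fun hi => ?_⟩⟩
    · simp only [y1, y0, if_pos hi]; split_ifs <;> simp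
    · have : i ≠ s := fun e => hi (e ▸ hs)
      simp only [y1, y0, if_neg this, if_neg hi]

theorem GoodL.weight (h : GoodL Λ) {c : GolayPt → ZMod 2} (hc : c ∈ codeOf Λ) (h0 : c ≠ 0) :
    4 ∣ (support₂ c).card ∧ 8 ≤ (support₂ c).card := by
  obtain ⟨y, rfl, hy⟩ := hc
  obtain ⟨y', -, hy', hshape⟩ := h.normal_form hy h0
  set S := support₂ (red2 y)
  have hn : sqNorm (dbl y') = 4 * S.card := by
    have e : ∀ i, dbl y' i ^ 2 = if i ∈ S then 4 else 0 := fun i => by
      by_cases hi : i ∈ S
      · rw [if_pos hi]; rcases (hshape i).1 hi with e | e <;> simp [dbl, e]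
      · rw [if_neg hi]; simp [dbl, (hshape i).2 hi]
    rw [sqNorm, Finset.sum_congr rfl fun i _ => e i, Finset.sum_ite_mem, Finset.univ_inter,
      Finset.sum_const, nsmul_eq_mul, mul_comm]
  have hne : dbl y' ≠ 0 := by
    intro e
    rw [e] at hn
    have h00 : sqNorm (0 : GolayPt → ℤ) = 0 := by simp [sqNorm]
    rw [h00] at hn
    have : S = ∅ := Finset.card_eq_zero.1 (by omega)
    exact h0 (funext fun i => by
      have : i ∉ S := this ▸ Finset.notMem_empty i
      simpa [S, support₂] using this)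
  have h1 := h.dvd _ hy'
  have h2 := h.low _ hy' hne
  rw [hn] at h1 h2
  omega

/-- The dot product as a linear map to the dual. -/
def dotL : (GolayPt → ZMod 2) →ₗ[ZMod 2] Module.Dual (ZMod 2) (GolayPt → ZMod 2) :=
  LinearMap.mk₂ (ZMod 2) (fun u v => ∑ i, u i * v i)
    (fun a b v => by simp [add_mul, Finset.sum_add_distrib])
    (fun r a v => by simp only [Pi.smul_apply, smul_eq_mul, Finset.mul_sum, mul_assoc])
    (fun u a b => by simp [mul_add, Finset.sum_add_distrib])
    (fun r u a => by simp only [Pi.smul_apply, smul_eq_mul, Finset.mul_sum, mul_left_comm])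

theorem dotL_apply (u v : GolayPt → ZMod 2) : dotL u v = ∑ i, u i * v i := rfl

theorem dotL_injective : Function.Injective dotL := by
  classical
  intro u v e
  funext i
  have := congrArg (fun f : Module.Dual (ZMod 2) (GolayPt → ZMod 2) => f (Pi.single i 1)) e
  simpa [dotL_apply, Pi.single_apply] using this

theorem GoodL.self_orth (h : GoodL Λ) {c d : GolayPt → ZMod 2} (hc : c ∈ codeOf Λ) (hd : d ∈ codeOf Λ) :
    ∑ i, c i * d i = 0 := by
  obtain ⟨y, rfl, hy⟩ := hc
  obtain ⟨z, rfl, hz⟩ := hd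
  have h1 := h.dot _ hy _ hz
  have e : dotInt (dbl y) (dbl z) = 4 * ∑ i, y i * z i := by
    rw [dotInt, Finset.mul_sum]; exact Finset.sum_congr rfl fun i _ => by simp [dbl]; ring
  rw [e] at h1
  have h2 : (2 : ℤ) ∣ ∑ i, y i * z i := by omega
  have h3 := (ZMod.intCast_zmod_eq_zero_iff_dvd (∑ i, y i * z i) 2).2 (by simpa using h2)
  simpa [red2] using h3

theorem finrank_le_of_self_orth (C : Submodule (ZMod 2) (GolayPt → ZMod 2))
    (h : ∀ c ∈ C, ∀ d ∈ C, ∑ i, c i * d i = 0) :
    2 * Module.finrank (ZMod 2) C ≤ 24 ∧ (Module.finrank (ZMod 2) C = 12 →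
      ∀ v : GolayPt → ZMod 2, (∀ c ∈ C, ∑ i, v i * c i = 0) → v ∈ C) := by
  haveI := Fact.mk (Nat.prime_two)
  have hle : C.map dotL ≤ C.dualAnnihilator := by
    rintro _ ⟨c, hc, rfl⟩
    rw [Submodule.mem_dualAnnihilator]
    intro d hd
    rw [dotL_apply]; exact h c hc d hd
  have hf : Module.finrank (ZMod 2) (C.map dotL) = Module.finrank (ZMod 2) C :=
    ((Submodule.equivMapOfInjective dotL dotL_injective C).finrank_eq).symm
  have htot := Subspace.finrank_add_finrank_dualAnnihilator_eq C
  rw [Module.finrank_pi, card_golayPt] at htot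
  have h1 := Submodule.finrank_mono hle
  refine ⟨by omega, fun h12 v hv => ?_⟩
  have heq : C.map dotL = C.dualAnnihilator := Submodule.eq_of_le_of_finrank_le hle (by omega)
  have hm : dotL v ∈ C.map dotL := by
    rw [heq, Submodule.mem_dualAnnihilator]
    intro c hc
    rw [dotL_apply]; exact hv c hc
  obtain ⟨c, hc, e⟩ := hm
  exact dotL_injective e ▸ hc

theorem submodule_card (C : Submodule (ZMod 2) (GolayPt → ZMod 2)) :
    Nat.card C = 2 ^ Module.finrank (ZMod 2) C := by
  haveI := Fact.mk (Nat.prime_two)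
  rw [Module.natCard_eq_pow_finrank (K := ZMod 2), Nat.card_zmod]

theorem GoodL.code_card_le (h : GoodL Λ) : Nat.card (codeOf Λ) ≤ 4096 := by
  have := (finrank_le_of_self_orth (codeOf Λ) fun c hc d hd => h.self_orth hc hd).1
  rw [submodule_card, show (4096 : ℕ) = 2 ^ 12 by norm_num]
  exact Nat.pow_le_pow_right (by norm_num) (by omega)

/-- Supports of the code words of weight eight. -/
noncomputable def eights (Λ : AddSubgroup (GolayPt → ℤ)) : Finset (Finset GolayPt) := by
  classical
  exact (Finset.univ.powersetCard 8).filter fun S => ∃ c ∈ codeOf Λ, support₂ c = S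

theorem mem_eights {S : Finset GolayPt} :
    S ∈ eights Λ ↔ S.card = 8 ∧ ∃ c ∈ codeOf Λ, support₂ c = S := by
  simp [eights]

theorem support₂_inj {c d : GolayPt → ZMod 2} (h : support₂ c = support₂ d) : c = d := by
  funext i
  have h2 := congrArg (fun s : Finset GolayPt => decide (i ∈ s)) h
  have key : ∀ a b : ZMod 2, decide (a ≠ 0) = decide (b ≠ 0) → a = b := by decide
  exact key _ _ (by simpa [support₂] using h2)

theorem GoodL.eights_packing (h : GoodL Λ) {S T : Finset GolayPt} (hS : S ∈ eights Λ)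
    (hT : T ∈ eights Λ) (h5 : 5 ≤ (S ∩ T).card) : S = T := by
  obtain ⟨hS8, c, hc, rfl⟩ := mem_eights.1 hS
  obtain ⟨hT8, d, hd, rfl⟩ := mem_eights.1 hT
  by_contra hne
  have hne' : c + d ≠ 0 := fun e => hne (by
    have : c = d := by
      funext i
      have := congrFun e i
      have key : ∀ a b : ZMod 2, a + b = 0 → a = b := by decide
      exact key _ _ this
    rw [this])
  have hs : support₂ (c + d) = (support₂ c ∪ support₂ d) \ (support₂ c ∩ support₂ d) := by
    ext i
    have key : ∀ a b : ZMod 2, a + b ≠ 0 ↔ ((a ≠ 0 ∨ b ≠ 0) ∧ ¬ (a ≠ 0 ∧ b ≠ 0)) := by decide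
    simpa [support₂] using key (c i) (d i)
  have h1 := (h.weight (add_mem hc hd) hne').2
  rw [hs, Finset.card_sdiff_of_subset (Finset.inter_subset_left.trans Finset.subset_union_left)] at h1
  have h2 := Finset.card_union_add_card_inter (support₂ c) (support₂ d)
  omega

theorem sq_le_two {a : ℤ} (h : a ^ 2 ≤ 2) : a = 0 ∨ a = 1 ∨ a = -1 := by
  have h1 : a < 2 := by nlinarith
  have h2 : -2 < a := by nlinarith
  omega

/-- Vectors with two entries `±4`. -/
noncomputable def pairVecs : Finset (GolayPt → ℤ) := by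
  classical
  exact (((Finset.univ ×ˢ Finset.univ).filter fun p : GolayPt × GolayPt => idx p.1 < idx p.2) ×ˢ
    (({4, -4} : Finset ℤ) ×ˢ ({4, -4} : Finset ℤ))).image
      fun q => Pi.single q.1.1 q.2.1 + Pi.single q.1.2 q.2.2

theorem pairs_card :
    ((Finset.univ ×ˢ Finset.univ).filter fun p : GolayPt × GolayPt => idx p.1 < idx p.2).card = 276 := by
  decide +kernel

theorem pairVecs_card : pairVecs.card ≤ 1104 := by
  classical
  refine Finset.card_image_le.trans ?_
  rw [Finset.card_product, Finset.card_product, pairs_card]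
  norm_num

theorem GoodL.even_pair (h : GoodL Λ) {y z : GolayPt → ℤ} (hn : sqNorm (dbl y) = 32)
    (hz : ∀ i, y i = 2 * z i) : dbl y ∈ pairVecs := by
  classical
  have hsq : ∑ i, z i ^ 2 = 2 := by
    have e : sqNorm (dbl y) = 16 * ∑ i, z i ^ 2 := by
      rw [sqNorm, Finset.mul_sum]
      exact Finset.sum_congr rfl fun i _ => by simp only [dbl, hz i]; ring
    omega
  have hv : ∀ i, z i = 0 ∨ z i = 1 ∨ z i = -1 := fun i =>
    sq_le_two (hsq ▸ Finset.single_le_sum (fun j _ => sq_nonneg (z j)) (Finset.mem_univ i))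
  have hsupp : (Finset.univ.filter fun i => z i ≠ 0).card = 2 := by
    have : ∀ i, z i ^ 2 = if z i ≠ 0 then 1 else 0 := fun i => by
      rcases hv i with e | e | e <;> simp [e]
    rw [Finset.sum_congr rfl fun i _ => this i, Finset.sum_boole] at hsq
    exact_mod_cast hsq
  obtain ⟨a, b, hab, hset⟩ := Finset.card_eq_two.1 hsupp
  have hval : ∀ i, z i ≠ 0 ↔ i = a ∨ i = b := fun i => by
    have := congrArg (fun s : Finset GolayPt => i ∈ s) hset
    simpa using this
  have main : ∀ a b, a ≠ b → (∀ i, z i ≠ 0 ↔ i = a ∨ i = b) → idx a < idx b → dbl y ∈ pairVecs := by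
    intro a b hab hval hlt
    simp only [pairVecs, Finset.mem_image, Finset.mem_product, Finset.mem_filter, Finset.mem_univ,
      true_and, Finset.mem_insert, Finset.mem_singleton]
    have h4 : ∀ i, z i ≠ 0 → 4 * z i = 4 ∨ 4 * z i = -4 := fun i hi => by
      rcases hv i with e | e | e <;> omega
    refine ⟨((a, b), (4 * z a, 4 * z b)), ⟨hlt, h4 a ((hval a).2 (Or.inl rfl)),
      h4 b ((hval b).2 (Or.inr rfl))⟩, funext fun i => ?_⟩
    simp only [Pi.add_apply, dbl, hz i, Pi.single_apply]
    by_cases ha : i = a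
    · subst ha; rw [if_pos rfl, if_neg hab]; ring
    · by_cases hb : i = b
      · subst hb; rw [if_neg ha, if_pos rfl]; ring
      · rw [if_neg ha, if_neg hb]
        have : z i = 0 := by
          by_contra hc; rcases (hval i).1 hc with e | e
          · exact ha e
          · exact hb e
        rw [this]; ring
  rcases Nat.lt_trichotomy (idx a) (idx b) with hlt | heq | hgt
  · exact main a b hab hval hlt
  · exact absurd (idx_injective heq) hab
  · exact main b a (Ne.symm hab) (fun i => (hval i).trans or_comm) hgt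

theorem GoodL.count (h : GoodL Λ) (h32 : {x | x ∈ Λ ∧ sqNorm x = 32}.ncard = 196560) :
    IsSteinerSystem 5 8 (↑(eights Λ) : Set (Finset GolayPt)) ∧ Nat.card (codeOf Λ) = 4096 ∧
      ∃ x ∈ Λ, ∀ i, ¬ (2 : ℤ) ∣ x i := by
  classical
  have hfin : {x | x ∈ Λ ∧ sqNorm x = 32}.Finite := Set.finite_of_ncard_ne_zero (by omega)
  set X := hfin.toFinset with hX
  have hXc : X.card = 196560 := (Set.ncard_eq_toFinset_card _ hfin).symm.trans h32
  have hmX : ∀ x, x ∈ X ↔ x ∈ Λ ∧ sqNorm x = 32 := fun x => Set.Finite.mem_toFinset _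
  set Xe := X.filter fun x => (2 : ℤ) ∣ x none
  set Xo := X.filter fun x => ¬ (2 : ℤ) ∣ x none
  have hsplit : Xe.card + Xo.card = 196560 := hXc ▸ Finset.card_filter_add_card_filter_not _
  -- packing
  have hpack : ((eights Λ).biUnion fun S => S.powersetCard 5).card = 56 * (eights Λ).card := by
    rw [Finset.card_biUnion, Finset.sum_const_nat (m := 56), mul_comm]
    · intro S hS
      rw [Finset.card_powersetCard, (mem_eights.1 hS).1]; decide +kernel
    · intro S hS T hT hne
      rw [Function.onFun, Finset.disjoint_left]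
      intro s hs hs'
      rw [Finset.mem_powersetCard] at hs hs'
      exact hne (h.eights_packing hS hT (hs.2 ▸ Finset.card_le_card (Finset.subset_inter hs.1 hs'.1)))
  have hsub5 : ((eights Λ).biUnion fun S => S.powersetCard 5) ⊆
      (Finset.univ : Finset GolayPt).powersetCard 5 := by
    intro s hs
    obtain ⟨S, -, hs⟩ := Finset.mem_biUnion.1 hs
    rw [Finset.mem_powersetCard] at hs ⊢
    exact ⟨Finset.subset_univ _, hs.2⟩
  have h8 := Finset.card_le_card hsub5
  rw [hpack, Finset.card_powersetCard, Finset.card_univ, card_golayPt,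
    show Nat.choose 24 5 = 42504 by decide +kernel] at h8
  -- even vectors
  have hXe : Xe.card ≤ 1104 + 128 * (eights Λ).card := by
    have hsub : Xe ⊆ pairVecs ∪ (eights Λ).biUnion fun S =>
        Xe.filter fun x => ∀ i, (i ∈ S → x i = 2 ∨ x i = -2) ∧ (i ∉ S → x i = 0) := by
      intro x hx
      obtain ⟨hxX, hxe⟩ := Finset.mem_filter.1 hx
      obtain ⟨hxΛ, hxn⟩ := (hmX x).1 hxX
      obtain ⟨y, rfl⟩ : ∃ y, x = dbl y := ⟨fun i => x i / 2, funext fun i => by
        have := h.parity x hxΛ i none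
        simp only [dbl]; omega⟩
      by_cases h0 : red2 y = 0
      · obtain ⟨z, hz⟩ := red2_eq_zero h0
        exact Finset.mem_union_left _ (h.even_pair hxn hz)
      · refine Finset.mem_union_right _ (Finset.mem_biUnion.2 ⟨support₂ (red2 y), ?_, ?_⟩)
        all_goals
          have hw := (h.weight ⟨y, rfl, hxΛ⟩ h0).2
          have e : sqNorm (dbl y) = 4 * ∑ i, y i ^ 2 := by
            rw [sqNorm, Finset.mul_sum]; exact Finset.sum_congr rfl fun i _ => by simp only [dbl]; ring
          have hge : ∀ i, (if i ∈ support₂ (red2 y) then (1 : ℤ) else 0) ≤ y i ^ 2 := fun i => by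
            split_ifs with hi
            · have : y i ≠ 0 := fun e => (mem_support₂_red2.1 hi) (e ▸ dvd_zero 2)
              have := mul_self_pos.2 this
              rw [sq]; omega
            · exact sq_nonneg _
          have hsum : ∑ i, (if i ∈ support₂ (red2 y) then (1 : ℤ) else 0) =
              ((support₂ (red2 y)).card : ℤ) := by
            rw [Finset.sum_ite_mem, Finset.univ_inter, Finset.sum_const]; simp
          have hle2 := Finset.sum_le_sum fun i (_ : i ∈ (Finset.univ : Finset GolayPt)) => hge i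
          rw [hsum] at hle2
          rw [e] at hxn
        · exact mem_eights.2 ⟨by omega, red2 y, ⟨y, rfl, hxΛ⟩, rfl⟩
        · refine Finset.mem_filter.2 ⟨hx, fun i => ?_⟩
          have heq : ∑ i, (y i ^ 2 - if i ∈ support₂ (red2 y) then (1 : ℤ) else 0) = 0 := by
            rw [Finset.sum_sub_distrib, hsum]; omega
          have hi0 := (Finset.sum_eq_zero_iff_of_nonneg fun i _ => by have := hge i; omega).1 heq i
            (Finset.mem_univ i)
          constructor <;> intro hi
          · rw [if_pos hi] at hi0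
            have : y i = 1 ∨ y i = -1 := sq_eq_one_iff.1 (by omega)
            simp only [dbl]; omega
          · rw [if_neg hi] at hi0
            have : y i = 0 := pow_eq_zero_iff (n := 2) (by norm_num) |>.1 (by omega)
            simp only [dbl]; omega
    refine (Finset.card_le_card hsub).trans ((Finset.card_union_le _ _).trans
      (Nat.add_le_add pairVecs_card ?_))
    refine (Finset.card_biUnion_le_card_mul _ _ 128 fun S hS => ?_).trans (by rw [mul_comm])
    obtain ⟨hS8, -⟩ := mem_eights.1 hS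
    obtain ⟨s0, hs0⟩ : S.Nonempty := Finset.card_pos.1 (by omega)
    refine le_trans (Finset.card_le_card_of_injOn (t := (S.erase s0).powerset)
      (fun x => (S.erase s0).filter fun i => x i = 2) (fun x _ => ?_) ?_) ?_
    · rw [Finset.mem_coe, Finset.mem_powerset]; exact Finset.filter_subset _ _
    · intro x hx x' hx' e
      rw [Finset.mem_coe, Finset.mem_filter] at hx hx'
      by_contra hne
      have hoff : ∀ i, i ≠ s0 → x i = x' i := by
        intro i hi
        by_cases hiS : i ∈ S
        · have hiff := Finset.ext_iff.1 e i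
          simp only [Finset.mem_filter, Finset.mem_erase, hi, hiS, ne_eq, not_false_iff, and_self,
            true_and] at hiff
          rcases (hx.2 i).1 hiS with a | a <;> rcases (hx'.2 i).1 hiS with b | b <;> omega
        · rw [(hx.2 i).2 hiS, (hx'.2 i).2 hiS]
      have hs : x s0 ≠ x' s0 := fun e' => hne (funext fun i => by
        by_cases hi : i = s0
        · rw [hi, e']
        · exact hoff i hi)
      have hxm := ((hmX x).1 (Finset.mem_filter.1 hx.1).1).1
      have hxm' := ((hmX x').1 (Finset.mem_filter.1 hx'.1).1).1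
      apply h.single_notMem s0
      have hd : x - x' = Pi.single s0 4 ∨ x - x' = -Pi.single s0 4 := by
        rcases (hx.2 s0).1 hs0 with a | a <;> rcases (hx'.2 s0).1 hs0 with b | b
        · omega
        · left; funext i; by_cases hi : i = s0
          · subst hi; simp [a, b]
          · simp [Pi.single_eq_of_ne hi, hoff i hi]
        · right; funext i; by_cases hi : i = s0
          · subst hi; simp [a, b]
          · simp [Pi.single_eq_of_ne hi, hoff i hi]
        · omega
      rcases hd with hd | hd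
      · rw [← hd]; exact sub_mem hxm hxm'
      · rw [← neg_neg (Pi.single s0 4 : GolayPt → ℤ), ← hd]; exact neg_mem (sub_mem hxm hxm')
    · rw [Finset.card_powerset, Finset.card_erase_of_mem hs0, hS8]; norm_num
  -- odd vectors
  have hXo : Xo.card ≤ 24 * 4096 ∧ (Xo.Nonempty → Xo.card ≤ 24 * Nat.card (codeOf Λ)) := by
    have main : Xo.Nonempty → Xo.card ≤ 24 * Nat.card (codeOf Λ) := by
      rintro ⟨x0, hx0⟩
      obtain ⟨hx0X, hx0o⟩ := Finset.mem_filter.1 hx0
      have hodd : ∀ x ∈ Xo, ∀ i, ¬ (2 : ℤ) ∣ x i := by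
        intro x hx i
        obtain ⟨hxX, hxo⟩ := Finset.mem_filter.1 hx
        have := h.parity x ((hmX x).1 hxX).1 i none
        omega
      have hbig : ∀ x : Xo, ∃ j, (x.1 j = 3 ∨ x.1 j = -3) ∧ ∀ i, i ≠ j → x.1 i = 1 ∨ x.1 i = -1 := by
        rintro ⟨x, hx⟩
        have hxn := ((hmX x).1 (Finset.mem_filter.1 hx).1).2
        rw [sqNorm] at hxn
        have h1 : ∀ i, 1 ≤ x i ^ 2 := fun i => by
          have : x i ≠ 0 := fun e => hodd x hx i (e ▸ dvd_zero 2)
          have := mul_self_pos.2 this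
          rw [sq]; omega
        obtain ⟨j, hj⟩ : ∃ j, x j ^ 2 ≠ 1 := by
          by_contra hc
          push Not at hc
          rw [Finset.sum_congr rfl fun i _ => hc i, Finset.sum_const, Finset.card_univ, card_golayPt] at hxn
          norm_num at hxn
        have h9 : ∀ i, x i ^ 2 ≠ 1 → 9 ≤ x i ^ 2 := fun i hi => by
          have : x i ≤ -3 ∨ 3 ≤ x i := by
            have := hodd x hx i
            by_contra hc
            push Not at hc
            have h2 : x i = 1 ∨ x i = -1 := by omega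
            rcases h2 with e | e <;> exact hi (by rw [e]; norm_num)
          rcases this with a | a <;> nlinarith
        have hsplit : ∀ k, ∑ i, x i ^ 2 = x k ^ 2 + ∑ i ∈ Finset.univ.erase k, x i ^ 2 := fun k =>
          (Finset.add_sum_erase _ _ (Finset.mem_univ k)).symm
        have hrest : ((Finset.univ : Finset GolayPt).erase j).card = 23 := by
          rw [Finset.card_erase_of_mem (Finset.mem_univ j), Finset.card_univ, card_golayPt]
        have hlow : (23 : ℤ) ≤ ∑ i ∈ Finset.univ.erase j, x i ^ 2 := by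
          have := Finset.sum_le_sum (s := (Finset.univ : Finset GolayPt).erase j) fun i _ => h1 i
          rw [Finset.sum_const, hrest] at this
          simpa using this
        rw [hsplit j] at hxn
        have hj9 := h9 j hj
        refine ⟨j, ?_, fun i hi => ?_⟩
        · have : x j ^ 2 = 3 ^ 2 := by norm_num; omega
          exact sq_eq_sq_iff_eq_or_eq_neg.1 this
        · by_contra hc
          have hi1 : x i ^ 2 ≠ 1 := fun e => hc (sq_eq_one_iff.1 e)
          have hi9 := h9 i hi1
          rw [← Finset.add_sum_erase _ _ (Finset.mem_erase.2 ⟨hi, Finset.mem_univ i⟩)] at hxn hlow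
          have : (22 : ℤ) ≤ ∑ k ∈ (Finset.univ.erase j).erase i, x k ^ 2 := by
            have := Finset.sum_le_sum (s := ((Finset.univ : Finset GolayPt).erase j).erase i) fun k _ => h1 k
            rw [Finset.sum_const, Finset.card_erase_of_mem (Finset.mem_erase.2 ⟨hi, Finset.mem_univ i⟩),
              hrest] at this
            simpa using this
          omega
      choose pos hpos3 hpos1 using hbig
      have hcode : ∀ x : Xo, red2 (fun i => (x.1 i - x0 i) / 2) ∈ codeOf Λ := by
        intro x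
        refine ⟨_, rfl, ?_⟩
        have e : dbl (fun i => (x.1 i - x0 i) / 2) = x.1 - x0 := by
          funext i
          have := hodd x.1 x.2 i
          have := hodd x0 hx0 i
          simp only [dbl, Pi.sub_apply]; omega
        rw [e]
        exact sub_mem ((hmX _).1 (Finset.mem_filter.1 x.2).1).1 ((hmX _).1 hx0X).1
      let f : Xo → GolayPt × codeOf Λ := fun x => (pos x, ⟨_, hcode x⟩)
      have hinj : Function.Injective f := by
        intro x x' e
        simp only [f, Prod.mk.injEq, Subtype.mk.injEq] at e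
        obtain ⟨e1, e2⟩ := e
        refine Subtype.ext (funext fun i => ?_)
        have h4 : (4 : ℤ) ∣ x.1 i - x'.1 i := by
          have h2 := congrFun e2 i
          simp only [red2] at h2
          have h3 := (ZMod.intCast_eq_intCast_iff_dvd_sub ((x'.1 i - x0 i) / 2) ((x.1 i - x0 i) / 2) 2).1 h2.symm
          have := hodd x.1 x.2 i
          have := hodd x'.1 x'.2 i
          have := hodd x0 hx0 i
          omega
        by_cases hi : i = pos x
        · subst hi
          rcases hpos3 x with a | a <;> rcases (e1 ▸ hpos3 x' : x'.1 (pos x) = 3 ∨ x'.1 (pos x) = -3)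
            with b | b <;> omega
        · rcases hpos1 x i hi with a | a <;> rcases hpos1 x' i (e1 ▸ hi) with b | b <;> omega
      have := Nat.card_le_card_of_injective f hinj
      rwa [Nat.card_prod, Nat.card_eq_fintype_card (α := GolayPt), card_golayPt,
        Nat.card_eq_fintype_card (α := Xo), Fintype.card_coe] at this
    refine ⟨?_, main⟩
    rcases Finset.eq_empty_or_nonempty Xo with e | e
    · simp [e]
    · exact (main e).trans (Nat.mul_le_mul_left _ h.code_card_le)
  have hne : Xo.Nonempty := Finset.card_pos.1 (by omega)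
  have hXo2 := hXo.2 hne
  have hC := h.code_card_le
  have h759 : (eights Λ).card = 759 := by omega
  refine ⟨⟨fun b hb => (mem_eights.1 hb).1, fun s hs => ?_⟩, by omega, ?_⟩
  · have heq : ((eights Λ).biUnion fun S => S.powersetCard 5) =
        (Finset.univ : Finset GolayPt).powersetCard 5 := by
      refine Finset.eq_of_subset_of_card_le hsub5 ?_
      rw [hpack, h759, Finset.card_powersetCard, Finset.card_univ, card_golayPt,
        show Nat.choose 24 5 = 42504 by decide +kernel]
    have hm : s ∈ ((eights Λ).biUnion fun S => S.powersetCard 5) := by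
      rw [heq]; exact Finset.mem_powersetCard.2 ⟨Finset.subset_univ _, hs⟩
    obtain ⟨S, hS, hsS⟩ := Finset.mem_biUnion.1 hm
    rw [Finset.mem_powersetCard] at hsS
    exact ⟨S, ⟨hS, hsS.1⟩, fun T hT => (h.eights_packing hS hT.1
      (hs ▸ Finset.card_le_card (Finset.subset_inter hsS.1 hT.2))).symm⟩
  · obtain ⟨x, hx⟩ := hne
    obtain ⟨hxX, hxo⟩ := Finset.mem_filter.1 hx
    refine ⟨x, ((hmX x).1 hxX).1, fun i => ?_⟩
    have := h.parity x ((hmX x).1 hxX).1 i none
    omega

/-- A signed permutation of coordinates. -/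
def monoHom (σ : Equiv.Perm GolayPt) (ε : GolayPt → ℤ) : (GolayPt → ℤ) →+ (GolayPt → ℤ) where
  toFun x i := ε i * x (σ i)
  map_zero' := by funext i; simp
  map_add' x y := by funext i; simp [mul_add]

theorem monoHom_sum (σ : Equiv.Perm GolayPt) (ε : GolayPt → ℤ) (hε : ∀ i, ε i = 1 ∨ ε i = -1)
    (x y : GolayPt → ℤ) :
    ∑ i, monoHom σ ε x i * monoHom σ ε y i = ∑ i, x i * y i := by
  rw [← Equiv.sum_comp σ fun i => x i * y i]
  refine Finset.sum_congr rfl fun i _ => ?_
  show ε i * x (σ i) * (ε i * y (σ i)) = _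
  rcases hε i with e | e <;> rw [e] <;> ring

theorem monoHom_sqNorm (σ : Equiv.Perm GolayPt) (ε : GolayPt → ℤ) (hε : ∀ i, ε i = 1 ∨ ε i = -1)
    (x : GolayPt → ℤ) : sqNorm (monoHom σ ε x) = sqNorm x := by
  simp only [sqNorm, sq]; exact monoHom_sum σ ε hε x x

theorem monoHom_injective (σ : Equiv.Perm GolayPt) (ε : GolayPt → ℤ) (hε : ∀ i, ε i = 1 ∨ ε i = -1) :
    Function.Injective (monoHom σ ε) := by
  intro x y e
  funext i
  have h := congrFun e (σ.symm i)
  change ε (σ.symm i) * x (σ (σ.symm i)) = ε (σ.symm i) * y (σ (σ.symm i)) at h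
  rw [Equiv.apply_symm_apply] at h
  rcases hε (σ.symm i) with a | a <;> rw [a] at h <;> omega

theorem GoodL.monoMap (h : GoodL Λ) (σ : Equiv.Perm GolayPt) (ε : GolayPt → ℤ)
    (hε : ∀ i, ε i = 1 ∨ ε i = -1) : GoodL (Λ.map (monoHom σ ε)) := by
  classical
  have hsingle : ∀ a, monoHom σ ε (Pi.single (σ a) 4) = Pi.single a (ε a * 4) := fun a => by
    funext i
    show ε i * (Pi.single (σ a) 4 : GolayPt → ℤ) (σ i) = _
    simp only [Pi.single_apply, σ.injective.eq_iff]
    split_ifs with hi
    · rw [hi]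
    · ring
  have hpm : ∀ i j, (Pi.single i 4 + Pi.single j 4 : GolayPt → ℤ) ∈ Λ.map (monoHom σ ε) ∧
      (Pi.single i 4 - Pi.single j 4 : GolayPt → ℤ) ∈ Λ.map (monoHom σ ε) := by
    intro i j
    have p := AddSubgroup.mem_map_of_mem (monoHom σ ε) (h.pair (σ i) (σ j))
    have q := AddSubgroup.mem_map_of_mem (monoHom σ ε) (h.pairSub (σ i) (σ j))
    rw [map_add, hsingle, hsingle] at p
    rw [map_sub, hsingle, hsingle] at q
    rcases hε i with a | a <;> rcases hε j with b | b <;>
      simp only [a, b, one_mul, neg_one_mul, Pi.single_neg] at p q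
    · exact ⟨p, q⟩
    · exact ⟨by simpa [sub_neg_eq_add] using q, by simpa [← sub_eq_add_neg] using p⟩
    · refine ⟨?_, ?_⟩
      · have := neg_mem q; simpa [sub_eq_add_neg, add_comm] using this
      · have := neg_mem p; simpa [sub_eq_add_neg, add_comm] using this
    · refine ⟨?_, ?_⟩
      · have := neg_mem p; simpa [add_comm] using this
      · have := neg_mem q; simpa [sub_eq_add_neg, add_comm] using this
  refine ⟨fun i j => (hpm i j).1, fun i j => (hpm i j).2, ?_, ?_, ?_, ?_⟩
  · rintro _ ⟨x, hx, rfl⟩ i j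
    have := h.parity x hx (σ i) (σ j)
    show (2 : ℤ) ∣ ε i * x (σ i) - ε j * x (σ j)
    rcases hε i with a | a <;> rcases hε j with b | b <;> rw [a, b] <;> omega
  · rintro _ ⟨x, hx, rfl⟩
    rw [monoHom_sqNorm σ ε hε]; exact h.dvd x hx
  · rintro _ ⟨x, hx, rfl⟩ hne
    rw [monoHom_sqNorm σ ε hε]
    exact h.low x hx fun e => hne (by rw [e, map_zero])
  · rintro _ ⟨x, hx, rfl⟩ _ ⟨y, hy, rfl⟩
    rw [dotInt, monoHom_sum σ ε hε]; exact h.dot x hx y hy

theorem code_monoMap (Λ : AddSubgroup (GolayPt → ℤ)) (σ : Equiv.Perm GolayPt) (ε : GolayPt → ℤ)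
    (hε : ∀ i, ε i = 1 ∨ ε i = -1) {c : GolayPt → ZMod 2} (hc : c ∈ codeOf Λ) :
    (fun i => c (σ i)) ∈ codeOf (Λ.map (monoHom σ ε)) := by
  obtain ⟨y, rfl, hy⟩ := hc
  refine ⟨monoHom σ ε y, funext fun i => ?_, ⟨dbl y, hy, funext fun i => ?_⟩⟩
  · show ((ε i * y (σ i) : ℤ) : ZMod 2) = ((y (σ i) : ℤ) : ZMod 2)
    rcases hε i with a | a <;> rw [a]
    · rw [one_mul]
    · rw [neg_one_mul, Int.cast_neg, ZMod.neg_eq_self_mod_two]
  · show ε i * (2 * y (σ i)) = 2 * (ε i * y (σ i))
    ring

theorem GoodL.code_eq_golay (h : GoodL Λ)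
    (ho : ∀ o ∈ octads, ∃ c ∈ codeOf Λ, support₂ c = o) :
    codeOf Λ = golayCode ∧ Module.finrank (ZMod 2) (codeOf Λ) = 12 := by
  haveI := Fact.mk (Nat.prime_two)
  have hle : golayCode ≤ codeOf Λ := by
    intro w hw
    obtain ⟨a, -, ha⟩ := inC_eq_encode (mem_golayCode_iff.1 hw)
    rw [← wordOf_wmask w, ← ha]
    have hrow : ∀ r ∈ rows, wordOf r ∈ codeOf Λ := by
      intro r hr
      have key : ∀ r ∈ rows, inC r = true ∧ pc r = 8 := by decide +kernel
      obtain ⟨c, hc, e⟩ := ho _ (octad_bset (key r hr).1 (key r hr).2)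
      rw [← support₂_wordOf] at e
      exact support₂_inj e ▸ hc
    have gen : ∀ (l : List ℕ), (∀ r ∈ l, wordOf r ∈ codeOf Λ) → ∀ i, wordOf (encAux l i) ∈ codeOf Λ := by
      intro l
      induction l with
      | nil => intro _ i; simp [encAux, wordOf_zero]
      | cons r rs ih =>
        intro hl i
        simp only [encAux, wordOf_xor]
        refine add_mem ?_ (ih (fun x hx => hl x (by simp [hx])) _)
        cases (i % 2 == 1)
        · simp [wordOf_zero]
        · simpa using hl r (by simp)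
    exact gen rows hrow a
  have hg : Module.finrank (ZMod 2) golayCode = 12 := by
    have h1 := submodule_card golayCode
    rw [golayCode_card, show (4096 : ℕ) = 2 ^ 12 by norm_num] at h1
    exact (Nat.pow_right_injective (le_refl 2) h1).symm
  have h12 := (finrank_le_of_self_orth (codeOf Λ) fun c hc d hd => h.self_orth hc hd).1
  have e : golayCode = codeOf Λ := Submodule.eq_of_le_of_finrank_le hle (by omega)
  exact ⟨e.symm, by rw [← e, hg]⟩

theorem GoodL.eq_leech (h : GoodL Λ) (hcode : codeOf Λ = golayCode)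
    (h12 : Module.finrank (ZMod 2) (codeOf Λ) = 12)
    (hsum : ∀ y, dbl y ∈ Λ → (4 : ℤ) ∣ ∑ i, y i)
    (hodd : ∃ x ∈ Λ, ∀ i, ¬ (2 : ℤ) ∣ x i) : Λ = leechLattice := by
  have hfwd : ∀ x ∈ Λ, x ∈ leechLattice := by
    intro x hx
    rw [mem_leech_iff]
    by_cases he : (2 : ℤ) ∣ x none
    · obtain ⟨y, rfl⟩ : ∃ y, x = dbl y := ⟨fun i => x i / 2, funext fun i => by
        have := h.parity x hx i none
        simp only [dbl]; omega⟩
      refine ⟨0, y, fun i => by simp [dbl], hcode ▸ ⟨y, rfl, hx⟩, ?_⟩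
      obtain ⟨k, hk⟩ := hsum y hx
      refine ⟨k, ?_⟩
      simp only [dbl, ← Finset.mul_sum, hk]; ring
    · have hxi : ∀ i, x i = 1 + 2 * ((x i - 1) / 2) := fun i => by
        have := h.parity x hx i none; omega
      set y : GolayPt → ℤ := fun i => (x i - 1) / 2
      have hxi' : ∀ i, x i = 1 + 2 * y i := hxi
      have hy : red2 y ∈ golayCode := by
        rw [← hcode]
        refine (finrank_le_of_self_orth (codeOf Λ) fun c hc d hd => h.self_orth hc hd).2 h12 _ ?_
        rintro _ ⟨u, rfl, hu⟩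
        have h1 := h.dot _ hx _ hu
        have h2 := hsum u hu
        have e : dotInt x (dbl u) = 2 * ∑ i, u i + 4 * ∑ i, y i * u i := by
          rw [dotInt, Finset.mul_sum, Finset.mul_sum, ← Finset.sum_add_distrib]
          exact Finset.sum_congr rfl fun i _ => by rw [hxi' i, dbl]; ring
        rw [e] at h1
        have h3 : (2 : ℤ) ∣ ∑ i, y i * u i := by omega
        have h4 := (ZMod.intCast_zmod_eq_zero_iff_dvd (∑ i, y i * u i) 2).2 (by simpa using h3)
        simpa [red2] using h4
      refine ⟨1, y, hxi', hy, ?_⟩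
      have h1 := h.dvd x hx
      rw [sum_sq_affine hxi'] at h1
      have h2 := sum_sq_mod_four hy
      rw [sum_affine hxi']
      omega
  have heven : ∀ x ∈ leechLattice, (∀ i, (2 : ℤ) ∣ x i) → x ∈ Λ := by
    intro x hx hev
    obtain ⟨m, y, hm, hy, hw, hs⟩ := (mem_leech_iff.1 hx).normalize
    have hm0 : m = 0 := by
      have := hev none; have := hy none
      rcases hm with e | e <;> omega
    subst hm0
    obtain ⟨u, hu, huΛ⟩ : ∃ u, red2 u = red2 y ∧ dbl u ∈ Λ := (hcode ▸ hw : red2 y ∈ codeOf Λ)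
    have hz : ∀ i, y i = u i + 2 * ((y i - u i) / 2) := fun i => by
      have h2 := congrFun hu i
      simp only [red2] at h2
      have h3 := (ZMod.intCast_eq_intCast_iff_dvd_sub (u i) (y i) 2).1 h2
      omega
    set z : GolayPt → ℤ := fun i => (y i - u i) / 2
    have hz' : ∀ i, y i = u i + 2 * z i := hz
    have hsy : ∑ i, y i = ∑ i, u i + 2 * ∑ i, z i := by
      rw [Finset.mul_sum, ← Finset.sum_add_distrib]; exact Finset.sum_congr rfl fun i _ => hz' i
    have h4 := hsum u huΛ
    rw [sum_affine hy] at hs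
    have hm := h.z_mem (z := z) (by omega)
    have e : x = dbl u + fun i => 4 * z i := by
      funext i; simp only [Pi.add_apply, dbl, hy i, hz' i]; ring
    rw [e]
    exact add_mem huΛ hm
  refine le_antisymm hfwd fun x hx => ?_
  by_cases hev : ∀ i, (2 : ℤ) ∣ x i
  · exact heven x hx hev
  · obtain ⟨x0, hx0, ho⟩ := hodd
    obtain ⟨m, y, hm, hy, -, -⟩ := (mem_leech_iff.1 hx).normalize
    have hm1 : m = 1 := by
      rcases hm with e | e
      · exact absurd (fun i => by have := hy i; omega) hev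
      · exact e
    have hd := heven (x - x0) (sub_mem hx (hfwd x0 hx0)) fun i => by
      have := ho i; have := hy i
      simp only [Pi.sub_apply]; omega
    simpa using add_mem hd hx0

/-- A lattice of Leech type is a signed relabelling of the Leech lattice. -/
theorem GoodL.exists_mono (h : GoodL Λ) (h32 : {x | x ∈ Λ ∧ sqNorm x = 32}.ncard = 196560) :
    ∃ (σ : Equiv.Perm GolayPt) (ε : GolayPt → ℤ), (∀ i, ε i = 1 ∨ ε i = -1) ∧
      Λ.map (monoHom σ ε) = leechLattice := by
  classical
  haveI := Fact.mk (Nat.prime_two)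
  obtain ⟨hst, -, hodd⟩ := h.count h32
  obtain ⟨f, hf, -, himg⟩ := model24 card_golayPt hst
  rw [stModel_empty] at himg
  let F : Equiv.Perm GolayPt := Equiv.ofBijective f (Finite.injective_iff_bijective.1 hf)
  have h1 : ∀ i, (1 : GolayPt → ℤ) i = 1 ∨ (1 : GolayPt → ℤ) i = -1 := fun i => Or.inl rfl
  set Λ1 := Λ.map (monoHom F.symm 1)
  have g1 : GoodL Λ1 := h.monoMap F.symm 1 h1
  obtain ⟨hcode, h12⟩ := g1.code_eq_golay fun o ho => by
    rw [← himg] at ho
    obtain ⟨S, hS, rfl⟩ := ho
    obtain ⟨-, c, hc, rfl⟩ := mem_eights.1 hS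
    refine ⟨_, code_monoMap Λ F.symm 1 h1 hc, ?_⟩
    ext i
    simp only [support₂, Finset.mem_filter, Finset.mem_univ, true_and, Finset.mem_image]
    constructor
    · exact fun hi => ⟨F.symm i, hi, F.apply_symm_apply i⟩
    · rintro ⟨j, hj, rfl⟩
      rwa [show F.symm (f j) = j from F.symm_apply_apply j]
  -- the sum functional
  have hwd : ∀ c : codeOf Λ1, ∀ y, red2 y = c.1 → dbl y ∈ Λ1 → (2 : ℤ) ∣ ∑ i, y i := by
    intro c y hy hyΛ
    have hc : c.1 ∈ golayCode := hcode ▸ c.2
    have h2 := card_code_dvd hc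
    rw [← hy, support₂_red2, Finset.card_filter] at h2
    have h3 : ((∑ i, y i : ℤ) : ZMod 2) = 0 := by
      have h4 := (ZMod.natCast_eq_zero_iff _ 2).2 (dvd_trans (by norm_num : 2 ∣ 4) h2)
      rw [Nat.cast_sum] at h4
      rw [Int.cast_sum]
      refine Eq.trans (Finset.sum_congr rfl fun i _ => ?_) h4
      exact cast_parity (y i)
    simpa using (ZMod.intCast_zmod_eq_zero_iff_dvd _ 2).1 h3
  have huniq : ∀ y y' : GolayPt → ℤ, red2 y = red2 y' → dbl y ∈ Λ1 → dbl y' ∈ Λ1 →
      (4 : ℤ) ∣ ∑ i, y i - ∑ i, y' i := by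
    intro y y' e hy hy'
    have hd : red2 (y - y') = 0 := by
      funext i; have := congrFun e i; simp only [red2] at this ⊢; simp [this]
    obtain ⟨z, hz⟩ := red2_eq_zero hd
    have := g1.zero_class (y := y - y') (by
      have e2 : dbl (y - y') = dbl y - dbl y' := by funext i; simp [dbl, mul_sub]
      rw [e2]; exact sub_mem hy hy') hz
    have e3 : ∑ i, y i - ∑ i, y' i = 2 * ∑ i, z i := by
      rw [← Finset.sum_sub_distrib, Finset.mul_sum]; exact Finset.sum_congr rfl fun i _ => hz i
    omega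
  choose rep hrep hrepΛ using fun c : codeOf Λ1 => mem_codeOf.1 c.2
  let s : codeOf Λ1 →+ ZMod 2 := AddMonoidHom.mk' (fun c => (((∑ i, rep c i) / 2 : ℤ) : ZMod 2))
    fun a b => by
      have e : red2 (rep a + rep b) = red2 (rep (a + b)) := by
        rw [red2_add, hrep, hrep, hrep, Submodule.coe_add]
      have h4 := huniq _ _ e (by rw [dbl_add]; exact add_mem (hrepΛ a) (hrepΛ b)) (hrepΛ _)
      rw [Finset.sum_congr rfl fun i _ => Pi.add_apply (rep a) (rep b) i, Finset.sum_add_distrib] at h4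
      have ha := hwd a _ (hrep a) (hrepΛ a)
      have hb := hwd b _ (hrep b) (hrepΛ b)
      have hab := hwd _ _ (hrep (a + b)) (hrepΛ _)
      rw [← Int.cast_add]
      refine ((ZMod.intCast_eq_intCast_iff_dvd_sub _ _ 2).2 ?_).symm
      omega
  obtain ⟨G, hG⟩ := LinearMap.exists_extend (AddMonoidHom.toZModLinearMap 2 s)
  let t : GolayPt → ZMod 2 := fun i => G (Pi.single i 1)
  have hGt : ∀ v : GolayPt → ZMod 2, G v = ∑ i, v i * t i := by
    intro v
    conv_lhs => rw [pi_eq_sum_univ' v]
    simp [map_sum, t]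
  let ε : GolayPt → ℤ := fun i => if t i = 1 then -1 else 1
  have hε : ∀ i, ε i = 1 ∨ ε i = -1 := fun i => by simp only [ε]; split_ifs <;> simp
  set Λ2 := Λ1.map (monoHom 1 ε)
  have g2 : GoodL Λ2 := g1.monoMap 1 ε hε
  obtain ⟨hcode2, h122⟩ := g2.code_eq_golay fun o ho => by
    obtain ⟨w, hw, rfl⟩ := octad_subset_supports ho
    exact ⟨w, by simpa using code_monoMap Λ1 1 ε hε (hcode ▸ hw : w ∈ codeOf Λ1), rfl⟩
  refine ⟨F.symm, fun i => ε i, hε, ?_⟩
  have hmap : Λ.map (monoHom F.symm ε) = Λ2 := by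
    show _ = (Λ.map (monoHom F.symm 1)).map (monoHom 1 ε)
    rw [AddSubgroup.map_map]
    congr 1
    ext x i
    simp [monoHom]
  rw [hmap]
  refine g2.eq_leech hcode2 h122 ?_ ?_
  · intro y hy
    obtain ⟨x, hx, e⟩ := hy
    set u : GolayPt → ℤ := fun i => ε i * y i with hu
    have hxu : x = dbl u := by
      funext i
      have h5 : ε i * x i = 2 * y i := congrFun e i
      simp only [dbl, hu]
      rcases hε i with a | a <;> rw [a] at h5 ⊢ <;> linarith
    rw [hxu] at hx
    let c : codeOf Λ1 := ⟨red2 u, u, rfl, hx⟩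
    have hs4 := huniq u (rep c) (hrep c).symm hx (hrepΛ c)
    have hev := hwd c u rfl hx
    have hev' := hwd c _ (hrep c) (hrepΛ c)
    have hval : (((∑ i, u i) / 2 : ℤ) : ZMod 2) = ∑ i, red2 u i * t i := by
      have h1 : G c.1 = s c := LinearMap.congr_fun hG c
      rw [← hGt, show red2 u = c.1 from rfl, h1]
      show _ = (((∑ i, rep c i) / 2 : ℤ) : ZMod 2)
      refine ((ZMod.intCast_eq_intCast_iff_dvd_sub _ _ 2).2 ?_)
      omega
    have ht : ∀ i, red2 u i * t i = (((if t i = 1 then u i else 0) : ℤ) : ZMod 2) := fun i => by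
      have key : t i = 0 ∨ t i = 1 := zmod2_cases _
      rcases key with a | a <;> simp [red2, a]
    rw [Finset.sum_congr rfl fun i _ => ht i, ← Int.cast_sum] at hval
    have h6 := (ZMod.intCast_eq_intCast_iff_dvd_sub _ _ 2).1 hval
    have hy' : ∑ i, y i = ∑ i, u i - 2 * ∑ i, (if t i = 1 then u i else 0) := by
      rw [Finset.mul_sum, ← Finset.sum_sub_distrib]
      refine Finset.sum_congr rfl fun i _ => ?_
      simp only [hu, ε]
      split_ifs <;> ring
    push_cast at h6
    omega
  · obtain ⟨x, hx, ho⟩ := hodd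
    refine ⟨_, ⟨_, ⟨x, hx, rfl⟩, rfl⟩, fun i => ?_⟩
    show ¬ (2 : ℤ) ∣ ε i * ((1 : GolayPt → ℤ) _ * x _)
    have := ho (F.symm i)
    simp only [Pi.one_apply, one_mul, Equiv.Perm.one_apply]
    rcases hε i with a | a <;> rw [a] <;> omega

end Cfsg.Agent.Golay
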