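import Cfsg.Agent.Golay.Bits
import Mathlib.LinearAlgebra.Matrix.DotProduct
import Mathlib.LinearAlgebra.FreeModule.Finite.Matrix

/-! A lattice with the vector counts of the Leech lattice has an orthogonal frame of norm 8. -/

set_option autoImplicit false

namespace Cfsg.Agent.Golay

open Matrix

variable (B : Matrix (Fin 24) (Fin 24) ℤ)

/-- The bilinear form. -/
def bf (x y : Fin 24 → ℤ) : ℤ := x ⬝ᵥ (B *ᵥ y)

theorem bf_add_left (x y z : Fin 24 → ℤ) : bf B (x + y) z = bf B x z + bf B y z :=
  add_dotProduct _ _ _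

theorem bf_add_right (x y z : Fin 24 → ℤ) : bf B x (y + z) = bf B x y + bf B x z := by
  simp only [bf, Matrix.mulVec_add, dotProduct_add]

theorem bf_smul_left (a : ℤ) (x y : Fin 24 → ℤ) : bf B (a • x) y = a * bf B x y := by
  simp only [bf, smul_dotProduct, smul_eq_mul]

theorem bf_smul_right (a : ℤ) (x y : Fin 24 → ℤ) : bf B x (a • y) = a * bf B x y := by
  simp only [bf, Matrix.mulVec_smul, dotProduct_smul, smul_eq_mul]

theorem bf_zero_left (y : Fin 24 → ℤ) : bf B 0 y = 0 := zero_dotProduct _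

theorem bf_comm (hsymm : B.IsSymm) (x y : Fin 24 → ℤ) : bf B x y = bf B y x := by
  rw [bf, bf, dotProduct_mulVec, dotProduct_comm]
  conv_lhs => rw [← hsymm.eq, Matrix.vecMul_transpose]

theorem bf_sum_left {ι : Type*} (s : Finset ι) (f : ι → Fin 24 → ℤ) (y : Fin 24 → ℤ) :
    bf B (∑ i ∈ s, f i) y = ∑ i ∈ s, bf B (f i) y := sum_dotProduct _ _ _

theorem bf_sum_right {ι : Type*} (s : Finset ι) (f : ι → Fin 24 → ℤ) (x : Fin 24 → ℤ) :
    bf B x (∑ i ∈ s, f i) = ∑ i ∈ s, bf B x (f i) := by
  simp only [bf, Matrix.mulVec_sum, dotProduct_sum]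

theorem bf_polar (hsymm : B.IsSymm) (x y : Fin 24 → ℤ) :
    bf B (x + y) (x + y) = bf B x x + 2 * bf B x y + bf B y y ∧
      bf B (x + (-1 : ℤ) • y) (x + (-1 : ℤ) • y) = bf B x x - 2 * bf B x y + bf B y y := by
  simp only [bf_add_left, bf_add_right, bf_smul_left, bf_smul_right, bf_comm B hsymm y x]
  constructor <;> ring

/-- Orthogonal vectors of nonzero norm number at most 24. -/
theorem orth_card_le {ι : Type*} [Fintype ι] (v : ι → Fin 24 → ℤ)
    (hne : ∀ i, bf B (v i) (v i) ≠ 0) (horth : ∀ i j, i ≠ j → bf B (v i) (v j) = 0) :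
    Fintype.card ι ≤ 24 := by
  classical
  have hli : LinearIndependent ℤ v := by
    rw [Fintype.linearIndependent_iff]
    intro g hg i
    have h := congrArg (fun z => bf B z (v i)) hg
    simp only [bf_sum_left, bf_smul_left, bf_zero_left] at h
    rw [Finset.sum_eq_single i (fun j _ hj => by rw [horth j i hj, mul_zero])
      (fun hni => absurd (Finset.mem_univ i) hni)] at h
    exact (mul_eq_zero.1 h).resolve_right (hne i)
  have := hli.fintype_card_le_finrank
  simpa using this

/-- Reduction modulo two. -/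
def mod2 (x : Fin 24 → ℤ) : Fin 24 → ZMod 2 := fun i => (x i : ZMod 2)

theorem exists_half {x y : Fin 24 → ℤ} (h : mod2 x = mod2 y) :
    (∃ u : Fin 24 → ℤ, x + (-1 : ℤ) • y = (2 : ℤ) • u) ∧ ∃ u : Fin 24 → ℤ, x + y = (2 : ℤ) • u := by
  have hd : ∀ i, (2 : ℤ) ∣ x i - y i := fun i => by
    have h2 := congrFun h i
    simp only [mod2] at h2
    have := (ZMod.intCast_eq_intCast_iff_dvd_sub (y i) (x i) 2).1 h2.symm
    simpa using this
  refine ⟨⟨fun i => (x i - y i) / 2, funext fun i => ?_⟩, ⟨fun i => (x i + y i) / 2, funext fun i => ?_⟩⟩ <;>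
    · simp only [Pi.add_apply, Pi.smul_apply, smul_eq_mul]
      have := hd i
      omega

/-- The hypotheses on the lattice. -/
structure LeechLike : Prop where
  symm : B.IsSymm
  pos : ∀ x : Fin 24 → ℤ, x ≠ 0 → 0 < bf B x x
  even : ∀ x : Fin 24 → ℤ, (2 : ℤ) ∣ bf B x x
  noRoot : ∀ x : Fin 24 → ℤ, bf B x x ≠ 2
  n4 : {x : Fin 24 → ℤ | bf B x x = 4}.ncard = 196560
  n6 : {x : Fin 24 → ℤ | bf B x x = 6}.ncard = 16773120
  n8 : {x : Fin 24 → ℤ | bf B x x = 8}.ncard = 398034000

variable {B}

theorem LeechLike.four_le (h : LeechLike B) {x : Fin 24 → ℤ} (hx : x ≠ 0) : 4 ≤ bf B x x := by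
  have := h.pos x hx
  have := h.even x
  have := h.noRoot x
  omega

/-- Congruent short vectors are opposite, or both of norm 8 and orthogonal. -/
theorem LeechLike.congr_short (h : LeechLike B) {x y : Fin 24 → ℤ} (hx : bf B x x ≤ 8) (hy : bf B y y ≤ 8)
    (hxy : mod2 x = mod2 y) (h1 : x ≠ y) (h2 : x ≠ -y) :
    bf B x x = 8 ∧ bf B y y = 8 ∧ bf B x y = 0 := by
  obtain ⟨⟨u, hu⟩, ⟨v, hv⟩⟩ := exists_half hxy
  have hu0 : u ≠ 0 := by
    rintro rfl
    apply h1
    funext i
    have := congrFun hu i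
    simp at this
    omega
  have hv0 : v ≠ 0 := by
    rintro rfl
    apply h2
    funext i
    have := congrFun hv i
    simp at this
    simp
    omega
  have a1 := h.four_le hu0
  have a2 := h.four_le hv0
  obtain ⟨p1, p2⟩ := bf_polar B h.symm x y
  rw [hv, bf_smul_left, bf_smul_right] at p1
  rw [hu, bf_smul_left, bf_smul_right] at p2
  omega

/-- A representative of a pair of opposite vectors. -/
noncomputable def pos? (x : Fin 24 → ℤ) : Prop := ∃ i, 0 < x i ∧ ∀ j < i, x j = 0

theorem pos?_or_neg {x : Fin 24 → ℤ} (hx : x ≠ 0) : pos? x ∨ pos? (-x) := by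
  classical
  have hex : ∃ i : Fin 24, x i ≠ 0 := Function.ne_iff.1 hx
  set i := (Finset.univ.filter fun i => x i ≠ 0).min' (by
    obtain ⟨i, hi⟩ := hex; exact ⟨i, by simp [hi]⟩) with hi
  have hmem : x i ≠ 0 := by
    have := Finset.min'_mem (Finset.univ.filter fun i => x i ≠ 0) (by
      obtain ⟨k, hk⟩ := hex; exact ⟨k, by simp [hk]⟩)
    exact (Finset.mem_filter.1 this).2
  have hlt : ∀ j < i, x j = 0 := fun j hj => by
    by_contra hne
    exact absurd hj (not_lt.2 (Finset.min'_le _ j (by simp [hne])))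
  rcases lt_or_gt_of_ne hmem with hn | hp
  · exact Or.inr ⟨i, by simpa using hn, fun j hj => by simp [hlt j hj]⟩
  · exact Or.inl ⟨i, hp, hlt⟩

theorem not_pos?_neg {x : Fin 24 → ℤ} (hx : pos? x) : ¬ pos? (-x) := by
  obtain ⟨i, hi, hi'⟩ := hx
  rintro ⟨j, hj, hj'⟩
  rcases lt_trichotomy i j with h | h | h
  · have := hj' i h; simp at this; omega
  · subst h; simp at hj; omega
  · have := hi' j h; simp at hj; omega

/-- There is an orthogonal frame of mutually congruent vectors of norm 8. -/
theorem LeechLike.exists_frame (h : LeechLike B) :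
    ∃ e : GolayPt → Fin 24 → ℤ, (∀ i, bf B (e i) (e i) = 8) ∧
      (∀ i j, i ≠ j → bf B (e i) (e j) = 0) ∧ ∀ i j, mod2 (e i) = mod2 (e j) := by
  classical
  have fin : ∀ n : ℤ, ∀ m : ℕ, {x : Fin 24 → ℤ | bf B x x = n}.ncard = m + 1 →
      {x : Fin 24 → ℤ | bf B x x = n}.Finite :=
    fun n m e => Set.finite_of_ncard_ne_zero (by omega)
  let S4 := (fin 4 196559 (by rw [h.n4])).toFinset
  let S6 := (fin 6 16773119 (by rw [h.n6])).toFinset
  let S8 := (fin 8 398033999 (by rw [h.n8])).toFinset
  have c4 : S4.card = 196560 := (Set.ncard_eq_toFinset_card _ _).symm.trans h.n4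
  have c6 : S6.card = 16773120 := (Set.ncard_eq_toFinset_card _ _).symm.trans h.n6
  have c8 : S8.card = 398034000 := (Set.ncard_eq_toFinset_card _ _).symm.trans h.n8
  have m4 : ∀ x, x ∈ S4 ↔ bf B x x = 4 := fun x => Set.Finite.mem_toFinset _
  have m6 : ∀ x, x ∈ S6 ↔ bf B x x = 6 := fun x => Set.Finite.mem_toFinset _
  have m8 : ∀ x, x ∈ S8 ↔ bf B x x = 8 := fun x => Set.Finite.mem_toFinset _
  have pairBound : ∀ (S : Finset (Fin 24 → ℤ)), (∀ x ∈ S, bf B x x < 8 ∧ 0 < bf B x x) →
      S.card ≤ 2 * (S.image mod2).card := by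
    intro S hS
    refine Finset.card_le_mul_card_image S 2 fun c _ => ?_
    by_contra hc
    push Not at hc
    obtain ⟨x, hx⟩ : (S.filter fun x => mod2 x = c).Nonempty := Finset.card_pos.1 (by omega)
    have hsub : (S.filter fun y => mod2 y = c) ⊆ {x, -x} := by
      intro y hy
      rw [Finset.mem_insert, Finset.mem_singleton]
      by_contra hne
      push Not at hne
      rw [Finset.mem_filter] at hx hy
      have := h.congr_short (hS x hx.1).1.le (hS y hy.1).1.le (hx.2.trans hy.2.symm) (Ne.symm hne.1)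
        (fun e => hne.2 (by rw [e, neg_neg]))
      exact absurd this.1 (hS x hx.1).1.ne
    have := Finset.card_le_card hsub
    have := Finset.card_le_two (a := x) (b := -x)
    omega
  have b4 := pairBound S4 fun x hx => by rw [(m4 x).1 hx]; norm_num
  have b6 := pairBound S6 fun x hx => by rw [(m6 x).1 hx]; norm_num
  have hdisj : ∀ x y : Fin 24 → ℤ, 0 < bf B x x → bf B x x ≤ 8 → bf B y y ≤ 8 →
      mod2 x = mod2 y → bf B x x = bf B y y := by
    intro x y _ hx hy e
    by_cases h1 : x = y
    · rw [h1]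
    by_cases h2 : x = -y
    · rw [h2, show (-y : Fin 24 → ℤ) = (-1 : ℤ) • y by simp, bf_smul_left, bf_smul_right]; ring
    obtain ⟨a, b, -⟩ := h.congr_short hx hy e h1 h2
    rw [a, b]
  have hz : ∀ x : Fin 24 → ℤ, bf B x x ≤ 8 → 0 < bf B x x → mod2 x ≠ mod2 0 := by
    intro x hx h0 e
    have := hdisj x 0 h0 hx (by rw [bf_zero_left]; norm_num) e
    rw [bf_zero_left] at this
    omega
  have hcount : 1 + (S4.image mod2).card + (S6.image mod2).card + (S8.image mod2).card ≤ 2 ^ 24 := by
    have d1 : Disjoint (S4.image mod2) (S6.image mod2) := by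
      rw [Finset.disjoint_left]
      intro c hc hc'
      obtain ⟨x, hx, rfl⟩ := Finset.mem_image.1 hc
      obtain ⟨y, hy, e⟩ := Finset.mem_image.1 hc'
      have := hdisj x y (by rw [(m4 x).1 hx]; norm_num) (by rw [(m4 x).1 hx]; norm_num)
        (by rw [(m6 y).1 hy]; norm_num) e.symm
      rw [(m4 x).1 hx, (m6 y).1 hy] at this
      norm_num at this
    have d2 : Disjoint (S4.image mod2 ∪ S6.image mod2) (S8.image mod2) := by
      rw [Finset.disjoint_left]
      intro c hc hc'
      obtain ⟨y, hy, rfl⟩ := Finset.mem_image.1 hc'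
      rcases Finset.mem_union.1 hc with hc | hc <;> obtain ⟨x, hx, e⟩ := Finset.mem_image.1 hc
      · have := hdisj x y (by rw [(m4 x).1 hx]; norm_num) (by rw [(m4 x).1 hx]; norm_num)
          (by rw [(m8 y).1 hy]) e
        rw [(m4 x).1 hx, (m8 y).1 hy] at this
        norm_num at this
      · have := hdisj x y (by rw [(m6 x).1 hx]; norm_num) (by rw [(m6 x).1 hx]; norm_num)
          (by rw [(m8 y).1 hy]) e
        rw [(m6 x).1 hx, (m8 y).1 hy] at this
        norm_num at this
    have d0 : mod2 0 ∉ S4.image mod2 ∪ S6.image mod2 ∪ S8.image mod2 := by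
      intro hc
      rcases Finset.mem_union.1 hc with hc | hc
      · rcases Finset.mem_union.1 hc with hc | hc <;> obtain ⟨x, hx, e⟩ := Finset.mem_image.1 hc
        · exact hz x (by rw [(m4 x).1 hx]; norm_num) (by rw [(m4 x).1 hx]; norm_num) e
        · exact hz x (by rw [(m6 x).1 hx]; norm_num) (by rw [(m6 x).1 hx]; norm_num) e
      · obtain ⟨x, hx, e⟩ := Finset.mem_image.1 hc
        exact hz x (by rw [(m8 x).1 hx]) (by rw [(m8 x).1 hx]; norm_num) e
    have := Finset.card_le_univ (insert (mod2 0) (S4.image mod2 ∪ S6.image mod2 ∪ S8.image mod2))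
    rw [Finset.card_insert_of_notMem d0, Finset.card_union_of_disjoint d2,
      Finset.card_union_of_disjoint d1, Fintype.card_fun, ZMod.card, Fintype.card_fin] at this
    omega
  obtain ⟨c, -, hbig⟩ : ∃ c ∈ S8.image mod2, 47 < (S8.filter fun x => mod2 x = c).card := by
    refine Finset.exists_lt_card_fiber_of_mul_lt_card_of_maps_to
      (fun x hx => Finset.mem_image_of_mem _ hx) ?_
    have : (S8.image mod2).card ≤ 8292375 := by
      rw [c4] at b4
      rw [c6] at b6
      omega
    rw [c8]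
    omega
  set T := S8.filter fun x => mod2 x = c
  set R := T.filter pos?
  have hsub : T ⊆ R ∪ R.image (fun x => -x) := by
    intro x hx
    rw [Finset.mem_union]
    have hmem := Finset.mem_filter.1 hx
    have h8 := (m8 x).1 hmem.1
    have hx0 : x ≠ 0 := by rintro rfl; rw [bf_zero_left] at h8; norm_num at h8
    rcases pos?_or_neg hx0 with hp | hp
    · exact Or.inl (Finset.mem_filter.2 ⟨hx, hp⟩)
    · refine Or.inr (Finset.mem_image.2 ⟨-x, Finset.mem_filter.2 ⟨Finset.mem_filter.2 ⟨?_, ?_⟩, hp⟩, neg_neg x⟩)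
      · rw [m8, show (-x : Fin 24 → ℤ) = (-1 : ℤ) • x by simp, bf_smul_left, bf_smul_right, h8]
        norm_num
      · rw [← hmem.2]
        funext i
        simp only [mod2, Pi.neg_apply, Int.cast_neg]
        exact ZMod.neg_eq_self_mod_two _
  have hR : ∀ x : R, bf B x.1 x.1 = 8 := fun x =>
    (m8 _).1 (Finset.mem_filter.1 (Finset.mem_filter.1 x.2).1).1
  have horth : ∀ x y : R, x ≠ y → bf B x.1 y.1 = 0 := by
    intro x y hne
    have hx := Finset.mem_filter.1 x.2
    have hy := Finset.mem_filter.1 y.2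
    refine (h.congr_short (hR x).le (hR y).le
      ((Finset.mem_filter.1 hx.1).2.trans (Finset.mem_filter.1 hy.1).2.symm)
      (fun e => hne (Subtype.ext e)) (fun e => ?_)).2.2
    have := hx.2
    rw [e] at this
    exact not_pos?_neg hy.2 this
  have hle := orth_card_le B (fun x : R => x.1) (fun x => by rw [hR x]; norm_num) horth
  rw [Fintype.card_coe] at hle
  have h24 : R.card = 24 := by
    have h1 := (Finset.card_le_card hsub).trans (Finset.card_union_le _ _)
    have h2 := Finset.card_image_le (s := R) (f := fun x => -x)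
    omega
  obtain ⟨E⟩ : Nonempty (GolayPt ≃ R) := ⟨Fintype.equivOfCardEq (by rw [card_golayPt, Fintype.card_coe, h24])⟩
  refine ⟨fun i => (E i).1, fun i => hR _, fun i j hij => horth _ _ (E.injective.ne hij), fun i j => ?_⟩
  exact (Finset.mem_filter.1 (Finset.mem_filter.1 (E i).2).1).2.trans
    (Finset.mem_filter.1 (Finset.mem_filter.1 (E j).2).1).2.symm

/-- Coordinates with respect to a frame. -/
theorem LeechLike.exists_coords (h : LeechLike B) :
    ∃ φ : (Fin 24 → ℤ) →+ (GolayPt → ℤ), Function.Injective φ ∧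
      (∀ v w, ∑ i, φ v i * φ w i = 8 * bf B v w) ∧
      (∀ v i j, (2 : ℤ) ∣ φ v i - φ v j) ∧
      ∀ i j, (∃ v, φ v = Pi.single i 4 + Pi.single j 4) ∧ ∃ v, φ v = Pi.single i 4 - Pi.single j 4 := by
  classical
  obtain ⟨e, he8, heo, hem⟩ := h.exists_frame
  let φ : (Fin 24 → ℤ) →+ (GolayPt → ℤ) :=
    { toFun := fun v i => bf B v (e i)
      map_zero' := funext fun i => bf_zero_left B _
      map_add' := fun v w => funext fun i => bf_add_left B _ _ _ }
  have hzero : ∀ w, (∀ i, bf B w (e i) = 0) → w = 0 := by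
    intro w hw
    by_contra h0
    have hle := orth_card_le B (fun o : Option GolayPt => o.elim w e)
      (fun o => by
        cases o with
        | none => exact (h.pos w h0).ne'
        | some i => simp [he8])
      (fun a b hab => by
        cases a <;> cases b
        · exact absurd rfl hab
        · exact hw _
        · exact (bf_comm B h.symm _ _).trans (hw _)
        · exact heo _ _ fun e' => hab (by rw [e']))
    rw [Fintype.card_option, card_golayPt] at hle
    omega
  have hrep : ∀ v, (8 : ℤ) • v = ∑ i, bf B v (e i) • e i := by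
    intro v
    refine sub_eq_zero.1 (hzero _ fun j => ?_)
    rw [sub_eq_add_neg, ← neg_one_zsmul, bf_add_left, bf_smul_left, bf_smul_left, bf_sum_left,
      Finset.sum_eq_single j (fun i _ hi => by rw [bf_smul_left, heo i j hi, mul_zero])
        (fun hn => absurd (Finset.mem_univ j) hn), bf_smul_left, he8]
    ring
  refine ⟨φ, fun v w hvw => ?_, fun v w => ?_, fun v i j => ?_, fun i j => ?_⟩
  · refine sub_eq_zero.1 (hzero _ fun i => ?_)
    rw [sub_eq_add_neg, ← neg_one_zsmul, bf_add_left, bf_smul_left]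
    have := congrFun hvw i
    change bf B v (e i) = bf B w (e i) at this
    rw [this]; ring
  · show ∑ i, bf B v (e i) * bf B w (e i) = _
    rw [← bf_smul_left, hrep, bf_sum_left]
    refine Finset.sum_congr rfl fun i _ => ?_
    rw [bf_smul_left, bf_comm B h.symm (e i) w]
  · obtain ⟨-, u, hu⟩ := exists_half (hem i j)
    show (2 : ℤ) ∣ bf B v (e i) - bf B v (e j)
    have h2 := congrArg (bf B v) hu
    rw [bf_add_right, bf_smul_right] at h2
    omega
  · obtain ⟨⟨u, hu⟩, ⟨v, hv⟩⟩ := exists_half (hem i j)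
    have hsingle : ∀ a b, bf B (e a) (e b) = (Pi.single a 8 : GolayPt → ℤ) b := by
      intro a b
      by_cases hab : a = b
      · subst hab; rw [he8, Pi.single_eq_same]
      · rw [heo a b hab, Pi.single_eq_of_ne (Ne.symm hab)]
    refine ⟨⟨v, funext fun k => ?_⟩, ⟨u, funext fun k => ?_⟩⟩
    · have h2 := congrArg (fun z => bf B z (e k)) hv
      simp only [bf_add_left, bf_smul_left, hsingle] at h2
      show bf B v (e k) = _
      simp only [Pi.add_apply, Pi.single_apply] at h2 ⊢
      split_ifs at h2 ⊢ <;> omega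
    · have h2 := congrArg (fun z => bf B z (e k)) hu
      simp only [bf_add_left, bf_smul_left, hsingle] at h2
      show bf B u (e k) = _
      simp only [Pi.sub_apply, Pi.single_apply] at h2 ⊢
      split_ifs at h2 ⊢ <;> omega

end Cfsg.Agent.Golay
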