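import Cfsg.Agent.Golay.Leech

/-! Index of the lattice in `ℤ²⁴` and generation by its minimal vectors. -/

set_option autoImplicit false

namespace Cfsg.Agent.Golay

open scoped Pointwise

/-- Lift of a mask to a 0/1 integer vector. -/
def lift01 (n : ℕ) : GolayPt → ℤ := fun i => if n.testBit (idx i) then 1 else 0

theorem red2_lift01 (n : ℕ) : red2 (lift01 n) = wordOf n := by
  funext i
  simp only [red2, lift01, wordOf]
  split_ifs <;> simp

/-- The coset representative with parameters (parities, syndrome, sum bit). -/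
def lRep (t : Fin (2 ^ 23) × Fin 4096 × Fin 2) : GolayPt → ℤ := fun i =>
  lift01 t.1.val i + 2 * lift01 (t.2.1.val <<< 12) i + if i = none then 4 * (t.2.2.val : ℤ) else 0

theorem shiftLeft_lt {s : ℕ} (h : s < 4096) : s <<< 12 < 2 ^ 24 := by
  rw [Nat.shiftLeft_eq]; omega

theorem synd_shiftLeft {s : ℕ} : synd (s <<< 12) = s := by
  have e0 : (s <<< 12) % 4096 = 0 := by rw [Nat.shiftLeft_eq]; omega
  have e : encode (s <<< 12) = 0 := by rw [← encode_mod, e0]; decide +kernel
  rw [synd, e, Nat.xor_zero, Nat.shiftLeft_shiftRight]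

theorem none_not_mem_lift {p : Fin (2 ^ 23)} : lift01 p.val none = 0 := by
  simp only [lift01, idx, Nat.testBit_lt_two_pow p.isLt, if_neg Bool.false_ne_true]

theorem lRep_injective {t t' : Fin (2 ^ 23) × Fin 4096 × Fin 2}
    (h : lRep t - lRep t' ∈ leechLattice) : t = t' := by
  obtain ⟨m, y, hy, hw, hs⟩ := mem_leech_iff.1 h
  obtain ⟨p, s, ε⟩ := t
  obtain ⟨p', s', ε'⟩ := t'
  simp only [Pi.sub_apply, lRep] at hy hs
  have hm : (2 : ℤ) ∣ m := by
    have := hy none
    rw [none_not_mem_lift, none_not_mem_lift, if_pos rfl, if_pos rfl] at this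
    omega
  have hp : p = p' := by
    refine Fin.ext (eq_of_bset_eq (p.isLt.trans (by norm_num)) (p'.isLt.trans (by norm_num)) ?_)
    ext i
    have := hy i
    rw [mem_bset, mem_bset]
    simp only [lift01] at this
    cases h1 : p.val.testBit (idx i) <;> cases h2 : p'.val.testBit (idx i) <;>
      simp [h1, h2] at this ⊢ <;> (split_ifs at this <;> omega)
  subst hp
  have hy' : ∀ i, y i = lift01 (s.val <<< 12) i - lift01 (s'.val <<< 12) i
      + (if i = none then 2 * ((ε.val : ℤ) - ε'.val) else 0) - m / 2 := by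
    intro i
    have := hy i
    split_ifs at this ⊢ <;> omega
  have hs' : s = s' := by
    have hw1 : wordOf (s.val <<< 12) + wordOf (s'.val <<< 12) ∈ golayCode := by
      have e : wordOf (s.val <<< 12) + wordOf (s'.val <<< 12)
          = red2 y + ((m / 2 : ℤ) : ZMod 2) • 1 := by
        rw [← red2_lift01, ← red2_lift01]
        funext i
        simp only [red2, Pi.add_apply, Pi.smul_apply, Pi.one_apply, smul_eq_mul, mul_one, hy' i]
        split_ifs
        · push_cast
          rw [show (2 : ZMod 2) = 0 from rfl]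
          simp [sub_eq_add_neg, ZMod.neg_eq_self_mod_two]
          ring_nf
          simp [show (2 : ZMod 2) = 0 from rfl]
        · push_cast
          simp [sub_eq_add_neg, ZMod.neg_eq_self_mod_two]
          ring_nf
          simp [show (2 : ZMod 2) = 0 from rfl]
      rw [e]
      exact add_mem hw (Submodule.smul_mem _ _ one_mem_golayCode)
    rw [← wordOf_xor, mem_golayCode_iff,
      wmask_wordOf (Nat.xor_lt_two_pow (shiftLeft_lt s.isLt) (shiftLeft_lt s'.isLt)),
      inC_iff_synd, synd_xor, synd_shiftLeft, synd_shiftLeft] at hw1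
    exact Fin.ext (Nat.xor_eq_zero_iff.1 hw1)
  subst hs'
  have hdiff : ∀ i : GolayPt,
      lift01 p.val i + 2 * lift01 (s.val <<< 12) i + (if i = none then 4 * (ε.val : ℤ) else 0) -
      (lift01 p.val i + 2 * lift01 (s.val <<< 12) i + (if i = none then 4 * (ε'.val : ℤ) else 0))
      = if i = none then 4 * ((ε.val : ℤ) - ε'.val) else 0 := by
    intro i; split_ifs <;> ring
  rw [Finset.sum_congr rfl fun i _ => hdiff i, Finset.sum_ite_eq' Finset.univ none] at hs
  simp only [Finset.mem_univ, if_true] at hs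
  have hε : ε = ε' := by
    have h8 : (8 : ℤ) ∣ 4 * ((ε.val : ℤ) - ε'.val) - 4 * m := hs
    have := ε.isLt
    have := ε'.isLt
    exact Fin.ext (by omega)
  rw [hε]

theorem exists_lRep (x : GolayPt → ℤ) : ∃ t, x - lRep t ∈ leechLattice := by
  set m := x none with hm
  set P : Finset GolayPt := Finset.univ.filter fun i => ¬ (2 : ℤ) ∣ x i - m with hP
  have hnone : none ∉ P := by simp [hP, hm]
  have hplt : mask P < 2 ^ 23 := by
    refine Nat.lt_pow_two_of_testBit _ fun j hj => ?_
    by_contra hb
    rw [Bool.not_eq_false] at hb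
    have hj24 : j < 24 := by
      by_contra h
      rw [Nat.testBit_lt_two_pow (lt_of_lt_of_le (mask_lt P)
        (Nat.pow_le_pow_right (by norm_num) (not_lt.1 h)))] at hb
      simp at hb
    obtain rfl : j = 23 := by omega
    rw [show (23 : ℕ) = idx none from rfl, testBit_mask, decide_eq_true_eq] at hb
    exact hnone hb
  have hlift : ∀ i, lift01 (mask P) i = if ¬ (2 : ℤ) ∣ x i - m then 1 else 0 := fun i => by
    simp [lift01, testBit_mask, hP]
  set y : GolayPt → ℤ := fun i => (x i - lift01 (mask P) i - m) / 2 with hyd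
  have hy : ∀ i, x i - lift01 (mask P) i = m + 2 * y i := by
    intro i
    rw [hyd]
    beta_reduce
    rw [hlift i]
    split_ifs <;> omega
  set s := synd (wmask (red2 y)) with hsd
  have hs : s < 4096 := by
    rw [hsd, synd, Nat.shiftRight_eq_div_pow, Nat.div_lt_iff_lt_mul (by norm_num)]
    exact Nat.xor_lt_two_pow (wmask_lt _) (encode_lt _)
  set y' : GolayPt → ℤ := y - lift01 (s <<< 12) with hy'd
  have hw : red2 y' ∈ golayCode := by
    have e : red2 y' = red2 y + wordOf (s <<< 12) := by
      rw [hy'd, sub_eq_add_neg, red2_add, red2_neg, red2_lift01]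
    rw [e, mem_golayCode_iff, wmask_add, wmask_wordOf (shiftLeft_lt hs), inC_iff_synd, synd_xor,
      synd_shiftLeft, ← hsd, Nat.xor_self]
  set z : GolayPt → ℤ := fun i => x i - lift01 (mask P) i - 2 * lift01 (s <<< 12) i with hzd
  have hz : ∀ i, z i = m + 2 * y' i := by
    intro i
    have := hy i
    rw [hzd, hy'd]
    simp only [Pi.sub_apply]
    omega
  have h4 : (4 : ℤ) ∣ ∑ i, z i - 4 * m := by
    have hsum := sum_affine hz
    have hcard := card_code_dvd hw
    rw [support₂_red2] at hcard
    have hev : (2 : ℤ) ∣ ∑ i, y' i := by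
      have h2 : ((∑ i, y' i : ℤ) : ZMod 2) = 0 := by
        have e : ∀ i, ((y' i : ℤ) : ZMod 2) = if ¬ (2 : ℤ) ∣ y' i then 1 else 0 := by
          intro i
          by_cases h : (2 : ℤ) ∣ y' i
          · rw [if_neg (not_not.2 h)]; exact (ZMod.intCast_zmod_eq_zero_iff_dvd _ 2).2 h
          · rw [if_pos h]
            have := (ZMod.intCast_eq_intCast_iff' (y' i) 1 2).2 (by omega)
            simpa using this
        rw [Int.cast_sum, Finset.sum_congr rfl fun i _ => e i]
        have h' : ((Finset.univ.filter fun i => ¬ (2 : ℤ) ∣ y' i).card : ZMod 2) = 0 :=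
          (ZMod.natCast_eq_zero_iff _ 2).2 (dvd_trans (by norm_num) hcard)
        rw [Finset.card_filter, Nat.cast_sum] at h'
        refine Eq.trans ?_ h'
        exact Finset.sum_congr rfl fun i _ => by split_ifs <;> simp
      simpa using (ZMod.intCast_zmod_eq_zero_iff_dvd _ 2).1 h2
    omega
  obtain ⟨δ, hδ⟩ : ∃ δ : Fin 2, (8 : ℤ) ∣ ∑ i, z i - 4 * (δ.val : ℤ) - 4 * m := by
    obtain ⟨k, hk⟩ := h4
    rcases Int.even_or_odd k with ⟨j, hj⟩ | ⟨j, hj⟩
    · exact ⟨0, by rw [show ((0 : Fin 2).val : ℤ) = 0 from rfl]; omega⟩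
    · exact ⟨1, by rw [show ((1 : Fin 2).val : ℤ) = 1 from rfl]; omega⟩
  refine ⟨(⟨mask P, hplt⟩, ⟨s, hs⟩, δ), mem_leech_iff.2
    ⟨m, fun i => y' i - if i = none then 2 * (δ.val : ℤ) else 0, fun i => ?_, ?_, ?_⟩⟩
  · have := hz i
    rw [hzd] at this
    simp only [Pi.sub_apply, lRep]
    beta_reduce at this
    split_ifs <;> omega
  · convert hw using 1
    funext i
    simp only [red2]
    split_ifs
    · push_cast; rw [show (2 : ZMod 2) = 0 from rfl]; simp
    · simp
  · have e : ∀ i, (x - lRep (⟨mask P, hplt⟩, ⟨s, hs⟩, δ)) i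
        = z i - if i = none then 4 * (δ.val : ℤ) else 0 := by
      intro i; rw [hzd]; simp only [Pi.sub_apply, lRep]; ring
    rw [Finset.sum_congr rfl fun i _ => e i, Finset.sum_sub_distrib,
      Finset.sum_ite_eq' Finset.univ none]
    simpa using hδ

theorem leech_index : leechLattice.index = 2 ^ 36 := by
  have hbij : Function.Bijective
      (fun t => (QuotientAddGroup.mk (lRep t) : (GolayPt → ℤ) ⧸ leechLattice)) := by
    refine ⟨fun t t' h => lRep_injective ?_, fun q => ?_⟩
    · have := (QuotientAddGroup.eq_iff_sub_mem).1 h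
      exact this
    · obtain ⟨x, rfl⟩ := QuotientAddGroup.mk_surjective q
      obtain ⟨t, ht⟩ := exists_lRep x
      refine ⟨t, (QuotientAddGroup.eq_iff_sub_mem).2 ?_⟩
      simpa using neg_mem ht
  rw [AddSubgroup.index, ← Nat.card_eq_of_bijective _ hbij, Nat.card_prod, Nat.card_prod,
    Nat.card_fin, Nat.card_fin, Nat.card_fin]
  norm_num

end Cfsg.Agent.Golay
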