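import Cfsg.Agent.Golay.J2Chain
import Cfsg.Agent.Golay.U35Data
import Cfsg.Agent.Golay.LeechMcL

/-! A group of order 126000 inside the product of a symmetric group of degree 100 and the unitary group. -/

set_option autoImplicit false
set_option maxRecDepth 20000

namespace Cfsg.Agent.Golay.U35

open Cfsg.Agent.Golay.J2 (pOf pOf_apply)
open Cfsg.Agent.Forms (frobQ)

/-- A pair code. -/
abbrev Cd : Type := ℕ × M9

/-- One level: base point, generators, transversal, witnesses, origins. -/
structure PLvl where
  b : ℕ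
  gens : List Cd
  trans : List (Cd × ℕ × ℕ)
  wit : List (ℕ × List ℕ)
  deriv : List (ℕ × ℕ × ℕ)

/-- A trivial entry. -/
def nullCd : Cd := (0, M9.one)

/-- A transversal element. -/
def PLvl.t (L : PLvl) (i : ℕ) : Cd := (L.trans.getD i (nullCd, 0, 0)).1

/-- A generator. -/
def PLvl.g (L : PLvl) (i : ℕ) : Cd := L.gens.getD i nullCd

/-- Generators of the head level. -/
def gensOf : List PLvl → List Cd
  | [] => []
  | L :: _ => L.gens

/-- Product of representatives on a point. -/
def prodApp : List PLvl → List ℕ → ℕ → ℕ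
  | L :: rest, j :: js, i => J2.app (L.t j).1 (prodApp rest js i)
  | _, _, i => i

/-- Product of representatives, second part. -/
def prodM : List PLvl → List ℕ → M9
  | L :: rest, j :: js => (L.t j).2.mul (prodM rest js)
  | _, _ => M9.one

/-- Indices are in range. -/
def idxOK : List PLvl → List ℕ → Bool
  | L :: rest, j :: js => decide (j < L.trans.length) && idxOK rest js
  | _, _ => true

/-- Product of the orbit lengths. -/
def total : List PLvl → ℕ
  | [] => 1
  | L :: rest => L.trans.length * total rest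

/-- Both parts are valid. -/
def cdOK (c : Cd) : Bool := J2.permOK c.1 && c.2.good

/-- One level is correct. -/
def lvlOK (L : PLvl) (rest : List PLvl) : Bool :=
  decide (L.b < 100) && L.gens.all cdOK && decide (0 < L.trans.length) &&
  ((List.range L.trans.length).all fun k =>
    cdOK (L.t k) &&
      bif k == 0 then ((List.range 100).all (fun i => J2.app (L.t k).1 i == i) && M9.one.eqv (L.t k).2)
      else
        let e := L.trans.getD k (nullCd, 0, 0)
        decide (e.2.2 < k) && decide (e.2.1 < L.gens.length) &&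
          ((List.range 100).all fun i => J2.app (L.t k).1 i == J2.app (L.g e.2.1).1 (J2.app (L.t e.2.2).1 i)) &&
          ((L.g e.2.1).2.mul (L.t e.2.2).2).eqv (L.t k).2) &&
  ((List.range L.trans.length).all fun k => (List.range k).all fun l =>
    !(J2.app (L.t k).1 L.b == J2.app (L.t l).1 L.b)) &&
  ((List.range L.gens.length).all fun s => (List.range L.trans.length).all fun k =>
    let w := L.wit.getD (s * L.trans.length + k) (0, [])
    decide (w.1 < L.trans.length) && idxOK rest w.2 &&
      ((List.range 100).all fun i => J2.app (L.g s).1 (J2.app (L.t k).1 i) == J2.app (L.t w.1).1 (prodApp rest w.2 i)) &&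
      ((L.g s).2.mul (L.t k).2).eqv ((L.t w.1).2.mul (prodM rest w.2))) &&
  ((List.range (gensOf rest).length).all fun j =>
    let d := L.deriv.getD j (0, 0, 0)
    let u := (gensOf rest).getD j nullCd
    cdOK u && decide (d.1 < L.gens.length) && decide (d.2.1 < L.trans.length) &&
      decide (d.2.2 < L.trans.length) && J2.app u.1 L.b == L.b &&
      ((List.range 100).all fun i => J2.app (L.g d.1).1 (J2.app (L.t d.2.1).1 i) == J2.app (L.t d.2.2).1 (J2.app u.1 i)) &&
      ((L.g d.1).2.mul (L.t d.2.1).2).eqv ((L.t d.2.2).2.mul u.2))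

/-- The whole chain is correct. -/
def chainOK : List PLvl → Bool
  | [] => true
  | L :: rest => lvlOK L rest && chainOK rest

section field

variable {F : Type} [Field F] [Fintype F] [CharP F 5] (hF : Fintype.card F = 5 ^ 2) {w : F}
  (hw : w * w = 2) (hws : frobQ hF w = -w)

/-- The product. -/
abbrev Hp (F : Type) [Field F] : Type := Equiv.Perm (Fin 100) × Cfsg.PSU 3 F 5

/-- The pair of a code. -/
noncomputable def sem (w : F) (c : Cd) : Hp F := (pOf c.1, el w c.2)

/-- The group at the head of a chain. -/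
noncomputable def grp (w : F) (Ls : List PLvl) : Subgroup (Hp F) :=
  Subgroup.closure {p | ∃ c ∈ gensOf Ls, sem w c = p}

/-- The group fixes a point through its first part. -/
def fixPt (b : Fin 100) : Subgroup (Hp F) :=
  (MulAction.stabilizer (Equiv.Perm (Fin 100)) b).comap (MonoidHom.fst _ _)

include hw hws in
theorem mul_eqv {X Y Z : M9} (hX : X.good = true) (hY : Y.good = true) (h : (X.mul Y).eqv Z = true) :
    el w X * el w Y = el w Z := by
  obtain ⟨r, e⟩ := real_mul hw (real_good hF hw hws hX) (real_good hF hw hws hY)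
  rw [← e]
  exact el_eqv hF hw hws r h

/-- Facts read off from a correct level. -/
structure LvlFacts (w : F) (L : PLvl) (rest : List PLvl) : Prop where
  hb : L.b < 100
  hpos : 0 < L.trans.length
  tok : ∀ k < L.trans.length, cdOK (L.t k) = true
  gok : ∀ s < L.gens.length, cdOK (L.g s) = true
  tid : sem w (L.t 0) = 1
  tmem : ∀ k < L.trans.length, sem w (L.t k) ∈ grp w (L :: rest)
  tinj : ∀ k < L.trans.length, ∀ l < L.trans.length, J2.app (L.t k).1 L.b = J2.app (L.t l).1 L.b → k = l
  wit : ∀ s < L.gens.length, ∀ k < L.trans.length, ∃ v : ℕ × List ℕ, v.1 < L.trans.length ∧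
    idxOK rest v.2 = true ∧ (∀ i < 100, J2.app (L.g s).1 (J2.app (L.t k).1 i) = J2.app (L.t v.1).1 (prodApp rest v.2 i)) ∧
      ((L.g s).2.mul (L.t k).2).eqv ((L.t v.1).2.mul (prodM rest v.2)) = true
  next_mem : grp w rest ≤ grp w (L :: rest) ⊓ fixPt (⟨L.b, hb⟩ : Fin 100)

include hw hws in
theorem lvlFacts {L : PLvl} {rest : List PLvl} (h : lvlOK L rest = true) : LvlFacts w L rest := by
  simp only [lvlOK, Bool.and_eq_true, List.all_eq_true, List.mem_range, decide_eq_true_eq] at h
  obtain ⟨⟨⟨⟨⟨⟨hb, hg⟩, hpos⟩, ht⟩, hn⟩, hwit⟩, hd⟩ := h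
  have gok : ∀ s < L.gens.length, cdOK (L.g s) = true := fun s hs => by
    rw [PLvl.g, List.getD_eq_getElem _ _ hs]; exact hg _ (List.getElem_mem hs)
  have gmem : ∀ s < L.gens.length, sem w (L.g s) ∈ grp w (L :: rest) := fun s hs =>
    Subgroup.subset_closure ⟨_, by rw [PLvl.g, List.getD_eq_getElem _ _ hs]; exact List.getElem_mem hs, rfl⟩
  have tok : ∀ k < L.trans.length, cdOK (L.t k) = true := fun k hk => (ht k hk).1
  have pok : ∀ {c : Cd}, cdOK c = true → J2.permOK c.1 = true ∧ c.2.good = true := fun h => by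
    simpa [cdOK] using h
  have tid : sem w (L.t 0) = 1 := by
    have h0 := (ht 0 hpos).2
    simp only [beq_self_eq_true, cond_true, Bool.and_eq_true, List.all_eq_true, List.mem_range, beq_iff_eq] at h0
    obtain ⟨r1, e1⟩ := real_one (F := F) (w := w)
    refine Prod.ext ?_ ?_
    · ext i
      show (pOf (L.t 0).1 i : ℕ) = _
      rw [pOf_apply (pok (tok 0 hpos)).1, h0.1 i i.2]
      rfl
    · show el w (L.t 0).2 = 1
      rw [← el_eqv hF hw hws r1 h0.2, e1]
  have tmem : ∀ k < L.trans.length, sem w (L.t k) ∈ grp w (L :: rest) := by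
    intro k
    induction k using Nat.strong_induction_on with
    | _ k ih =>
      intro hk
      by_cases h0 : k = 0
      · subst h0; rw [tid]; exact one_mem _
      · have h1 := (ht k hk).2
        rw [show (k == 0) = false from beq_eq_false_iff_ne.2 h0] at h1
        simp only [cond_false, Bool.and_eq_true, decide_eq_true_eq, List.all_eq_true,
          List.mem_range, beq_iff_eq] at h1
        obtain ⟨⟨⟨hp, hs⟩, he⟩, hm⟩ := h1
        have e : sem w (L.t k) = sem w (L.g (L.trans.getD k (nullCd, 0, 0)).2.1) *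
            sem w (L.t (L.trans.getD k (nullCd, 0, 0)).2.2) := by
          refine Prod.ext ?_ (mul_eqv hF hw hws (pok (gok _ hs)).2 (pok (tok _ (hp.trans hk))).2 hm).symm
          ext i
          show (pOf (L.t k).1 i : ℕ) = (pOf _ (pOf _ i) : ℕ)
          rw [pOf_apply (pok (tok k hk)).1, he i i.2, pOf_apply (pok (gok _ hs)).1,
            pOf_apply (pok (tok _ (hp.trans hk))).1]
        rw [e]
        exact mul_mem (gmem _ hs) (ih _ hp (hp.trans hk))
  refine ⟨hb, hpos, tok, gok, tid, tmem, ?_, ?_, ?_⟩
  · intro k hk l hl e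
    rcases Nat.lt_trichotomy k l with h | h | h
    · have := hn l hl k h; simp [e] at this
    · exact h
    · have := hn k hk l h; simp [e] at this
  · intro s hs k hk
    have := hwit s hs k hk
    simp only [Bool.and_eq_true, decide_eq_true_eq, List.all_eq_true, List.mem_range, beq_iff_eq] at this
    exact ⟨_, this.1.1.1, this.1.1.2, this.1.2, this.2⟩
  · rw [grp, Subgroup.closure_le]
    rintro _ ⟨c, hc, rfl⟩
    obtain ⟨j, hj, rfl⟩ := List.getElem_of_mem hc
    have h1 := hd j hj
    simp only [Bool.and_eq_true, decide_eq_true_eq, List.all_eq_true, List.mem_range, beq_iff_eq,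
      List.getD_eq_getElem _ _ hj] at h1
    obtain ⟨⟨⟨⟨⟨⟨hu, hs⟩, hk⟩, hl⟩, hfix⟩, he⟩, hm⟩ := h1
    refine ⟨?_, Fin.ext ?_⟩
    · have e : sem w ((gensOf rest)[j]) = (sem w (L.t (L.deriv.getD j (0, 0, 0)).2.2))⁻¹ *
          (sem w (L.g (L.deriv.getD j (0, 0, 0)).1) * sem w (L.t (L.deriv.getD j (0, 0, 0)).2.1)) := by
        rw [eq_inv_mul_iff_mul_eq]
        refine Prod.ext ?_ ?_
        · ext i
          show (pOf _ (pOf _ i) : ℕ) = (pOf _ (pOf _ i) : ℕ)
          rw [pOf_apply (pok (tok _ hl)).1, pOf_apply (pok hu).1, pOf_apply (pok (gok _ hs)).1,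
            pOf_apply (pok (tok _ hk)).1, ← he i i.2]
        · show el w _ * el w _ = el w _ * el w _
          obtain ⟨r, er⟩ := real_mul hw (real_good hF hw hws (pok (gok _ hs)).2)
            (real_good hF hw hws (pok (tok _ hk)).2)
          obtain ⟨r', er'⟩ := real_mul hw (real_good hF hw hws (pok (tok _ hl)).2) (real_good hF hw hws (pok hu).2)
          rw [← er, ← er', el_eqv hF hw hws r hm]
      rw [e]
      exact (grp w (L :: rest)).mul_mem ((grp w (L :: rest)).inv_mem (tmem _ hl))
        ((grp w (L :: rest)).mul_mem (gmem _ hs) (tmem _ hk))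
    · show (pOf ((gensOf rest)[j]).1 ⟨L.b, hb⟩ : ℕ) = L.b
      rw [pOf_apply (pok hu).1]; exact hfix

include hF hw hws in
theorem chain_main : ∀ Ls : List PLvl, chainOK Ls = true →
    Nat.card (grp w Ls) = total Ls ∧ (∀ p ∈ grp w Ls, p.1 = 1 → p = 1) ∧ ∀ js, idxOK Ls js = true →
      Real5 w (prodM Ls js) ∧
      ∃ p ∈ grp w Ls, (∀ i : Fin 100, (p.1 i : ℕ) = prodApp Ls js i) ∧ p.2 = el w (prodM Ls js)
  | [], _ => by
    have hbot : grp w [] = ⊥ := by
      rw [grp, Subgroup.closure_eq_bot_iff]
      rintro x ⟨c, hc, -⟩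
      exact absurd hc List.not_mem_nil
    refine ⟨by rw [hbot, Subgroup.card_bot]; rfl, fun p hp _ => by rwa [hbot, Subgroup.mem_bot] at hp,
      fun js _ => ?_⟩
    have e : prodM [] js = M9.one := by cases js <;> rfl
    rw [e]
    exact ⟨(real_one (F := F) (w := w)).1, 1, one_mem _, fun i => by cases js <;> rfl, (real_one (F := F) (w := w)).2.symm⟩
  | L :: rest, h => by
    rw [chainOK, Bool.and_eq_true] at h
    obtain ⟨ihc, ihi, ihp⟩ := chain_main rest h.2
    have Fa := lvlFacts hF hw hws h.1
    have pok : ∀ {c : Cd}, cdOK c = true → J2.permOK c.1 = true ∧ c.2.good = true := fun h => by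
      simpa [cdOK] using h
    let b : Fin 100 := ⟨L.b, Fa.hb⟩
    letI : MulAction (Hp F) (Fin 100) := MulAction.compHom (Fin 100) (MonoidHom.fst (Equiv.Perm (Fin 100)) _)
    have hle : grp w rest ≤ grp w (L :: rest) := Fa.next_mem.trans inf_le_left
    have hdec : ∀ p ∈ grp w (L :: rest), ∃ k < L.trans.length, ∃ q ∈ grp w rest, p = sem w (L.t k) * q := by
      intro p hp
      have key : ∀ p ∈ Submonoid.closure {p | ∃ c ∈ L.gens, sem w c = p},
          ∃ k < L.trans.length, ∃ q ∈ grp w rest, p = sem w (L.t k) * q := by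
        intro p hp
        induction hp using Submonoid.closure_induction_left with
        | one => exact ⟨0, Fa.hpos, 1, one_mem _, by rw [Fa.tid, mul_one]⟩
        | mul_left x hx y _ ih =>
          obtain ⟨k, hk, q, hq, rfl⟩ := ih
          obtain ⟨c, hc, rfl⟩ := hx
          obtain ⟨s, hs, rfl⟩ := List.getElem_of_mem hc
          obtain ⟨⟨l, js⟩, hl, hjs, he, hm⟩ := Fa.wit s hs k hk
          obtain ⟨rr, r, hr, her, her2⟩ := ihp js hjs
          refine ⟨l, hl, r * q, mul_mem hr hq, ?_⟩
          rw [← mul_assoc, ← mul_assoc]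
          congr 1
          have hgs : L.g s = L.gens[s] := List.getD_eq_getElem _ _ hs
          rw [← hgs]
          refine Prod.ext ?_ ?_
          · ext i
            show (pOf _ (pOf _ i) : ℕ) = (pOf _ (r.1 i) : ℕ)
            rw [pOf_apply (pok (Fa.gok s hs)).1, pOf_apply (pok (Fa.tok k hk)).1,
              pOf_apply (pok (Fa.tok l hl)).1, her i]
            exact he i i.2
          · show el w _ * el w _ = el w _ * r.2
            obtain ⟨r1, e1⟩ := real_mul hw (real_good hF hw hws (pok (Fa.gok s hs)).2)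
              (real_good hF hw hws (pok (Fa.tok k hk)).2)
            obtain ⟨r2, e2⟩ := real_mul hw (real_good hF hw hws (pok (Fa.tok l hl)).2) rr
            rw [her2, ← e1, ← e2, el_eqv hF hw hws r1 hm]
      refine key p ?_
      rw [grp, ← Subgroup.mem_toSubmonoid, Subgroup.closure_toSubmonoid_of_finite] at hp
      exact hp
    have hq_fix : ∀ q ∈ grp w rest, q.1 b = b := fun q hq => (Fa.next_mem hq).2
    have hT0 : ∀ k < L.trans.length, (pOf (L.t k).1 b : ℕ) = J2.app (L.t k).1 L.b := fun k hk =>
      pOf_apply (pok (Fa.tok k hk)).1 b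
    have h2 : grp w (L :: rest) ⊓ MulAction.stabilizer (Hp F) b = grp w rest := by
      refine le_antisymm (fun p hp => ?_) (fun p hp => ⟨hle hp, hq_fix p hp⟩)
      obtain ⟨k, hk, q, hq, rfl⟩ := hdec p hp.1
      have h' : pOf (L.t k).1 (q.1 b) = b := hp.2
      rw [hq_fix q hq] at h'
      have h0 : pOf (L.t 0).1 b = b := by
        have := congrArg (fun p : Hp F => p.1 b) Fa.tid
        exact this
      have e' := congrArg Fin.val (h'.trans h0.symm)
      rw [hT0 k hk, hT0 0 Fa.hpos] at e'
      rw [Fa.tinj k hk 0 Fa.hpos e', Fa.tid, one_mul]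
      exact hq
    refine ⟨?_, fun p hp h1 => ihi p ?_ h1, ?_⟩
    · have hT : ((Finset.range L.trans.length).image fun k => pOf (L.t k).1 b).card = L.trans.length := by
        rw [Finset.card_image_of_injOn, Finset.card_range]
        intro k hk l hl e
        rw [Finset.mem_coe, Finset.mem_range] at hk hl
        have := congrArg Fin.val e
        simp only [hT0 k hk, hT0 l hl] at this
        exact Fa.tinj k hk l hl this
      have h1 := card_eq_ncard_mul_stab (grp w (L :: rest)) b
        (↑((Finset.range L.trans.length).image fun k => pOf (L.t k).1 b) : Set (Fin 100))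
        (fun t ht => by
          rw [Finset.mem_coe, Finset.mem_image] at ht
          obtain ⟨k, hk, rfl⟩ := ht
          exact ⟨_, Fa.tmem k (Finset.mem_range.1 hk), rfl⟩)
        (fun p hp => by
          obtain ⟨k, hk, q, hq, rfl⟩ := hdec p hp
          rw [Finset.mem_coe, Finset.mem_image]
          refine ⟨k, Finset.mem_range.2 hk, ?_⟩
          show _ = pOf (L.t k).1 (q.1 b)
          rw [hq_fix q hq])
      rw [Set.ncard_coe_finset, hT] at h1
      rw [h1, h2, ihc]
      rfl
    · rw [← h2]
      exact ⟨hp, by show p.1 b = b; rw [h1]; rfl⟩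
    · intro js hjs
      cases js with
      | nil =>
        exact ⟨(real_one (F := F) (w := w)).1, 1, one_mem _, fun i => rfl, (real_one (F := F) (w := w)).2.symm⟩
      | cons j js =>
        simp only [idxOK, Bool.and_eq_true, decide_eq_true_eq] at hjs
        obtain ⟨rr, r, hr, her, her2⟩ := ihp js hjs.2
        obtain ⟨r2, e2⟩ := real_mul hw (real_good hF hw hws (pok (Fa.tok j hjs.1)).2) rr
        refine ⟨r2, sem w (L.t j) * r, mul_mem (Fa.tmem j hjs.1) (hle hr), fun i => ?_, ?_⟩
        · show (pOf (L.t j).1 (r.1 i) : ℕ) = _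
          rw [pOf_apply (pok (Fa.tok j hjs.1)).1, her i]
          rfl
        · show el w (L.t j).2 * r.2 = _
          rw [her2]
          exact e2.symm

end field

/-- The certified levels. -/
def levels : List PLvl :=
  [⟨0, gens0, trans0, wit0, deriv0⟩, ⟨66, gens1, trans1, wit1, deriv1⟩,
   ⟨49, gens2, trans2, wit2, deriv2⟩, ⟨95, gens3, trans3, wit3, deriv3⟩]

theorem levels_ok : chainOK levels = true := by decide +kernel

theorem levels_total : total levels = 126000 := by decide +kernel

/-- A word in the generators. -/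
def wordM : List ℕ → M9
  | [] => M9.one
  | s :: l => (gens0.getD s nullCd).2.mul (wordM l)

/-- A word is in range. -/
def wordOK (l : List ℕ) : Bool := l.all fun s => decide (s < gens0.length)

/-- Repeated product. -/
def powM (X : M9) : ℕ → M9
  | 0 => M9.one
  | n + 1 => X.mul (powM X n)

/-- A code that is not central. -/
def ncM (X : M9) : Bool :=
  gens0.any fun c => decide (KnownA.U35.pmul X.dec c.2.dec ≠ KnownA.U35.pmul c.2.dec X.dec)

/-- The image has elements of orders 8, 7, 3 and two independent commuting elements of order 5. -/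
def ordersOK : Bool :=
  let X := fun n => wordM (testWords.getD n [])
  testWords.all wordOK &&
  (powM (X 0) 8).eqv M9.one && ncM (powM (X 0) 4) &&
  (powM (X 1) 7).eqv M9.one && ncM (X 1) &&
  (powM (X 2) 3).eqv M9.one && ncM (X 2) &&
  (powM (X 3) 5).eqv M9.one && ncM (X 3) &&
  (powM (X 4) 5).eqv M9.one && ncM (X 4) &&
  ((X 3).mul (X 4)).eqv ((X 4).mul (X 3)) &&
  ((List.range 5).all fun i => ncM ((powM (X 3) i).mul (X 4)))

theorem orders_ok : ordersOK = true := by decide +kernel

end Cfsg.Agent.Golay.U35
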