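import Cfsg.Agent.Golay.LeechCo3Rank
import Cfsg.Agent.Golay.LeechHS
import Cfsg.Agent.Golay.U35Chain

/-! The 352 vectors of a Higman-Sims pair and their unitary stabilisers. -/

set_option autoImplicit false
set_option maxRecDepth 100000

namespace Cfsg.Agent.Golay.HS352

open Cfsg.Agent.Golay.Co3Rank (uC r352 r1100 r4125 r5600 reach look T352 T1100 T4125 T5600 edge_of_segs
  root_facts numVec_inj)
open Cfsg.Agent.Golay.U35 (M9 el sem grp levels hsPts hsWords gens0 wordM powM ncM testWords)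

/-- The second vector. -/
def wC : ↥leechLattice := -uC + hsX

/-- The base vector. -/
def x0 : ↥leechLattice := -r352

/-- The 352 vectors. -/
def set352 (v w : ↥leechLattice) : Set ↥leechLattice :=
  {x | sqNorm (x : GolayPt → ℤ) = 32 ∧ dotInt (v : GolayPt → ℤ) (x : GolayPt → ℤ) = 16 ∧
    dotInt (w : GolayPt → ℤ) (x : GolayPt → ℤ) = -24}

theorem pair_facts : sqNorm (uC : GolayPt → ℤ) = 48 ∧ sqNorm (wC : GolayPt → ℤ) = 48 ∧
    dotInt (uC : GolayPt → ℤ) (wC : GolayPt → ℤ) = -32 := by decide +kernel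

theorem dot_neg' (a b : GolayPt → ℤ) : dotInt a (-b) = -dotInt a b := by
  simp [dotInt, Finset.sum_neg_distrib]

theorem dot_neg_left' (a b : GolayPt → ℤ) : dotInt (-a) b = -dotInt a b := by
  simp [dotInt, Finset.sum_neg_distrib]

theorem dot_add_left' (a b c : GolayPt → ℤ) : dotInt (a + b) c = dotInt a c + dotInt b c := by
  simp [dotInt, add_mul, Finset.sum_add_distrib]

theorem norm_neg' (a : GolayPt → ℤ) : sqNorm (-a) = sqNorm a := by
  rw [← dotInt_self_eq, ← dotInt_self_eq, dot_neg_left', dot_neg', neg_neg]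

/-- One class of the 11178. -/
def cls (d : ℤ) : Set ↥leechLattice :=
  {y | y ∈ Co3Rank.cosetSet uC ∧ dotInt ((-hsX : ↥leechLattice) : GolayPt → ℤ) y = d}

theorem class_ge {T : List (List (ℕ × ℕ × ℕ))} {n : ℕ} {r : ↥leechLattice} {d : ℤ}
    (ht : ∀ k < n, Co3Rank.edgeOK T k = true) (hd : Co3Rank.blockDistinct T n = true)
    (hr : (r : GolayPt → ℤ) = numVec (look T 0).1) (hf : Co3Rank.rootFact r d) :
    ∃ f : Fin n → ↥leechLattice, Function.Injective f ∧ (∀ k, f k ∈ cls d) ∧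
      ∀ k, ∃ g : ↥Co0, g • hsX = hsX ∧ g • uC = uC ∧ g • r = f k := by
  obtain ⟨f, hf', hfr⟩ := reach ht hd r hr
  refine ⟨f, hf', fun k => ?_, hfr⟩
  obtain ⟨g, g1, g2, g3⟩ := hfr k
  obtain ⟨r1, r2, r3⟩ := hf
  refine ⟨⟨by rw [← g3, co0_norm, r1], ?_⟩, ?_⟩
  · have := co0_dot g uC r
    rw [g2, g3, r2] at this; exact this
  · have := co0_dot g (-hsX) r
    rw [co0_neg', g1, g3, r3] at this; exact this

theorem cls_eight : (cls (-8)).ncard = 352 ∧
    ∀ y ∈ cls (-8), ∃ g : ↥Co0, g • hsX = hsX ∧ g • uC = uC ∧ g • r352 = y := by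
  obtain ⟨q1, q2, q3, q4⟩ := root_facts
  obtain ⟨f1, i1, m1, h1⟩ := class_ge (edge_of_segs Co3Rank.t352_a Co3Rank.t352_b) Co3Rank.t352_d
    (r := r352) rfl q1
  obtain ⟨f2, i2, m2, -⟩ := class_ge (edge_of_segs Co3Rank.t1100_a Co3Rank.t1100_b) Co3Rank.t1100_d
    (r := r1100) rfl q2
  obtain ⟨f3, i3, m3, -⟩ := class_ge (edge_of_segs Co3Rank.t4125_a Co3Rank.t4125_b) Co3Rank.t4125_d
    (r := r4125) rfl q3
  obtain ⟨f4, i4, m4, -⟩ := class_ge (edge_of_segs Co3Rank.t5600_a Co3Rank.t5600_b) Co3Rank.t5600_d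
    (r := r5600) rfl q4
  have htot := (Cfsg.Agent.S1640.result uC pair_facts.1).1
  change (Co3Rank.cosetSet uC).ncard = 11178 at htot
  have hfin : (Co3Rank.cosetSet uC).Finite := Set.finite_of_ncard_ne_zero (by rw [htot]; norm_num)
  have fd : ∀ d, (cls d).Finite := fun d => hfin.subset fun y h => h.1
  have hx : (-hsX : ↥leechLattice) ∈ cls 32 :=
    ⟨⟨Co3Rank.base_facts.2.1, Co3Rank.base_facts.2.2⟩, (dotInt_self_eq _).trans Co3Rank.base_facts.2.1⟩
  have hx' : (-hsX : ↥leechLattice) ∉ cls (-8) ∧ (-hsX : ↥leechLattice) ∉ cls 16 ∧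
      (-hsX : ↥leechLattice) ∉ cls 0 ∧ (-hsX : ↥leechLattice) ∉ cls 8 := by
    refine ⟨?_, ?_, ?_, ?_⟩ <;> intro h <;> have := h.2.symm.trans hx.2 <;> norm_num at this
  have hdis : ∀ a b, a ≠ b → Disjoint (cls a) (cls b) := fun a b hab =>
    Set.disjoint_left.2 fun y p q => hab (p.2.symm.trans q.2)
  have g1 : 352 ≤ (cls (-8)).ncard := by
    simpa [Set.ncard_range_of_injective i1] using Set.ncard_le_ncard (Set.range_subset_iff.2 m1) (fd _)
  have g2 : 1100 ≤ (cls 16).ncard := by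
    simpa [Set.ncard_range_of_injective i2] using Set.ncard_le_ncard (Set.range_subset_iff.2 m2) (fd _)
  have g3 : 4125 ≤ (cls 0).ncard := by
    simpa [Set.ncard_range_of_injective i3] using Set.ncard_le_ncard (Set.range_subset_iff.2 m3) (fd _)
  have g4 : 5600 ≤ (cls 8).ncard := by
    simpa [Set.ncard_range_of_injective i4] using Set.ncard_le_ncard (Set.range_subset_iff.2 m4) (fd _)
  have hle : (insert (-hsX) (cls (-8) ∪ cls 16 ∪ cls 0 ∪ cls 8)).ncard ≤ 11178 := by
    rw [← htot]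
    refine Set.ncard_le_ncard ?_ hfin
    rintro y (rfl | (((h | h) | h) | h))
    exacts [hx.1, h.1, h.1, h.1, h.1]
  rw [Set.ncard_insert_of_notMem (by simp [hx']) ((((fd _).union (fd _)).union (fd _)).union (fd _)),
    Set.ncard_union_eq (Set.disjoint_union_left.2 ⟨Set.disjoint_union_left.2
      ⟨hdis _ _ (by norm_num), hdis _ _ (by norm_num)⟩, hdis _ _ (by norm_num)⟩)
      (((fd _).union (fd _)).union (fd _)) (fd _),
    Set.ncard_union_eq (Set.disjoint_union_left.2 ⟨hdis _ _ (by norm_num), hdis _ _ (by norm_num)⟩)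
      ((fd _).union (fd _)) (fd _),
    Set.ncard_union_eq (hdis _ _ (by norm_num)) (fd _) (fd _)] at hle
  have hcard : (cls (-8)).ncard = 352 := by omega
  refine ⟨hcard, fun y hy => ?_⟩
  have : Set.range f1 = cls (-8) := Set.eq_of_subset_of_ncard_le (Set.range_subset_iff.2 m1)
    (by rw [Set.ncard_range_of_injective i1, hcard, Nat.card_fin]) (fd _)
  rw [← this] at hy
  obtain ⟨k, rfl⟩ := hy
  exact h1 k

theorem mem_ref_iff (x : ↥leechLattice) : x ∈ set352 uC wC ↔ -x ∈ cls (-8) := by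
  have e : dotInt (wC : GolayPt → ℤ) x = -dotInt (uC : GolayPt → ℤ) x + dotInt (hsX : GolayPt → ℤ) x := by
    rw [wC, AddSubgroup.coe_add, AddSubgroup.coe_neg, dot_add_left', dot_neg_left']
  simp only [set352, cls, Co3Rank.cosetSet, Set.mem_ofPred_eq, AddSubgroup.coe_neg, norm_neg', dot_neg',
    dot_neg_left', e, neg_neg]
  omega

theorem fix_wC {g : ↥Co0} (g1 : g • hsX = hsX) (g2 : g • uC = uC) : g • wC = wC := by
  rw [wC, co0_add, co0_neg', g1, g2]

theorem ref_facts : (set352 uC wC).ncard = 352 ∧ x0 ∈ set352 uC wC ∧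
    ∀ x ∈ set352 uC wC, ∃ g : ↥Co0, g • uC = uC ∧ g • wC = wC ∧ g • x0 = x := by
  obtain ⟨hc, ht⟩ := cls_eight
  refine ⟨?_, ?_, fun x hx => ?_⟩
  · have : set352 uC wC = Neg.neg '' cls (-8) := by
      ext x
      rw [mem_ref_iff]
      exact ⟨fun h => ⟨-x, h, neg_neg x⟩, fun ⟨y, hy, e⟩ => by rw [← e, neg_neg]; exact hy⟩
    rw [this, Set.ncard_image_of_injective _ neg_injective, hc]
  · rw [mem_ref_iff, x0, neg_neg]
    exact ⟨⟨root_facts.1.1, root_facts.1.2.1⟩, root_facts.1.2.2⟩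
  · obtain ⟨g, g1, g2, g3⟩ := ht (-x) ((mem_ref_iff x).1 hx)
    exact ⟨g, g2, fix_wC g1 g2, by rw [x0, co0_neg', g3, neg_neg]⟩

/-- The stabiliser of the base triple. -/
def K0 : Subgroup ↥Co0 :=
  MulAction.stabilizer ↥Co0 uC ⊓ MulAction.stabilizer ↥Co0 wC ⊓ MulAction.stabilizer ↥Co0 x0

theorem K0_card : Nat.card ↥K0 = 126000 := by
  obtain ⟨hc, -, ht⟩ := ref_facts
  have hHS := hs_card pair_facts.1 pair_facts.2.1 pair_facts.2.2
  have h := card_eq_ncard_mul_stab (MulAction.stabilizer ↥Co0 uC ⊓ MulAction.stabilizer ↥Co0 wC) x0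
    (set352 uC wC)
    (fun x hx => by
      obtain ⟨g, g1, g2, g3⟩ := ht x hx
      exact ⟨g, Subgroup.mem_inf.2 ⟨g1, g2⟩, g3⟩)
    (fun g hg => by
      obtain ⟨a, b, c⟩ := ref_facts.2.1
      obtain ⟨hu, hv⟩ := Subgroup.mem_inf.1 hg
      refine ⟨(co0_norm g x0).trans a, ?_, ?_⟩
      · have := co0_dot g uC x0
        rw [show g • uC = uC from hu, b] at this; exact this
      · have := co0_dot g wC x0
        rw [show g • wC = wC from hv, c] at this; exact this)
  rw [hHS, hc] at h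
  change 44352000 = 352 * Nat.card ↥K0 at h
  omega

/-- The hundred points, as lattice vectors. -/
theorem pts_ok : ((List.range 100).all fun i => leechTest (numVec (hsPts.getD i 0))) = true ∧
    (∀ i < 100, sqNorm (numVec (hsPts.getD i 0)) = 32 ∧ dotInt (uC : GolayPt → ℤ) (numVec (hsPts.getD i 0)) = 24 ∧
      dotInt (wC : GolayPt → ℤ) (numVec (hsPts.getD i 0)) = -24 ∧ hsPts.getD i 0 < 2 ^ 96) ∧
    hsPts.length = 100 ∧ hsPts.Nodup := by decide +kernel

theorem words_ok : gensOK hsWords [(uC : GolayPt → ℤ), (x0 : GolayPt → ℤ)] = true := by decide +kernel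

theorem words_perm : ((List.range 3).all fun j => (List.range 100).all fun i =>
    wordList (hsWords.getD j []) (matl (numVec (hsPts.getD i 0))) ==
      matl (numVec (hsPts.getD (J2.app (gens0.getD j U35.nullCd).1 i) 0))) = true ∧
    hsWords.length = 3 ∧ gens0.length = 3 ∧ (∀ j < 3, J2.permOK (gens0.getD j U35.nullCd).1 = true) := by
  decide +kernel

/-- A point. -/
def pnt (i : Fin 100) : ↥(hsSet uC wC) :=
  ⟨⟨numVec (hsPts.getD i 0), leechTest_sound (List.all_eq_true.1 pts_ok.1 i (List.mem_range.2 i.2))⟩,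
    (pts_ok.2.1 i i.2).1, (pts_ok.2.1 i i.2).2.1, (pts_ok.2.1 i i.2).2.2.1⟩

theorem pnt_bijective : Function.Bijective pnt := by
  have hinj : Function.Injective pnt := fun i j h => by
    have e0 := congrArg (fun a : ↥(hsSet uC wC) => ((a : ↥leechLattice) : GolayPt → ℤ)) h
    have e := numVec_inj (pts_ok.2.1 i i.2).2.2.2 (pts_ok.2.1 j j.2).2.2.2 e0
    rw [List.getD_eq_getElem _ _ (by rw [pts_ok.2.2.1]; exact i.2),
      List.getD_eq_getElem _ _ (by rw [pts_ok.2.2.1]; exact j.2)] at e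
    exact Fin.ext (pts_ok.2.2.2.getElem_inj_iff.1 e)
  obtain ⟨g, g1, g2⟩ := hs_conj pair_facts.1 pair_facts.2.1 pair_facts.2.2
  have hcard : Nat.card ↥(hsSet uC wC) = 100 := by
    have e : hsSet uC wC = (fun x => g • x) ⁻¹' hsSet hsV hsW := Set.ext fun x => hsSet_transport g1 g2 x
    rw [Nat.card_coe_set_eq, e, Set.ncard_preimage_of_injective_subset_range (MulAction.injective g)
      (fun y _ => ⟨g⁻¹ • y, smul_inv_smul g y⟩), hs_set_ncard]
  haveI : Finite ↥(hsSet uC wC) := Nat.finite_of_card_ne_zero (by rw [hcard]; norm_num)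
  exact (Nat.bijective_iff_injective_and_card pnt).2 ⟨hinj, by rw [hcard, Nat.card_fin]⟩

theorem K0_mem_set {g : ↥Co0} (hg : g ∈ K0) {y : ↥leechLattice} (hy : y ∈ hsSet uC wC) :
    g • y ∈ hsSet uC wC := by
  obtain ⟨a, b, c⟩ := hy
  obtain ⟨⟨hu, hv⟩, -⟩ := hg
  refine ⟨(co0_norm g y).trans a, ?_, ?_⟩
  · have := co0_dot g uC y
    rw [show g • uC = uC from hu, b] at this; exact this
  · have := co0_dot g wC y
    rw [show g • wC = wC from hv, c] at this; exact this

/-- The action on the hundred points. -/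
noncomputable def rho : ↥K0 →* Equiv.Perm (Fin 100) where
  toFun k :=
    { toFun := fun i => (Equiv.ofBijective pnt pnt_bijective).symm ⟨k.1 • (pnt i).1, K0_mem_set k.2 (pnt i).2⟩
      invFun := fun i => (Equiv.ofBijective pnt pnt_bijective).symm ⟨k.1⁻¹ • (pnt i).1, K0_mem_set (inv_mem k.2) (pnt i).2⟩
      left_inv := fun i => by
        rw [Equiv.symm_apply_eq, Equiv.ofBijective_apply]
        refine Subtype.ext ?_
        simp only [Equiv.ofBijective_apply_symm_apply, inv_smul_smul]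
      right_inv := fun i => by
        rw [Equiv.symm_apply_eq, Equiv.ofBijective_apply]
        refine Subtype.ext ?_
        simp only [Equiv.ofBijective_apply_symm_apply, smul_inv_smul] }
  map_one' := Equiv.ext fun i => by
    simp only [Equiv.coe_fn_mk, OneMemClass.coe_one, one_smul, Equiv.Perm.coe_one, id_eq, Subtype.coe_eta]
    exact Equiv.ofBijective_symm_apply_apply pnt pnt_bijective i
  map_mul' a b := Equiv.ext fun i => by
    simp only [Equiv.coe_fn_mk, Equiv.Perm.coe_mul, Function.comp_apply, Subgroup.coe_mul, mul_smul,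
      Equiv.ofBijective_apply_symm_apply]

theorem gen_image {j : ℕ} (hj : j < 3) : ∃ k : ↥K0, rho k = J2.pOf (gens0.getD j U35.nullCd).1 := by
  have hw := words_ok
  simp only [gensOK, List.all_eq_true, Bool.and_eq_true, beq_iff_eq] at hw
  obtain ⟨hperm, hl, -, hok⟩ := words_perm
  have hm : hsWords.getD j [] ∈ hsWords := by
    rw [List.getD_eq_getElem _ _ (hl ▸ hj)]; exact List.getElem_mem _
  obtain ⟨h1, h2⟩ := hw _ hm
  obtain ⟨g, g1, g2⟩ := word_elem _ (List.all_eq_true.2 h1)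
  have fixes : ∀ v : ↥leechLattice, (v : GolayPt → ℤ) ∈ [(uC : GolayPt → ℤ), (x0 : GolayPt → ℤ)] → g • v = v :=
    fun v hv => Subtype.ext (by rw [g2, ← listVec_matl (List.foldl _ _ _), ← wordList_matl, h2 _ hv, listVec_matl])
  have hu := fixes uC (by simp)
  refine ⟨⟨g, ⟨⟨hu, fix_wC g1 hu⟩, fixes x0 (by simp)⟩⟩, Equiv.ext fun i => ?_⟩
  simp only [rho, MonoidHom.coe_mk, OneHom.coe_mk, Equiv.coe_fn_mk]
  rw [Equiv.symm_apply_eq, Equiv.ofBijective_apply]
  refine Subtype.ext (Subtype.ext ?_)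
  simp only [List.all_eq_true, List.mem_range, beq_iff_eq] at hperm
  show ((g • (pnt i).1 : ↥leechLattice) : GolayPt → ℤ) = numVec _
  rw [g2, ← listVec_matl (List.foldl _ _ _), ← wordList_matl]
  rw [show ((pnt i).1 : GolayPt → ℤ) = numVec (hsPts.getD i 0) from rfl, hperm j hj i i.2, listVec_matl,
    J2.pOf_apply (hok j hj)]

section field

variable {F : Type} [Field F] [Fintype F] [CharP F 5] (hF : Fintype.card F = 5 ^ 2) {w : F}
  (hw : w * w = 2) (hws : Forms.frobQ hF w = -w) (hnot : ∀ a : ZMod 5, w ≠ ZMod.castHom (dvd_refl 5) F a)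

include hF hw hws in
theorem gens_good : ∀ c ∈ gens0, U35.Real5 w c.2 := by
  intro c hc
  have h := U35.levels_ok
  have hok : U35.cdOK c = true := by
    simp only [levels, U35.chainOK, U35.lvlOK, Bool.and_eq_true, List.all_eq_true] at h
    exact h.1.1.1.1.1.1.2 c hc
  simp only [U35.cdOK, Bool.and_eq_true] at hok
  exact U35.real_good hF hw hws hok.2

include hF hw hws in
theorem word_mem : ∀ l, U35.wordOK l = true → U35.Real5 w (wordM l) ∧
    ∃ p ∈ grp w levels, p.2 = el w (wordM l)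
  | [], _ => ⟨(U35.real_one (F := F) (w := w)).1, 1, one_mem _, (U35.real_one (F := F) (w := w)).2.symm⟩
  | s :: l, h => by
    simp only [U35.wordOK, List.all_cons, Bool.and_eq_true, decide_eq_true_eq] at h
    obtain ⟨r, p, hp, e⟩ := word_mem l h.2
    have hm : gens0.getD s U35.nullCd ∈ gens0 := by
      rw [List.getD_eq_getElem _ _ h.1]; exact List.getElem_mem _
    obtain ⟨r', e'⟩ := U35.real_mul hw (gens_good hF hw hws _ hm) r
    refine ⟨r', sem w (gens0.getD s U35.nullCd) * p, mul_mem (Subgroup.subset_closure ⟨_, hm, rfl⟩) hp, ?_⟩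
    rw [Prod.snd_mul, e]
    exact e'.symm

include hw in
theorem el_pow {X : M9} (h : U35.Real5 w X) : ∀ n, U35.Real5 w (powM X n) ∧ el w (powM X n) = el w X ^ n
  | 0 => ⟨(U35.real_one (F := F) (w := w)).1, by rw [pow_zero]; exact (U35.real_one (F := F) (w := w)).2⟩
  | n + 1 => by
    obtain ⟨r, e⟩ := el_pow h n
    obtain ⟨r', e'⟩ := U35.real_mul hw h r
    exact ⟨r', by rw [pow_succ', ← e]; exact e'⟩

include hF hw hws hnot in
theorem el_nc {X : M9} (h : U35.Real5 w X) (hn : ncM X = true) : el w X ≠ 1 := by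
  simp only [ncM, List.any_eq_true, decide_eq_true_eq] at hn
  obtain ⟨c, hc, hne⟩ := hn
  exact U35.el_ne_one hw hnot h (gens_good hF hw hws c hc) hne

include hF hw hws hnot in
theorem snd_surjective : (grp w levels).map (MonoidHom.snd _ _) = ⊤ := by
  classical
  have hok := U35.orders_ok
  simp only [U35.ordersOK, Bool.and_eq_true, List.all_eq_true] at hok
  obtain ⟨⟨⟨⟨⟨⟨⟨⟨⟨⟨⟨⟨hwd, a8⟩, n4⟩, a7⟩, n7⟩, a3⟩, n3⟩, a5⟩, n5⟩, b5⟩, m5⟩, hcomm⟩, hind⟩ := hok
  set R := (grp w levels).map (MonoidHom.snd _ _)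
  have hlen : testWords.length = 5 := rfl
  have hR : ∀ n < 5, U35.Real5 w (wordM (testWords.getD n [])) ∧ el w (wordM (testWords.getD n [])) ∈ R := by
    intro n hn
    obtain ⟨r, p, hp, e⟩ := word_mem hF hw hws (testWords.getD n []) (hwd _ (by
      rw [List.getD_eq_getElem _ _ (by omega)]; exact List.getElem_mem _))
    exact ⟨r, p, hp, e⟩
  obtain ⟨one1, one2⟩ := U35.real_one (F := F) (w := w)
  have hpow : ∀ (n m : ℕ), n < 5 → (powM (wordM (testWords.getD n [])) m).eqv M9.one = true →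
      el w (wordM (testWords.getD n [])) ^ m = 1 := fun n m hn h => by
    obtain ⟨r, e⟩ := el_pow hw (hR n hn).1 m
    rw [← e, U35.el_eqv hF hw hws r h, one2]
  set a := fun n => el w (wordM (testWords.getD n []))
  haveI : Fact (Nat.Prime 2) := ⟨by norm_num⟩
  haveI : Fact (Nat.Prime 3) := ⟨by norm_num⟩
  haveI : Fact (Nat.Prime 5) := ⟨by norm_num⟩
  haveI : Fact (Nat.Prime 7) := ⟨by norm_num⟩
  have o8 : orderOf (a 0) = 2 ^ (2 + 1) := orderOf_eq_prime_pow (by
      obtain ⟨r, e⟩ := el_pow hw (hR 0 (by norm_num)).1 4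
      show ¬ a 0 ^ 4 = 1
      rw [← e]; exact el_nc hF hw hws hnot r n4) (hpow 0 8 (by norm_num) a8)
  have o7 : orderOf (a 1) = 7 := orderOf_eq_prime (hpow 1 7 (by norm_num) a7) (el_nc hF hw hws hnot (hR 1 (by norm_num)).1 n7)
  have o3 : orderOf (a 2) = 3 := orderOf_eq_prime (hpow 2 3 (by norm_num) a3) (el_nc hF hw hws hnot (hR 2 (by norm_num)).1 n3)
  have o5 : orderOf (a 3) = 5 := orderOf_eq_prime (hpow 3 5 (by norm_num) a5) (el_nc hF hw hws hnot (hR 3 (by norm_num)).1 n5)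
  have p5 : orderOf (a 4) = 5 := orderOf_eq_prime (hpow 4 5 (by norm_num) b5) (el_nc hF hw hws hnot (hR 4 (by norm_num)).1 m5)
  have hab : a 3 * a 4 = a 4 * a 3 := by
    obtain ⟨r1, e1⟩ := U35.real_mul hw (hR 3 (by norm_num)).1 (hR 4 (by norm_num)).1
    obtain ⟨r2, e2⟩ := U35.real_mul hw (hR 4 (by norm_num)).1 (hR 3 (by norm_num)).1
    show el w _ * el w _ = el w _ * el w _
    rw [← e1, ← e2, U35.el_eqv hF hw hws r1 hcomm]
  have hmem : ∀ n < 5, a n ∈ R := fun n hn => (hR n hn).2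
  haveI : Finite (Cfsg.PSU 3 F 5) := Nat.finite_of_card_ne_zero (by rw [U35.card_psu hF]; norm_num)
  have d8 : 8 ∣ Nat.card R := by
    have h := R.orderOf_dvd_natCard (hmem 0 (by norm_num)); rw [o8] at h; exact h
  have d7 : 7 ∣ Nat.card R := by
    have h := R.orderOf_dvd_natCard (hmem 1 (by norm_num)); rwa [o7] at h
  have d3 : 3 ∣ Nat.card R := by
    have h := R.orderOf_dvd_natCard (hmem 2 (by norm_num)); rwa [o3] at h
  have d25 : 25 ∣ Nat.card R := by
    have hc : ∀ (x : ↥(Subgroup.zpowers (a 3))) (y : ↥(Subgroup.zpowers (a 4))),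
        Commute ((Subgroup.zpowers (a 3)).subtype x) ((Subgroup.zpowers (a 4)).subtype y) := by
      rintro ⟨x, m, rfl⟩ ⟨y, n, rfl⟩
      exact (show Commute (a 3) (a 4) from hab).zpow_zpow m n
    let φ := MonoidHom.noncommCoprod _ _ hc
    have hφ : Function.Injective φ := by
      rw [injective_iff_map_eq_one]
      rintro ⟨⟨x, hx⟩, ⟨y, hy⟩⟩ e
      change x * y = 1 at e
      have hy' : y ∈ Subgroup.zpowers (a 3) := by rw [eq_inv_of_mul_eq_one_right e]; exact inv_mem hx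
      have y1 : y = 1 := by
        by_contra hy1
        have hz : Subgroup.zpowers y = Subgroup.zpowers (a 4) :=
          Subgroup.eq_of_le_of_card_ge (Subgroup.zpowers_le.2 hy) (by
            rw [Nat.card_zpowers, Nat.card_zpowers, p5]
            obtain ⟨n, rfl⟩ := hy
            have : orderOf (a 4 ^ n) ∣ 5 := (orderOf_dvd_of_mem_zpowers ⟨n, rfl⟩).trans (dvd_of_eq p5)
            rcases (Nat.dvd_prime (by norm_num)).1 this with h | h
            · exact absurd (orderOf_eq_one_iff.1 h) hy1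
            · exact le_of_eq h.symm)
        have h4 : (a 4)⁻¹ ∈ Subgroup.zpowers (a 3) := by
          refine inv_mem (Subgroup.zpowers_le.2 hy' ?_)
          rw [hz]; exact Subgroup.mem_zpowers _
        rw [mem_zpowers_iff_mem_range_orderOf, o5, Finset.mem_image] at h4
        obtain ⟨i, hi, hie⟩ := h4
        have hn := hind i (List.mem_range.2 (Finset.mem_range.1 hi))
        obtain ⟨r1, e1⟩ := el_pow hw (hR 3 (by norm_num)).1 i
        obtain ⟨r2, e2⟩ := U35.real_mul hw r1 (hR 4 (by norm_num)).1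
        refine el_nc hF hw hws hnot r2 hn ?_
        rw [e2, e1]
        show a 3 ^ i * a 4 = 1
        rw [hie, inv_mul_cancel]
      subst y1
      rw [mul_one] at e
      exact Prod.ext (Subtype.ext e) rfl
    have hle : φ.range ≤ R := by
      rintro _ ⟨⟨⟨x, hx⟩, ⟨y, hy⟩⟩, rfl⟩
      exact mul_mem ((Subgroup.zpowers_le.2 (hmem 3 (by norm_num))) hx)
        ((Subgroup.zpowers_le.2 (hmem 4 (by norm_num))) hy)
    have h := Subgroup.card_dvd_of_le hle
    rwa [← Nat.card_congr (MonoidHom.ofInjective hφ).toEquiv, Nat.card_prod, Nat.card_zpowers, Nat.card_zpowers,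
      o5, p5] at h
  by_contra hne
  have hi := KnownA.U35.index_ge hF R hne
  have hcard := R.card_mul_index
  rw [U35.card_psu hF] at hcard
  have h4200 : 4200 ∣ Nat.card R :=
    Nat.Coprime.mul_dvd_of_dvd_of_dvd (show Nat.Coprime 8 525 by norm_num) d8
      (Nat.Coprime.mul_dvd_of_dvd_of_dvd (show Nat.Coprime 21 25 by norm_num)
        (Nat.Coprime.mul_dvd_of_dvd_of_dvd (show Nat.Coprime 3 7 by norm_num) d3 d7) d25)
  have hpos : 0 < Nat.card R := Nat.card_pos
  have := Nat.le_of_dvd hpos h4200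
  nlinarith

include hF hw hws hnot in
theorem K0_psu : Nonempty (↥K0 ≃* Cfsg.PSU 3 F 5) := by
  obtain ⟨hcard, hinj, -⟩ := U35.chain_main hF hw hws levels U35.levels_ok
  rw [U35.levels_total] at hcard
  set D := grp w levels
  have hfst : Function.Injective ((MonoidHom.fst (Equiv.Perm (Fin 100)) (Cfsg.PSU 3 F 5)).comp D.subtype) :=
    (injective_iff_map_eq_one _).2 fun p hp => Subtype.ext (hinj p.1 p.2 hp)
  have hsnd : Function.Bijective ((MonoidHom.snd (Equiv.Perm (Fin 100)) (Cfsg.PSU 3 F 5)).comp D.subtype) := by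
    haveI : Finite ↥D := Nat.finite_of_card_ne_zero (by rw [hcard]; norm_num)
    refine (Nat.bijective_iff_surjective_and_card _).2 ⟨?_, by rw [hcard, U35.card_psu hF]⟩
    intro q
    have hq : q ∈ D.map (MonoidHom.snd _ _) := by rw [snd_surjective hF hw hws hnot]; exact Subgroup.mem_top _
    obtain ⟨p, hp, rfl⟩ := hq
    exact ⟨⟨p, hp⟩, rfl⟩
  have hle : D.map (MonoidHom.fst _ _) ≤ rho.range := by
    show (Subgroup.closure {p | ∃ c ∈ U35.gensOf levels, sem w c = p}).map _ ≤ _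
    rw [MonoidHom.map_closure, Subgroup.closure_le]
    rintro _ ⟨_, ⟨c, hc, rfl⟩, rfl⟩
    obtain ⟨j, hj, rfl⟩ := List.getElem_of_mem (show c ∈ gens0 from hc)
    obtain ⟨k, hk⟩ := gen_image (j := j) (words_perm.2.2.1 ▸ hj)
    refine ⟨k, hk.trans ?_⟩
    rw [List.getD_eq_getElem _ _ hj]
    rfl
  haveI : Finite ↥K0 := Nat.finite_of_card_ne_zero (by rw [K0_card]; norm_num)
  have hD1 : Nat.card ↥(D.map (MonoidHom.fst _ _)) = 126000 := by
    rw [← hcard]
    refine Nat.card_congr (Equiv.ofBijective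
      (fun p : ↥D => (⟨p.1.1, Subgroup.mem_map_of_mem _ p.2⟩ : ↥(D.map (MonoidHom.fst _ _)))) ⟨?_, ?_⟩).symm
    · intro a b h
      exact hfst (congrArg Subtype.val h)
    · rintro ⟨_, p, hp, rfl⟩
      exact ⟨⟨p, hp⟩, rfl⟩
  have h1 : Nat.card ↥rho.range ≤ 126000 :=
    K0_card ▸ Nat.card_le_card_of_surjective rho.rangeRestrict rho.rangeRestrict_surjective
  have heq : D.map (MonoidHom.fst _ _) = rho.range :=
    Subgroup.eq_of_le_of_card_ge hle (by rw [hD1]; exact h1)
  have hrho : Function.Injective rho.rangeRestrict :=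
    ((Nat.bijective_iff_surjective_and_card _).2
      ⟨rho.rangeRestrict_surjective, by rw [K0_card, ← heq, hD1]⟩).1
  let e1 : ↥K0 ≃* ↥rho.range := MulEquiv.ofBijective rho.rangeRestrict ⟨hrho, rho.rangeRestrict_surjective⟩
  let e2 : ↥D ≃* ↥(D.map (MonoidHom.fst _ _)) :=
    MulEquiv.ofBijective ((MonoidHom.fst _ _).subgroupMap D)
      ⟨fun a b h => hfst (congrArg Subtype.val h), MonoidHom.subgroupMap_surjective _ _⟩
  exact ⟨(e1.trans (MulEquiv.subgroupCongr heq.symm)).trans (e2.symm.trans (MulEquiv.ofBijective _ hsnd))⟩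

end field

theorem hs352 (v w : ↥leechLattice) (hv : sqNorm (v : GolayPt → ℤ) = 48) (hw : sqNorm (w : GolayPt → ℤ) = 48)
    (hvw : dotInt (v : GolayPt → ℤ) (w : GolayPt → ℤ) = -32) (F : Type) [Field F] [Fintype F]
    (hF : Fintype.card F = 25) :
    (set352 v w).ncard = 352 ∧ (∀ x ∈ set352 v w, -w - x ∈ set352 v w) ∧
    (∀ x ∈ set352 v w, ∀ x' ∈ set352 v w, ∃ g : ↥Co0, g • v = v ∧ g • w = w ∧ g • x = x') ∧
    ∀ x ∈ set352 v w, Nonempty (↥(MulAction.stabilizer ↥Co0 v ⊓ MulAction.stabilizer ↥Co0 w ⊓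
      MulAction.stabilizer ↥Co0 x) ≃* Cfsg.PSU 3 F 5) := by
  obtain ⟨h, hh1, hh2⟩ := hs_conj hv hw hvw
  obtain ⟨k, hk1, hk2⟩ := hs_conj pair_facts.1 pair_facts.2.1 pair_facts.2.2
  obtain ⟨g, gdef⟩ : ∃ g, g = k⁻¹ * h := ⟨_, rfl⟩
  have gv : g • v = uC := by rw [gdef, mul_smul, hh1, ← hk1, inv_smul_smul]
  have gw : g • w = wC := by rw [gdef, mul_smul, hh2, ← hk2, inv_smul_smul]
  have htrans : ∀ x, x ∈ set352 v w ↔ g • x ∈ set352 uC wC := fun x => by
    simp only [set352, Set.mem_ofPred_eq, ← gv, ← gw, co0_norm, co0_dot]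
  obtain ⟨hc, h0, ht⟩ := ref_facts
  have move : ∀ x ∈ set352 v w, ∃ a : ↥Co0, a • v = uC ∧ a • w = wC ∧ a • x = x0 := by
    intro x hx
    obtain ⟨a, a1, a2, a3⟩ := ht _ ((htrans x).1 hx)
    exact ⟨a⁻¹ * g, by rw [mul_smul, gv, inv_smul_eq_iff, a1], by rw [mul_smul, gw, inv_smul_eq_iff, a2],
      by rw [mul_smul, inv_smul_eq_iff, a3]⟩
  refine ⟨?_, fun x hx => ?_, fun x hx x' hx' => ?_, fun x hx => ?_⟩
  · have e : set352 v w = (fun x => g • x) ⁻¹' set352 uC wC := Set.ext htrans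
    rw [e, Set.ncard_preimage_of_injective_subset_range (MulAction.injective g)
      (fun y _ => ⟨g⁻¹ • y, smul_inv_smul g y⟩), hc]
  · obtain ⟨a, b, c⟩ := hx
    have hxw : dotInt (x : GolayPt → ℤ) w = -24 := by rw [← c]; simp only [dotInt, mul_comm]
    have e : ((-w - x : ↥leechLattice) : GolayPt → ℤ) = -(w : GolayPt → ℤ) + -(x : GolayPt → ℤ) := by
      rw [AddSubgroup.coe_sub, AddSubgroup.coe_neg, sub_eq_add_neg]
    show sqNorm _ = 32 ∧ _ = (16 : ℤ) ∧ _ = (-24 : ℤ)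
    rw [e]
    have hd : ∀ p : GolayPt → ℤ, dotInt p (-(w : GolayPt → ℤ) + -(x : GolayPt → ℤ)) =
        -dotInt p w + -dotInt p x := fun p => by
      simp [dotInt, mul_add, Finset.sum_add_distrib, Finset.sum_neg_distrib]
    refine ⟨?_, ?_, ?_⟩
    · rw [sqNorm_add', norm_neg', norm_neg', hw, a, dot_neg_left', dot_neg', neg_neg, c]; norm_num
    · rw [hd, hvw, b]; norm_num
    · rw [hd, dotInt_self_eq, hw, c]; norm_num
  · obtain ⟨a, a1, a2, a3⟩ := move x hx
    obtain ⟨b, b1, b2, b3⟩ := move x' hx'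
    exact ⟨b⁻¹ * a, by rw [mul_smul, a1, ← b1, inv_smul_smul], by rw [mul_smul, a2, ← b2, inv_smul_smul],
      by rw [mul_smul, a3, ← b3, inv_smul_smul]⟩
  · have hF' : Fintype.card F = 5 ^ 2 := by rw [hF]; norm_num
    obtain ⟨r, hch, hr, hrs, hnot⟩ := U35.exists_root hF'
    haveI := hch
    obtain ⟨e⟩ := K0_psu hF' hr hrs hnot
    obtain ⟨a, a1, a2, a3⟩ := move x hx
    refine ⟨MulEquiv.trans ?_ e⟩
    refine
      { toFun := fun s => ⟨a * s.1 * a⁻¹, ?_⟩
        invFun := fun s => ⟨a⁻¹ * s.1 * a, ?_⟩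
        left_inv := fun s => Subtype.ext (by simp [mul_assoc])
        right_inv := fun s => Subtype.ext (by simp [mul_assoc])
        map_mul' := fun s t => Subtype.ext (by simp [mul_assoc]) }
    · obtain ⟨⟨s1, s2⟩, s3⟩ := s.2
      refine ⟨⟨?_, ?_⟩, ?_⟩ <;> show (a * s.1 * a⁻¹) • _ = _
      · rw [← a1, mul_smul, inv_smul_smul, mul_smul, show s.1 • v = v from s1]
      · rw [← a2, mul_smul, inv_smul_smul, mul_smul, show s.1 • w = w from s2]
      · rw [← a3, mul_smul, inv_smul_smul, mul_smul, show s.1 • x = x from s3]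
    · obtain ⟨⟨s1, s2⟩, s3⟩ := s.2
      refine ⟨⟨?_, ?_⟩, ?_⟩ <;> show (a⁻¹ * s.1 * a) • _ = _
      · rw [mul_smul, a1, mul_smul, show s.1 • uC = uC from s1, ← a1, inv_smul_smul]
      · rw [mul_smul, a2, mul_smul, show s.1 • wC = wC from s2, ← a2, inv_smul_smul]
      · rw [mul_smul, a3, mul_smul, show s.1 • x0 = x0 from s3, ← a3, inv_smul_smul]

end Cfsg.Agent.Golay.HS352
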