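import Cfsg.Agent.Golay.LeechHS

/-! A fixed-point-free involution of a Higman-Sims pair. -/

set_option autoImplicit false
set_option maxRecDepth 20000

namespace Cfsg.Agent.Golay

open scoped Pointwise symmDiff

/-- Twice a dodecad. -/
def dodV : GolayPt → ℤ := fun i => if sqMask.testBit (idx i) then 2 else 0

/-- Its partner. -/
def dodW : GolayPt → ℤ := fun i => if i = pt 0 ∨ i = pt 1 then 2 else -dodV i

theorem dod_facts : sqMask.testBit (idx (pt 0)) = true ∧ sqMask.testBit (idx (pt 1)) = true ∧ pt 0 ≠ pt 1 ∧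
    dodV ∈ leechLattice ∧ dodW ∈ leechLattice ∧ sqNorm dodV = 48 ∧ sqNorm dodW = 48 ∧ dotInt dodV dodW = -32 := by
  refine ⟨by decide +kernel, by decide +kernel, by decide, leechTest_sound (by decide +kernel),
    leechTest_sound (by decide +kernel), ?_⟩
  decide +kernel

theorem dod_no_vector {x : GolayPt → ℤ} (hx : x ∈ leechLattice) (hn : sqNorm x = 32)
    (hv : dotInt dodV x = 24) (hsupp : ∀ i, sqMask.testBit (idx i) = false → x i = 0) : False := by
  classical
  obtain ⟨i0, hi0⟩ : ∃ i : GolayPt, sqMask.testBit (idx i) = false := by decide +kernel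
  have hev : ∀ i, (2 : ℤ) ∣ x i := by
    by_contra hodd
    obtain ⟨c, -, f, -, rfl⟩ := exists_odd_class hx hodd
    have := hsupp i0 hi0
    simp only [sgnOf] at this
    split_ifs at this <;> omega
  obtain ⟨c, hc, f, -, rfl⟩ := exists_even_class hx hev
  have hsub : c ⊆ bset sqMask := fun i hi => by
    rw [mem_bset]
    cases hb : sqMask.testBit (idx i)
    · exfalso
      have := hsupp i hb
      simp only [hi, if_true] at this
      omega
    · rfl
  have hD := sqMask_dodecad
  have hcard : c.card = 0 := by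
    have h1 := symmDiff_mem_supports hc hD.1
    rw [show symmDiff c (bset sqMask) = bset sqMask \ c from by
      ext i; simp only [Finset.mem_symmDiff, Finset.mem_sdiff]
      exact ⟨fun h => h.resolve_left fun h' => h'.2 (hsub h'.1), Or.inr⟩] at h1
    have h2 : (bset sqMask \ c).card = 12 - c.card := by rw [Finset.card_sdiff_of_subset hsub, hD.2]
    have hle : c.card ≤ 12 := hD.2 ▸ Finset.card_le_card hsub
    have h3 := card_of_mem_supports h1
    have h4 := card_of_mem_supports hc
    rw [h2] at h3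
    rw [even_sqNorm] at hn
    omega
  rw [Finset.card_eq_zero] at hcard
  subst hcard
  simp only [Finset.notMem_empty, if_false, zero_add] at hn hv hsupp
  have hs : ∑ i, f i ^ 2 = 2 := by
    have : sqNorm (fun i => 4 * f i) = 16 * ∑ i, f i ^ 2 := by
      rw [sqNorm, Finset.mul_sum]; exact Finset.sum_congr rfl fun i _ => by ring
    rw [this] at hn
    omega
  have hd : dotInt dodV (fun i => 4 * f i) = 8 * ∑ i, f i := by
    rw [dotInt, Finset.mul_sum]
    refine Finset.sum_congr rfl fun i _ => ?_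
    cases hb : sqMask.testBit (idx i)
    · have := hsupp i hb
      simp [dodV, hb]; omega
    · simp [dodV, hb]; ring
  rw [hd] at hv
  have hle : ∑ i, f i ≤ ∑ i, f i ^ 2 := Finset.sum_le_sum fun i _ => Int.le_self_sq (f i)
  omega

/-- The sign change outside the dodecad. -/
def dodInv : ↥Co0 := monoEl 1 (one_mem _) (bset sqMask)ᶜ (compl_mem_supports sqMask_dodecad.1)

theorem dodInv_apply (x : ↥leechLattice) (i : GolayPt) :
    ((dodInv • x : ↥leechLattice) : GolayPt → ℤ) i =
      if sqMask.testBit (idx i) then (x : GolayPt → ℤ) i else -(x : GolayPt → ℤ) i := by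
  rw [dodInv, monoEl_apply, signedPerm_eq, sgnOf]
  simp only [Finset.mem_compl, mem_bset]
  cases sqMask.testBit (idx i) <;> simp <;> rfl

theorem hs_free_involution {v w : ↥leechLattice} (hv : sqNorm (v : GolayPt → ℤ) = 48)
    (hw : sqNorm (w : GolayPt → ℤ) = 48) (hvw : dotInt (v : GolayPt → ℤ) (w : GolayPt → ℤ) = -32) :
    ∃ g : ↥Co0, g • v = v ∧ g • w = w ∧ orderOf g = 2 ∧ ∀ x ∈ hsSet v w, g • x ≠ x := by
  obtain ⟨-, -, -, hvm, hwm, hvn, hwn, hd⟩ := dod_facts
  obtain ⟨a, a1, a2⟩ := hs_conj hv hw hvw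
  obtain ⟨b, b1, b2⟩ := hs_conj (v := ⟨_, hvm⟩) (w := ⟨_, hwm⟩) hvn hwn hd
  obtain ⟨h, hV, hW⟩ : ∃ h : ↥Co0, h • v = ⟨_, hvm⟩ ∧ h • w = ⟨_, hwm⟩ :=
    ⟨b⁻¹ * a, by rw [mul_smul, a1, inv_smul_eq_iff, b1], by rw [mul_smul, a2, inv_smul_eq_iff, b2]⟩
  have fV : dodInv • (⟨_, hvm⟩ : ↥leechLattice) = ⟨_, hvm⟩ := Subtype.ext (funext fun i => by
    rw [dodInv_apply]; simp only [dodV]; cases sqMask.testBit (idx i) <;> simp)
  have fW : dodInv • (⟨_, hwm⟩ : ↥leechLattice) = ⟨_, hwm⟩ := Subtype.ext (funext fun i => by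
    rw [dodInv_apply]
    obtain ⟨t0, t1, -⟩ := dod_facts
    by_cases hi : i = pt 0 ∨ i = pt 1
    · rcases hi with rfl | rfl <;> simp [t0, t1]
    · simp only [dodW, if_neg hi, dodV]; cases sqMask.testBit (idx i) <;> simp)
  haveI := Fact.mk Nat.prime_two
  have hord : orderOf dodInv = 2 := by
    refine orderOf_eq_prime ?_ fun e => ?_
    · rw [pow_two, dodInv, monoEl_mul, ← monoEl_one]
      exact monoEl_congr (one_mul 1) (by rw [one_smul, symmDiff_self]; rfl)
    · have h2 := (monoEl_injective (hσ := one_mem M24) (hσ' := one_mem M24)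
        (hc := compl_mem_supports sqMask_dodecad.1) (hc' := empty_mem_supports) (e.trans monoEl_one.symm)).2
      have := congrArg Finset.card h2
      rw [Finset.card_compl, sqMask_dodecad.2, card_golayPt, Finset.card_empty] at this
      omega
  refine ⟨h⁻¹ * dodInv * h, ?_, ?_, ?_, fun x hx e => ?_⟩
  · rw [mul_smul, mul_smul, hV, fV, inv_smul_eq_iff, hV]
  · rw [mul_smul, mul_smul, hW, fW, inv_smul_eq_iff, hW]
  · rw [← hord]
    have := MulEquiv.orderOf_eq (MulAut.conj h⁻¹) dodInv
    simpa using this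
  · rw [mul_smul, mul_smul, inv_smul_eq_iff] at e
    obtain ⟨hn, hd1, -⟩ := hx
    refine dod_no_vector (h • x).2 ((co0_norm h x).trans hn) ?_ fun i hi => ?_
    · have := co0_dot h v x
      rw [hV] at this
      exact this.trans hd1
    · have := congrFun (congrArg Subtype.val e) i
      rw [dodInv_apply, hi] at this
      simp at this
      omega

end Cfsg.Agent.Golay
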