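import Cfsg.Agent.Golay.UnitaryCodes
import Cfsg.Agent.Golay.U43Data

/-! A group of order 3265920 inside the product of a symmetric group of degree 112 and a unitary group. -/

set_option autoImplicit false
set_option maxRecDepth 20000

namespace Cfsg.Agent.Golay.U43

open Cfsg.Agent.Golay.PairChain (CLvl chainOK total papp pOK)
open Cfsg.Agent.Forms (frobQ frobQ_apply)

/-- Sum of scalars `a + 3b`. -/
def add9 (x y : ℕ) : ℕ := (x % 3 + y % 3) % 3 + 3 * ((x / 3 + y / 3) % 3)

/-- Product of scalars, the root squaring to minus one. -/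
def mul9 (x y : ℕ) : ℕ :=
  (x % 3 * (y % 3) + 2 * (x / 3 * (y / 3))) % 3 + 3 * ((x % 3 * (y / 3) + x / 3 * (y % 3)) % 3)

/-- Conjugation. -/
def conj9 (x : ℕ) : ℕ := x % 3 + 3 * ((2 * (x / 3)) % 3)

/-- The scalar operations. -/
def f9 : UC.FOps := ⟨4, add9, mul9, conj9, 2, scals⟩

/-- The certified levels. -/
def levels : List (CLvl (List ℕ)) :=
  [⟨0, gens0, trans0, wit0, deriv0⟩, ⟨111, gens1, trans1, wit1, deriv1⟩, ⟨110, gens2, trans2, wit2, deriv2⟩,
   ⟨109, gens3, trans3, wit3, deriv3⟩, ⟨108, gens4, trans4, wit4, deriv4⟩]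

theorem levels_ok : chainOK (UC.ops f9) 112 levels = true := by decide +kernel

theorem levels_total : total levels = 3265920 := by decide +kernel

theorem gens_ok : (List.range 3).all (fun j =>
    (UC.mulL f9 (UC.adjL f9 (gens0.getD j (0, [])).2) (gens0.getD j (0, [])).2 == UC.oneL f9) &&
      (UC.powL f9 (gens0.getD j (0, [])).2 (genOrders.getD j 0) == UC.oneL f9) &&
      decide (Nat.Coprime (genOrders.getD j 0) 4)) = true ∧ gens0.length = 3 ∧ genOrders.getD 0 0 = 7 ∧
    UC.scalsOK f9 = true ∧ UC.noncomm f9 (gens0.getD 0 (0, [])).2 (gens0.getD 1 (0, [])).2 = true := by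
  decide +kernel

/-- A root of the larger suborbit and the tree check. -/
theorem far_ok : ((List.range 81).all fun k =>
    let e := far81.getD k (0, 0, 0)
    decide (e.1 < 112) && (k == 0 ||
      (decide (e.2.1 < k) && decide (e.2.2 < gens1.length) &&
        (papp (gens1.getD e.2.2 (0, [])).1 (far81.getD e.2.1 (0, 0, 0)).1 == e.1)))) = true := by decide +kernel

/-- The points of the smaller suborbit. -/
def near30 : List ℕ := trans1.map fun e => papp e.1.1 111

/-- The points of the larger suborbit. -/
def far81p : List ℕ := (List.range 81).map fun k => (far81.getD k (0, 0, 0)).1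

theorem orbit_cover : near30.length = 30 ∧ near30.Nodup ∧ far81p.Nodup ∧ 0 ∉ near30 ∧ 0 ∉ far81p ∧
    (List.range 112).all (fun i => i == 0 || near30.contains i || far81p.contains i) = true ∧
    (near30.all fun i => decide (i < 112) && !far81p.contains i) = true := by decide +kernel

end Cfsg.Agent.Golay.U43
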