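import Cfsg.Agent.Golay.LeechMcL
import Cfsg.Agent.Golay.LeechPairs
import Cfsg.Agent.Golay.LeechStab
import Cfsg.Agent.Golay.Co3RankTree
import Cfsg.Agent.Golay.U43Chain

/-! The point stabiliser on the 275 points is the unitary group of dimension four over the field of nine elements. -/

set_option autoImplicit false
set_option maxRecDepth 100000

namespace Cfsg.Agent.Golay.McL43

open Cfsg.Agent.Golay.Co3Rank (numVec_inj)
open Cfsg.Agent.Golay.U43 (f9 levels gens0 gens1 trans0 trans1 far81 far81p near30 pts genWords)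
open Cfsg.Agent.Golay.PairChain (CLvl pOf pOf_apply pOK papp sem grp)
open Cfsg.Agent.Forms (frobQ frobQ_apply)

/-- The stabiliser of the base triple. -/
def K0 : Subgroup ↥Co0 :=
  MulAction.stabilizer ↥Co0 hsV ⊓ MulAction.stabilizer ↥Co0 hsX ⊓ MulAction.stabilizer ↥Co0 mclX

theorem base_pair : sqNorm (hsV : GolayPt → ℤ) = 48 ∧ sqNorm (hsX : GolayPt → ℤ) = 32 ∧
    sqNorm ((hsV - hsX : ↥leechLattice) : GolayPt → ℤ) = 32 := by decide +kernel

theorem K0_card : Nat.card ↥K0 = 3265920 := by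
  obtain ⟨hu, hx, hux⟩ := base_pair
  have hd : ∀ (g : ↥Co0) (x : ↥leechLattice), g • hsV = hsV →
      sqNorm (((hsV - g • x : ↥leechLattice)) : GolayPt → ℤ) = sqNorm ((hsV - x : ↥leechLattice) : GolayPt → ℤ) :=
    fun g x hg => by
      have e : g • (hsV - x) = hsV - g • x := by
        rw [sub_eq_add_neg, co0_add, co0_neg', ← sub_eq_add_neg, hg]
      rw [← e, co0_norm]
  have h1 := card_eq_ncard_mul_stab (MulAction.stabilizer ↥Co0 hsV) hsX
    {v : ↥leechLattice | sqNorm (v : GolayPt → ℤ) = 32 ∧ sqNorm ((hsV - v) : GolayPt → ℤ) = 32}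
    (fun y hy => by
      obtain ⟨g, g1, g2⟩ := decomp_transitive (v := hsX) (v' := y) hu ⟨hx, by rw [← AddSubgroup.coe_sub]; exact hux⟩ hy
      exact ⟨g, g1, g2⟩)
    (fun g hg => ⟨(co0_norm g hsX).trans hx, by
      rw [← AddSubgroup.coe_sub, hd g hsX hg]; exact hux⟩)
  rw [decomp_count hu, stab48_card hu] at h1
  have h2 := card_eq_ncard_mul_stab (MulAction.stabilizer ↥Co0 hsV ⊓ MulAction.stabilizer ↥Co0 hsX) mclX
    (mclSet hsV hsX)
    (fun y hy => by
      obtain ⟨g, g1, g2, g3⟩ := mcl_orbit y hy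
      exact ⟨g, Subgroup.mem_inf.2 ⟨g1, g2⟩, g3⟩)
    (fun g hg => (mclSet_transport (Subgroup.mem_inf.1 hg).1 (Subgroup.mem_inf.1 hg).2 mclX).1 mcl_roots.1)
  rw [mcl_total] at h2
  have : 275 * Nat.card ↥K0 * 552 = 495766656000 := by
    change _ = 275 * Nat.card ↥K0 at h2
    rw [← h2]; omega
  omega

/-- The 112 points. -/
def pset : Set ↥leechLattice := {y | y ∈ mclSet hsV hsX ∧ dotInt (mclX : GolayPt → ℤ) y = 8}

theorem pts_ok : ((List.range 112).all fun i => leechTest (numVec (pts.getD i 0))) = true ∧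
    (∀ i < 112, sqNorm (numVec (pts.getD i 0)) = 32 ∧
      sqNorm ((hsV : GolayPt → ℤ) - numVec (pts.getD i 0)) = 32 ∧
      dotInt (hsX : GolayPt → ℤ) (numVec (pts.getD i 0)) = 16 ∧
      dotInt (mclX : GolayPt → ℤ) (numVec (pts.getD i 0)) = 8 ∧ pts.getD i 0 < 2 ^ 96) ∧
    pts.length = 112 ∧ pts.Nodup := by decide +kernel

/-- A word of a generator. -/
def gword (j : ℕ) : List (Bool × ℕ × ℕ) :=
  ((genWords.getD j []).map fun i => mclKGens.getD i []).flatten

theorem words_ok : gensOK [gword 0, gword 1, gword 2] [(hsV : GolayPt → ℤ), (mclX : GolayPt → ℤ)] = true := by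
  decide +kernel

theorem words_perm : ((List.range 3).all fun j => (List.range 112).all fun i =>
    wordList (gword j) (matl (numVec (pts.getD i 0))) ==
      matl (numVec (pts.getD (papp (gens0.getD j (0, [])).1 i) 0))) = true ∧
    (∀ j < 3, pOK 112 (gens0.getD j (0, [])).1 = true) := by
  decide +kernel

/-- A point. -/
def pnt (i : Fin 112) : ↥pset :=
  ⟨⟨numVec (pts.getD i 0), leechTest_sound (List.all_eq_true.1 pts_ok.1 i (List.mem_range.2 i.2))⟩,
    ⟨(pts_ok.2.1 i i.2).1, (pts_ok.2.1 i i.2).2.1, (pts_ok.2.1 i i.2).2.2.1⟩, (pts_ok.2.1 i i.2).2.2.2.1⟩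

theorem pnt_bijective : Function.Bijective pnt := by
  have hinj : Function.Injective pnt := fun i j h => by
    have e0 := congrArg (fun a : ↥pset => ((a : ↥leechLattice) : GolayPt → ℤ)) h
    have e := numVec_inj (pts_ok.2.1 i i.2).2.2.2.2 (pts_ok.2.1 j j.2).2.2.2.2 e0
    rw [List.getD_eq_getElem _ _ (by rw [pts_ok.2.2.1]; exact i.2),
      List.getD_eq_getElem _ _ (by rw [pts_ok.2.2.1]; exact j.2)] at e
    exact Fin.ext (pts_ok.2.2.2.getElem_inj_iff.1 e)
  have hcard : Nat.card ↥pset = 112 := by rw [Nat.card_coe_set_eq]; exact mcl_suborbits.1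
  haveI : Finite ↥pset := Nat.finite_of_card_ne_zero (by rw [hcard]; norm_num)
  exact (Nat.bijective_iff_injective_and_card pnt).2 ⟨hinj, by rw [hcard, Nat.card_fin]⟩

theorem K0_mem_set {g : ↥Co0} (hg : g ∈ K0) {y : ↥leechLattice} (hy : y ∈ pset) : g • y ∈ pset := by
  obtain ⟨a, b⟩ := hy
  obtain ⟨⟨hu, hv⟩, hx⟩ := hg
  refine ⟨(mclSet_transport hu hv y).1 a, ?_⟩
  have := co0_dot g mclX y
  rw [show g • mclX = mclX from hx, b] at this; exact this

/-- The action on the points. -/
noncomputable def rho : ↥K0 →* Equiv.Perm (Fin 112) where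
  toFun k :=
    { toFun := fun i => (Equiv.ofBijective pnt pnt_bijective).symm ⟨k.1 • (pnt i).1, K0_mem_set k.2 (pnt i).2⟩
      invFun := fun i => (Equiv.ofBijective pnt pnt_bijective).symm ⟨k.1⁻¹ • (pnt i).1, K0_mem_set (inv_mem k.2) (pnt i).2⟩
      left_inv := fun i => by
        rw [Equiv.symm_apply_eq, Equiv.ofBijective_apply]
        refine Subtype.ext ?_
        simp only [Equiv.ofBijective_apply_symm_apply, inv_smul_smul]
      right_inv := fun i => by
        rw [Equiv.symm_apply_eq, Equiv.ofBijective_apply]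
        refine Subtype.ext ?_
        simp only [Equiv.ofBijective_apply_symm_apply, smul_inv_smul] }
  map_one' := Equiv.ext fun i => by
    simp only [Equiv.coe_fn_mk, OneMemClass.coe_one, one_smul, Equiv.Perm.coe_one, id_eq, Subtype.coe_eta]
    exact Equiv.ofBijective_symm_apply_apply pnt pnt_bijective i
  map_mul' a b := Equiv.ext fun i => by
    simp only [Equiv.coe_fn_mk, Equiv.Perm.coe_mul, Function.comp_apply, Subgroup.coe_mul, mul_smul,
      Equiv.ofBijective_apply_symm_apply]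

theorem gen_image {j : ℕ} (hj : j < 3) : ∃ k : ↥K0, rho k = pOf 112 (gens0.getD j (0, [])).1 := by
  have hw := words_ok
  simp only [gensOK, List.all_eq_true, Bool.and_eq_true, beq_iff_eq] at hw
  obtain ⟨hperm, hok⟩ := words_perm
  have hm : gword j ∈ [gword 0, gword 1, gword 2] := by interval_cases j <;> simp
  obtain ⟨h1, h2⟩ := hw _ hm
  obtain ⟨g, g1, g2⟩ := word_elem _ (List.all_eq_true.2 h1)
  have fixes : ∀ v : ↥leechLattice, (v : GolayPt → ℤ) ∈ [(hsV : GolayPt → ℤ), (mclX : GolayPt → ℤ)] → g • v = v :=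
    fun v hv => Subtype.ext (by rw [g2, ← listVec_matl (List.foldl _ _ _), ← wordList_matl, h2 _ hv, listVec_matl])
  refine ⟨⟨g, ⟨⟨fixes hsV (by simp), g1⟩, fixes mclX (by simp)⟩⟩, Equiv.ext fun i => ?_⟩
  simp only [rho, MonoidHom.coe_mk, OneHom.coe_mk, Equiv.coe_fn_mk]
  rw [Equiv.symm_apply_eq, Equiv.ofBijective_apply]
  refine Subtype.ext (Subtype.ext ?_)
  simp only [List.all_eq_true, List.mem_range, beq_iff_eq] at hperm
  show ((g • (pnt i).1 : ↥leechLattice) : GolayPt → ℤ) = numVec _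
  rw [g2, ← listVec_matl (List.foldl _ _ _), ← wordList_matl]
  rw [show ((pnt i).1 : GolayPt → ℤ) = numVec (pts.getD i 0) from rfl, hperm j hj i i.2, listVec_matl,
    pOf_apply (hok j hj)]

section field

variable {F : Type} [Field F] [Fintype F] (hF : Fintype.card F = 3 ^ 2)

include hF in
theorem char_three : CharP F 3 := by
  obtain ⟨p, hp⟩ := CharP.exists F
  haveI := hp
  obtain ⟨k, hpp, hk⟩ := FiniteField.card F p
  have : p ∣ 3 ^ 2 := by rw [← hF, hk]; exact dvd_pow_self p k.ne_zero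
  have := (Nat.prime_dvd_prime_iff_eq hpp (by norm_num)).1 (hpp.dvd_of_dvd_pow this)
  exact this ▸ hp

/-- The value of a scalar code. -/
def val9 (r : F) (x : ℕ) : F := (x : F) + r * ((x / 3 : ℕ) : F)

include hF in
theorem valid_val9 : ∃ r : F, UC.Valid f9 hF (val9 r) := by
  haveI := char_three hF
  obtain ⟨r, hr⟩ := (FiniteField.isSquare_neg_one_iff (F := F)).2 (by rw [hF]; norm_num)
  have h3 : (3 : F) = 0 := by exact_mod_cast CharP.cast_eq_zero F 3
  have hm : ∀ n : ℕ, ((n % 3 : ℕ) : F) = n := fun n => (CharP.cast_eq_mod F 3 n).symm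
  refine ⟨r, ⟨by simp [val9], by simp [val9], ?_, fun x y => ?_, fun x y => ?_, fun x => ?_⟩⟩
  · show val9 r 2 = -1
    simp [val9]
    linear_combination h3
  · show val9 r (U43.add9 x y) = _
    have e : U43.add9 x y / 3 = (x / 3 + y / 3) % 3 := by unfold U43.add9; omega
    simp only [val9, e]
    simp only [U43.add9, hm, Nat.cast_add, Nat.cast_mul, Nat.cast_ofNat, h3, zero_mul, add_zero]
    ring
  · show val9 r (U43.mul9 x y) = _
    have e : U43.mul9 x y / 3 = (x % 3 * (y / 3) + x / 3 * (y % 3)) % 3 := by unfold U43.mul9; omega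
    simp only [val9, e]
    simp only [U43.mul9, hm, Nat.cast_add, Nat.cast_mul, Nat.cast_ofNat, h3, zero_mul, add_zero]
    linear_combination ((x / 3 : ℕ) : F) * ((y / 3 : ℕ) : F) * h3 + ((x / 3 : ℕ) : F) * ((y / 3 : ℕ) : F) * hr
  · show val9 r (U43.conj9 x) = _
    have e : U43.conj9 x / 3 = 2 * (x / 3) % 3 := by unfold U43.conj9; omega
    have hfr : frobQ hF r = -r := by
      rw [frobQ_apply]
      linear_combination (-r) * hr
    simp only [val9, e, map_add, map_mul, map_natCast, hfr]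
    simp only [U43.conj9, hm, Nat.cast_add, Nat.cast_mul, Nat.cast_ofNat, h3, zero_mul, add_zero]
    linear_combination r * ((x / 3 : ℕ) : F) * h3

include hF in
theorem card_psu : Nat.card (Cfsg.PSU 4 F 3) = 3265920 := by
  have hG := Forms.card_PSU hF (n := 4) (by norm_num)
  norm_num [Finset.prod_range_succ, Nat.even_iff] at hG
  change 4 * (4 * Nat.card (Cfsg.PSU 4 F 3)) = 52254720 at hG
  omega

include hF in
theorem K0_psu : Nonempty (↥K0 ≃* Cfsg.PSU 4 F 3) := by
  classical
  obtain ⟨r, hv⟩ := valid_val9 hF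
  obtain ⟨hgen, hlen, ho7, hsc, hnc⟩ := U43.gens_ok
  simp only [List.all_eq_true, List.mem_range, Bool.and_eq_true, beq_iff_eq, decide_eq_true_eq] at hgen
  let S : PairChain.Sem (UC.ops f9) (Cfsg.PSU f9.n F 3) := UC.semU hF hv hsc
  have hreal : ∀ j < 3, UC.RealU f9 3 (val9 r) (gens0.getD j (0, [])).2 := fun j hj =>
    UC.real_of_order hF hv (hgen j hj).1.1 (hgen j hj).1.2 (hgen j hj).2
  have hheads : ∀ c ∈ PairChain.gensOf levels, S.Real c.2 := by
    intro c hc
    obtain ⟨j, hj, rfl⟩ := List.getElem_of_mem (show c ∈ gens0 from hc)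
    have := hreal j (hlen ▸ hj)
    rw [List.getD_eq_getElem _ _ hj] at this
    exact this
  have hpsu : Nat.card (Cfsg.PSU f9.n F 3) = 3265920 := card_psu hF
  haveI : Finite (Cfsg.PSU f9.n F 3) := Nat.finite_of_card_ne_zero (by rw [hpsu]; norm_num)
  obtain ⟨hcard, hinj, -⟩ := PairChain.chain_main S 112 levels U43.levels_ok hheads
  rw [U43.levels_total] at hcard
  set D := grp S 112 levels with hD
  haveI : Finite ↥D := Nat.finite_of_card_ne_zero (by rw [hcard]; norm_num)
  have F0 := PairChain.lvlFacts S 112 (L := ⟨0, gens0, trans0, U43.wit0, U43.deriv0⟩)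
    (rest := levels.tail) (by
      have h := U43.levels_ok
      rw [show levels = (⟨0, gens0, trans0, U43.wit0, U43.deriv0⟩ : CLvl (List ℕ)) :: levels.tail from rfl,
        PairChain.chainOK, Bool.and_eq_true] at h
      exact h.1) hheads
  have F1 := PairChain.lvlFacts S 112 (L := ⟨111, gens1, trans1, U43.wit1, U43.deriv1⟩)
    (rest := levels.tail.tail) (by
      have h := U43.levels_ok
      rw [show levels = (⟨0, gens0, trans0, U43.wit0, U43.deriv0⟩ : CLvl (List ℕ)) ::
        (⟨111, gens1, trans1, U43.wit1, U43.deriv1⟩ : CLvl (List ℕ)) :: levels.tail.tail from rfl,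
        PairChain.chainOK, Bool.and_eq_true, PairChain.chainOK, Bool.and_eq_true] at h
      exact h.2.1) F0.next_real
  let z : Fin 112 := ⟨0, by norm_num⟩
  -- the first group moves the base point everywhere
  have htrans : ∀ i : Fin 112, ∃ g ∈ D, g.1 z = i := by
    have hsur : Function.Surjective (fun k : Fin trans0.length =>
        pOf 112 ((CLvl.t (UC.ops f9) ⟨0, gens0, trans0, U43.wit0, U43.deriv0⟩ k).1) z) := by
      refine ((Fintype.bijective_iff_injective_and_card _).2 ⟨fun a b h => ?_, ?_⟩).2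
      · have := congrArg Fin.val h
        simp only [pOf_apply (F0.tok a a.2).1, pOf_apply (F0.tok b b.2).1] at this
        exact Fin.ext (F0.tinj a a.2 b b.2 this)
      · simp only [Fintype.card_fin]; decide +kernel
    intro i
    obtain ⟨k, hk⟩ := hsur i
    exact ⟨_, F0.tmem k k.2, hk⟩
  -- the orbits of the stabiliser of the base point
  let Sz := grp S 112 levels.tail
  have hSz : ∀ g ∈ Sz, g ∈ D ∧ g.1 z = z := fun g hg => F0.next_mem g hg
  let b1 : Fin 112 := ⟨111, by norm_num⟩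
  have hnear : ∀ p ∈ near30, ∃ g ∈ Sz, (g.1 b1 : ℕ) = p := by
    intro p hp
    obtain ⟨e, he, rfl⟩ := List.mem_map.1 hp
    obtain ⟨k, hk, rfl⟩ := List.getElem_of_mem he
    refine ⟨_, F1.tmem k hk, ?_⟩
    show (pOf 112 _ b1 : ℕ) = _
    rw [pOf_apply (F1.tok k hk).1]
    simp [CLvl.t, List.getD_eq_getElem?_getD, hk, b1]
  have hfar0 := U43.far_ok
  simp only [List.all_eq_true, List.mem_range, Bool.and_eq_true, Bool.or_eq_true, beq_iff_eq,
    decide_eq_true_eq] at hfar0
  let fp : ℕ → Fin 112 := fun k => ⟨(far81.getD k (0, 0, 0)).1 % 112, Nat.mod_lt _ (by norm_num)⟩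
  have hfar : ∀ k < 81, ∃ g ∈ Sz, g.1 (fp 0) = fp k := by
    intro k
    induction k using Nat.strong_induction_on with
    | _ k ih =>
      intro hk
      rcases (hfar0 k hk).2 with rfl | ⟨⟨hlt, hs⟩, he⟩
      · exact ⟨1, one_mem _, rfl⟩
      obtain ⟨g, hg, hg'⟩ := ih _ hlt (hlt.trans hk)
      have gk := F1.gok (far81.getD k (0, 0, 0)).2.2 hs
      refine ⟨sem S 112 (CLvl.g (UC.ops f9) ⟨111, gens1, trans1, U43.wit1, U43.deriv1⟩ (far81.getD k (0, 0, 0)).2.2) * g,
        mul_mem (Subgroup.subset_closure ⟨_, ?_, rfl⟩) hg, Fin.ext ?_⟩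
      · show CLvl.g _ _ _ ∈ gens1
        rw [CLvl.g, List.getD_eq_getElem _ _ hs]; exact List.getElem_mem _
      · show (pOf 112 _ (g.1 (fp 0)) : ℕ) = _
        rw [hg', pOf_apply gk.1]
        simp only [fp, Nat.mod_eq_of_lt (hfar0 _ (hlt.trans hk)).1, Nat.mod_eq_of_lt (hfar0 _ hk).1]
        refine Eq.trans ?_ he
        simp only [CLvl.g]
        rw [List.getD_eq_getElem gens1 _ hs, List.getD_eq_getElem gens1 _ hs]
  -- the kernel of the second projection
  let π : ↥D →* Cfsg.PSU f9.n F 3 := (MonoidHom.snd _ _).comp D.subtype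
  letI : MulAction ↥D (Fin 112) :=
    MulAction.compHom (Fin 112) ((MonoidHom.fst (Equiv.Perm (Fin 112)) (Cfsg.PSU f9.n F 3)).comp D.subtype)
  let N : Subgroup ↥D := π.ker
  have hπ : Function.Injective π := by
    rw [← MonoidHom.ker_eq_bot_iff]
    by_contra hne
    let B : Set (Fin 112) := MulAction.orbit ↥N z
    have hBS : ∀ g ∈ Sz, ∀ i ∈ B, g.1 i ∈ B := by
      rintro g hg _ ⟨n, rfl⟩
      obtain ⟨gD, gz⟩ := hSz g hg
      let gd : ↥D := ⟨g, gD⟩
      refine ⟨⟨gd * n.1 * gd⁻¹, (MonoidHom.normal_ker π).conj_mem _ n.2 gd⟩, ?_⟩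
      show (gd * n.1 * gd⁻¹) • z = gd • (n.1 • z)
      rw [mul_smul, mul_smul, inv_smul_eq_iff.2 (show z = gd • z from gz.symm)]
    have hzB : z ∈ B := MulAction.mem_orbit_self _
    obtain ⟨i0, hi0, hi0z⟩ : ∃ i ∈ B, i ≠ z := by
      by_contra hc
      push Not at hc
      refine hne ((Subgroup.eq_bot_iff_forall _).2 fun n hn => ?_)
      refine Subtype.ext (hinj n.1 n.2 (Equiv.ext fun i => ?_))
      obtain ⟨g, gD, rfl⟩ := htrans i
      let gd : ↥D := ⟨g, gD⟩
      show n • (gd • z) = gd • z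
      have := hc _ ⟨⟨gd⁻¹ * n * gd, by
        have := (MonoidHom.normal_ker π).conj_mem _ hn gd⁻¹; rwa [inv_inv] at this⟩, rfl⟩
      change (gd⁻¹ * n * gd) • z = z at this
      rw [mul_smul, mul_smul, inv_smul_eq_iff] at this
      exact this
    obtain ⟨l30, -, n81, z30, z81, hcov, hnd⟩ := U43.orbit_cover
    simp only [List.all_eq_true, List.mem_range, Bool.or_eq_true, beq_iff_eq, List.contains_iff_mem] at hcov
    simp only [List.all_eq_true, Bool.and_eq_true, decide_eq_true_eq, Bool.not_eq_true',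
      List.contains_eq_mem, decide_eq_false_iff_not] at hnd
    have fullNear : ∀ i ∈ B, (i : ℕ) ∈ near30 → ∀ j : Fin 112, (j : ℕ) ∈ near30 → j ∈ B := by
      intro i hi hin j hjn
      obtain ⟨g, hg, eg⟩ := hnear _ hin
      obtain ⟨g', hg', eg'⟩ := hnear _ hjn
      have hb : b1 ∈ B := by
        have := hBS g⁻¹ (inv_mem hg) i hi
        rwa [show i = g.1 b1 from Fin.ext eg.symm, show (g⁻¹).1 (g.1 b1) = b1 from (g.1).symm_apply_apply b1] at this
      rw [show j = g'.1 b1 from Fin.ext eg'.symm]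
      exact hBS g' hg' b1 hb
    have fp_mem : ∀ j : Fin 112, (j : ℕ) ∈ far81p → ∃ k < 81, fp k = j := by
      intro j hj
      obtain ⟨k, hk, e⟩ := List.mem_map.1 hj
      exact ⟨k, List.mem_range.1 hk, Fin.ext (by show _ % 112 = _; rw [e, Nat.mod_eq_of_lt j.2])⟩
    have fullFar : ∀ i ∈ B, (i : ℕ) ∈ far81p → ∀ j : Fin 112, (j : ℕ) ∈ far81p → j ∈ B := by
      intro i hi hin j hjn
      obtain ⟨k, hk, rfl⟩ := fp_mem i hin
      obtain ⟨k', hk', rfl⟩ := fp_mem j hjn
      obtain ⟨g, hg, eg⟩ := hfar k hk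
      obtain ⟨g', hg', eg'⟩ := hfar k' hk'
      have hb : fp 0 ∈ B := by
        have := hBS g⁻¹ (inv_mem hg) _ hi
        rwa [← eg, show (g⁻¹).1 (g.1 (fp 0)) = fp 0 from (g.1).symm_apply_apply _] at this
      rw [← eg']
      exact hBS g' hg' _ hb
    have hdvdB : B.ncard ∣ Nat.card ↥N := by
      rw [← Nat.card_coe_set_eq, Nat.card_congr (MulAction.orbitEquivQuotientStabilizer ↥N z)]
      exact ⟨_, Subgroup.card_eq_card_quotient_mul_card_subgroup _⟩
    have hN : Nat.card ↥N ∣ 3265920 := hcard ▸ Subgroup.card_subgroup_dvd_card N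
    -- counting
    let A1 : Finset (Fin 112) := Finset.univ.filter fun j => (j : ℕ) ∈ near30
    let A2 : Finset (Fin 112) := Finset.univ.filter fun j => (j : ℕ) ∈ far81p
    have cA : A1.card = 30 ∧ A2.card = 81 ∧ Disjoint A1 A2 ∧ z ∉ A1 ∧ z ∉ A2 ∧
        insert z (A1 ∪ A2) = Finset.univ := by
      refine ⟨by decide +kernel, by decide +kernel, ?_, by simp [A1, z, z30], by simp [A2, z, z81], ?_⟩
      · exact Finset.disjoint_left.2 fun j h1 h2 => (hnd _ (Finset.mem_filter.1 h1).2).2 (Finset.mem_filter.1 h2).2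
      · ext j
        simp only [Finset.mem_insert, Finset.mem_union, A1, A2, Finset.mem_filter, Finset.mem_univ, true_and,
          iff_true]
        rcases hcov j j.2 with (h | h) | h
        · exact Or.inl (Fin.ext h)
        · exact Or.inr (Or.inl h)
        · exact Or.inr (Or.inr h)
    obtain ⟨c1, c2, cd, cz1, cz2, cu⟩ := cA
    have hsplit : ∀ j : Fin 112, j = z ∨ j ∈ A1 ∨ j ∈ A2 := fun j => by
      have := cu ▸ Finset.mem_univ j
      simpa using this
    have h112 : 112 ∣ Nat.card ↥N := by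
      have eB : ∀ T : Finset (Fin 112), (T : Set (Fin 112)) = B → T.card ∣ Nat.card ↥N := fun T e => by
        rw [← Set.ncard_coe_finset, e]; exact hdvdB
      by_cases hA : ∃ i ∈ B, i ∈ A1
      · by_cases hC : ∃ i ∈ B, i ∈ A2
        · obtain ⟨i, hi, hi'⟩ := hA
          obtain ⟨k, hk, hk'⟩ := hC
          have := eB Finset.univ (by
            rw [Finset.coe_univ, eq_comm, Set.eq_univ_iff_forall]
            intro j
            rcases hsplit j with rfl | h | h
            · exact hzB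
            · exact fullNear i hi (Finset.mem_filter.1 hi').2 j (Finset.mem_filter.1 h).2
            · exact fullFar k hk (Finset.mem_filter.1 hk').2 j (Finset.mem_filter.1 h).2)
          simpa using this
        · exfalso
          obtain ⟨i, hi, hi'⟩ := hA
          have := (eB (insert z A1) (by
            ext j
            simp only [Finset.coe_insert, Set.mem_insert_iff, Finset.mem_coe]
            refine ⟨fun h => ?_, fun h => ?_⟩
            · rcases h with rfl | h
              · exact hzB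
              · exact fullNear i hi (Finset.mem_filter.1 hi').2 j (Finset.mem_filter.1 h).2
            · rcases hsplit j with e | e | e
              · exact Or.inl e
              · exact Or.inr e
              · exact absurd ⟨j, h, e⟩ hC)).trans hN
          rw [Finset.card_insert_of_notMem cz1, c1] at this
          norm_num at this
      · exfalso
        obtain ⟨i, hi, hi'⟩ : ∃ i ∈ B, i ∈ A2 := by
          rcases hsplit i0 with e | e | e
          · exact absurd e hi0z
          · exact absurd ⟨i0, hi0, e⟩ hA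
          · exact ⟨i0, hi0, e⟩
        have := (eB (insert z A2) (by
          ext j
          simp only [Finset.coe_insert, Set.mem_insert_iff, Finset.mem_coe]
          refine ⟨fun h => ?_, fun h => ?_⟩
          · rcases h with rfl | h
            · exact hzB
            · exact fullFar i hi (Finset.mem_filter.1 hi').2 j (Finset.mem_filter.1 h).2
          · rcases hsplit j with e | e | e
            · exact Or.inl e
            · exact absurd ⟨j, h, e⟩ hA
            · exact Or.inr e)).trans hN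
        rw [Finset.card_insert_of_notMem cz2, c2] at this
        norm_num at this
    have himg : Nat.card ↥π.range * Nat.card ↥N = 3265920 := by
      have h : Nat.card (↥D ⧸ π.ker) = Nat.card ↥π.range :=
        Nat.card_congr (QuotientGroup.quotientKerEquivRange π).toEquiv
      have h' := Subgroup.card_eq_card_quotient_mul_card_subgroup π.ker
      rw [h, hcard] at h'
      exact h'.symm
    have h7 : 7 ∣ Nat.card ↥π.range := by
      haveI : Fact (Nat.Prime 7) := ⟨by norm_num⟩
      have hpow : ∀ m, UC.RealU f9 3 (val9 r) (UC.powL f9 (gens0.getD 0 (0, [])).2 m) ∧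
          S.val (UC.powL f9 (gens0.getD 0 (0, [])).2 m) = S.val (gens0.getD 0 (0, [])).2 ^ m := by
        intro m
        induction m with
        | zero => exact ⟨S.real_one.1, by rw [pow_zero]; exact S.real_one.2⟩
        | succ m ih =>
          obtain ⟨a, b⟩ := S.real_mul (hreal 0 (by norm_num)) ih.1
          exact ⟨a, by rw [pow_succ', ← ih.2]; exact b⟩
      have hord : orderOf (S.val (gens0.getD 0 (0, [])).2) = 7 := by
        refine orderOf_eq_prime ?_ (UC.el_ne_one hF hv (hreal 0 (by norm_num)) (hreal 1 (by norm_num)) hnc)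
        have h := (hgen 0 (by norm_num)).1.2
        rw [ho7] at h
        rw [← (hpow 7).2, h]
        exact S.real_one.2
      rw [← hord]
      exact π.range.orderOf_dvd_natCard ⟨⟨sem S 112 (gens0.getD 0 (0, [])), Subgroup.subset_closure
        ⟨_, by show _ ∈ gens0; rw [List.getD_eq_getElem _ _ (by rw [hlen]; norm_num)]; exact List.getElem_mem _,
          rfl⟩⟩, rfl⟩
    have := (mul_dvd_mul h7 h112).trans (dvd_of_eq himg)
    norm_num at this
  have hsnd : Function.Bijective π :=
    (Nat.bijective_iff_injective_and_card _).2 ⟨hπ, by rw [hcard, hpsu]⟩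
  have hfst : Function.Injective ((MonoidHom.fst (Equiv.Perm (Fin 112)) (Cfsg.PSU f9.n F 3)).comp D.subtype) :=
    (injective_iff_map_eq_one _).2 fun p hp => Subtype.ext (hinj p.1 p.2 hp)
  have hle : D.map (MonoidHom.fst _ _) ≤ rho.range := by
    show (Subgroup.closure {p | ∃ c ∈ PairChain.gensOf levels, sem S 112 c = p}).map _ ≤ _
    rw [MonoidHom.map_closure, Subgroup.closure_le]
    rintro _ ⟨_, ⟨c, hc, rfl⟩, rfl⟩
    obtain ⟨j, hj, rfl⟩ := List.getElem_of_mem (show c ∈ gens0 from hc)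
    obtain ⟨k, hk⟩ := gen_image (j := j) (hlen ▸ hj)
    refine ⟨k, hk.trans ?_⟩
    rw [List.getD_eq_getElem _ _ hj]
    rfl
  haveI : Finite ↥K0 := Nat.finite_of_card_ne_zero (by rw [K0_card]; norm_num)
  have hD1 : Nat.card ↥(D.map (MonoidHom.fst _ _)) = 3265920 := by
    rw [← hcard]
    refine Nat.card_congr (Equiv.ofBijective
      (fun p : ↥D => (⟨p.1.1, Subgroup.mem_map_of_mem _ p.2⟩ : ↥(D.map (MonoidHom.fst _ _)))) ⟨?_, ?_⟩).symm
    · intro a b h
      exact hfst (congrArg Subtype.val h)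
    · rintro ⟨_, p, hp, rfl⟩
      exact ⟨⟨p, hp⟩, rfl⟩
  have h1 : Nat.card ↥rho.range ≤ 3265920 :=
    K0_card ▸ Nat.card_le_card_of_surjective rho.rangeRestrict rho.rangeRestrict_surjective
  have heq : D.map (MonoidHom.fst _ _) = rho.range :=
    Subgroup.eq_of_le_of_card_ge hle (by rw [hD1]; exact h1)
  have hrho : Function.Injective rho.rangeRestrict :=
    ((Nat.bijective_iff_surjective_and_card _).2
      ⟨rho.rangeRestrict_surjective, by rw [K0_card, ← heq, hD1]⟩).1
  let e1 : ↥K0 ≃* ↥rho.range := MulEquiv.ofBijective rho.rangeRestrict ⟨hrho, rho.rangeRestrict_surjective⟩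
  let e2 : ↥D ≃* ↥(D.map (MonoidHom.fst _ _)) :=
    MulEquiv.ofBijective ((MonoidHom.fst _ _).subgroupMap D)
      ⟨fun a b h => hfst (congrArg Subtype.val h), MonoidHom.subgroupMap_surjective _ _⟩
  exact ⟨(e1.trans (MulEquiv.subgroupCongr heq.symm)).trans (e2.symm.trans (MulEquiv.ofBijective _ hsnd))⟩

end field

theorem mcl43 (u v x : ↥leechLattice) (hu : sqNorm (u : GolayPt → ℤ) = 48)
    (hv : sqNorm (v : GolayPt → ℤ) = 32 ∧ sqNorm ((u - v) : GolayPt → ℤ) = 32)
    (hx : x ∈ mclSet u v) (F : Type) [Field F] [Fintype F] (hF : Fintype.card F = 9) :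
    Nonempty (↥(MulAction.stabilizer ↥Co0 u ⊓ MulAction.stabilizer ↥Co0 v ⊓ MulAction.stabilizer ↥Co0 x) ≃*
      Cfsg.PSU 4 F 3) := by
  obtain ⟨g, g1, g2⟩ := mcl_conj hu hv
  obtain ⟨b, b1, b2, b3⟩ := mcl_orbit _ ((mclSet_transport g1 g2 x).1 hx)
  obtain ⟨a, a1, a2, a3⟩ : ∃ a : ↥Co0, a • u = hsV ∧ a • v = hsX ∧ a • x = mclX :=
    ⟨b⁻¹ * g, by rw [mul_smul, g1, inv_smul_eq_iff, b1], by rw [mul_smul, g2, inv_smul_eq_iff, b2],
      by rw [mul_smul, inv_smul_eq_iff, b3]⟩
  obtain ⟨e⟩ := K0_psu (F := F) (by rw [hF]; norm_num)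
  refine ⟨MulEquiv.trans ?_ e⟩
  refine
    { toFun := fun s => ⟨a * s.1 * a⁻¹, ?_⟩
      invFun := fun s => ⟨a⁻¹ * s.1 * a, ?_⟩
      left_inv := fun s => Subtype.ext (by simp [mul_assoc])
      right_inv := fun s => Subtype.ext (by simp [mul_assoc])
      map_mul' := fun s t => Subtype.ext (by simp [mul_assoc]) }
  · obtain ⟨⟨s1, s2⟩, s3⟩ := s.2
    refine ⟨⟨?_, ?_⟩, ?_⟩ <;> show (a * s.1 * a⁻¹) • _ = _
    · rw [← a1, mul_smul, inv_smul_smul, mul_smul, show s.1 • u = u from s1]
    · rw [← a2, mul_smul, inv_smul_smul, mul_smul, show s.1 • v = v from s2]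
    · rw [← a3, mul_smul, inv_smul_smul, mul_smul, show s.1 • x = x from s3]
  · obtain ⟨⟨s1, s2⟩, s3⟩ := s.2
    refine ⟨⟨?_, ?_⟩, ?_⟩ <;> show (a⁻¹ * s.1 * a) • _ = _
    · rw [mul_smul, a1, mul_smul, show s.1 • hsV = hsV from s1, ← a1, inv_smul_smul]
    · rw [mul_smul, a2, mul_smul, show s.1 • hsX = hsX from s2, ← a2, inv_smul_smul]
    · rw [mul_smul, a3, mul_smul, show s.1 • mclX = mclX from s3, ← a3, inv_smul_smul]

end Cfsg.Agent.Golay.McL43
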