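import Cfsg.Agent.Golay.LeechMcL
import Cfsg.Agent.Golay.LeechMcLRankData

/-! The 2025 vectors of a McLaughlin pair: transitivity and the three nontrivial suborbits. -/

set_option autoImplicit false
set_option maxRecDepth 100000

namespace Cfsg.Agent.Golay

open scoped Pointwise

/-- The base vector `(4, -4, 0, …)`. -/
def rkX : ↥leechLattice := ⟨uVec', leechTest_sound (by decide +kernel)⟩

/-- The first root. -/
def rkY0 : ↥leechLattice := ⟨numVec (mclTab330.getD 0 (0, 0, 0)).1, leechTest_sound (by decide +kernel)⟩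

/-- The second root. -/
def rkY16 : ↥leechLattice := ⟨numVec (mclTab462.getD 0 (0, 0, 0)).1, leechTest_sound (by decide +kernel)⟩

/-- The third root. -/
def rkY8 : ↥leechLattice := ⟨numVec (mclTab1232.getD 0 (0, 0, 0)).1, leechTest_sound (by decide +kernel)⟩

theorem mclM_ok : gensOK mclMGens [(hsV : GolayPt → ℤ), (rkX : GolayPt → ℤ)] = true := by decide +kernel

theorem tab330_ok : treeOK mclMGens mclTab330 = true := by decide +kernel

theorem tab462_ok : treeOK mclMGens mclTab462 = true := by decide +kernel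

theorem tab1232_ok : treeOK mclMGens mclTab1232 = true := by decide +kernel

theorem tab_lengths : (mclTab330.map Prod.fst).dedup.length = 330 ∧ (mclTab462.map Prod.fst).dedup.length = 462 ∧
    (mclTab1232.map Prod.fst).dedup.length = 1232 := by decide +kernel

theorem paths_ok : gensOK mclPaths [(hsV : GolayPt → ℤ)] = true := by decide +kernel

theorem paths_val : wordList (mclPaths.getD 0 []) (matl rkX) = matl rkY0 ∧
    wordList (mclPaths.getD 1 []) (matl rkX) = matl rkY16 ∧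
    wordList (mclPaths.getD 2 []) (matl rkX) = matl rkY8 := by decide +kernel

theorem path_elem {j : ℕ} (hj : j < 3) {y : ↥leechLattice}
    (h : wordList (mclPaths.getD j []) (matl rkX) = matl y) :
    ∃ g : ↥Co0, g • hsV = hsV ∧ g • hsX = hsX ∧ g • rkX = y := by
  have hg := paths_ok
  simp only [gensOK, List.all_eq_true, Bool.and_eq_true, beq_iff_eq, List.mem_singleton, forall_eq] at hg
  have hl : mclPaths.length = 3 := by decide +kernel
  have hm : mclPaths.getD j [] ∈ mclPaths := by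
    simpa [List.getD_eq_getElem?_getD, hl, hj] using List.getElem_mem (hl ▸ hj : j < mclPaths.length)
  obtain ⟨h1, h2⟩ := hg _ hm
  obtain ⟨g, g1, g2⟩ := word_elem _ (List.all_eq_true.2 h1)
  refine ⟨g, Subtype.ext ?_, g1, Subtype.ext ?_⟩
  · rw [g2, ← listVec_matl (List.foldl _ _ _), ← wordList_matl, h2, listVec_matl]
  · rw [g2, ← listVec_matl (List.foldl _ _ _), ← wordList_matl, h, listVec_matl]

/-- The set, in normal position. -/
def rkSet : Set ↥leechLattice :=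
  {x | sqNorm (x : GolayPt → ℤ) = 32 ∧ dotInt (hsX : GolayPt → ℤ) x = 0 ∧ dotInt (hsV : GolayPt → ℤ) x = 16}

theorem rk_mem_iff (x : ↥leechLattice) : x ∈ rkSet ↔ sqNorm (x : GolayPt → ℤ) = 32 ∧
    ∑ i, (x : GolayPt → ℤ) i = 16 - 4 * (x : GolayPt → ℤ) none ∧
    (x : GolayPt → ℤ) (pt 0) = -(x : GolayPt → ℤ) none := by
  show (_ ∧ dotInt uVec _ = 0 ∧ dotInt (peakVec none 5) _ = 16) ↔ _
  rw [dot_peak, uVec_dot]
  omega

theorem rk_values : ∀ k ∈ List.range 11, sumVecFormula 32 (16 - 4 * ((k : ℤ) - 5))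
    [(none, (k : ℤ) - 5), (pt 0, -((k : ℤ) - 5))] tab2 =
    if k = 5 then 330 else if k = 6 then 1232 else if k = 7 then 462 else if k = 9 then 1 else 0 := by decide +kernel

theorem rk_total : rkSet.ncard = 2025 := by
  classical
  have hfin : rkSet.Finite := by
    refine Set.Finite.of_finite_image ((Set.Finite.pi (t := fun _ : GolayPt => Set.Icc (-8 : ℤ) 8)
      fun _ => Set.finite_Icc _ _).subset ?_) Subtype.coe_injective.injOn
    rintro _ ⟨x, hx, rfl⟩
    exact Set.mem_pi.2 fun i _ => abs_le.1 (abs_le_eight (x := (x : GolayPt → ℤ)) (by have := hx.1; omega) i)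
  obtain ⟨F, hF⟩ : ∃ F : Finset ↥leechLattice, F = hfin.toFinset := ⟨_, rfl⟩
  rw [Set.ncard_eq_toFinset_card _ hfin, ← hF,
    Finset.card_eq_sum_card_fiberwise (f := fun x : ↥leechLattice => (x : GolayPt → ℤ) none)
      (t := ((List.range 11).map fun k : ℕ => (k : ℤ) - 5).toFinset) (fun x hx => ?_),
    List.sum_toFinset _ ((List.nodup_range).map fun a b h => by simpa using h), List.map_map]
  · refine Eq.trans (congrArg List.sum (List.map_congr_left (g := fun k : ℕ => sumVecFormula 32 (16 - 4 * ((k : ℤ) - 5))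
      [(none, (k : ℤ) - 5), (pt 0, -((k : ℤ) - 5))] tab2) fun k hk => ?_)) ?_
    rotate_left
    · rw [List.map_congr_left rk_values]
      decide +kernel
    simp only [Function.comp_apply]
    rw [List.mem_range] at hk
    rw [← pair_sum_census _ _ _ (by omega) (by omega), ← Set.ncard_coe_finset,
      ← Set.ncard_image_of_injective _ Subtype.coe_injective]
    congr 1
    ext y
    constructor
    · rintro ⟨x, hx, rfl⟩
      rw [Finset.mem_coe, Finset.mem_filter, hF, Set.Finite.mem_toFinset, rk_mem_iff] at hx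
      obtain ⟨⟨h1, h2, h3⟩, h4⟩ := hx
      exact ⟨x.2, h1, h2.trans (by rw [h4]), h4, h3.trans (by rw [h4])⟩
    · rintro ⟨hy, h1, h2, h3, h4⟩
      refine ⟨⟨y, hy⟩, ?_, rfl⟩
      rw [Finset.mem_coe, Finset.mem_filter, hF, Set.Finite.mem_toFinset, rk_mem_iff]
      exact ⟨⟨h1, by rw [h2]; simp only [h3], by simp only [h3, h4]⟩, h3⟩
  · rw [hF, Set.Finite.coe_toFinset, rk_mem_iff] at hx
    have h1 : (x : GolayPt → ℤ) none ^ 2 ≤ sqNorm (x : GolayPt → ℤ) :=
      Finset.single_le_sum (f := fun j => (x : GolayPt → ℤ) j ^ 2) (fun j _ => sq_nonneg _) (Finset.mem_univ _)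
    have : -5 ≤ (x : GolayPt → ℤ) none ∧ (x : GolayPt → ℤ) none ≤ 5 := by constructor <;> nlinarith [hx.1]
    exact List.mem_toFinset.2 (List.mem_map.2 ⟨((x : GolayPt → ℤ) none + 5).toNat, List.mem_range.2 (by omega),
      by dsimp only; omega⟩)

theorem rkSet_transport {g : ↥Co0} (g1 : g • hsV = hsV) (g2 : g • hsX = hsX) {x : ↥leechLattice}
    (hx : x ∈ rkSet) : g • x ∈ rkSet := by
  refine ⟨(co0_norm g x).trans hx.1, ?_, ?_⟩
  · have := co0_dot g hsX x
    rw [g2] at this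
    exact this.trans hx.2.1
  · have := co0_dot g hsV x
    rw [g1] at this
    exact this.trans hx.2.2

theorem rk_roots : rkX ∈ rkSet ∧ rkY0 ∈ rkSet ∧ rkY16 ∈ rkSet ∧ rkY8 ∈ rkSet ∧
    dotInt (rkX : GolayPt → ℤ) rkX = 32 ∧ dotInt (rkX : GolayPt → ℤ) rkY0 = 0 ∧
    dotInt (rkX : GolayPt → ℤ) rkY16 = 16 ∧ dotInt (rkX : GolayPt → ℤ) rkY8 = 8 := by
  simp only [rk_mem_iff]
  decide +kernel

/-- A suborbit, by inner product with the base vector. -/
def rkClass (c : ℤ) : Set ↥leechLattice := {y | y ∈ rkSet ∧ dotInt (rkX : GolayPt → ℤ) y = c}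

theorem rk_classes :
    (rkClass 0).ncard = 330 ∧ (rkClass 16).ncard = 462 ∧ (rkClass 8).ncard = 1232 ∧
    (∀ y ∈ rkSet, y = rkX ∨ ∃ c : ℤ, (c = 0 ∨ c = 16 ∨ c = 8) ∧ y ∈ rkClass c) ∧
    ∀ c root, (c, root) ∈ [((0 : ℤ), rkY0), (16, rkY16), (8, rkY8)] → ∀ y ∈ rkClass c,
      ∃ g : ↥Co0, g • hsV = hsV ∧ g • hsX = hsX ∧ g • rkX = rkX ∧ g • root = y := by
  obtain ⟨hX, h0, h16, h8, dX, d0, d16, d8⟩ := rk_roots
  obtain ⟨A, hA, rA⟩ := tree_reach (fixd := [hsV, rkX]) mclM_ok tab330_ok rkY0 rfl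
  obtain ⟨B, hB, rB⟩ := tree_reach (fixd := [hsV, rkX]) mclM_ok tab462_ok rkY16 rfl
  obtain ⟨C, hC, rC⟩ := tree_reach (fixd := [hsV, rkX]) mclM_ok tab1232_ok rkY8 rfl
  rw [tab_lengths.1] at hA
  rw [tab_lengths.2.1] at hB
  rw [tab_lengths.2.2] at hC
  have hfin : rkSet.Finite := Set.finite_of_ncard_ne_zero (by rw [rk_total]; norm_num)
  have hf : ∀ c, (rkClass c).Finite := fun c => hfin.subset fun y h => h.1
  have hsubc : ∀ (root : ↥leechLattice) (c : ℤ), root ∈ rkClass c → ∀ g, FixAll [hsV, rkX] g →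
      g • root ∈ rkClass c := by
    rintro root c ⟨hr, hd⟩ g ⟨g1, g2⟩
    refine ⟨rkSet_transport (g2 hsV (by simp)) g1 hr, ?_⟩
    have := co0_dot g rkX root
    rw [g2 rkX (by simp)] at this
    exact this.trans hd
  have fA : A ⊆ rkClass 0 := fun a ha => by
    obtain ⟨g, hg, rfl⟩ := rA a ha
    exact hsubc _ _ ⟨h0, d0⟩ g hg
  have fB : B ⊆ rkClass 16 := fun a ha => by
    obtain ⟨g, hg, rfl⟩ := rB a ha
    exact hsubc _ _ ⟨h16, d16⟩ g hg
  have fC : C ⊆ rkClass 8 := fun a ha => by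
    obtain ⟨g, hg, rfl⟩ := rC a ha
    exact hsubc _ _ ⟨h8, d8⟩ g hg
  have hd : ∀ c c' : ℤ, c ≠ c' → Disjoint (rkClass c) (rkClass c') := fun c c' h =>
    Set.disjoint_left.2 fun y a b => h (a.2.symm.trans b.2)
  set U := rkClass 0 ∪ rkClass 16 ∪ rkClass 8
  have hU : U.ncard = (rkClass 0).ncard + (rkClass 16).ncard + (rkClass 8).ncard := by
    rw [Set.ncard_union_eq (Set.disjoint_union_left.2 ⟨hd 0 8 (by norm_num), hd 16 8 (by norm_num)⟩)
      ((hf 0).union (hf 16)) (hf 8), Set.ncard_union_eq (hd 0 16 (by norm_num)) (hf 0) (hf 16)]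
  have hnot : rkX ∉ U := by
    rintro ((⟨-, h⟩ | ⟨-, h⟩) | ⟨-, h⟩) <;> rw [dX] at h <;> norm_num at h
  have hsub : insert rkX U ⊆ rkSet := by
    rintro y (rfl | (h | h) | h)
    · exact hX
    all_goals exact h.1
  have hins := Set.ncard_insert_of_notMem hnot (((hf 0).union (hf 16)).union (hf 8))
  have hle := Set.ncard_le_ncard hsub hfin
  rw [rk_total, hins, hU] at hle
  have a1 := Set.ncard_le_ncard fA (hf 0)
  have b1 := Set.ncard_le_ncard fB (hf 16)
  have c1 := Set.ncard_le_ncard fC (hf 8)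
  have hall : insert rkX U = rkSet := Set.eq_of_subset_of_ncard_le hsub (by rw [rk_total, hins, hU]; omega) hfin
  have eA : A = rkClass 0 := Set.eq_of_subset_of_ncard_le fA (by omega) (hf 0)
  have eB : B = rkClass 16 := Set.eq_of_subset_of_ncard_le fB (by omega) (hf 16)
  have eC : C = rkClass 8 := Set.eq_of_subset_of_ncard_le fC (by omega) (hf 8)
  refine ⟨by omega, by omega, by omega, fun y hy => ?_, fun c root hcr y hy => ?_⟩
  · rw [← hall] at hy
    rcases hy with e | (h | h) | h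
    · exact Or.inl e
    · exact Or.inr ⟨0, by norm_num, h⟩
    · exact Or.inr ⟨16, by norm_num, h⟩
    · exact Or.inr ⟨8, by norm_num, h⟩
  · have fin : ∀ g, FixAll [hsV, rkX] g → g • root = y →
        ∃ g : ↥Co0, g • hsV = hsV ∧ g • hsX = hsX ∧ g • rkX = rkX ∧ g • root = y :=
      fun g hg e => ⟨g, hg.2 hsV (by simp), hg.1, hg.2 rkX (by simp), e⟩
    simp only [List.mem_cons, Prod.mk.injEq, List.not_mem_nil, or_false] at hcr
    rcases hcr with ⟨rfl, rfl⟩ | ⟨rfl, rfl⟩ | ⟨rfl, rfl⟩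
    · obtain ⟨g, hg, e⟩ := rA y (eA ▸ hy); exact fin g hg e
    · obtain ⟨g, hg, e⟩ := rB y (eB ▸ hy); exact fin g hg e
    · obtain ⟨g, hg, e⟩ := rC y (eC ▸ hy); exact fin g hg e

theorem rk_orbit : ∀ x ∈ rkSet, ∃ g : ↥Co0, g • hsV = hsV ∧ g • hsX = hsX ∧ g • rkX = x := by
  intro x hx
  obtain ⟨-, -, -, hcov, htr⟩ := rk_classes
  rcases hcov x hx with rfl | ⟨c, hc, hy⟩
  · exact ⟨1, one_smul _ _, one_smul _ _, one_smul _ _⟩
  have go : ∀ root, (∃ g : ↥Co0, g • hsV = hsV ∧ g • hsX = hsX ∧ g • rkX = root) →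
      (∃ g : ↥Co0, g • hsV = hsV ∧ g • hsX = hsX ∧ g • rkX = rkX ∧ g • root = x) →
      ∃ g : ↥Co0, g • hsV = hsV ∧ g • hsX = hsX ∧ g • rkX = x := by
    rintro root ⟨a, a1, a2, a3⟩ ⟨b, b1, b2, -, b4⟩
    exact ⟨b * a, by rw [mul_smul, a1, b1], by rw [mul_smul, a2, b2], by rw [mul_smul, a3, b4]⟩
  rcases hc with rfl | rfl | rfl
  · exact go _ (path_elem (by norm_num) paths_val.1) (htr 0 rkY0 (by simp) x hy)
  · exact go _ (path_elem (by norm_num) paths_val.2.1) (htr 16 rkY16 (by simp) x hy)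
  · exact go _ (path_elem (by norm_num) paths_val.2.2) (htr 8 rkY8 (by simp) x hy)

theorem dot_add_left (a b x : GolayPt → ℤ) : dotInt (a + b) x = dotInt a x + dotInt b x := by
  simp [dotInt, add_mul, Finset.sum_add_distrib]

/-- The statement about a pair. -/
theorem mcl_rank_four {v w : ↥leechLattice} (hv : sqNorm (v : GolayPt → ℤ) = 32)
    (hw : sqNorm (w : GolayPt → ℤ) = 32) (hvw : dotInt (v : GolayPt → ℤ) w = -8) :
    let S := {x : ↥leechLattice | sqNorm (x : GolayPt → ℤ) = 32 ∧ dotInt (v : GolayPt → ℤ) x = 0 ∧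
      dotInt (w : GolayPt → ℤ) x = 16}
    S.ncard = 2025 ∧ (∀ x ∈ S, ∀ x' ∈ S, ∃ g : ↥Co0, g • v = v ∧ g • w = w ∧ g • x = x') ∧
    ∀ x ∈ S, ∃ y₁ ∈ S, ∃ y₂ ∈ S, ∃ y₃ ∈ S,
      (MulAction.orbit ↥(MulAction.stabilizer ↥Co0 v ⊓ MulAction.stabilizer ↥Co0 w ⊓
        MulAction.stabilizer ↥Co0 x) y₁).ncard = 330 ∧
      (MulAction.orbit ↥(MulAction.stabilizer ↥Co0 v ⊓ MulAction.stabilizer ↥Co0 w ⊓
        MulAction.stabilizer ↥Co0 x) y₂).ncard = 462 ∧
      (MulAction.orbit ↥(MulAction.stabilizer ↥Co0 v ⊓ MulAction.stabilizer ↥Co0 w ⊓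
        MulAction.stabilizer ↥Co0 x) y₃).ncard = 1232 := by
  intro S
  have hu : sqNorm ((v + w : ↥leechLattice) : GolayPt → ℤ) = 48 := by
    rw [AddSubgroup.coe_add, sqNorm_add', hv, hw, hvw]; norm_num
  obtain ⟨g, g1, g2⟩ := mcl_conj hu (v := v) ⟨hv, by rw [AddSubgroup.coe_add, add_sub_cancel_left]; exact hw⟩
  have tr : ∀ x : ↥leechLattice, x ∈ S ↔ g • x ∈ rkSet := by
    intro x
    simp only [S, rkSet, Set.mem_ofPred_eq, ← g1, ← g2, co0_norm, co0_dot, AddSubgroup.coe_add, dot_add_left]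
    omega
  have hmove : ∀ x ∈ S, ∃ f : ↥Co0, f • (v + w) = hsV ∧ f • v = hsX ∧ f • x = rkX := by
    intro x hx
    obtain ⟨a, a1, a2, a3⟩ := rk_orbit _ ((tr x).1 hx)
    exact ⟨a⁻¹ * g, by rw [mul_smul, g1, inv_smul_eq_iff, a1], by rw [mul_smul, g2, inv_smul_eq_iff, a2],
      by rw [mul_smul, inv_smul_eq_iff, a3]⟩
  have hw' : ∀ {k : ↥Co0}, k • v = v → k • (v + w) = v + w → k • w = w := by
    intro k k1 k2
    rw [co0_add, k1] at k2
    exact add_left_cancel k2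
  have hS : S.ncard = 2025 := (ncard_transport g _ _ tr).trans rk_total
  refine ⟨hS, fun x hx x' hx' => ?_, fun x hx => ?_⟩
  · obtain ⟨a, a1, a2, a3⟩ := hmove x hx
    obtain ⟨b, b1, b2, b3⟩ := hmove x' hx'
    have e1 : (b⁻¹ * a) • v = v := by rw [mul_smul, a2, inv_smul_eq_iff, b2]
    exact ⟨b⁻¹ * a, e1, hw' e1 (by rw [mul_smul, a1, inv_smul_eq_iff, b1]),
      by rw [mul_smul, a3, inv_smul_eq_iff, b3]⟩
  obtain ⟨f, f1, f2, f3⟩ := hmove x hx
  obtain ⟨c0, c16, c8, -, htr⟩ := rk_classes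
  obtain ⟨-, h0, h16, h8, -, d0, d16, d8⟩ := rk_roots
  have trf : ∀ y : ↥leechLattice, y ∈ S ↔ f • y ∈ rkSet := by
    intro y
    simp only [S, rkSet, Set.mem_ofPred_eq, ← f1, ← f2, co0_norm, co0_dot, AddSubgroup.coe_add, dot_add_left]
    omega
  have key : ∀ c root, (c, root) ∈ [((0 : ℤ), rkY0), (16, rkY16), (8, rkY8)] → root ∈ rkClass c →
      f⁻¹ • root ∈ S ∧ (MulAction.orbit ↥(MulAction.stabilizer ↥Co0 v ⊓ MulAction.stabilizer ↥Co0 w ⊓
        MulAction.stabilizer ↥Co0 x) (f⁻¹ • root)).ncard = (rkClass c).ncard := by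
    intro c root hcr hr
    refine ⟨(trf _).2 (by rw [smul_inv_smul]; exact hr.1), ncard_transport f
      (fun y => y ∈ MulAction.orbit ↥(MulAction.stabilizer ↥Co0 v ⊓ MulAction.stabilizer ↥Co0 w ⊓
        MulAction.stabilizer ↥Co0 x) (f⁻¹ • root)) (fun y => y ∈ rkClass c) fun y => ⟨?_, fun hy => ?_⟩⟩
    · rintro ⟨⟨k, hk⟩, rfl⟩
      simp only [Subgroup.mem_inf, MulAction.mem_stabilizer_iff] at hk
      obtain ⟨⟨k1, k2⟩, k3⟩ := hk
      show f • k • f⁻¹ • root ∈ rkClass c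
      refine ⟨?_, ?_⟩
      · rw [← mul_smul, ← mul_smul]
        refine rkSet_transport ?_ ?_ hr.1
        · rw [mul_smul, mul_smul, inv_smul_eq_iff.2 f1.symm, co0_add, k1, k2, f1]
        · rw [mul_smul, mul_smul, inv_smul_eq_iff.2 f2.symm, k1, f2]
      · rw [← f3, co0_dot]
        have h := co0_dot k x (f⁻¹ • root)
        rw [k3] at h
        rw [h, ← co0_dot f, f3, smul_inv_smul]
        exact hr.2
    · obtain ⟨k, k1, k2, k3, k4⟩ := htr c root hcr _ hy
      have e1 : (f⁻¹ * k * f) • v = v := by rw [mul_smul, mul_smul, f2, k2, inv_smul_eq_iff, f2]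
      refine ⟨⟨f⁻¹ * k * f, ?_⟩, ?_⟩
      · simp only [Subgroup.mem_inf, MulAction.mem_stabilizer_iff]
        exact ⟨⟨e1, hw' e1 (by rw [mul_smul, mul_smul, f1, k1, inv_smul_eq_iff, f1])⟩,
          by rw [mul_smul, mul_smul, f3, k3, inv_smul_eq_iff, f3]⟩
      · show (f⁻¹ * k * f) • f⁻¹ • root = y
        rw [mul_smul, mul_smul, smul_inv_smul, k4, inv_smul_smul]
  obtain ⟨m0, n0⟩ := key 0 rkY0 (by simp) ⟨h0, d0⟩
  obtain ⟨m16, n16⟩ := key 16 rkY16 (by simp) ⟨h16, d16⟩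
  obtain ⟨m8, n8⟩ := key 8 rkY8 (by simp) ⟨h8, d8⟩
  exact ⟨_, m0, _, m16, _, m8, n0.trans c0, n16.trans c16, n8.trans c8⟩

end Cfsg.Agent.Golay
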