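import Cfsg.Agent.Golay.Leech

/-! Generation of the lattice by its minimal vectors. -/

set_option autoImplicit false

namespace Cfsg.Agent.Golay

open scoped Pointwise

/-- The span of the minimal vectors. -/
def minSpan : AddSubgroup (GolayPt → ℤ) :=
  AddSubgroup.closure {x : GolayPt → ℤ | x ∈ leechLattice ∧ sqNorm x = 32}

theorem minSpan_le : minSpan ≤ leechLattice :=
  (AddSubgroup.closure_le _).2 fun _ h => h.1

/-- `4 e_i + 4 ε e_j` is a minimal vector. -/
theorem four_pair_mem {i j : GolayPt} (hij : i ≠ j) (ε : ℤ) (hε : ε = 1 ∨ ε = -1) :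
    (Pi.single i (4 : ℤ) + Pi.single j (4 * ε) : GolayPt → ℤ) ∈ minSpan := by
  refine AddSubgroup.subset_closure ⟨mem_leech_iff.2
    ⟨0, Pi.single i (2 : ℤ) + Pi.single j (2 * ε), fun k => ?_, ?_, ?_⟩, ?_⟩
  · simp only [Pi.add_apply, Pi.single_apply]; split_ifs <;> ring
  · have e : red2 (Pi.single i (2 : ℤ) + Pi.single j (2 * ε)) = 0 := by
      funext k
      simp only [red2, Pi.add_apply, Pi.single_apply, Pi.zero_apply]
      split_ifs <;> push_cast <;> simp [show (2 : ZMod 2) = 0 from rfl]
    rw [e]; exact zero_mem _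
  · simp only [Pi.add_apply, Finset.sum_add_distrib, Finset.sum_pi_single', Finset.mem_univ, if_true]
    rcases hε with rfl | rfl <;> norm_num
  · have e : ∀ k, (Pi.single i (4 : ℤ) + Pi.single j (4 * ε) : GolayPt → ℤ) k ^ 2
        = (if k = i then 16 else 0) + (if k = j then 16 else 0) := by
      intro k
      simp only [Pi.add_apply, Pi.single_apply]
      split_ifs with h1 h2 h2
      · exact absurd (h1.symm.trans h2) hij
      · norm_num
      · rcases hε with rfl | rfl <;> norm_num
      · norm_num
    rw [sqNorm, Finset.sum_congr rfl fun k _ => e k, Finset.sum_add_distrib,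
      Finset.sum_ite_eq', Finset.sum_ite_eq']
    simp

theorem four_mul_mem {z : GolayPt → ℤ} (hz : (2 : ℤ) ∣ ∑ i, z i) :
    (fun i => 4 * z i) ∈ minSpan := by
  set a : GolayPt := none
  have hb : a ≠ some 0 := by simp [a]
  have h8 : Pi.single a (8 : ℤ) ∈ minSpan := by
    have := add_mem (four_pair_mem hb 1 (Or.inl rfl)) (four_pair_mem hb (-1) (Or.inr rfl))
    convert this using 1
    funext k
    simp only [Pi.add_apply, Pi.single_apply]
    split_ifs <;> norm_num
  have hd : ∀ i, Pi.single i (4 : ℤ) - Pi.single a (4 : ℤ) ∈ minSpan := by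
    intro i
    by_cases hi : i = a
    · rw [hi, sub_self]; exact zero_mem _
    · convert four_pair_mem hi (-1) (Or.inr rfl) using 1
      funext k
      simp only [Pi.add_apply, Pi.sub_apply, Pi.single_apply]
      split_ifs <;> norm_num
  obtain ⟨c, hc⟩ := hz
  have e : (fun i => 4 * z i)
      = ∑ i, z i • (Pi.single i (4 : ℤ) - Pi.single a (4 : ℤ)) + c • Pi.single a (8 : ℤ) := by
    funext k
    simp only [Pi.add_apply, Finset.sum_apply, Pi.smul_apply, Pi.sub_apply, smul_eq_mul,
      Pi.single_apply, mul_sub, mul_ite, mul_zero, Finset.sum_sub_distrib, Finset.sum_ite_eq,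
      Finset.mem_univ, if_true]
    split_ifs with h
    · rw [← Finset.sum_mul, hc]; ring
    · simp [mul_comm]
  rw [e]
  exact add_mem (sum_mem fun i _ => zsmul_mem (hd i) _) (zsmul_mem h8 _)

theorem two_code_mem {w : GolayPt → ZMod 2} (hw : w ∈ golayCode) :
    ∃ x ∈ minSpan, ∃ y : GolayPt → ℤ, (∀ i, x i = 2 * y i) ∧ red2 y = w := by
  obtain ⟨n, hn, rfl⟩ : ∃ n, inC n = true ∧ wordOf n = w :=
    ⟨wmask w, mem_golayCode_iff.1 hw, wordOf_wmask w⟩
  obtain ⟨i, -, rfl⟩ := inC_eq_encode hn
  have key : ∀ (l : List ℕ), (∀ r ∈ l, r ∈ rows) → ∀ j, ∃ x ∈ minSpan, ∃ y : GolayPt → ℤ,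
      (∀ i, x i = 2 * y i) ∧ red2 y = wordOf (encAux l j) := by
    intro l
    induction l with
    | nil =>
      intro _ j
      exact ⟨0, zero_mem _, 0, by simp, by funext i; simp [red2, encAux, wordOf_zero]⟩
    | cons r rs ih =>
      intro hl j
      obtain ⟨x, hx, y, hy, he⟩ := ih (fun t ht => hl t (by simp [ht])) (j / 2)
      rw [encAux]
      cases (j % 2 == 1)
      · exact ⟨x, hx, y, hy, by simpa using he⟩
      · have hr : r ∈ rows := hl r (by simp)
        obtain ⟨hrC, hr8⟩ := (by decide +kernel : ∀ r ∈ rows, inC r = true ∧ pc r = 8) r hr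
        set v : GolayPt → ℤ := fun i => if r.testBit (idx i) then 1 else 0 with hv
        have hv2 : red2 v = wordOf r := by
          funext i; simp only [red2, hv, wordOf]; split_ifs <;> simp
        have hsum : ∑ i, v i = 8 := by
          have h := card_bset r
          rw [hr8, bset, Finset.card_filter] at h
          have h' := congrArg (fun n : ℕ => (n : ℤ)) h
          simp only [Nat.cast_sum, Nat.cast_ite, Nat.cast_one, Nat.cast_zero, Nat.cast_ofNat] at h'
          rw [← h']
        have hmem : (fun i => 2 * v i) ∈ minSpan := by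
          refine AddSubgroup.subset_closure ⟨mem_leech_iff.2
            ⟨0, v, fun i => by simp, hv2 ▸ wordOf_mem hrC, ?_⟩, ?_⟩
          · rw [← Finset.mul_sum, hsum]; norm_num
          · have e : ∀ i, (2 * v i) ^ 2 = 4 * v i := fun i => by
              simp only [hv]; split_ifs <;> norm_num
            rw [sqNorm, Finset.sum_congr rfl fun i _ => e i, ← Finset.mul_sum, hsum]; norm_num
        refine ⟨(fun i => 2 * v i) + x, add_mem hmem hx, v + y, fun i => ?_, ?_⟩
        · simp [hy i, mul_add]
        · rw [red2_add, hv2, he, wordOf_xor]; simp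
  exact key rows (fun _ h => h) i

theorem leech_eq_minSpan : minSpan = leechLattice := by
  refine le_antisymm minSpan_le fun x hx => ?_
  have heven : ∀ x : GolayPt → ℤ, x ∈ leechLattice →
      ∀ y : GolayPt → ℤ, (∀ i, x i = 2 * y i) → red2 y ∈ golayCode → x ∈ minSpan := by
    intro x hx y hy hw
    obtain ⟨x', hx', y', hy', he⟩ := two_code_mem hw
    have hev : ∀ i, (2 : ℤ) ∣ y i - y' i := by
      intro i
      have : ((y i : ℤ) : ZMod 2) = ((y' i : ℤ) : ZMod 2) := congrFun he.symm i
      have := (ZMod.intCast_eq_intCast_iff' _ _ 2).1 this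
      omega
    have e : x = (fun i => 4 * ((y i - y' i) / 2)) + x' := by
      funext i
      have := hev i
      have := hy i
      have := hy' i
      simp only [Pi.add_apply]
      omega
    rw [e]
    refine add_mem (four_mul_mem ?_) hx'
    obtain ⟨m, u, hu, -, hs⟩ := mem_leech_iff.1 (sub_mem hx (minSpan_le hx'))
    have hval : ∀ i, (x - x') i = 4 * ((y i - y' i) / 2) := fun i => by rw [e]; simp
    rw [Finset.sum_congr rfl fun i _ => hval i, ← Finset.mul_sum] at hs
    have := hu none
    rw [hval] at this
    omega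
  obtain ⟨m, y, hm, hy, hw, hs⟩ := (mem_leech_iff.1 hx).normalize
  rcases hm with rfl | rfl
  · exact heven x hx y (fun i => by simpa using hy i) hw
  · set v : GolayPt → ℤ := fun i => if i = none then -3 else 1 with hv
    have hvmem : v ∈ minSpan := by
      refine AddSubgroup.subset_closure ⟨mem_leech_iff.2
        ⟨1, fun i => if i = none then -2 else 0, fun i => ?_, ?_, ?_⟩, ?_⟩
      · simp only [hv]; split_ifs <;> norm_num
      · have e : red2 (fun i : GolayPt => if i = none then (-2 : ℤ) else 0) = 0 := by
          funext i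
          simp only [red2, Pi.zero_apply]
          split_ifs
          · rfl
          · simp
        rw [e]; exact zero_mem _
      · simp [hv, Fintype.sum_option]
      · simp [hv, sqNorm, Fintype.sum_option]
    have hd : x - v ∈ minSpan := by
      refine heven _ (sub_mem hx (minSpan_le hvmem))
        (fun i => y i + if i = none then 2 else 0) (fun i => ?_) ?_
      · have := hy i
        simp only [Pi.sub_apply, hv]
        split_ifs <;> omega
      · convert hw using 1
        funext i
        simp only [red2]
        split_ifs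
        · push_cast; simp [show (2 : ZMod 2) = 0 from rfl]
        · simp
    simpa using add_mem hd hvmem

end Cfsg.Agent.Golay
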