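import Cfsg.Agent.Golay.U62Codes

/-! Checks of the certificates. -/

set_option autoImplicit false
set_option maxRecDepth 100000

namespace Cfsg.Agent.Golay.U62

theorem word0_perm : ((List.range 891).all fun i =>
    decide (wp 0 i < 891) && wordList (words.getD 0 []) (matl (numVec (ptN i))) == matl (numVec (ptN (wp 0 i)))) =
      true := by
  decide +kernel

end Cfsg.Agent.Golay.U62
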