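import Cfsg.Agent.Golay.U62Checks
import Cfsg.Agent.Golay.U62Word0
import Cfsg.Agent.Golay.U62Word1
import Cfsg.Agent.Golay.LeechStab
import Cfsg.Agent.Golay.LeechPairs
import Cfsg.Agent.Golay.LeechOrth2
import Cfsg.Agent.Golay.LeechPairCount
import Cfsg.Agent.Golay.Co3RankTree
import Cfsg.Agent.Forms.UnitarySimple

/-! The stabiliser of two minimal vectors with scalar product minus sixteen is the unitary group of dimension six. -/

set_option autoImplicit false

namespace Cfsg.Agent.Golay.U62

open Matrix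
open Cfsg.Agent.Forms (frobQ frobQ_apply)
open Cfsg.Agent.KnownA

/-- The second vector in the lattice. -/
def wY : ↥leechLattice := ⟨wFun, leechTest_sound basis_ok.1⟩

/-- The stabiliser of the base pair. -/
def K0 : Subgroup ↥Co0 := MulAction.stabilizer ↥Co0 hsX ⊓ MulAction.stabilizer ↥Co0 wY

theorem base_norm : sqNorm (hsX : GolayPt → ℤ) = 32 ∧ dotInt (hsX : GolayPt → ℤ) (wY : GolayPt → ℤ) = -16 :=
  ⟨uVec_norm, basis_ok.2.2⟩

theorem K0_card : Nat.card ↥K0 = 9196830720 := by
  have h := pair_stab_card (v := hsX) (w := wY) (n := 32) (t := -16) basis_ok.2.1 base_norm.2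
    (fun a ha hd => pairs_transitive (Or.inl rfl) base_norm.1 basis_ok.2.1 ha base_norm.2 hd)
  rw [stab32_card base_norm.1] at h
  have hc := dot_count (n := 32) (by norm_num) base_norm.1 (-4)
  rw [sum_values.1] at hc
  have hc' : {a : ↥leechLattice | sqNorm (a : GolayPt → ℤ) = 32 ∧
      dotInt (hsX : GolayPt → ℤ) (a : GolayPt → ℤ) = -16}.ncard = 4600 := by
    norm_num at hc
    exact hc
  rw [hc'] at h
  change 4600 * Nat.card ↥K0 = _ at h
  omega

/-- A vector of the list. -/
def pnt (i : ℕ) : ↥leechLattice :=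
  if h : leechTest (numVec (ptN i)) = true then ⟨numVec (ptN i), leechTest_sound h⟩ else 0

theorem pnt_coe {i : ℕ} (hi : i < 891) : (pnt i : GolayPt → ℤ) = numVec (ptN i) := by
  have h := List.all_eq_true.1 pts_ok i (List.mem_range.2 hi)
  rw [Bool.and_eq_true] at h
  rw [pnt, dif_pos h.1]

theorem pnt_inj {i k : ℕ} (hi : i < 891) (hk : k < 891) (h : pnt i = pnt k) : i = k := by
  have hb : ∀ {a}, a < 891 → ptN a < 2 ^ 96 := fun {a} ha => by
    have h := List.all_eq_true.1 pts_ok a (List.mem_range.2 ha)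
    rw [Bool.and_eq_true, decide_eq_true_eq] at h
    exact h.2
  have e := Co3Rank.numVec_inj (hb hi) (hb hk) (by rw [← pnt_coe hi, h, pnt_coe hk])
  have hs := pts_sorted
  simp only [List.all_eq_true, List.mem_range, decide_eq_true_eq] at hs
  have hmono : ∀ b, b < 891 → ∀ a < b, ptN a < ptN b := by
    intro b
    induction b with
    | zero => intro _ a ha; omega
    | succ b ih =>
      intro hb a ha
      rcases Nat.lt_succ_iff_lt_or_eq.1 ha with h | rfl
      · exact (ih (by omega) a h).trans (hs b (by omega))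
      · exact hs a (by omega)
  rcases lt_trichotomy i k with hl | hl | hl
  · exact absurd e (hmono k hk i hl).ne
  · exact hl
  · exact absurd e.symm (hmono i hi k hl).ne

/-- The vectors of a point. -/
def Omega (p : ℕ) : Set ↥leechLattice := {v | ∃ i < 891, (mask p).testBit i = true ∧ v = pnt i}

theorem gen_exists {j : ℕ} (hj : j < 2) :
    ∃ k : ↥K0, ∀ i < 891, wp j i < 891 ∧ k.1 • pnt i = pnt (wp j i) := by
  have hw := words_ok
  simp only [gensOK, List.all_eq_true, Bool.and_eq_true, beq_iff_eq] at hw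
  have hmem : words.getD j [] ∈ words := by
    have hl : words.length = 2 := rfl
    rw [List.getD_eq_getElem _ _ (by omega)]
    exact List.getElem_mem _
  obtain ⟨h1, h2⟩ := hw _ hmem
  obtain ⟨g, g1, g2⟩ := word_elem (words.getD j []) (List.all_eq_true.2 h1)
  have key : ∀ (x y : ↥leechLattice), wordList (words.getD j []) (matl x) = matl y → g • x = y := fun x y h =>
    Subtype.ext (by rw [g2, ← listVec_matl (List.foldl _ _ _), ← wordList_matl, h, listVec_matl])
  refine ⟨⟨g, g1, key wY wY (h2 wFun (List.mem_singleton.2 rfl))⟩, fun i hi => ?_⟩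
  have hp : decide (wp j i < 891) &&
      wordList (words.getD j []) (matl (numVec (ptN i))) == matl (numVec (ptN (wp j i))) := by
    interval_cases j
    · exact List.all_eq_true.1 word0_perm i (List.mem_range.2 hi)
    · exact List.all_eq_true.1 word1_perm i (List.mem_range.2 hi)
  simp only [Bool.and_eq_true, decide_eq_true_eq, beq_iff_eq] at hp
  exact ⟨hp.1, key _ _ (by rw [pnt_coe hi, pnt_coe hp.1]; exact hp.2)⟩

theorem fix_all_one (g : ↥Co0) (hu : g • hsX = hsX) (hw : g • wY = wY) (hp : ∀ i < 891, g • pnt i = pnt i) :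
    g = 1 := by
  refine co0_ext fun x => ?_
  rw [one_smul]
  obtain ⟨i, hi, rfl⟩ : ∃ i < 24, pt i = x := ⟨idx x, idx_lt x, pt_idx x⟩
  obtain ⟨hlen, hs⟩ := span_ok
  simp only [List.all_eq_true, List.mem_range, Bool.and_eq_true, beq_iff_eq] at hs
  obtain ⟨-, hr⟩ := hs i hi
  let base : ℕ → ↥leechLattice := fun b => if b = 891 then hsX else if b = 892 then wY else pnt b
  have hfix : ∀ b, b < 891 ∨ b = 891 ∨ b = 892 → g • base b = base b ∧ matl (base b) = bvec b := by
    intro b hb
    rcases hb with h | rfl | rfl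
    · refine ⟨?_, ?_⟩
      · simp only [base, if_neg (show b ≠ 891 by omega), if_neg (show b ≠ 892 by omega)]
        exact hp b h
      · simp only [base, bvec, if_neg (show b ≠ 891 by omega), if_neg (show b ≠ 892 by omega), pnt_coe h]
    · exact ⟨hu, rfl⟩
    · exact ⟨hw, rfl⟩
  have hb : ∀ k < 24, basis.getD k 0 < 891 ∨ basis.getD k 0 = 891 ∨ basis.getD k 0 = 892 := by decide +kernel
  have e : e8 (pt i) = ∑ k ∈ Finset.range 24, ((spanTab.getD i (0, [])).2.getD k 0) • base (basis.getD k 0) := by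
    refine Subtype.ext (funext fun y => ?_)
    have h := hr (idx y) (idx_lt y)
    rw [← List.sum_toFinset _ List.nodup_range, List.toFinset_range] at h
    have hk : ∀ k ∈ Finset.range 24, (bvec (basis.getD k 0)).getD (idx y) 0 =
        (base (basis.getD k 0) : GolayPt → ℤ) y := fun k hk => by
      rw [← (hfix _ (hb k (Finset.mem_range.1 hk))).2]
      exact congrFun (listVec_matl _) y
    rw [Finset.sum_congr rfl fun k hk' => by rw [hk k hk']] at h
    rw [AddSubgroup.val_finsetSum, Finset.sum_apply]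
    simp only [AddSubgroupClass.coe_zsmul, Pi.smul_apply, smul_eq_mul]
    rw [h]
    show Pi.single (pt i) 8 y = _
    by_cases hy : y = pt i
    · subst hy
      rw [Pi.single_eq_same, if_pos]
      revert hi
      exact fun hi => (show ∀ k < 24, idx (pt k) = k by decide +kernel) i hi
    · rw [Pi.single_eq_of_ne hy, if_neg]
      exact fun h => hy (by rw [← h, pt_idx])
  let φ : ↥leechLattice →+ ↥leechLattice := AddMonoidHom.mk' (fun v => g • v) (co0_add g)
  show φ (e8 (pt i)) = e8 (pt i)
  rw [e, map_sum]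
  exact Finset.sum_congr rfl fun k hk => by
    rw [map_zsmul]
    exact congrArg _ (hfix _ (hb k (Finset.mem_range.1 hk))).1

section field

variable {F : Type} [Field F] [Fintype F]

/-- The value of a code. -/
def val (ω : F) (x : ℕ) : F := ((x % 4 % 2 : ℕ) : F) + ω * ((x % 4 / 2 : ℕ) : F)

theorem two_zero (hF : Fintype.card F = 2 ^ 2) : (2 : F) = 0 := by
  have h := Nat.cast_card_eq_zero F
  rw [hF] at h
  have : (2 : F) * 2 = 0 := by rw [← h]; norm_num
  exact mul_self_eq_zero.1 this

theorem exists_omega (hF : Fintype.card F = 2 ^ 2) : ∃ ω : F, ω ^ 2 = ω + 1 := by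
  classical
  obtain ⟨ω, h⟩ : ∃ ω : F, ω ∉ ({0, 1} : Finset F) := by
    by_contra hc
    push_neg at hc
    have := Finset.card_le_card (s := (Finset.univ : Finset F)) (t := {0, 1}) fun x _ => hc x
    rw [Finset.card_univ, hF] at this
    exact absurd (this.trans Finset.card_le_two) (by norm_num)
  simp only [Finset.mem_insert, Finset.mem_singleton, not_or] at h
  refine ⟨ω, ?_⟩
  have h3 : ω ^ (Fintype.card F - 1) = 1 := FiniteField.pow_card_sub_one_eq_one ω h.1
  rw [hF] at h3
  norm_num at h3
  have : (ω - 1) * (ω ^ 2 + ω + 1) = 0 := by linear_combination h3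
  rcases mul_eq_zero.1 this with h' | h'
  · exact absurd (sub_eq_zero.1 h') h.2
  · linear_combination h' - (ω + 1) * two_zero hF

variable (hF : Fintype.card F = 2 ^ 2) {ω : F} (hω : ω ^ 2 = ω + 1)

include hF hω in
theorem val_valid : UC.Valid f4 hF (val ω) := by
  have h2 := two_zero hF
  refine ⟨by simp [val], by simp [val], ?_, fun x y => ?_, fun x y => ?_, fun x => ?_⟩
  · show val ω 1 = -1
    simp only [val]
    norm_num
    grind
  · show val ω ((x % 4) ^^^ (y % 4)) = _
    have hx : x % 4 < 4 := Nat.mod_lt _ (by norm_num)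
    have hy : y % 4 < 4 := Nat.mod_lt _ (by norm_num)
    simp only [val]
    generalize x % 4 = a at hx
    generalize y % 4 = b at hy
    interval_cases a <;> interval_cases b <;> simp only [Nat.reduceXor, Nat.reduceMod, Nat.reduceDiv] <;> norm_num <;> grind
  · show val ω (fmul x y) = _
    have hx : x % 4 < 4 := Nat.mod_lt _ (by norm_num)
    have hy : y % 4 < 4 := Nat.mod_lt _ (by norm_num)
    simp only [val, fmul]
    generalize x % 4 = a at hx
    generalize y % 4 = b at hy
    interval_cases a <;> interval_cases b <;> norm_num <;> grind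
  · show val ω ([0, 1, 3, 2].getD (x % 4) 0) = _
    rw [frobQ_apply]
    have hx : x % 4 < 4 := Nat.mod_lt _ (by norm_num)
    simp only [val]
    generalize x % 4 = a at hx
    interval_cases a <;> norm_num <;> grind

include hF hω in
theorem val_inj {a b : ℕ} (ha : a < 4) (hb : b < 4) (h : val ω a = val ω b) : a = b := by
  have h2 := two_zero hF
  have o0 : ω ≠ 0 := fun e => by rw [e] at hω; norm_num at hω
  have o1 : ω ≠ 1 := fun e => by rw [e, one_pow] at hω; exact one_ne_zero (by linear_combination hω + h2)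
  simp only [val] at h
  interval_cases a <;> interval_cases b <;> first | rfl | (norm_num at h <;> grind)

variable (ω) in
/-- The vector of a list of codes. -/
def vec (r : List ℕ) : Fin f4.n → F := fun k => val ω (r.getD k 0)

include hF hω in
theorem vec_vsm (s : ℕ) (r : List ℕ) : vec ω (vsm s r) = val ω s • vec ω r := by
  funext k
  have hk : (k : ℕ) < 6 := k.2
  simp only [vec, vsm, Pi.smul_apply, smul_eq_mul]
  rw [List.getD_eq_getElem _ _ (by simpa using hk), List.getElem_map, List.getElem_range]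
  exact (val_valid hF hω).mul s _

include hF hω in
theorem ev_mulVec (X r : List ℕ) : UC.ev f4 (val ω) X *ᵥ vec ω r = fun i : Fin f4.n => val ω (mvc X r i) := by
  have hv := val_valid hF hω
  funext i
  simp only [Matrix.mulVec, dotProduct, UC.ev, Matrix.of_apply, vec, mvc]
  rw [Fin.sum_univ_eq_sum_range (fun k => val ω (UC.ent f4 X i k) * val ω (r.getD k 0)) f4.n,
    ← List.toFinset_range, List.sum_toFinset _ List.nodup_range]
  show ((List.range 6).map _).sum = _
  induction List.range 6 with
  | nil => simpa using hv.zero.symm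
  | cons k l ih =>
    simp only [List.map_cons, List.sum_cons, List.foldr_cons, ih, hv.add]
    exact congrArg (· + _) (hv.mul _ _).symm

include hω in
theorem ub_vec (r : List ℕ) : ub hF (vec ω r) (vec ω r) = val ω (hsq r) := by
  have hv := val_valid hF hω
  rw [ub, Forms.hermB_apply, Cfsg.hermForm]
  simp only [vec, hsq]
  rw [Fin.sum_univ_eq_sum_range (fun k => val ω (r.getD k 0) * val ω (r.getD k 0) ^ 2) f4.n,
    ← List.toFinset_range, List.sum_toFinset _ List.nodup_range]
  show ((List.range 6).map _).sum = _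
  induction List.range 6 with
  | nil => simpa using hv.zero.symm
  | cons k l ih =>
    simp only [List.map_cons, List.sum_cons, List.foldr_cons, ih, hv.add]
    refine congrArg (· + _) ?_
    rw [show fmul (f4.conj (r.getD k 0)) (r.getD k 0) = f4.mul (f4.conj (r.getD k 0)) (r.getD k 0) from rfl,
      hv.mul, hv.conj, frobQ_apply, mul_comm]

theorem rep_facts {p : ℕ} (hp : p < 693) : hsq (rep p) % 4 = 0 ∧
    (∀ x ∈ rep p, x < 4) ∧ (rep p).length = 6 ∧ ∃ k < 6, (rep p).getD k 0 = 1 ∧
      ∀ i < k, (rep p).getD i 0 = 0 := by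
  have hA : ((List.range 693).all fun p => (List.range 6).any fun k => (rep p).getD k 0 == 1 &&
      (List.range k).all fun i => (rep p).getD i 0 == 0) = true := by decide +kernel
  have h := List.all_eq_true.1 reps_ok p (List.mem_range.2 hp)
  simp only [Bool.and_eq_true, beq_iff_eq, List.all_eq_true, decide_eq_true_eq] at h
  simp only [List.all_eq_true, List.any_eq_true, List.mem_range, Bool.and_eq_true, beq_iff_eq] at hA
  obtain ⟨k, hk, h1, h2⟩ := hA p hp
  exact ⟨h.1.1.1.1, h.1.1.1.2, h.1.1.2, k, hk, h1, h2⟩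

theorem rep_lt {p k : ℕ} (hp : p < 693) : (rep p).getD k 0 < 4 := by
  obtain ⟨-, h, -, -⟩ := rep_facts hp
  by_cases hk : k < (rep p).length
  · rw [List.getD_eq_getElem _ _ hk]; exact h _ (List.getElem_mem _)
  · rw [List.getD_eq_default _ _ (by omega)]; norm_num

include hF hω in
theorem rep_iso {p : ℕ} (hp : p < 693) : ub hF (vec ω (rep p)) (vec ω (rep p)) = 0 := by
  rw [ub_vec hF hω, val, (rep_facts hp).1]
  simp

include hF hω in
theorem rep_unique {p p' : ℕ} (hp : p < 693) (hp' : p' < 693) {c : F}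
    (h : vec ω (rep p') = c • vec ω (rep p)) : p' = p := by
  have hv := val_valid hF hω
  obtain ⟨-, -, hl, k, hk, k1, k0⟩ := rep_facts hp
  obtain ⟨-, -, hl', k', hk', k1', k0'⟩ := rep_facts hp'
  have e : ∀ i, i < 6 → val ω ((rep p').getD i 0) = c * val ω ((rep p).getD i 0) := fun i hi =>
    congrFun h ⟨i, hi⟩
  have hkk : k = k' := by
    rcases lt_trichotomy k k' with hl2 | hl2 | hl2
    · exfalso
      have h1 := e k hk
      rw [k0' k hl2, k1, hv.zero, hv.one, mul_one] at h1
      have h2 := e k' hk'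
      rw [k1', hv.one, ← h1, zero_mul] at h2
      exact one_ne_zero h2
    · exact hl2
    · exfalso
      have h2 := e k' hk'
      rw [k1', k0 k' hl2, hv.one, hv.zero, mul_zero] at h2
      exact one_ne_zero h2
  subst hkk
  have hc := e k hk
  rw [k1, k1', hv.one, mul_one] at hc
  have hrep : rep p' = rep p := by
    refine List.ext_getElem (by rw [hl, hl']) fun i h1 h2 => ?_
    have hi : i < 6 := hl' ▸ h1
    have e2 := e i hi
    rw [← hc, one_mul] at e2
    have := val_inj hF hω (rep_lt hp') (rep_lt hp) e2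
    rwa [List.getD_eq_getElem _ _ h1, List.getD_eq_getElem _ _ h2] at this
  have hn := reps_index
  simp only [List.all_eq_true, List.mem_range, beq_iff_eq] at hn
  rw [← hn p' hp', hrep, hn p hp]

theorem vnum_digit (r : List ℕ) {k : ℕ} (hk : k < 6) : vnum r / 4 ^ k % 4 = r.getD k 0 % 4 := by
  simp only [vnum, List.range_succ, List.range_zero, List.nil_append, List.map_append, List.map_cons, List.map_nil,
    List.sum_append, List.sum_cons, List.sum_nil, List.cons_append, Nat.add_zero]
  interval_cases k <;> omega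

theorem mask_sound {p i : ℕ} (hp : p < 693) (h : (mask p).testBit i = true) : ∃ k < 27, mem p k = i := by
  have hm := List.all_eq_true.1 mem_ok p (List.mem_range.2 hp)
  simp only [Bool.and_eq_true, beq_iff_eq] at hm
  rw [← hm.2] at h
  have key : ∀ l : List ℕ, (l.foldr (fun i a => (1 <<< i) ||| a) 0).testBit i = true → i ∈ l := by
    intro l
    induction l with
    | nil => simp
    | cons a l ih =>
      rw [List.foldr_cons, Nat.testBit_or, Bool.or_eq_true, Nat.one_shiftLeft, Nat.testBit_two_pow,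
        decide_eq_true_eq]
      rintro (h | h)
      · exact h ▸ List.mem_cons_self ..
      · exact List.mem_cons_of_mem _ (ih h)
  obtain ⟨k, hk, e⟩ := List.mem_map.1 (key _ h)
  exact ⟨k, List.mem_range.1 hk, e⟩

include hF hω in
theorem iso_cover {e : Fin f4.n → F} (he : ub hF e e = 0) :
    e = 0 ∨ ∃ p < 693, ∃ t : F, t ≠ 0 ∧ vec ω (rep p) = t • e := by
  classical
  have hv := val_valid hF hω
  have hsurj : Function.Surjective fun x : Fin 4 => val ω x.val :=
    ((Fintype.bijective_iff_injective_and_card _).2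
      ⟨fun a b h => Fin.ext (val_inj hF hω a.2 b.2 h), by rw [hF, Fintype.card_fin]; norm_num⟩).2
  choose c hc using fun k => hsurj (e k)
  let l : List ℕ := List.ofFn fun k => (c k).val
  have hl : vec ω l = e := funext fun k => by
    rw [vec, List.getD_eq_getElem _ _ (by simp [l]), List.getElem_ofFn]
    exact hc k
  have hN : vnum l < 4096 := by
    simp only [vnum, List.range_succ, List.range_zero, List.nil_append, List.map_append, List.map_cons,
      List.map_nil, List.sum_append, List.sum_cons, List.sum_nil, List.cons_append]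
    omega
  have hd : vec ω (vdec (vnum l)) = e := by
    rw [← hl]
    funext k
    have hk : (k : ℕ) < 6 := k.2
    simp only [vec, vdec]
    rw [List.getD_eq_getElem _ _ (by simpa using hk), List.getElem_map, List.getElem_range, vnum_digit l hk]
    exact congrArg _ (Nat.mod_eq_of_lt (by
      rw [List.getD_eq_getElem _ _ (by simpa [l] using k.2), List.getElem_ofFn]; exact (c _).2))
  have h := List.all_eq_true.1 cover_ok (vnum l) (List.mem_range.2 hN)
  simp only [Bool.or_eq_true, beq_iff_eq, Bool.not_eq_true', beq_eq_false_iff_ne, List.any_eq_true] at h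
  rcases h with (h | h) | h
  · left
    rw [← hd, h]
    funext k
    have hk : (k : ℕ) < 6 := k.2
    simp only [vec, vdec]
    rw [List.getD_eq_getElem _ _ (by simpa using hk), List.getElem_map, List.getElem_range]
    simp [val]
  · exfalso
    rw [← hd, ub_vec hF hω, ← hv.zero] at he
    refine h (val_inj hF hω ?_ (by norm_num) he)
    rw [hsq]
    cases (List.range 6).map fun k => fmul (f4.conj ((vdec (vnum l)).getD k 0)) ((vdec (vnum l)).getD k 0) with
    | nil => norm_num
    | cons a as =>
      exact Nat.xor_lt_two_pow (n := 2) (Nat.mod_lt _ (by norm_num)) (Nat.mod_lt _ (by norm_num))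
  · obtain ⟨s, hs, hb⟩ := h
    simp only [Bool.and_eq_true, decide_eq_true_eq, beq_iff_eq] at hb
    refine Or.inr ⟨_, hb.1, val ω s, ?_, ?_⟩
    · intro h0
      rw [← hv.zero] at h0
      fin_cases hs <;> exact absurd (val_inj hF hω (by norm_num) (by norm_num) h0) (by norm_num)
    · rw [← hd, ← vec_vsm hF hω, hb.2]

include hF hω in
set_option maxHeartbeats 1000000 in
theorem iso_psu : Nonempty (↥K0 ≃* Cfsg.PSU f4.n F 2) := by
  classical
  have hv := val_valid hF hω
  have hn3 : 3 ≤ f4.n := by show 3 ≤ 6; norm_num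
  have h32 : ¬(f4.n = 3 ∧ 2 = 2) := by show ¬(6 = 3 ∧ 2 = 2); norm_num
  let S := UC.semU hF hv mats_ok.1
  let mk := QuotientGroup.mk' (Subgroup.center (Cfsg.SU f4.n F 2))
  have hreal : ∀ j < 2, UC.RealU f4 2 (val ω) (mtx j) := by
    intro j hj
    have h := List.all_eq_true.1 mats_ok.2.1 j (List.mem_range.2 hj)
    simp only [Bool.and_eq_true, beq_iff_eq] at h
    exact UC.real_of_order hF hv h.1.1 h.1.2 h.2
  choose gm hgm using hreal
  choose kg hkg using fun j (hj : j < 2) => gen_exists hj
  let Gens : Set (↥K0 × Cfsg.PSU f4.n F 2) := {z | ∃ j, ∃ hj : j < 2, z = (kg j hj, mk (gm j hj))}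
  let D := Subgroup.closure Gens
  haveI : Finite ↥K0 := Nat.finite_of_card_ne_zero (by rw [K0_card]; norm_num)
  have hpsu : Nat.card (Cfsg.PSU f4.n F 2) = 9196830720 := by
    have hG := Forms.card_PSU (n := 6) hF (by norm_num)
    norm_num [Finset.prod_range_succ, Nat.even_iff, -Nat.card_eq_fintype_card] at hG
    change 3 * (3 * Nat.card (Cfsg.PSU f4.n F 2)) = 82771476480 at hG
    omega
  haveI : Finite (Cfsg.PSU f4.n F 2) := Nat.finite_of_card_ne_zero (by rw [hpsu]; norm_num)
  -- images of points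
  have hact : ∀ (g : Cfsg.SU f4.n F 2) (x : Fin f4.n → F), act g x = UC.mat g *ᵥ x := fun g x => by
    simp [act, UC.mat]
  have hsig : ∀ j (hj : j < 2), ∀ p < 693, sp j p < 693 ∧
      (∃ c : F, c ≠ 0 ∧ act (gm j hj) (vec ω (rep p)) = c • vec ω (rep (sp j p))) ∧
      ∀ v ∈ Omega p, (kg j hj).1 • v ∈ Omega (sp j p) := by
    intro j hj p hp
    have h1 := List.all_eq_true.1 (List.all_eq_true.1 masks_ok p (List.mem_range.2 hp)) j (List.mem_range.2 hj)
    simp only [Bool.and_eq_true, decide_eq_true_eq, List.all_eq_true, List.mem_range] at h1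
    have h2 := List.all_eq_true.1 (List.all_eq_true.1 sig_ok p (List.mem_range.2 hp)) j (List.mem_range.2 hj)
    simp only [List.any_eq_true, beq_iff_eq] at h2
    obtain ⟨s, hs, hs'⟩ := h2
    refine ⟨h1.1, ⟨val ω s, ?_, ?_⟩, ?_⟩
    · intro h0
      rw [← hv.zero] at h0
      fin_cases hs <;> exact absurd (val_inj hF hω (by norm_num) (by norm_num) h0) (by norm_num)
    · rw [hact, hgm, ev_mulVec hF hω, ← vec_vsm hF hω, ← hs']
      funext k
      have hk : (k : ℕ) < 6 := k.2
      simp only [vec]
      rw [List.getD_eq_getElem _ _ (by simpa using hk), List.getElem_map, List.getElem_range]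
    · rintro v ⟨i, hi, hb, rfl⟩
      obtain ⟨hlt, e⟩ := hkg j hj i hi
      obtain ⟨k, hk, rfl⟩ := mask_sound hp hb
      exact ⟨_, hlt, h1.2 k hk, e⟩
  -- surjectivity
  let R : Subgroup (Cfsg.SU f4.n F 2) := (D.map (MonoidHom.snd _ _)).comap mk
  have hgR : ∀ j (hj : j < 2), gm j hj ∈ R := fun j hj =>
    ⟨(kg j hj, mk (gm j hj)), Subgroup.subset_closure ⟨j, hj, rfl⟩, rfl⟩
  have hprod : ∀ (l : List ℕ), (∀ i ∈ l, i < 2) → ∀ X g, UC.mat g = UC.ev f4 (val ω) X → g ∈ R →
      ∃ g' ∈ R, UC.mat g' = UC.ev f4 (val ω) (l.foldl (fun X i => UC.mulL f4 (mtx i) X) X) := by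
    intro l
    induction l with
    | nil => exact fun _ X g e hg => ⟨g, hg, e⟩
    | cons a l ih =>
      intro hl X g e hg
      refine ih (fun i hi => hl i (List.mem_cons_of_mem _ hi)) _ (gm a (hl a (List.mem_cons_self ..)) * g) ?_
        (mul_mem (hgR a _) hg)
      rw [map_mul, hgm, e, UC.ev_mul hF hv]
  have hl2 := letters_ok.1
  simp only [List.all_eq_true, decide_eq_true_eq] at hl2
  obtain ⟨g0, hg0, e0⟩ := hprod letters hl2 (UC.oneL f4) 1 (by rw [map_one, UC.ev_one hF hv]) (one_mem R)
  obtain ⟨⟨gt, hgt⟩, et⟩ := S.real_eqv ⟨g0, e0⟩ letters_ok.2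
  have hgtR : gt ∈ R := by
    have : mk gt = mk g0 := by
      rw [← UC.el_spec hgt, ← UC.el_spec e0]; exact et.symm
    simp only [R, Subgroup.mem_comap] at hg0 ⊢
    rw [this]; exact hg0
  have h2 := two_zero hF
  have hcube : ∀ t : F, t ≠ 0 → t * frobQ hF t = 1 := fun t ht => by
    have := FiniteField.pow_card_sub_one_eq_one t ht
    rw [hF] at this
    rw [frobQ_apply]
    norm_num at this
    linear_combination this
  have hbase : ∀ a, trv hF (vec ω (rep 0)) a ∈ R := by
    intro a
    have hiso := rep_iso hF hω (p := 0) (by norm_num)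
    have hk : kap hF a * (kap hF a - 1) = 0 := by
      have := kap_trace hF a
      rw [frobQ_apply] at this
      linear_combination this - kap hF a * h2
    rcases mul_eq_zero.1 hk with h0 | h1
    · have : trv hF (vec ω (rep 0)) a = 1 := su_ext fun x => by
        rw [act_trv hF hiso, h0, zero_mul, zero_smul, add_zero, act_one, Module.End.one_apply]
      rw [this]; exact one_mem R
    · have : trv hF (vec ω (rep 0)) a = gt := su_ext fun x => by
        rw [act_trv hF hiso, sub_eq_zero.1 h1, one_mul, hact, hgt]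
        funext i
        have hh : ub hF (vec ω (rep 0)) x =
            ∑ k : Fin f4.n, frobQ hF (val ω ((rep 0).getD k 0)) * x k := by
          rw [ub, Forms.hermB_apply, Cfsg.hermForm]
          exact Finset.sum_congr rfl fun k _ => by rw [frobQ_apply, mul_comm]; rfl
        simp only [Pi.add_apply, Pi.smul_apply, smul_eq_mul, Matrix.mulVec, dotProduct, UC.ev, Matrix.of_apply,
          tvc, UC.ent_tabl, hh]
        simp only [show ∀ a b, fmul a b = f4.mul a b from fun _ _ => rfl, hv.add, hv.mul, hv.conj, add_mul,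
          Finset.sum_add_distrib, Finset.sum_mul]
        refine congrArg₂ (· + ·) ?_ (Finset.sum_congr rfl fun k _ => by rw [vec]; ring)
        rw [Finset.sum_eq_single i (fun b _ hb => by rw [if_neg (fun e => hb (Fin.ext e.symm)), hv.zero, zero_mul])
          (by simp), if_pos rfl, hv.one, one_mul]
      rw [this]; exact hgtR
  have hall : ∀ p < 693, ∀ a, trv hF (vec ω (rep p)) a ∈ R := by
    intro p
    induction p using Nat.strong_induction_on with
    | _ p ih =>
      intro hp a
      rcases Nat.eq_zero_or_pos p with rfl | hp0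
      · exact hbase a
      have h := List.all_eq_true.1 tree_ok p (List.mem_range.2 hp)
      simp only [Bool.or_eq_true, Bool.and_eq_true, beq_iff_eq, decide_eq_true_eq] at h
      obtain ⟨⟨hq, hj⟩, hs⟩ := h.resolve_left (by omega)
      obtain ⟨-, ⟨c, hc, he⟩, -⟩ := hsig _ hj _ (hq.trans hp)
      rw [hs] at he
      have key := Forms.conj_trv_eq hF (gm _ hj) hc (rep_iso hF hω (hq.trans hp)) he a
      rw [hcube c hc, mul_one] at key
      rw [← key]
      exact mul_mem (mul_mem (hgR _ hj) (ih _ hq (hq.trans hp) a)) (inv_mem (hgR _ hj))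
  have htrv : ∀ e a, ub hF e e = 0 → trv hF e a ∈ R := by
    intro e a he
    rcases iso_cover hF hω he with rfl | ⟨p, hp, t, ht, ept⟩
    · have : trv hF (0 : Fin f4.n → F) a = 1 := su_ext fun x => by
        rw [act_trv hF he, act_one, Module.End.one_apply, smul_zero, add_zero]
      rw [this]; exact one_mem R
    · have key := Forms.conj_trv_eq hF 1 ht (rep_iso hF hω hp) (e' := e)
        (by rw [act_one, Module.End.one_apply]; exact ept) a
      rw [one_mul, inv_one, mul_one, hcube _ ht, mul_one] at key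
      rw [← key]
      exact hall p hp a
  have hcore : R.normalCore = ⊤ := eq_top_of_trv_mem hF hn3 h32 R.normalCore fun e a he g => by
    show g * trv hF e a * g⁻¹ ∈ R
    rw [Forms.conj_trv_eq hF g one_ne_zero he (one_smul F _).symm]
    exact htrv _ _ (by rw [act_ub hF]; exact he)
  have hsurj : Function.Surjective ((MonoidHom.snd ↥K0 (Cfsg.PSU f4.n F 2)).comp D.subtype) := by
    intro h
    obtain ⟨g, rfl⟩ := QuotientGroup.mk'_surjective _ h
    obtain ⟨z, hz, e⟩ := R.normalCore_le (hcore ▸ Subgroup.mem_top g)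
    exact ⟨⟨z, hz⟩, e⟩
  -- injectivity
  let Good : ↥K0 × Cfsg.PSU f4.n F 2 → Prop := fun z => ∃ g, mk g = z.2 ∧ ∀ p < 693, ∃ p' < 693,
    (∃ c : F, c ≠ 0 ∧ act g (vec ω (rep p)) = c • vec ω (rep p')) ∧ ∀ v ∈ Omega p, z.1.1 • v ∈ Omega p'
  have hgood : ∀ z ∈ D, Good z := by
    intro z hz
    rw [← Subgroup.mem_toSubmonoid, Subgroup.closure_toSubmonoid_of_finite] at hz
    induction hz using Submonoid.closure_induction with
    | mem z hz =>
      obtain ⟨j, hj, rfl⟩ := hz
      exact ⟨gm j hj, rfl, fun p hp => ⟨sp j p, hsig j hj p hp⟩⟩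
    | one =>
      exact ⟨1, map_one _, fun p hp => ⟨p, hp,
        ⟨1, one_ne_zero, by rw [act_one, Module.End.one_apply, one_smul]⟩,
        fun v hv => by simpa using hv⟩⟩
    | mul x y _ _ hx hy =>
      obtain ⟨g, hg, gx⟩ := hx
      obtain ⟨h, hh, hy'⟩ := hy
      refine ⟨g * h, by rw [map_mul, hg, hh]; rfl, fun p hp => ?_⟩
      obtain ⟨p1, hp1, ⟨c1, hc1, e1⟩, m1⟩ := hy' p hp
      obtain ⟨p2, hp2, ⟨c2, hc2, e2⟩, m2⟩ := gx p1 hp1
      refine ⟨p2, hp2, ⟨c1 * c2, mul_ne_zero hc1 hc2, ?_⟩, fun v hv => ?_⟩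
      · rw [act_mul_apply, e1, map_smul, e2, smul_smul]
      · show (x.1.1 * y.1.1) • v ∈ _
        rw [mul_smul]
        exact m2 _ (m1 v hv)
  have hker : ∀ z ∈ D, z.2 = 1 → z = 1 := by
    intro z hz h1
    obtain ⟨g, hg, hp⟩ := hgood z hz
    rw [h1] at hg
    obtain ⟨c0, hc0⟩ := (Forms.su_mem_center_iff (n := f4.n) hF (show 2 ≤ f4.n from le_trans (by norm_num) hn3) g).1 ((QuotientGroup.eq_one_iff g).1 hg)
    have hfix : ∀ p < 693, ∀ v ∈ Omega p, z.1.1 • v ∈ Omega p := by
      intro p hpl
      obtain ⟨p', hp', ⟨c, hc, e⟩, m⟩ := hp p hpl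
      rw [hc0] at e
      have : p' = p := rep_unique hF hω hpl hp' (c := c⁻¹ * c0)
        (by rw [← smul_smul, e, smul_smul, inv_mul_cancel₀ hc, one_smul])
      rw [this] at m
      exact m
    have h1' : z.1.1 = 1 := by
      refine fix_all_one _ z.1.2.1 z.1.2.2 fun i hi => ?_
      have ht := List.all_eq_true.1 tri_ok i (List.mem_range.2 hi)
      simp only [Bool.and_eq_true, decide_eq_true_eq, beq_iff_eq] at ht
      obtain ⟨⟨⟨ha, hb⟩, hc⟩, heq⟩ := ht
      have hbit : ∀ k, ((mask (tri i &&& 1023)).testBit k = true ∧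
          (mask ((tri i >>> 10) &&& 1023)).testBit k = true ∧ (mask (tri i >>> 20)).testBit k = true) ↔ i = k := by
        intro k
        have := congrArg (fun N => Nat.testBit N k) heq
        simp only [Nat.testBit_and, Nat.one_shiftLeft, Nat.testBit_two_pow] at this
        rw [← decide_eq_true_iff (p := i = k), ← this]
        simp [and_assoc]
      obtain ⟨b1, b2, b3⟩ := (hbit i).2 rfl
      obtain ⟨k1, l1, m1, e1⟩ := hfix _ ha _ ⟨i, hi, b1, rfl⟩
      obtain ⟨k2, l2, m2, e2⟩ := hfix _ hb _ ⟨i, hi, b2, rfl⟩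
      obtain ⟨k3, l3, m3, e3⟩ := hfix _ hc _ ⟨i, hi, b3, rfl⟩
      have q2 := pnt_inj l1 l2 (e1.symm.trans e2)
      have q3 := pnt_inj l1 l3 (e1.symm.trans e3)
      rw [e1, (hbit k1).1 ⟨m1, q2 ▸ m2, q3 ▸ m3⟩]
    exact Prod.ext (Subtype.ext h1') h1
  have hinj : Function.Injective ((MonoidHom.snd ↥K0 (Cfsg.PSU f4.n F 2)).comp D.subtype) :=
    (injective_iff_map_eq_one _).2 fun z hz => Subtype.ext (hker z.1 z.2 hz)
  let e := MulEquiv.ofBijective _ ⟨hinj, hsurj⟩
  let φ : Cfsg.PSU f4.n F 2 →* ↥K0 := ((MonoidHom.fst _ _).comp D.subtype).comp e.symm.toMonoidHom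
  haveI : IsSimpleGroup (Cfsg.PSU f4.n F 2) := Forms.psu_simple hF hn3 h32
  have hφ : Function.Injective φ := by
    rw [← MonoidHom.ker_eq_bot_iff]
    refine (φ.normal_ker.eq_bot_or_eq_top).resolve_right fun htop => ?_
    obtain ⟨i, hi, hne⟩ : ∃ i < 891, wp 0 i ≠ i := by
      have h : ((List.range 891).any fun i => !(wp 0 i == i)) = true := by decide +kernel
      simpa [List.any_eq_true] using h
    have hm : (kg 0 (by norm_num), mk (gm 0 (by norm_num))) ∈ D := Subgroup.subset_closure ⟨0, _, rfl⟩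
    have hk : φ (e ⟨_, hm⟩) = 1 := MonoidHom.mem_ker.1 (htop ▸ Subgroup.mem_top _)
    simp only [φ, MonoidHom.comp_apply, MulEquiv.coe_toMonoidHom, MulEquiv.symm_apply_apply] at hk
    obtain ⟨hlt, he⟩ := hkg 0 (by norm_num) i hi
    change kg 0 _ = 1 at hk
    rw [hk, OneMemClass.coe_one, one_smul] at he
    exact hne (pnt_inj hi hlt he).symm
  exact ⟨(MulEquiv.ofBijective φ ((Nat.bijective_iff_injective_and_card _).2 ⟨hφ, by rw [hpsu, K0_card]⟩)).symm⟩

end field

theorem u62 (v w : ↥leechLattice) (hv : sqNorm (v : GolayPt → ℤ) = 32) (hw : sqNorm (w : GolayPt → ℤ) = 32)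
    (hd : dotInt (v : GolayPt → ℤ) (w : GolayPt → ℤ) = -16) (F : Type) [Field F] [Fintype F]
    (hF : Fintype.card F = 4) :
    Nonempty (↥(MulAction.stabilizer ↥Co0 v ⊓ MulAction.stabilizer ↥Co0 w) ≃* Cfsg.PSU 6 F 2) := by
  obtain ⟨g, hg⟩ := co0_transitive (Or.inl rfl) hv (w := hsX) base_norm.1
  have hw' : sqNorm ((g • w : ↥leechLattice) : GolayPt → ℤ) = 32 := (co0_norm g w).trans hw
  have hd' : dotInt (hsX : GolayPt → ℤ) ((g • w : ↥leechLattice) : GolayPt → ℤ) = -16 := by
    rw [← hg, co0_dot]; exact hd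
  obtain ⟨b, b1, b2⟩ := pairs_transitive (Or.inl rfl) base_norm.1 hw' basis_ok.2.1 hd' base_norm.2
  have hF' : Fintype.card F = 2 ^ 2 := by rw [hF]; norm_num
  obtain ⟨ω, hω⟩ := exists_omega hF'
  obtain ⟨e⟩ := iso_psu hF' hω
  have a1 : (b * g) • v = hsX := by rw [mul_smul, hg, b1]
  have a2 : (b * g) • w = wY := by rw [mul_smul, b2]
  exact ⟨((stabInfConj (b * g) v w).trans (MulEquiv.subgroupCongr (by rw [a1, a2]; rfl))).trans e⟩

end Cfsg.Agent.Golay.U62
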