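import Cfsg.Agent.Golay.LeechFrame
import Cfsg.Agent.Golay.LeechCode

/-! The Leech lattice is determined by its vector counts. -/

set_option autoImplicit false

namespace Cfsg.Agent.Golay

open Matrix

theorem leech_unique {B : Matrix (Fin 24) (Fin 24) ℤ} (h : LeechLike B) :
    ∃ f : (Fin 24 → ℤ) ≃+ Cfsg.leechLattice, ∀ x : Fin 24 → ℤ,
      Cfsg.sqNorm ((f x : Cfsg.leechLattice) : GolayPt → ℤ) = 8 * (x ⬝ᵥ (B *ᵥ x)) := by
  classical
  obtain ⟨φ, hinj, hform, hpar, hpairs⟩ := h.exists_coords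
  have hsq : ∀ v, sqNorm (φ v) = 8 * bf B v v := fun v => by
    rw [← hform, sqNorm]; exact Finset.sum_congr rfl fun i _ => sq _
  have hgood : GoodL φ.range := by
    refine ⟨fun i j => ?_, fun i j => ?_, ?_, ?_, ?_, ?_⟩
    · obtain ⟨v, hv⟩ := (hpairs i j).1; exact ⟨v, hv⟩
    · obtain ⟨v, hv⟩ := (hpairs i j).2; exact ⟨v, hv⟩
    · rintro _ ⟨v, rfl⟩ i j; exact hpar v i j
    · rintro _ ⟨v, rfl⟩
      rw [hsq]
      obtain ⟨k, hk⟩ := h.even v
      exact ⟨k, by rw [hk]; ring⟩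
    · rintro _ ⟨v, rfl⟩ hne
      rw [hsq]
      have := h.four_le (x := v) (fun e => hne (by rw [e, map_zero]))
      omega
    · rintro _ ⟨v, rfl⟩ _ ⟨w, rfl⟩
      exact ⟨bf B v w, by rw [dotInt, hform]⟩
  have h32 : {x | x ∈ φ.range ∧ sqNorm x = 32}.ncard = 196560 := by
    have e : {x | x ∈ φ.range ∧ sqNorm x = 32} = φ '' {v | bf B v v = 4} := by
      ext x
      constructor
      · rintro ⟨⟨v, rfl⟩, hx⟩
        rw [hsq] at hx
        exact ⟨v, show bf B v v = 4 by omega, rfl⟩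
      · rintro ⟨v, hv, rfl⟩
        exact ⟨⟨v, rfl⟩, by rw [hsq, show bf B v v = 4 from hv]; norm_num⟩
    rw [e, Set.ncard_image_of_injective _ hinj, h.n4]
  obtain ⟨σ, ε, hε, hmap⟩ := hgood.exists_mono h32
  let ψ := (monoHom σ ε).comp φ
  have hψinj : Function.Injective ψ := (monoHom_injective σ ε hε).comp hinj
  have hrange : ψ.range = leechLattice := by
    rw [← hmap, AddMonoidHom.map_range]
  refine ⟨(AddMonoidHom.ofInjective hψinj).trans (AddEquiv.addSubgroupCongr hrange), fun x => ?_⟩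
  show sqNorm (monoHom σ ε (φ x)) = _
  rw [monoHom_sqNorm σ ε hε, hsq]
  rfl

end Cfsg.Agent.Golay
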