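import Cfsg.Agent.Golay.Mathieu

/-! Local subgroups of orders 55 and 20 in the two-point stabiliser, and two impossible orders. -/

set_option autoImplicit false
set_option maxRecDepth 20000

namespace Cfsg.Agent.Golay

open scoped Pointwise

/-- Octad masks meeting a list of points five times. -/
def fiveSeeds (P : List ℕ) : List ℕ := ((List.range 4096).map encode).filter fun f =>
  pc f == 8 && decide (5 ≤ pc (f &&& ((P.map (2 ^ ·)).foldl (· ||| ·) 0)))

/-- Points forced by one closure step through octads. -/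
def growStep (P Q : List ℕ) : Bool :=
  seedsOK P (fiveSeeds P) && Q.all fun x => decide (x < 24) && (P.contains x || sigUnique P (fiveSeeds P) x)

theorem fix_of_growStep {σ : Equiv.Perm GolayPt} (hσ : σ ∈ M24) {P Q : List ℕ}
    (h : growStep P Q = true) (hP : ∀ x ∈ P, x < 24 ∧ σ (pt x) = pt x) :
    ∀ x ∈ Q, x < 24 ∧ σ (pt x) = pt x := by
  intro x hx
  simp only [growStep, Bool.and_eq_true, List.all_eq_true, decide_eq_true_eq, Bool.or_eq_true,
    List.contains_iff_mem] at h
  obtain ⟨h1, h2⟩ := h
  obtain ⟨hlt, h3⟩ := h2 x hx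
  exact ⟨hlt, h3.elim (fun h4 => (hP x h4).2) fun h4 => rigid_step hσ P _ hP h1 hlt h4⟩

/-- The group fixing the points with index 22 and 23. -/
abbrev StdM22 : Subgroup (Equiv.Perm GolayPt) :=
  M24 ⊓ MulAction.stabilizer (Equiv.Perm GolayPt) (pt 22) ⊓
    MulAction.stabilizer (Equiv.Perm GolayPt) (pt 23)

theorem stdM22_card : Nat.card StdM22 = 443520 := M24_stab2_card (by decide +kernel)

/-- Automorphism codes fixing both base points. -/
def isStd (c : ℕ) : Bool := isAut c && app c 22 == 22 && app c 23 == 23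

theorem permOf_mem_stdM22 {c : ℕ} (h : isStd c = true) : permOf c ∈ StdM22 := by
  simp only [isStd, Bool.and_eq_true, beq_iff_eq] at h
  obtain ⟨⟨ha, h22⟩, h23⟩ := h
  exact ⟨⟨permOf_mem_M24 ha, by
    show permOf c (pt 22) = pt 22
    rw [permOf_pt (permOK_of_isAut ha) (by norm_num), h22]⟩, by
    show permOf c (pt 23) = pt 23
    rw [permOf_pt (permOK_of_isAut ha) (by norm_num), h23]⟩

/-- The element of a code. -/
noncomputable def stdOf (c : ℕ) (h : isStd c = true) : StdM22 := ⟨permOf c, permOf_mem_stdM22 h⟩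

theorem stdOf_pow_apply {c : ℕ} (h : isStd c = true) (k : ℕ) (y : GolayPt) :
    ((stdOf c h) ^ k).1 y = (permFun c)^[k] y := by
  have hok : permOK c = true := by
    simp only [isStd, Bool.and_eq_true] at h
    exact permOK_of_isAut h.1.1
  rw [SubmonoidClass.coe_pow, Equiv.Perm.coe_pow]
  show (⇑(permOf c))^[k] y = _
  rw [show (⇑(permOf c) : GolayPt → GolayPt) = permFun c from funext (permOf_apply hok)]

theorem orderOf_stdOf {c : ℕ} (h : isStd c = true) {r : ℕ} (hr : r.Prime)
    (h1 : ∀ y, (permFun c)^[r] y = y) (h2 : ∃ y, permFun c y ≠ y) : orderOf (stdOf c h) = r := by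
  haveI := Fact.mk hr
  refine orderOf_eq_prime (Subtype.ext (Equiv.ext fun y => ?_)) ?_
  · rw [stdOf_pow_apply h]; exact h1 y
  · intro e
    obtain ⟨y, hy⟩ := h2
    apply hy
    have := stdOf_pow_apply h 1 y
    rw [pow_one, e, Function.iterate_one] at this
    exact this.symm

/-- Conjugation by one code sends another to a power of itself. -/
theorem stdOf_conj_eq_pow {a c : ℕ} (ha : isStd a = true) (hc : isStd c = true) (k : ℕ)
    (h : ∀ y, permFun a (permFun c y) = (permFun c)^[k] (permFun a y)) :
    stdOf a ha * stdOf c hc * (stdOf a ha)⁻¹ = stdOf c hc ^ k := by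
  rw [mul_inv_eq_iff_eq_mul]
  refine Subtype.ext (Equiv.ext fun y => ?_)
  rw [Subgroup.coe_mul, Equiv.Perm.mul_apply, Subgroup.coe_mul, Equiv.Perm.mul_apply]
  have e1 : ∀ (b : ℕ) (hb : isStd b = true) (z : GolayPt), (stdOf b hb).1 z = permFun b z := by
    intro b hb z
    have := stdOf_pow_apply hb 1 z
    rwa [pow_one, Function.iterate_one] at this
  rw [stdOf_pow_apply hc, e1 a ha, e1 c hc, e1 a ha, h y]

theorem mem_normalizer_zpowers_of_conj {G : Type*} [Group G] [Finite G] {x c : G} {k : ℕ}
    (h : c * x * c⁻¹ = x ^ k) (hk : Nat.Coprime k (orderOf x)) :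
    c ∈ Subgroup.normalizer ((Subgroup.zpowers x : Subgroup G) : Set G) := by
  have hmap : (Subgroup.zpowers x).map (MulAut.conj c).toMonoidHom = Subgroup.zpowers x := by
    rw [MonoidHom.map_zpowers]
    refine Subgroup.eq_of_le_of_card_ge ?_ ?_
    · rw [Subgroup.zpowers_le]
      show c * x * c⁻¹ ∈ Subgroup.zpowers x
      rw [h]; exact Subgroup.npow_mem_zpowers x k
    · rw [Nat.card_zpowers, Nat.card_zpowers,
        show (MulAut.conj c).toMonoidHom x = x ^ k from h, Nat.Coprime.orderOf_pow hk.symm]
  rw [Subgroup.mem_normalizer_iff]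
  intro z
  constructor
  · intro hz
    rw [← hmap]
    exact ⟨z, hz, rfl⟩
  · intro hz
    rw [← hmap] at hz
    obtain ⟨w, hw, e⟩ := hz
    have : w = z := (MulAut.conj c).injective e
    exact this ▸ hw

/-- An element of the normalizer of a cyclic group is determined by its exponent and one image, if
its centralizer acts freely at that point. -/
theorem card_normalizer_le_of_rigid {c : ℕ} (hc : isStd c = true) {r : ℕ} (hr : r.Prime)
    (ho : orderOf (stdOf c hc) = r) (s : ℕ) (stages : List (List ℕ))
    (hP : ∀ x ∈ stages.getD 0 [], x < 24 ∧ (x = 22 ∨ x = 23 ∨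
      ∃ j < r, (fun i => app c i)^[j] s = x))
    (hst : ∀ i, i + 1 < stages.length → growStep (stages.getD i []) (stages.getD (i + 1) []) = true)
    (hlast : ∀ x < 24, x ∈ stages.getD (stages.length - 1) []) (hs : s < 24) :
    Nat.card (Subgroup.normalizer ((Subgroup.zpowers (stdOf c hc) : Subgroup StdM22) : Set StdM22))
      ≤ 24 * (r - 1) := by
  classical
  haveI := Fact.mk hr
  set x := stdOf c hc
  have hok : permOK c = true := by
    simp only [isStd, Bool.and_eq_true] at hc
    exact permOK_of_isAut hc.1.1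
  have hexp : ∀ n : Subgroup.normalizer ((Subgroup.zpowers x : Subgroup StdM22) : Set StdM22),
      ∃ k : ℕ, k ∈ Finset.Ioo 0 r ∧ n.1 * x * n.1⁻¹ = x ^ k := by
    intro n
    have h1 : n.1 * x * n.1⁻¹ ∈ Subgroup.zpowers x :=
      (Subgroup.mem_normalizer_iff.1 n.2 x).1 (Subgroup.mem_zpowers x)
    obtain ⟨m, hm⟩ := Submonoid.mem_powers_iff _ _ |>.1 ((mem_powers_iff_mem_zpowers).2 h1)
    refine ⟨m % r, Finset.mem_Ioo.2 ⟨Nat.pos_of_ne_zero fun h0 => ?_, Nat.mod_lt _ hr.pos⟩, ?_⟩
    · rw [← pow_mod_orderOf x m, ho, h0, pow_zero] at hm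
      have : x = 1 := conj_eq_one_iff.1 hm.symm
      rw [this, orderOf_one] at ho
      exact hr.ne_one ho.symm
    · rw [← hm, ← ho, pow_mod_orderOf]
  choose k hk hkx using hexp
  let f : Subgroup.normalizer ((Subgroup.zpowers x : Subgroup StdM22) : Set StdM22) → GolayPt × ℕ :=
    fun n => (n.1.1 (pt s), k n)
  have hinj : Function.Injective f := by
    intro n n' e
    simp only [f, Prod.mk.injEq] at e
    obtain ⟨e1, e2⟩ := e
    have hcomm : Commute (n'.1⁻¹ * n.1) x := by
      have h := hkx n
      rw [e2, ← hkx n'] at h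
      have h2 := congrArg (fun z => n'.1⁻¹ * z * n.1) h
      show n'.1⁻¹ * n.1 * x = x * (n'.1⁻¹ * n.1)
      simp only [mul_assoc, inv_mul_cancel, inv_mul_cancel_left, mul_one] at h2 ⊢
      exact h2
    set d : StdM22 := n'.1⁻¹ * n.1
    have hd : d.1 ∈ M24 := d.2.1.1
    have hds : d.1 (pt s) = pt s := by
      show (n'.1.1⁻¹ * n.1.1) (pt s) = pt s
      rw [Equiv.Perm.mul_apply, Equiv.Perm.inv_def, Equiv.symm_apply_eq, e1]
    have hcy : ∀ j, (fun i => app c i)^[j] s < 24 ∧
        d.1 (pt ((fun i => app c i)^[j] s)) = pt ((fun i => app c i)^[j] s) := by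
      intro j
      induction j with
      | zero => exact ⟨hs, hds⟩
      | succ j ih =>
        rw [Function.iterate_succ_apply']
        refine ⟨app_lt hok ih.1, ?_⟩
        have h3 : d.1 * x.1 = x.1 * d.1 := congrArg Subtype.val hcomm.eq
        have h4 := congrArg (fun σ : Equiv.Perm GolayPt => σ (pt ((fun i => app c i)^[j] s))) h3
        simp only [Equiv.Perm.mul_apply, ih.2] at h4
        rw [show x.1 = permOf c from rfl, permOf_pt hok ih.1] at h4
        exact h4
    have hfix : ∀ i < stages.length, ∀ y ∈ stages.getD i [], y < 24 ∧ d.1 (pt y) = pt y := by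
      intro i
      induction i with
      | zero =>
        intro _ y hy
        obtain ⟨hy24, h | h | ⟨j, -, h⟩⟩ := hP y hy
        · subst h; exact ⟨hy24, d.2.1.2⟩
        · subst h; exact ⟨hy24, d.2.2⟩
        · exact ⟨hy24, h ▸ (hcy j).2⟩
      | succ i ih =>
        intro hi
        exact fix_of_growStep hd (hst i hi) (ih (Nat.lt_of_succ_lt hi))
    have hlen : 0 < stages.length := by
      refine Nat.pos_of_ne_zero fun h0 => ?_
      have := hlast 0 (by norm_num)
      simp [List.length_eq_zero_iff.1 h0] at this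
    have hd1 : d = 1 := by
      refine Subtype.ext (Equiv.ext fun y => ?_)
      rw [← pt_idx y]
      exact (hfix _ (Nat.sub_lt hlen one_pos) _ (hlast _ (idx_lt y))).2
    exact Subtype.ext (inv_mul_eq_one.1 hd1).symm
  haveI := Fintype.ofFinite
    (Subgroup.normalizer ((Subgroup.zpowers x : Subgroup StdM22) : Set StdM22))
  rw [Nat.card_eq_fintype_card, ← Finset.card_univ]
  refine le_trans (Finset.card_le_card_of_injOn (t := (Finset.univ : Finset GolayPt) ×ˢ Finset.Ioo 0 r) f
    (fun n _ => by simp [f, Finset.mem_coe, hk n, Finset.mem_Ioo.1 (hk n)]) hinj.injOn) ?_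
  rw [Finset.card_product, Finset.card_univ, card_golayPt, Nat.card_Ioo]
  simp

/-- The Sylow count inside a subgroup. -/
theorem sylow_count_in {G : Type*} [Group G] [Finite G] {r m : ℕ} (hr : r.Prime) (K : Subgroup G)
    (hK : Nat.card K = r * m) (hm : ¬ r ∣ m) {x : G} (hx : x ∈ K) (ho : orderOf x = r) :
    ∃ d, d = Nat.card ↥(Subgroup.normalizer ((Subgroup.zpowers x : Subgroup G) : Set G) ⊓ K) ∧
      r ∣ d ∧ d ∣ r * m ∧ r * m / d % r = 1 := by
  haveI := Fact.mk hr
  refine ⟨_, rfl, ?_, ?_, ?_⟩
  · have hle : Subgroup.zpowers x ≤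
        Subgroup.normalizer ((Subgroup.zpowers x : Subgroup G) : Set G) ⊓ K :=
      le_inf Subgroup.le_normalizer (Subgroup.zpowers_le.2 hx)
    have := Subgroup.card_dvd_of_le hle
    rwa [Nat.card_zpowers, ho] at this
  · rw [← hK]
    exact Subgroup.card_dvd_of_le inf_le_right
  · let P : Sylow r K := Sylow.ofCard (Subgroup.zpowers (⟨x, hx⟩ : K)) (by
      rw [Nat.card_zpowers, ← Subgroup.orderOf_coe, ho, hK,
        Nat.factorization_mul hr.ne_zero (fun h : m = 0 => hm (by rw [h]; exact dvd_zero r))]
      simp [Nat.factorization_eq_zero_of_not_dvd hm, hr.factorization_self])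
    obtain ⟨-, -, -, hmod⟩ := SmallOrder.sylow_arith P (a := 1) (m := m) (by rw [pow_one, hK]) hm
    have hN : Subgroup.normalizer (P : Set K) =
        (Subgroup.normalizer ((Subgroup.zpowers x : Subgroup G) : Set G)).subgroupOf K := by
      ext z
      have hmemP : ∀ w : K, w ∈ (P : Subgroup K) ↔ w.1 ∈ Subgroup.zpowers x := by
        intro w
        show w ∈ Subgroup.zpowers (⟨x, hx⟩ : K) ↔ _
        simp only [Subgroup.mem_zpowers_iff, Subtype.ext_iff, SubgroupClass.coe_zpow]
      show z ∈ Subgroup.normalizer ((P : Subgroup K) : Set K) ↔ _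
      rw [Subgroup.mem_subgroupOf, Subgroup.mem_normalizer_iff, Subgroup.mem_normalizer_iff]
      simp only [SetLike.mem_coe, hmemP, Subgroup.coe_mul, Subgroup.coe_inv]
      constructor
      · intro h w
        by_cases hw : w ∈ K
        · exact h ⟨w, hw⟩
        · refine ⟨fun h1 => absurd (Subgroup.zpowers_le.2 hx h1) hw, fun h1 => absurd ?_ hw⟩
          have := Subgroup.zpowers_le.2 hx h1
          have h2 := mul_mem (mul_mem (inv_mem z.2) this) z.2
          simpa [mul_assoc] using h2
      · exact fun h w => h w.1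
    have hidx : Nat.card (Sylow r K) = r * m /
        Nat.card ↥(Subgroup.normalizer ((Subgroup.zpowers x : Subgroup G) : Set G) ⊓ K) := by
      rw [Sylow.card_eq_index_normalizer P, hN]
      have h1 := Subgroup.card_mul_index
        ((Subgroup.normalizer ((Subgroup.zpowers x : Subgroup G) : Set G)).subgroupOf K)
      rw [hK] at h1
      have h2 : Nat.card ((Subgroup.normalizer ((Subgroup.zpowers x : Subgroup G) : Set G)).subgroupOf K) =
          Nat.card ↥(Subgroup.normalizer ((Subgroup.zpowers x : Subgroup G) : Set G) ⊓ K) := by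
        rw [← Subgroup.inf_subgroupOf_right]
        exact Nat.card_congr (Subgroup.subgroupOfEquivOfLe inf_le_right).toEquiv
      rw [h2] at h1
      rw [← h1, Nat.mul_div_cancel_left _ Nat.card_pos]
    rw [← hidx]; exact hmod

/-- An element of order eleven. -/
def m22g : ℕ := 984194442631890519321085242324102564
/-- An element of order five normalizing the first. -/
def m22h : ℕ := 984080414457655540870500758165071921
/-- An element of order four normalizing the second. -/
def m22f : ℕ := 984089018161441186866531069078212912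

theorem m22g_std : isStd m22g = true := by decide +kernel
theorem m22h_std : isStd m22h = true := by decide +kernel
theorem m22f_std : isStd m22f = true := by decide +kernel

/-- The three elements. -/
noncomputable abbrev eG : StdM22 := stdOf m22g m22g_std
/-- The three elements. -/
noncomputable abbrev eH : StdM22 := stdOf m22h m22h_std
/-- The three elements. -/
noncomputable abbrev eF : StdM22 := stdOf m22f m22f_std

theorem order_eG : orderOf eG = 11 :=
  orderOf_stdOf m22g_std (by norm_num) (by decide +kernel) (by decide +kernel)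

theorem order_eH : orderOf eH = 5 :=
  orderOf_stdOf m22h_std (by norm_num) (by decide +kernel) (by decide +kernel)

theorem norm_eG_card :
    Nat.card (Subgroup.normalizer ((Subgroup.zpowers eG : Subgroup StdM22) : Set StdM22)) = 55 := by
  have hle := card_normalizer_le_of_rigid m22g_std (r := 11) (by norm_num) order_eG 0
    [[0, 4, 5, 15, 17, 12, 18, 19, 16, 7, 9, 22, 23], List.range 24]
    (by decide +kernel) (by intro i hi; simp at hi; subst hi; decide +kernel)
    (by decide +kernel) (by norm_num)
  obtain ⟨d, hd, h11, hdiv, hmod⟩ := sylow_count_in (m := 40320) (by norm_num : Nat.Prime 11) ⊤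
    (by rw [Subgroup.card_top, stdM22_card]) (by norm_num) (Subgroup.mem_top eG) order_eG
  rw [inf_top_eq] at hd
  have hh : eH ∈ Subgroup.normalizer ((Subgroup.zpowers eG : Subgroup StdM22) : Set StdM22) :=
    mem_normalizer_zpowers_of_conj (stdOf_conj_eq_pow m22h_std m22g_std 5 (by decide +kernel))
      (by rw [order_eG]; norm_num)
  have h5 := Subgroup.orderOf_dvd_natCard _ hh
  rw [order_eH, ← hd] at h5
  rw [← hd] at hle ⊢
  obtain ⟨e, rfl⟩ := (Nat.Coprime.mul_dvd_of_dvd_of_dvd (by norm_num : Nat.Coprime 11 5) h11 h5)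
  have he : e ≤ 4 := by omega
  interval_cases e <;> revert hmod <;> norm_num

theorem norm_eH_card :
    Nat.card (Subgroup.normalizer ((Subgroup.zpowers eH : Subgroup StdM22) : Set StdM22)) = 20 := by
  have hle := card_normalizer_le_of_rigid m22h_std (r := 5) (by norm_num) order_eH 0
    [[0, 17, 5, 15, 16, 22, 23],
      (List.range 24).filter (fun x => [0, 17, 5, 15, 16, 22, 23].contains x ||
        sigUnique [0, 17, 5, 15, 16, 22, 23] (fiveSeeds [0, 17, 5, 15, 16, 22, 23]) x),
      List.range 24]
    (by decide +kernel) (by intro i hi; simp only [List.length_cons, List.length_nil] at hi; have h2 : i < 2 := (by omega); interval_cases i <;> decide +kernel)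
    (by decide +kernel) (by norm_num)
  obtain ⟨d, hd, h5, hdiv, hmod⟩ := sylow_count_in (m := 88704) (by norm_num : Nat.Prime 5) ⊤
    (by rw [Subgroup.card_top, stdM22_card]) (by norm_num) (Subgroup.mem_top eH) order_eH
  rw [inf_top_eq] at hd
  have hf : eF ∈ Subgroup.normalizer ((Subgroup.zpowers eH : Subgroup StdM22) : Set StdM22) :=
    mem_normalizer_zpowers_of_conj (stdOf_conj_eq_pow m22f_std m22h_std 3 (by decide +kernel))
      (by rw [order_eH]; norm_num)
  have h4 := Subgroup.orderOf_dvd_natCard _ hf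
  have hf4 : orderOf eF = 2 ^ (1 + 1) := by
    haveI := Fact.mk Nat.prime_two
    refine orderOf_eq_prime_pow (fun e => ?_) (Subtype.ext (Equiv.ext fun y => ?_))
    · obtain ⟨y, hy⟩ : ∃ y, (permFun m22f)^[2] y ≠ y := by decide +kernel
      apply hy
      have h := stdOf_pow_apply m22f_std (2 ^ 1) y
      rw [show (eF ^ 2 ^ 1) = (1 : StdM22) from e] at h
      exact h.symm
    · rw [stdOf_pow_apply]
      revert y
      decide +kernel
  rw [hf4, ← hd] at h4
  rw [← hd] at hle ⊢
  obtain ⟨e, rfl⟩ := (Nat.Coprime.mul_dvd_of_dvd_of_dvd (by norm_num : Nat.Coprime 5 (2 ^ (1 + 1))) h5 h4)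
  have he : e ≤ 4 := by omega
  interval_cases e <;> revert hmod <;> norm_num

/-- A subgroup containing the chosen element of order eleven has neither order. -/
theorem no_order_of_eG_mem (K : Subgroup StdM22) (hg : eG ∈ K) :
    Nat.card K ≠ 7920 ∧ Nat.card K ≠ 2112 := by
  have hN1 := Subgroup.card_dvd_of_le (inf_le_left :
    Subgroup.normalizer ((Subgroup.zpowers eG : Subgroup StdM22) : Set StdM22) ⊓ K ≤ _)
  rw [norm_eG_card] at hN1
  constructor
  · intro hK
    obtain ⟨d, hd, h11, hdiv, hmod⟩ := sylow_count_in (m := 720) (by norm_num : Nat.Prime 11) K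
      (by rw [hK]) (by norm_num) hg order_eG
    rw [← hd] at hN1
    have hd55 : d = 55 := by
      have hdle := Nat.le_of_dvd (by norm_num) hN1
      obtain ⟨e, rfl⟩ := h11
      have he : e ≤ 5 := by omega
      interval_cases e <;> revert hN1 hmod <;> norm_num
    have heq : Subgroup.normalizer ((Subgroup.zpowers eG : Subgroup StdM22) : Set StdM22) ⊓ K =
        Subgroup.normalizer ((Subgroup.zpowers eG : Subgroup StdM22) : Set StdM22) :=
      Subgroup.eq_of_le_of_card_ge inf_le_left (by rw [norm_eG_card, ← hd, hd55])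
    have hh : eH ∈ K := by
      have h := mem_normalizer_zpowers_of_conj (stdOf_conj_eq_pow m22h_std m22g_std 5 (by decide +kernel))
        (by rw [order_eG]; norm_num)
      rw [← heq] at h
      exact h.2
    obtain ⟨d', hd', h5, -, hmod'⟩ := sylow_count_in (m := 1584) (by norm_num : Nat.Prime 5) K
      (by rw [hK]) (by norm_num) hh order_eH
    have hN2 := Subgroup.card_dvd_of_le (inf_le_left :
      Subgroup.normalizer ((Subgroup.zpowers eH : Subgroup StdM22) : Set StdM22) ⊓ K ≤ _)
    rw [norm_eH_card, ← hd'] at hN2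
    have hd20 : d' = 20 := by
      have hdle := Nat.le_of_dvd (by norm_num) hN2
      obtain ⟨e, rfl⟩ := h5
      have he : e ≤ 4 := by omega
      interval_cases e <;> revert hN2 hmod' <;> norm_num
    have heq' : Subgroup.normalizer ((Subgroup.zpowers eH : Subgroup StdM22) : Set StdM22) ⊓ K =
        Subgroup.normalizer ((Subgroup.zpowers eH : Subgroup StdM22) : Set StdM22) :=
      Subgroup.eq_of_le_of_card_ge inf_le_left (by rw [norm_eH_card, ← hd', hd20])
    have hf : eF ∈ K := by
      have h := mem_normalizer_zpowers_of_conj (stdOf_conj_eq_pow m22f_std m22h_std 3 (by decide +kernel))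
        (by rw [order_eH]; norm_num)
      rw [← heq'] at h
      exact h.2
    have hw := mul_mem (mul_mem hg hh) hf
    have h7 : orderOf (eG * eH * eF) = 7 := by
      have hwc : isStd 984074730318993174599969443604014084 = true := by decide +kernel
      have e : eG * eH * eF = stdOf 984074730318993174599969443604014084 hwc := by
        refine Subtype.ext (Equiv.ext fun y => ?_)
        have e1 : ∀ (b : ℕ) (hb : isStd b = true) (z : GolayPt), (stdOf b hb).1 z = permFun b z := by
          intro b hb z
          have := stdOf_pow_apply hb 1 z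
          rwa [pow_one, Function.iterate_one] at this
        rw [Subgroup.coe_mul, Subgroup.coe_mul, Equiv.Perm.mul_apply, Equiv.Perm.mul_apply,
          e1, e1, e1, e1]
        revert y
        decide +kernel
      rw [e]
      exact orderOf_stdOf hwc (by norm_num) (by decide +kernel) (by decide +kernel)
    have := Subgroup.orderOf_dvd_natCard K hw
    rw [h7, hK] at this
    norm_num at this
  · intro hK
    obtain ⟨d, hd, h11, hdiv, hmod⟩ := sylow_count_in (m := 192) (by norm_num : Nat.Prime 11) K
      (by rw [hK]) (by norm_num) hg order_eG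
    rw [← hd] at hN1
    have hdle := Nat.le_of_dvd (by norm_num) hN1
    obtain ⟨e, rfl⟩ := h11
    have he : e ≤ 5 := by omega
    interval_cases e <;> revert hN1 hmod hdiv <;> norm_num

theorem stdM22_no_order (K : Subgroup StdM22) : Nat.card K ≠ 7920 ∧ Nat.card K ≠ 2112 := by
  classical
  by_contra hcon
  have hK : 11 ∣ Nat.card K := by
    rw [not_and_or, not_not, not_not] at hcon
    rcases hcon with h | h <;> rw [h] <;> norm_num
  haveI := Fact.mk (by norm_num : Nat.Prime 11)
  obtain ⟨y, hy⟩ := exists_prime_orderOf_dvd_card' 11 hK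
  have hPG : ∀ z : StdM22, orderOf z = 11 → ∃ P : Sylow 11 StdM22, (P : Subgroup StdM22) = Subgroup.zpowers z := by
    intro z hz
    refine ⟨Sylow.ofCard (Subgroup.zpowers z) ?_, rfl⟩
    rw [Nat.card_zpowers, hz, stdM22_card, show (443520 : ℕ) = 11 * 40320 by norm_num,
      Nat.factorization_mul (by norm_num) (by norm_num)]
    simp [Nat.factorization_eq_zero_of_not_dvd (show ¬ 11 ∣ 40320 by norm_num),
      (show Nat.Prime 11 by norm_num).factorization_self]
  obtain ⟨P1, hP1⟩ := hPG y.1 (by rw [Subgroup.orderOf_coe]; exact hy)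
  obtain ⟨P2, hP2⟩ := hPG eG order_eG
  obtain ⟨t, ht⟩ := MulAction.exists_smul_eq StdM22 P1 P2
  have hmem : eG ∈ K.map (MulAut.conj t).toMonoidHom := by
    have h1 : eG ∈ (P2 : Subgroup StdM22) := hP2 ▸ Subgroup.mem_zpowers eG
    rw [← ht, Sylow.coe_subgroup_smul, hP1] at h1
    obtain ⟨z, hz, e⟩ := h1
    exact ⟨z, Subgroup.zpowers_le.2 y.2 hz, e⟩
  have := no_order_of_eG_mem _ hmem
  rw [Nat.card_congr ((Subgroup.equivMapOfInjective K (MulAut.conj t).toMonoidHom
    (MulAut.conj t).injective).toEquiv.symm)] at this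
  exact hcon this

/-- No subgroup of index 56 or 210 in a two-point stabiliser. -/
theorem M22_index_ne {p q : GolayPt} (hpq : p ≠ q)
    (H : Subgroup ↥(MulAction.stabilizer M24 p ⊓ MulAction.stabilizer M24 q)) :
    H.index ≠ 56 ∧ H.index ≠ 210 := by
  obtain ⟨c, hc, rfl, rfl⟩ := exists_mem_M24_two (p := pt 22) (q := pt 23) (by decide +kernel) hpq
  let e0 : ↥(MulAction.stabilizer M24 (c (pt 22)) ⊓ MulAction.stabilizer M24 (c (pt 23))) ≃*
      ↥(M24 ⊓ MulAction.stabilizer (Equiv.Perm GolayPt) (c • pt 22) ⊓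
        MulAction.stabilizer (Equiv.Perm GolayPt) (c • pt 23)) :=
    { toFun := fun g => ⟨g.1.1, ⟨g.1.2, g.2.1⟩, g.2.2⟩
      invFun := fun g => ⟨⟨g.1, g.2.1.1⟩, g.2.1.2, g.2.2⟩
      left_inv := fun _ => rfl
      right_inv := fun _ => rfl
      map_mul' := fun _ _ => rfl }
  let e : ↥(MulAction.stabilizer M24 (c (pt 22)) ⊓ MulAction.stabilizer M24 (c (pt 23))) ≃* StdM22 :=
    e0.trans (stab2Conj c hc (pt 22) (pt 23)).symm
  have hG : Nat.card ↥(MulAction.stabilizer M24 (c (pt 22)) ⊓ MulAction.stabilizer M24 (c (pt 23))) =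
      443520 := by rw [Nat.card_congr e.toEquiv, stdM22_card]
  have h := Subgroup.card_mul_index H
  rw [hG] at h
  have hno := stdM22_no_order (H.map e.toMonoidHom)
  rw [Nat.card_congr (Subgroup.equivMapOfInjective H e.toMonoidHom e.injective).toEquiv.symm] at hno
  refine ⟨fun hi => hno.1 ?_, fun hi => hno.2 ?_⟩ <;> rw [hi] at h <;> omega

end Cfsg.Agent.Golay
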