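import Cfsg.Agent.Golay.Mathieu
import Cfsg.Agent.Golay.OctadStab

/-! Subgroups of index 253 in a point stabiliser of `M24`. -/

set_option autoImplicit false

namespace Cfsg.Agent.Golay

open scoped Pointwise

/-- The stabiliser of a point, as a subgroup of `M24`. -/
abbrev PtStab (x : GolayPt) : Subgroup M24 := MulAction.stabilizer M24 x

theorem ptStab_card (x : GolayPt) : Nat.card (PtStab x) = 10200960 := by
  rw [← M24_stab_card x]
  exact Nat.card_congr
    { toFun := fun g => ⟨g.1.1, g.1.2, g.2⟩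
      invFun := fun g => ⟨⟨g.1, g.2.1⟩, g.2.2⟩
      left_inv := fun _ => rfl
      right_inv := fun _ => rfl }

/-- By fourfold transitivity an orbit of sets covers all small sets avoiding the point. -/
theorem choose_le_orbit_ptStab {x : GolayPt} {A : Finset GolayPt} (hx : x ∉ A) (k : ℕ)
    (hk : k ≤ 4) (hA : k ≤ A.card) :
    Nat.choose 23 k ≤ (MulAction.stabilizer (PtStab x) A).index * Nat.choose A.card k := by
  classical
  rw [MulAction.index_stabilizer]
  set O := (MulAction.orbit (PtStab x) A).toFinite.toFinset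
  have hO : (MulAction.orbit (PtStab x) A).ncard = O.card :=
    Set.ncard_eq_toFinset_card _ _
  rw [hO]
  have hcov : (({x}ᶜ : Finset GolayPt).powersetCard k) ⊆ O.biUnion fun B => B.powersetCard k := by
    intro T hT
    rw [Finset.mem_powersetCard] at hT
    obtain ⟨T0, hT0, hT0c⟩ := Finset.exists_subset_card_eq hA
    obtain ⟨g, hg, hm⟩ := exists_mem_M24_list (x :: T0.toList) (x :: T.toList)
      (List.nodup_cons.2 ⟨fun h => hx (hT0 (Finset.mem_toList.1 h)), T0.nodup_toList⟩)
      (List.nodup_cons.2 ⟨fun h => by simpa using hT.1 (Finset.mem_toList.1 h), T.nodup_toList⟩)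
      (by simp [hT0c, hT.2]) (by simp [hT0c]; omega)
    rw [List.map_cons, List.cons.injEq] at hm
    let γ : PtStab x := ⟨⟨g, hg⟩, hm.1⟩
    rw [Finset.mem_biUnion]
    refine ⟨γ • A, (Set.Finite.mem_toFinset _).2 (MulAction.mem_orbit A γ),
      Finset.mem_powersetCard.2 ⟨fun t ht => ?_, hT.2⟩⟩
    have h2 : t ∈ T0.toList.map g := by rw [hm.2]; exact Finset.mem_toList.2 ht
    obtain ⟨s, hs, rfl⟩ := List.mem_map.1 h2
    exact Finset.smul_mem_smul_finset (a := γ) (hT0 (Finset.mem_toList.1 hs))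
  have h1 := Finset.card_le_card hcov
  rw [Finset.card_powersetCard, Finset.card_compl, card_golayPt, Finset.card_singleton] at h1
  refine h1.trans (Finset.card_biUnion_le_card_mul _ _ _ fun B hB => ?_)
  obtain ⟨γ, rfl⟩ := (Set.Finite.mem_toFinset _).1 hB
  rw [Finset.card_powersetCard, Finset.card_smul_finset]

theorem ptStab_subgroupOf_eq {x : GolayPt} (A : Finset GolayPt) :
    (MulAction.stabilizer M24 A).subgroupOf (PtStab x) = MulAction.stabilizer (PtStab x) A := by
  ext g
  rfl

/-- The fixer of a complete octad lies in the point stabiliser of each of its points. -/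
theorem fixer_sub_ptStab (x : GolayPt) (H : Subgroup (PtStab x)) (hH : H.index = 253) :
    ∃ o ∈ octads, x ∈ o ∧ ∀ g ∈ M24, (∀ p ∈ o, g p = p) → ∃ γ ∈ H, γ.1.1 = g := by
  classical
  obtain ⟨o0, ho0, hxo0⟩ : ∃ o ∈ octads, x ∈ o := by
    obtain ⟨o, ho⟩ : ∃ o, o ∈ octads := ⟨_, octad_base⟩
    obtain ⟨y, hy⟩ : o.Nonempty := Finset.card_pos.1 (by rw [card_octad ho]; norm_num)
    obtain ⟨g, hg, e⟩ := exists_mem_M24_one y x
    exact ⟨g • o, smul_mem_octads hg ho, e ▸ Finset.smul_mem_smul_finset (a := g) hy⟩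
  let E : Subgroup (PtStab x) :=
    ((M24 ⊓ fixingSubgroup (Equiv.Perm GolayPt) (↑o0 : Set GolayPt)).comap
      (M24.subtype.comp (PtStab x).subtype))
  have hE : IsPGroup 2 E := by
    intro e
    refine ⟨1, Subtype.ext (Subtype.ext (Subtype.ext ?_))⟩
    rw [pow_one, pow_two]
    exact fixer_sq ho0 e.2
  haveI := Fact.mk Nat.prime_two
  obtain ⟨P, hP⟩ := hE.exists_le_sylow
  obtain ⟨Q⟩ : Nonempty (Sylow 2 H) := inferInstance
  have hcardH : Nat.card H = 40320 := by
    have h := Subgroup.card_mul_index H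
    rw [ptStab_card, hH] at h
    omega
  have hQ : Nat.card Q = 128 := by
    have := (SmallOrder.sylow_arith Q (a := 7) (m := 315) (by rw [hcardH]; norm_num) (by norm_num)).1
    simpa using this
  have hsyl : Nat.card ((Q : Subgroup H).map H.subtype) =
      2 ^ (Nat.card (PtStab x)).factorization 2 := by
    rw [← Nat.card_congr (Subgroup.equivMapOfInjective (Q : Subgroup H) H.subtype
      H.subtype_injective).toEquiv, hQ, ptStab_card,
      show (10200960 : ℕ) = 2 ^ 7 * 79695 by norm_num,
      Nat.factorization_mul (by norm_num) (by norm_num), Finsupp.add_apply, Nat.factorization_pow,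
      Finsupp.smul_apply, Nat.prime_two.factorization_self,
      Nat.factorization_eq_zero_of_not_dvd (show ¬ 2 ∣ 79695 by norm_num)]
    norm_num
  let P' : Sylow 2 (PtStab x) := Sylow.ofCard _ hsyl
  obtain ⟨t, ht⟩ := MulAction.exists_smul_eq (PtStab x) P P'
  refine ⟨t.1.1 • o0, smul_mem_octads t.1.2 ho0, ?_, ?_⟩
  · have := Finset.smul_mem_smul_finset (a := t.1.1) hxo0
    rwa [show t.1.1 • x = x from t.2] at this
  intro g hg hfix
  have hgx : g x = x := hfix x (by
    have := Finset.smul_mem_smul_finset (a := t.1.1) hxo0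
    rwa [show t.1.1 • x = x from t.2] at this)
  let γ : PtStab x := ⟨⟨g, hg⟩, hgx⟩
  refine ⟨γ, ?_, rfl⟩
  have hin : t⁻¹ * γ * t ∈ E := by
    refine ⟨(t⁻¹ * γ * t).1.2, (mem_fixingSubgroup_iff _).2 fun p hp => ?_⟩
    show t.1.1⁻¹ (g (t.1.1 p)) = p
    rw [show g (t.1.1 p) = t.1.1 p from hfix _ (Finset.smul_mem_smul_finset (a := t.1.1) hp),
      Equiv.Perm.inv_def, Equiv.symm_apply_apply]
  have hmem : γ ∈ (P' : Subgroup (PtStab x)) := by
    rw [← ht, Sylow.coe_subgroup_smul]
    exact ⟨_, hP hin, by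
      show t * (t⁻¹ * γ * t) * t⁻¹ = γ
      group⟩
  obtain ⟨q, -, e⟩ := hmem
  exact e ▸ q.2

theorem M23_index_253 (x : GolayPt) (H : Subgroup (PtStab x)) (hH : H.index = 253) :
    (∃ s : Finset GolayPt, s.card = 2 ∧ x ∉ s ∧
      H = (MulAction.stabilizer M24 s).subgroupOf (PtStab x)) ∨
    ∃ o ∈ octads, x ∈ o ∧ H = (MulAction.stabilizer M24 o).subgroupOf (PtStab x) := by
  classical
  obtain ⟨o, ho, hxo, hfixer⟩ := fixer_sub_ptStab x H hH
  have hcardH : Nat.card H = 40320 := by
    have h := Subgroup.card_mul_index H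
    rw [ptStab_card, hH] at h
    omega
  obtain ⟨p, hp⟩ : (oᶜ : Finset GolayPt).Nonempty :=
    Finset.card_pos.1 (by rw [Finset.card_compl, card_golayPt, card_octad ho]; norm_num)
  rw [Finset.mem_compl] at hp
  set O := (MulAction.orbit H p).toFinite.toFinset with hOdef
  have hmemO : ∀ y, y ∈ O ↔ y ∈ MulAction.orbit H p := fun y => Set.Finite.mem_toFinset _
  have hcompl : oᶜ ⊆ O := by
    intro q hq
    rw [Finset.mem_compl] at hq
    obtain ⟨g, hg, e⟩ := fixer_transitive ho hp hq
    obtain ⟨γ, hγ, e2⟩ := hfixer g (mem_fixer_iff.1 hg).1 (mem_fixer_iff.1 hg).2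
    rw [hmemO]
    exact ⟨⟨γ, hγ⟩, (show γ.1.1 p = q by rw [e2, e])⟩
  have hxO : x ∉ O := by
    rw [hmemO]
    rintro ⟨γ, e⟩
    have h1 : γ.1.1.1 p = x := e
    have h2 : γ.1.1.1 x = x := γ.1.2
    exact hp ((γ.1.1.1.injective (h1.trans h2.symm)) ▸ hxo)
  have hdvd : O.card ∣ 40320 := by
    rw [← hcardH, hOdef, ← Set.ncard_eq_toFinset_card, ← MulAction.index_stabilizer H p]
    exact Subgroup.index_dvd_card _
  set C := (insert x O)ᶜ with hCdef
  have hCcard : C.card + O.card = 23 := by
    have h := Finset.card_compl (insert x O)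
    rw [Finset.card_insert_of_notMem hxO, card_golayPt, ← hCdef] at h
    have h2 := Finset.card_le_univ (insert x O)
    rw [Finset.card_insert_of_notMem hxO, card_golayPt] at h2
    omega
  have hCsub : C ⊆ o.erase x := by
    intro c hc
    rw [hCdef, Finset.mem_compl, Finset.mem_insert, not_or] at hc
    rw [Finset.mem_erase]
    exact ⟨hc.1, by_contra fun h => hc.2 (hcompl (Finset.mem_compl.2 h))⟩
  have hC7 : C.card ≤ 7 := by
    refine (Finset.card_le_card hCsub).trans ?_
    rw [Finset.card_erase_of_mem hxo, card_octad ho]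
  have hxC : x ∉ C := by simp [hCdef]
  have hstab : H ≤ MulAction.stabilizer (PtStab x) C := by
    intro γ hγ
    show γ.1.1 • C = C
    refine Finset.eq_of_subset_of_card_le (fun c hc => ?_) (by rw [Finset.card_smul_finset])
    obtain ⟨b, hb, rfl⟩ := Finset.mem_smul_finset.1 hc
    rw [hCdef, Finset.mem_compl, Finset.mem_insert, not_or] at hb ⊢
    refine ⟨fun e => hb.1 (γ.1.1.injective (e.trans (show γ.1.1 x = x from γ.2).symm)), fun h => ?_⟩
    rw [hmemO] at h hb
    obtain ⟨δ, e⟩ := h
    apply hb.2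
    refine ⟨⟨γ, hγ⟩⁻¹ * δ, ?_⟩
    show ((⟨γ, hγ⟩ : H)⁻¹ * δ) • p = b
    rw [mul_smul, show δ • p = γ.1.1 • b from e]
    exact inv_smul_smul (⟨γ, hγ⟩ : H) b
  have hidx := Subgroup.index_dvd_of_le hstab
  rw [hH] at hidx
  have hle := Nat.le_of_dvd (by norm_num) hidx
  have hcase : C.card = 2 ∨ C.card = 7 := by
    have h1 : O.card = 23 - C.card := by omega
    have key : ∀ n ≤ 7, (23 - n) ∣ 40320 → n = 2 ∨ n = 3 ∨ n = 5 ∨ n = 7 := by decide +kernel
    rcases key C.card hC7 (h1 ▸ hdvd) with h | h | h | h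
    · exact Or.inl h
    · have := choose_le_orbit_ptStab hxC 3 (by norm_num) h.ge
      rw [h, show Nat.choose 23 3 = 1771 by decide +kernel, Nat.choose_self] at this
      omega
    · have := choose_le_orbit_ptStab hxC 4 le_rfl (by omega)
      rw [h, show Nat.choose 23 4 = 8855 by decide +kernel,
        show Nat.choose 5 4 = 5 by decide +kernel] at this
      omega
    · exact Or.inr h
  have hfull : ∀ k ≤ 4, k ≤ C.card → 253 * Nat.choose C.card k = Nat.choose 23 k →
      0 < Nat.choose C.card k → H = MulAction.stabilizer (PtStab x) C := by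
    intro k hk hkc he hpos
    have h1 := choose_le_orbit_ptStab hxC k hk hkc
    rw [← he] at h1
    have h2 : (MulAction.stabilizer (PtStab x) C).index = 253 :=
      le_antisymm hle (Nat.le_of_mul_le_mul_right h1 hpos)
    refine Subgroup.eq_of_le_of_card_ge hstab ?_
    have e1 := Subgroup.card_mul_index H
    have e2 := Subgroup.card_mul_index (MulAction.stabilizer (PtStab x) C)
    rw [ptStab_card] at e1 e2
    rw [hH] at e1
    rw [h2] at e2
    omega
  rcases hcase with h | h
  · refine Or.inl ⟨C, h, hxC, ?_⟩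
    rw [ptStab_subgroupOf_eq]
    refine hfull 2 (by norm_num) h.ge ?_ ?_ <;> rw [h] <;> decide +kernel
  · refine Or.inr ⟨o, ho, hxo, ?_⟩
    have hC : C = o.erase x := Finset.eq_of_subset_of_card_le hCsub (by
      rw [h, Finset.card_erase_of_mem hxo, card_octad ho])
    rw [ptStab_subgroupOf_eq, hfull 4 le_rfl (by omega) (by rw [h]; decide +kernel)
      (by rw [h]; decide +kernel)]
    ext γ
    show γ.1.1 • C = C ↔ γ.1.1 • o = o
    have hgx : γ.1.1 • x = x := γ.2
    rw [hC, Finset.erase_eq, Finset.smul_finset_sdiff, Finset.smul_finset_singleton, hgx]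
    constructor
    · intro e
      have hx' : x ∈ γ.1.1 • o := by
        have := Finset.smul_mem_smul_finset (a := γ.1.1) hxo
        rwa [hgx] at this
      calc γ.1.1 • o = insert x ((γ.1.1 • o) \ {x}) := by
            rw [← Finset.erase_eq, Finset.insert_erase hx']
        _ = o := by rw [e, ← Finset.erase_eq, Finset.insert_erase hxo]
    · intro e
      rw [e]

end Cfsg.Agent.Golay
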