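import Cfsg.Agent.Golay.M23Index
import Cfsg.Agent.Golay.FamCoatom

/-! Subgroups of `M24` of index 253, 759 and 1771. -/

set_option autoImplicit false

namespace Cfsg.Agent.Golay

open scoped Pointwise

/-- The orbit of a point under a subgroup, as a finite set. -/
noncomputable def orb (K : Subgroup M24) (p : GolayPt) : Finset GolayPt :=
  (MulAction.orbit K p).toFinite.toFinset

theorem mem_orb {K : Subgroup M24} {p q : GolayPt} : q ∈ orb K p ↔ ∃ k ∈ K, k • p = q := by
  rw [orb, Set.Finite.mem_toFinset]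
  exact ⟨fun ⟨k, e⟩ => ⟨k.1, k.2, e⟩, fun ⟨k, hk, e⟩ => ⟨⟨k, hk⟩, e⟩⟩

theorem orb_eq_of_mem {K : Subgroup M24} {p q : GolayPt} (h : q ∈ orb K p) : orb K q = orb K p := by
  obtain ⟨k, hk, rfl⟩ := mem_orb.1 h
  ext r
  rw [mem_orb, mem_orb]
  exact ⟨fun ⟨l, hl, e⟩ => ⟨l * k, mul_mem hl hk, by rw [mul_smul]; exact e⟩,
    fun ⟨l, hl, e⟩ => ⟨l * k⁻¹, mul_mem hl (inv_mem hk), by rw [mul_smul, inv_smul_smul]; exact e⟩⟩

theorem smul_orb {K : Subgroup M24} {p : GolayPt} {k : M24} (hk : k ∈ K) :
    k • orb K p = orb K p := by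
  refine Finset.eq_of_subset_of_card_le (fun r hr => ?_) (by rw [Finset.card_smul_finset])
  obtain ⟨q, hq, rfl⟩ := Finset.mem_smul_finset.1 hr
  obtain ⟨l, hl, rfl⟩ := mem_orb.1 hq
  exact mem_orb.2 ⟨k * l, mul_mem hk hl, mul_smul _ _ _⟩

theorem orb_card_mul (K : Subgroup M24) (p : GolayPt) :
    Nat.card K = (orb K p).card * Nat.card ↥(K ⊓ MulAction.stabilizer M24 p) := by
  rw [← Set.ncard_coe_finset]
  exact card_eq_ncard_mul_stab K p _ (fun t ht => mem_orb.1 ht) (fun k hk => mem_orb.2 ⟨k, hk, rfl⟩)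

/-- The stabiliser of a point inside `H`. -/
abbrev stabIn (H : Subgroup M24) (x : GolayPt) : Subgroup M24 := H ⊓ MulAction.stabilizer M24 x

theorem conj_mem_stabIn {H : Subgroup M24} {h l : M24} (hh : h ∈ H) {x : GolayPt}
    (hl : l ∈ stabIn H x) : h * l * h⁻¹ ∈ stabIn H (h • x) := by
  refine ⟨H.mul_mem (H.mul_mem hh hl.1) (H.inv_mem hh), ?_⟩
  show (h * l * h⁻¹) • h • x = h • x
  rw [mul_smul, mul_smul, inv_smul_smul, show l • x = x from hl.2]

theorem smul_orb_stabIn {H : Subgroup M24} {h : M24} (hh : h ∈ H) (x p : GolayPt) :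
    h • orb (stabIn H x) p = orb (stabIn H (h • x)) (h • p) := by
  ext r
  rw [Finset.mem_smul_finset, mem_orb]
  constructor
  · rintro ⟨q, hq, rfl⟩
    obtain ⟨l, hl, rfl⟩ := mem_orb.1 hq
    exact ⟨h * l * h⁻¹, conj_mem_stabIn hh hl, by rw [mul_smul, mul_smul, inv_smul_smul]⟩
  · rintro ⟨l, hl, rfl⟩
    refine ⟨h⁻¹ • l • h • p, mem_orb.2 ⟨h⁻¹ * l * h, ?_, by rw [mul_smul, mul_smul]⟩,
      smul_inv_smul _ _⟩
    have := conj_mem_stabIn (inv_mem hh) hl
    rwa [inv_smul_smul, inv_inv] at this

theorem smul_compl_finset (g : M24) (A : Finset GolayPt) : g • Aᶜ = (g • A)ᶜ := by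
  rw [Finset.compl_eq_univ_sdiff, Finset.compl_eq_univ_sdiff, Finset.smul_finset_sdiff,
    Finset.smul_finset_univ]

/-- By fivefold transitivity an orbit of sets covers all small sets. -/
theorem choose_le_orbit_M24 (A : Finset GolayPt) (k : ℕ) (hk : k ≤ 5) (hA : k ≤ A.card) :
    Nat.choose 24 k ≤ (MulAction.stabilizer M24 A).index * Nat.choose A.card k := by
  classical
  rw [MulAction.index_stabilizer]
  set O := (MulAction.orbit M24 A).toFinite.toFinset
  have hO : (MulAction.orbit M24 A).ncard = O.card :=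
    Set.ncard_eq_toFinset_card _ _
  rw [hO]
  have hcov : ((Finset.univ : Finset GolayPt).powersetCard k) ⊆
      O.biUnion fun B => B.powersetCard k := by
    intro T hT
    rw [Finset.mem_powersetCard] at hT
    obtain ⟨T0, hT0, hT0c⟩ := Finset.exists_subset_card_eq hA
    obtain ⟨g, hg, hm⟩ := exists_mem_M24_list T0.toList T.toList T0.nodup_toList T.nodup_toList
      (by simp [hT0c, hT.2]) (by simp [hT0c]; omega)
    rw [Finset.mem_biUnion]
    refine ⟨(⟨g, hg⟩ : M24) • A, (Set.Finite.mem_toFinset _).2 (MulAction.mem_orbit A _),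
      Finset.mem_powersetCard.2 ⟨fun t ht => ?_, hT.2⟩⟩
    have h2 : t ∈ T0.toList.map g := by rw [hm]; exact Finset.mem_toList.2 ht
    obtain ⟨s, hs, rfl⟩ := List.mem_map.1 h2
    exact Finset.smul_mem_smul_finset (a := (⟨g, hg⟩ : M24)) (hT0 (Finset.mem_toList.1 hs))
  have h1 := Finset.card_le_card hcov
  rw [Finset.card_powersetCard, Finset.card_univ, card_golayPt] at h1
  refine h1.trans (Finset.card_biUnion_le_card_mul _ _ _ fun B hB => ?_)
  obtain ⟨γ, rfl⟩ := (Set.Finite.mem_toFinset _).1 hB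
  rw [Finset.card_powersetCard, Finset.card_smul_finset]

theorem eq_stab_of_index {H : Subgroup M24} {β : Type*} [MulAction M24 β] {b : β}
    (hle : H ≤ MulAction.stabilizer M24 b)
    (h : H.index ≤ (MulAction.stabilizer M24 b).index) : H = MulAction.stabilizer M24 b := by
  refine Subgroup.eq_of_le_of_card_ge hle ?_
  have e1 := Subgroup.card_mul_index H
  have e2 := Subgroup.card_mul_index (MulAction.stabilizer M24 b)
  have h2 : 0 < H.index := Nat.pos_of_ne_zero Subgroup.index_ne_zero_of_finite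
  rw [M24_card] at e1 e2
  by_contra hc
  push Not at hc
  have : Nat.card H * H.index < Nat.card (MulAction.stabilizer M24 b) * (MulAction.stabilizer M24 b).index :=
    lt_of_lt_of_le (Nat.mul_lt_mul_of_pos_right hc h2) (Nat.mul_le_mul_left _ h)
  omega

theorem exists_fixer_le (H : Subgroup M24) {m : ℕ} (hH : Nat.card H = 2 ^ 10 * m) (hm : ¬ 2 ∣ m) :
    ∃ o ∈ octads, ∀ g : M24, (∀ p ∈ o, g • p = p) → g ∈ H := by
  classical
  obtain ⟨o0, ho0⟩ : ∃ o, o ∈ octads := ⟨_, octad_base⟩
  let E : Subgroup M24 :=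
    (M24 ⊓ fixingSubgroup (Equiv.Perm GolayPt) (↑o0 : Set GolayPt)).comap M24.subtype
  have hE : IsPGroup 2 E := by
    intro e
    refine ⟨1, Subtype.ext (Subtype.ext ?_)⟩
    rw [pow_one, pow_two]
    exact fixer_sq ho0 e.2
  haveI := Fact.mk Nat.prime_two
  obtain ⟨P, hP⟩ := hE.exists_le_sylow
  obtain ⟨Q⟩ : Nonempty (Sylow 2 H) := inferInstance
  have hQ : Nat.card Q = 2 ^ 10 := (SmallOrder.sylow_arith Q hH hm).1
  have hsyl : Nat.card ((Q : Subgroup H).map H.subtype) = 2 ^ (Nat.card M24).factorization 2 := by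
    rw [← Nat.card_congr (Subgroup.equivMapOfInjective (Q : Subgroup H) H.subtype
      H.subtype_injective).toEquiv, hQ, M24_card,
      show (244823040 : ℕ) = 2 ^ 10 * 239085 by norm_num,
      Nat.factorization_mul (by norm_num) (by norm_num), Finsupp.add_apply, Nat.factorization_pow,
      Finsupp.smul_apply, Nat.prime_two.factorization_self,
      Nat.factorization_eq_zero_of_not_dvd (show ¬ 2 ∣ 239085 by norm_num)]
    norm_num
  let P' : Sylow 2 M24 := Sylow.ofCard _ hsyl
  obtain ⟨t, ht⟩ := MulAction.exists_smul_eq M24 P P'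
  refine ⟨t • o0, smul_mem_octads t.2 ho0, fun g hfix => ?_⟩
  have hin : t⁻¹ * g * t ∈ E := by
    refine ⟨(t⁻¹ * g * t).2, (mem_fixingSubgroup_iff _).2 fun p hp => ?_⟩
    show (t⁻¹ * g * t) • p = p
    rw [mul_smul, mul_smul, hfix _ (Finset.smul_mem_smul_finset (a := t) hp), inv_smul_smul]
  have hmem : g ∈ (P' : Subgroup M24) := by
    rw [← ht, Sylow.coe_subgroup_smul]
    exact ⟨_, hP hin, by show t * (t⁻¹ * g * t) * t⁻¹ = g; group⟩
  obtain ⟨q, -, e⟩ := hmem
  exact e ▸ q.2

/-- The trio stabilisers have index 3795. -/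
theorem trio_stab_index {T : Finset (Finset GolayPt)} (hT : T ∈ trios) :
    (MulAction.stabilizer M24 T).index = 3795 := by
  rw [MulAction.index_stabilizer, ← trios_ncard]
  congr 1
  ext T'
  constructor
  · rintro ⟨g, rfl⟩
    refine ⟨(Finset.card_smul_finset _ _).trans hT.1, fun o ho => ?_, fun o ho o' ho' hne => ?_⟩
    · obtain ⟨a, ha, rfl⟩ := Finset.mem_smul_finset.1 ho
      exact smul_mem_octads g.2 (hT.2.1 a ha)
    · obtain ⟨a, ha, rfl⟩ := Finset.mem_smul_finset.1 ho
      obtain ⟨a', ha', rfl⟩ := Finset.mem_smul_finset.1 ho'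
      have hd := hT.2.2 a ha a' ha' (fun e => hne (by rw [e]))
      rw [Finset.disjoint_left] at hd ⊢
      intro r hr hr'
      obtain ⟨q, hq, rfl⟩ := Finset.mem_smul_finset.1 hr
      exact hd hq ((Finset.smul_mem_smul_finset_iff g).1 hr')
  · intro hT'
    obtain ⟨g, hg, e⟩ := trio_transitive hT hT'
    exact ⟨⟨g, hg⟩, e⟩

/-- The sextet stabilisers have index 1771. -/
theorem sextet_stab_index {S : Finset (Finset GolayPt)} (hS : S ∈ sextets) :
    (MulAction.stabilizer M24 S).index = 1771 := by
  classical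
  rw [MulAction.index_stabilizer, ← sextets_ncard]
  congr 1
  have hsm : ∀ (g : M24) (R : Finset (Finset GolayPt)), R ∈ sextets → g • R ∈ sextets := by
    intro g R hR
    refine ⟨(Finset.card_smul_finset _ _).trans hR.1, fun t ht => ?_, fun t ht u hu hne => ?_⟩
    · obtain ⟨a, ha, rfl⟩ := Finset.mem_smul_finset.1 ht
      exact (Finset.card_smul_finset _ _).trans (hR.2.1 a ha)
    · obtain ⟨a, ha, rfl⟩ := Finset.mem_smul_finset.1 ht
      obtain ⟨b, hb, rfl⟩ := Finset.mem_smul_finset.1 hu
      rw [← Finset.smul_finset_union]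
      exact smul_mem_octads g.2 (hR.2.2 a ha b hb fun e => hne (by rw [e]))
  ext S'
  constructor
  · rintro ⟨g, rfl⟩
    exact hsm g S hS
  · intro hS'
    obtain ⟨t, ht⟩ : S.Nonempty := Finset.card_pos.1 (by rw [hS.1]; norm_num)
    obtain ⟨t', ht'⟩ : S'.Nonempty := Finset.card_pos.1 (by rw [hS'.1]; norm_num)
    have hc := hS.2.1 t ht
    have hc' := hS'.2.1 t' ht'
    obtain ⟨g, hg, hm⟩ := exists_mem_M24_list t.toList t'.toList t.nodup_toList t'.nodup_toList
      (by simp [hc, hc']) (by simp [hc])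
    have e : (⟨g, hg⟩ : M24) • t = t' := by
      ext r
      rw [Finset.mem_smul_finset, ← Finset.mem_toList (s := t'), ← hm, List.mem_map]
      simp only [Finset.mem_toList]
      rfl
    refine ⟨⟨g, hg⟩, ?_⟩
    have h1 := hsm ⟨g, hg⟩ S hS
    exact (sextet_eq_partners h1 (e ▸ Finset.smul_mem_smul_finset ht)).trans
      (sextet_eq_partners hS' ht').symm

theorem small_orbit_sizes_a : ∀ s < 24, 16 ≤ s → (s ∣ 40320 ∨ s ∣ 13440) →
    (s = 16 ∨ s = 18 ∨ s = 20 ∨ s = 21) := by
  intro s h1 h2
  interval_cases s <;> norm_num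

theorem small_orbit_sizes_b : ∀ s < 24, 16 ≤ s → s ∣ 5760 → (s = 16 ∨ s = 18 ∨ s = 20) := by
  intro s h1 h2
  interval_cases s <;> norm_num

/-- The three indices in question. -/
theorem big_index_cases (H : Subgroup M24) (hidx : H.index = 253 ∨ H.index = 759 ∨ H.index = 1771) :
    (∃ o ∈ octads, H = MulAction.stabilizer M24 o ∧ H.index = 759) ∨
      ∃ S ∈ sextets, H = MulAction.stabilizer M24 S ∧ H.index = 1771 := by
  classical
  have hcm := Subgroup.card_mul_index H
  rw [M24_card] at hcm
  obtain ⟨o, ho, hfix⟩ : ∃ o ∈ octads, ∀ g : M24, (∀ p ∈ o, g • p = p) → g ∈ H := by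
    rcases hidx with h | h | h <;> rw [h] at hcm
    · exact exists_fixer_le H (m := 945) (by omega) (by norm_num)
    · exact exists_fixer_le H (m := 315) (by omega) (by norm_num)
    · exact exists_fixer_le H (m := 135) (by omega) (by norm_num)
  obtain ⟨p, hp⟩ : (oᶜ : Finset GolayPt).Nonempty :=
    Finset.card_pos.1 (by rw [Finset.card_compl, card_golayPt, card_octad ho]; norm_num)
  rw [Finset.mem_compl] at hp
  have hcov : ∀ K : Subgroup M24, (∀ g : M24, (∀ q ∈ o, g • q = q) → g ∈ K) → oᶜ ⊆ orb K p := by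
    intro K hK q hq
    obtain ⟨g, hg, e⟩ := fixer_transitive ho hp (Finset.mem_compl.1 hq)
    exact mem_orb.2 ⟨⟨g, (mem_fixer_iff.1 hg).1⟩, hK _ (mem_fixer_iff.1 hg).2, e⟩
  have ho16 : (oᶜ : Finset GolayPt).card = 16 := by
    rw [Finset.card_compl, card_golayPt, card_octad ho]
  have hOsub := hcov H hfix
  have hO16 : 16 ≤ (orb H p).card := ho16 ▸ Finset.card_le_card hOsub
  have hOle : (orb H p).card ≤ 24 := by
    have := Finset.card_le_univ (orb H p); rwa [card_golayPt] at this
  have hdvd : (orb H p).card ∣ Nat.card H := ⟨_, orb_card_mul H p⟩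
  set C := (orb H p)ᶜ with hCdef
  have hCcard : C.card = 24 - (orb H p).card := by rw [hCdef, Finset.card_compl, card_golayPt]
  have hCo : C ⊆ o := fun c hc => by_contra fun h =>
    (Finset.mem_compl.1 hc) (hOsub (Finset.mem_compl.2 h))
  have hstabC : H ≤ MulAction.stabilizer M24 C := fun h hh => by
    show h • C = C
    rw [hCdef, smul_compl_finset, smul_orb hh]
  have hidxC := Nat.le_of_dvd
    (Nat.pos_of_ne_zero Subgroup.index_ne_zero_of_finite) (Subgroup.index_dvd_of_le hstabC)
  have hs : (orb H p).card = 16 ∨ (orb H p).card = 18 ∨ (orb H p).card = 20 ∨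
      (orb H p).card = 21 ∨ (orb H p).card = 24 := by
    have key : ∀ s ≤ 24, 16 ≤ s → (s ∣ 967680 ∨ s ∣ 322560 ∨ s ∣ 138240) →
        s = 16 ∨ s = 18 ∨ s = 20 ∨ s = 21 ∨ s = 24 := by decide +kernel
    refine key _ hOle hO16 ?_
    rcases hidx with h | h | h <;> rw [h] at hcm
    · left; rwa [show Nat.card H = 967680 by omega] at hdvd
    · right; left; rwa [show Nat.card H = 322560 by omega] at hdvd
    · right; right; rwa [show Nat.card H = 138240 by omega] at hdvd
  rcases hs with hs | hs | hs | hs | hs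
  · have hC : C = o := Finset.eq_of_subset_of_card_le hCo (by rw [hCcard, hs, card_octad ho])
    have hidxo : 759 ≤ (MulAction.stabilizer M24 o).index := by
      have := choose_le_orbit_M24 o 5 le_rfl (by rw [card_octad ho]; norm_num)
      rw [card_octad ho, show Nat.choose 24 5 = 42504 by decide +kernel,
        show Nat.choose 8 5 = 56 by decide +kernel] at this
      omega
    have hd := Subgroup.index_dvd_of_le hstabC
    rw [hC] at hidxC hd hstabC
    rcases hidx with h | h | h
    · omega
    · exact Or.inl ⟨o, ho, eq_stab_of_index hstabC (by omega), h⟩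
    · exfalso
      rw [h] at hd hidxC
      have : (MulAction.stabilizer M24 o).index ≤ 759 := by
        rw [MulAction.index_stabilizer, ← show octads.ncard = 759 from octads_ncard]
        refine Set.ncard_le_ncard ?_ (Set.toFinite _)
        rintro _ ⟨g, rfl⟩
        exact smul_mem_octads g.2 ho
      rw [show (MulAction.stabilizer M24 o).index = 759 by omega] at hd
      norm_num at hd
  · have := choose_le_orbit_M24 C 5 le_rfl (by omega)
    rw [hCcard, hs, show Nat.choose 24 5 = 42504 by decide +kernel,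
      show Nat.choose (24 - 18) 5 = 6 by decide +kernel] at this
    omega
  · have := choose_le_orbit_M24 C 4 (by norm_num) (by omega)
    rw [hCcard, hs, show Nat.choose 24 4 = 10626 by decide +kernel,
      show Nat.choose (24 - 20) 4 = 1 by decide +kernel] at this
    omega
  · have := choose_le_orbit_M24 C 3 (by norm_num) (by omega)
    rw [hCcard, hs, show Nat.choose 24 3 = 2024 by decide +kernel,
      show Nat.choose (24 - 21) 3 = 1 by decide +kernel] at this
    omega
  -- the transitive case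
  have hOuniv : ∀ x y : GolayPt, ∃ h ∈ H, h • x = y := by
    intro x y
    have huniv : orb H p = Finset.univ := Finset.eq_univ_of_card _ (by rw [hs, card_golayPt])
    have hx : x ∈ orb H p := by rw [huniv]; exact Finset.mem_univ _
    have hy : y ∈ orb H p := by rw [huniv]; exact Finset.mem_univ _
    rw [← orb_eq_of_mem hx] at hy
    exact mem_orb.1 hy
  let O : GolayPt → Finset GolayPt := fun x => orb (stabIn H x) p
  have hOc : ∀ x ∈ o, oᶜ ⊆ O x := fun x hx =>
    hcov _ fun g hg => ⟨hfix g hg, hg x hx⟩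
  have hOx : ∀ x ∈ o, x ∉ O x := by
    intro x hx h
    obtain ⟨g, hg, e⟩ := mem_orb.1 h
    have := MulAction.injective g (e.trans (show g • x = x from hg.2).symm)
    exact hp (this ▸ hx)
  have htr : ∀ h ∈ H, ∀ x ∈ o, h • x ∈ o → h • O x = O (h • x) := by
    intro h hh x hx hhx
    have h1 : 16 ≤ (h • O x).card := by
      rw [Finset.card_smul_finset, ← ho16]
      exact Finset.card_le_card (hOc x hx)
    have h2 : 16 ≤ (O (h • x)).card := ho16 ▸ Finset.card_le_card (hOc _ hhx)
    obtain ⟨q, hq⟩ : ((h • O x) ∩ O (h • x)).Nonempty := by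
      rw [← Finset.card_pos]
      have h3 := Finset.card_union_add_card_inter (h • O x) (O (h • x))
      have h4 := Finset.card_le_univ ((h • O x) ∪ O (h • x))
      rw [card_golayPt] at h4
      omega
    rw [Finset.mem_inter, smul_orb_stabIn hh] at hq
    show h • orb (stabIn H x) p = orb (stabIn H (h • x)) p
    rw [smul_orb_stabIn hh, ← orb_eq_of_mem hq.1, orb_eq_of_mem hq.2]
  obtain ⟨x0, hx0⟩ : o.Nonempty := Finset.card_pos.1 (by rw [card_octad ho]; norm_num)
  set s := (O x0).card with hsdef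
  have hsame : ∀ x ∈ o, (O x).card = s := by
    intro x hx
    obtain ⟨h, hh, rfl⟩ := hOuniv x0 x
    rw [← htr h hh x0 hx0 hx, Finset.card_smul_finset]
  let T : GolayPt → Finset GolayPt := fun x => (O x)ᶜ
  have hTo : ∀ x ∈ o, T x ⊆ o := fun x hx c hc => by_contra fun h =>
    (Finset.mem_compl.1 hc) (hOc x hx (Finset.mem_compl.2 h))
  have hxT : ∀ x ∈ o, x ∈ T x := fun x hx => Finset.mem_compl.2 (hOx x hx)
  have hTcard : ∀ x ∈ o, (T x).card = 24 - s := fun x hx => by
    rw [Finset.card_compl, card_golayPt, hsame x hx]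
  have hTtr : ∀ h ∈ H, ∀ x ∈ o, h • x ∈ o → h • T x = T (h • x) := fun h hh x hx hhx => by
    show h • (O x)ᶜ = (O (h • x))ᶜ
    rw [smul_compl_finset, htr h hh x hx hhx]
  have hTinv : ∀ x, ∀ k ∈ stabIn H x, k • T x = T x := fun x k hk => by
    show k • (O x)ᶜ = (O x)ᶜ
    rw [smul_compl_finset, smul_orb hk]
  have hHx : ∀ x, Nat.card H = 24 * Nat.card (stabIn H x) := by
    intro x
    have h := orb_card_mul H x
    rwa [show orb H x = Finset.univ from Finset.eq_univ_iff_forall.2 fun y => mem_orb.2 (hOuniv x y),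
      Finset.card_univ, card_golayPt] at h
  have hs16 : 16 ≤ s := ho16 ▸ Finset.card_le_card (hOc x0 hx0)
  have hs23 : s ≤ 23 := by
    have h := Finset.card_lt_univ_of_notMem (hOx x0 hx0)
    rw [card_golayPt] at h
    omega
  have hsd : s ∣ Nat.card (stabIn H x0) := ⟨_, orb_card_mul (stabIn H x0) p⟩
  have hsc : s = 16 ∨ s = 18 ∨ s = 20 ∨ (s = 21 ∧ H.index ≠ 1771) := by
    have h24 := hHx x0
    rcases hidx with h | h | h <;> rw [h] at hcm
    · rw [show Nat.card (stabIn H x0) = 40320 by omega] at hsd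
      rcases small_orbit_sizes_a s (Nat.lt_succ_of_le hs23) hs16 (Or.inl hsd) with e | e | e | e <;> simp [e, h]
    · rw [show Nat.card (stabIn H x0) = 13440 by omega] at hsd
      rcases small_orbit_sizes_a s (Nat.lt_succ_of_le hs23) hs16 (Or.inr hsd) with e | e | e | e <;> simp [e, h]
    · rw [show Nat.card (stabIn H x0) = 5760 by omega] at hsd
      rcases small_orbit_sizes_b s (Nat.lt_succ_of_le hs23) hs16 hsd with e | e | e <;> simp [e]
  -- blocks
  have hblk : s ≠ 18 → ∀ x ∈ o, ∀ y ∈ T x, T y = T x := by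
    intro hs18 x hx y hy
    have hyo := hTo x hx hy
    suffices hsub : O x ⊆ O y by
      show (O y)ᶜ = (O x)ᶜ
      rw [Finset.eq_of_subset_of_card_le hsub (by rw [hsame x hx, hsame y hyo])]
    set L := stabIn H x ⊓ MulAction.stabilizer M24 y with hLdef
    have hLy : L ≤ stabIn H y := fun l hl => ⟨hl.1.1, hl.2⟩
    suffices hsub : O x ⊆ orb L p by
      intro q hq
      obtain ⟨l, hl, e⟩ := mem_orb.1 (hsub hq)
      exact mem_orb.2 ⟨l, hLy hl, e⟩
    rcases hsc with e | e | e | ⟨e, -⟩
    · have : O x = oᶜ := (Finset.eq_of_subset_of_card_le (hOc x hx)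
        (by rw [hsame x hx, e, ho16])).symm
      rw [this]
      exact hcov L fun g hg => ⟨⟨hfix g hg, hg x hx⟩, hg y hyo⟩
    · exact absurd e hs18
    · -- the stabiliser of the point and the tetrad is everything available
      have hfull : stabIn H x = MulAction.stabilizer M24 x ⊓ MulAction.stabilizer M24 (T x) := by
        refine Subgroup.eq_of_le_of_card_ge (fun k hk => ⟨hk.2, hTinv x k hk⟩) ?_
        have hxc : x ∉ (T x).erase x := Finset.notMem_erase _ _
        have hc3 : ((T x).erase x).card = 3 := by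
          rw [Finset.card_erase_of_mem (hxT x hx), hTcard x hx, e]
        have hb := choose_le_orbit_ptStab hxc 3 (by norm_num) hc3.ge
        rw [hc3, Nat.choose_self, mul_one, show Nat.choose 23 3 = 1771 by decide +kernel] at hb
        have hle : Nat.card ↥(MulAction.stabilizer M24 x ⊓ MulAction.stabilizer M24 (T x)) ≤
            Nat.card (MulAction.stabilizer (PtStab x) ((T x).erase x)) := by
          refine Nat.card_le_card_of_injective (fun g => ⟨⟨g.1, g.2.1⟩, ?_⟩) fun a b hab => ?_
          · show g.1 • (T x).erase x = (T x).erase x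
            rw [Finset.erase_eq, Finset.smul_finset_sdiff, Finset.smul_finset_singleton,
              show g.1 • x = x from g.2.1, show g.1 • T x = T x from g.2.2]
          · simp only [Subtype.mk.injEq] at hab
            exact Subtype.ext hab
        have e2 := Subgroup.card_mul_index (MulAction.stabilizer (PtStab x) ((T x).erase x))
        rw [ptStab_card] at e2
        have h5760 : 5760 ≤ Nat.card (stabIn H x) := by
          have h24 := hHx x
          rcases hidx with h | h | h <;> rw [h] at hcm <;> omega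
        nlinarith
      intro q hq
      obtain ⟨g, hg, hm⟩ := exists_mem_M24_list
        (p :: (T x).toList) (q :: (T x).toList)
        (List.nodup_cons.2 ⟨fun h => hp (hTo x hx (Finset.mem_toList.1 h)), (T x).nodup_toList⟩)
        (List.nodup_cons.2 ⟨fun h => (Finset.mem_compl.1 (Finset.mem_toList.1 h)) hq,
          (T x).nodup_toList⟩)
        rfl (by simp [hTcard x hx, e])
      rw [List.map_cons, List.cons.injEq] at hm
      have hfx : ∀ t ∈ T x, g t = t := fun t ht =>
        List.map_inj_left.1 (hm.2.trans (List.map_id _).symm) t (Finset.mem_toList.2 ht)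
      refine mem_orb.2 ⟨⟨g, hg⟩, ⟨?_, hfx y hy⟩, hm.1⟩
      rw [hfull]
      refine ⟨hfx x (hxT x hx), Finset.eq_of_subset_of_card_le (fun r hr => ?_)
        (by rw [Finset.card_smul_finset])⟩
      obtain ⟨t, ht, rfl⟩ := Finset.mem_smul_finset.1 hr
      rwa [show (⟨g, hg⟩ : M24) • t = t from hfx t ht]
    · -- an orbit of size 21 stays an orbit for a subgroup of index at most two
      have hLo : orb L p ⊆ O x := fun q hq => by
        obtain ⟨l, hl, e⟩ := mem_orb.1 hq
        exact mem_orb.2 ⟨l, hl.1, e⟩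
      refine (Finset.eq_of_subset_of_card_le hLo ?_).ge
      rw [hsame x hx, e]
      have h1 := orb_card_mul (stabIn H x) y
      have h2 := orb_card_mul (stabIn H x) p
      have h3 := orb_card_mul L p
      rw [show (orb (stabIn H x) p).card = 21 by rw [← e, ← hsame x hx]] at h2
      have hk : (orb (stabIn H x) y).card ≤ 3 := by
        refine (Finset.card_le_card (t := T x) fun r hr => ?_).trans (by rw [hTcard x hx, e])
        obtain ⟨k, hk, rfl⟩ := mem_orb.1 hr
        rw [← hTinv x k hk]
        exact Finset.smul_mem_smul_finset hy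
      have hk2 : (orb (stabIn H x) y).card ≤ 2 := by
        by_cases hyx : y = x
        · subst hyx
          refine (Finset.card_le_card (t := {y}) fun r hr => ?_).trans (by simp)
          obtain ⟨k, hk, rfl⟩ := mem_orb.1 hr
          exact Finset.mem_singleton.2 hk.2
        · refine (Finset.card_le_card (t := (T x).erase x) fun r hr => ?_).trans
            (by rw [Finset.card_erase_of_mem (hxT x hx), hTcard x hx, e])
          obtain ⟨k, hk, rfl⟩ := mem_orb.1 hr
          rw [Finset.mem_erase]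
          exact ⟨fun e' => hyx (MulAction.injective k (e'.trans (show k • x = x from hk.2).symm)),
            by rw [← hTinv x k hk]; exact Finset.smul_mem_smul_finset hy⟩
      have hkpos : 0 < (orb (stabIn H x) y).card := by
        rw [Finset.card_pos]; exact ⟨y, mem_orb.2 ⟨1, one_mem _, one_smul _ _⟩⟩
      have hdd : Nat.card ↥(L ⊓ MulAction.stabilizer M24 p) ∣
          Nat.card ↥(stabIn H x ⊓ MulAction.stabilizer M24 p) :=
        Subgroup.card_dvd_of_le (inf_le_inf_right _ inf_le_left)
      obtain ⟨j, hj⟩ := hdd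
      have hpos : 0 < Nat.card ↥(L ⊓ MulAction.stabilizer M24 p) := Nat.card_pos
      have hL : L = stabIn H x ⊓ MulAction.stabilizer M24 y := rfl
      rw [← hL, h3] at h1
      rw [h2, hj] at h1
      have h5 : 21 * j = (orb (stabIn H x) y).card * (orb L p).card := by
        refine Nat.eq_of_mul_eq_mul_right hpos ?_
        rw [mul_assoc, mul_assoc]
        linarith
      have hjpos : 0 < j := Nat.pos_of_ne_zero fun h0 => by
        have := Nat.card_pos (α := ↥(stabIn H x ⊓ MulAction.stabilizer M24 p))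
        rw [hj, h0] at this; simp at this
      have hn : (orb L p).card ≤ 24 := by
        have := Finset.card_le_univ (orb L p); rwa [card_golayPt] at this
      interval_cases hkk : (orb (stabIn H x) y).card <;> omega
  -- the families of blocks
  have hblock : s ≠ 18 → ∀ h ∈ H, ∀ h' ∈ H, ∀ z, z ∈ h • T x0 → z ∈ h' • T x0 →
      h • T x0 = h' • T x0 := by
    intro hs18 h hh h' hh' z hz hz'
    obtain ⟨a, ha, rfl⟩ := Finset.mem_smul_finset.1 hz
    obtain ⟨b, hb, e⟩ := Finset.mem_smul_finset.1 hz'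
    have hg : (h'⁻¹ * h) • a = b := by rw [mul_smul, ← e, inv_smul_smul]
    have hbo := hTo x0 hx0 hb
    have h1 := hTtr _ (mul_mem (inv_mem hh') hh) a (hTo x0 hx0 ha) (hg ▸ hbo)
    rw [hg, hblk hs18 x0 hx0 a ha, hblk hs18 x0 hx0 b hb, mul_smul, inv_smul_eq_iff] at h1
    exact h1
  have hmemF : ∀ x ∈ o, ∃ h ∈ H, h • T x0 = T x := fun x hx => by
    obtain ⟨h, hh, rfl⟩ := hOuniv x0 x
    exact ⟨h, hh, hTtr h hh x0 hx0 hx⟩
  set F : Finset (Finset GolayPt) :=
    (MulAction.orbit H (T x0)).toFinite.toFinset with hF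
  have hmem : ∀ B, B ∈ F ↔ ∃ h ∈ H, h • T x0 = B := fun B => by
    rw [hF, Set.Finite.mem_toFinset]
    exact ⟨fun ⟨k, e⟩ => ⟨k.1, k.2, e⟩, fun ⟨k, hk, e⟩ => ⟨⟨k, hk⟩, e⟩⟩
  have hHF : H ≤ MulAction.stabilizer M24 F := fun h hh => by
    refine Finset.eq_of_subset_of_card_le (fun B hB => ?_) (by rw [Finset.card_smul_finset])
    obtain ⟨B', hB', rfl⟩ := Finset.mem_smul_finset.1 hB
    obtain ⟨k, hk, rfl⟩ := (hmem B').1 hB'
    exact (hmem _).2 ⟨h * k, mul_mem hh hk, mul_smul _ _ _⟩
  have hFcard : s ≠ 18 → F.card * (24 - s) = 24 := fun hs18 => by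
    have hU : F.biUnion id = Finset.univ := Finset.eq_univ_iff_forall.2 fun y => by
      obtain ⟨h, hh, rfl⟩ := hOuniv x0 y
      exact Finset.mem_biUnion.2 ⟨h • T x0, (hmem _).2 ⟨h, hh, rfl⟩,
        Finset.smul_mem_smul_finset (hxT x0 hx0)⟩
    have h := congrArg Finset.card hU
    rwa [Finset.card_biUnion (fun B hB B' hB' hne => by
        rw [Function.onFun, Finset.disjoint_left]
        intro z hz hz'
        obtain ⟨k, hk, rfl⟩ := (hmem B).1 hB
        obtain ⟨k', hk', rfl⟩ := (hmem B').1 hB'
        exact hne (hblock hs18 k hk k' hk' z hz hz')),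
      Finset.sum_congr rfl (g := fun _ => 24 - s) (fun B hB => by
        obtain ⟨k, -, rfl⟩ := (hmem B).1 hB
        rw [id, Finset.card_smul_finset, hTcard x0 hx0]),
      Finset.sum_const, Finset.card_univ, card_golayPt, smul_eq_mul] at h
  have hidxF := Subgroup.index_dvd_of_le hHF
  rcases hsc with e | e | e | ⟨e, -⟩
  · exfalso
    have hT0 : T x0 = o := Finset.eq_of_subset_of_card_le (hTo x0 hx0)
      (by rw [hTcard x0 hx0, e, card_octad ho])
    have hFc := hFcard (by omega)
    rw [e] at hFc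
    have htrio : F ∈ trios := by
      refine ⟨by omega, fun B hB => ?_, fun B hB B' hB' hne => ?_⟩
      · obtain ⟨k, -, rfl⟩ := (hmem B).1 hB
        rw [hT0]; exact smul_mem_octads k.2 ho
      · rw [Finset.disjoint_left]
        intro z hz hz'
        obtain ⟨k, hk, rfl⟩ := (hmem B).1 hB
        obtain ⟨k', hk', rfl⟩ := (hmem B').1 hB'
        exact hne (hblock (by omega) k hk k' hk' z hz hz')
    rw [trio_stab_index htrio] at hidxF
    rcases hidx with h | h | h <;> rw [h] at hidxF <;> norm_num at hidxF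
  · -- five points of the octad next to the fixed one
    exfalso
    have hc6 : (T x0).card = 6 := by rw [hTcard x0 hx0, e]
    have hinv : ∀ k ∈ stabIn H x0, k • o = o := fun k hk => by
      refine octad_eq_of_five_le (smul_mem_octads k.2 ho) ho ?_
      refine le_trans (by omega) (Finset.card_le_card (s := T x0) fun t ht => ?_)
      rw [Finset.mem_inter]
      refine ⟨?_, hTo x0 hx0 ht⟩
      rw [← hTinv x0 k hk] at ht
      exact Finset.smul_finset_subset_smul_finset (hTo x0 hx0) ht
    have hsub : O x0 ⊆ oᶜ := fun q hq => by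
      obtain ⟨k, hk, rfl⟩ := mem_orb.1 hq
      rw [Finset.mem_compl]
      intro h
      rw [← hinv k hk] at h
      exact hp ((Finset.smul_mem_smul_finset_iff k).1 h)
    have := Finset.card_le_card hsub
    omega
  · have hFc := hFcard (by omega)
    rw [e] at hFc
    have hcard4 : ∀ B ∈ F, B.card = 4 := fun B hB => by
      obtain ⟨k, -, rfl⟩ := (hmem B).1 hB
      rw [Finset.card_smul_finset, hTcard x0 hx0, e]
    obtain ⟨x', hx', hx'T⟩ : ∃ x' ∈ o, x' ∉ T x0 := by
      by_contra hcon
      push Not at hcon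
      have := Finset.card_le_card (show o ⊆ T x0 from hcon)
      rw [card_octad ho, hTcard x0 hx0, e] at this
      omega
    obtain ⟨h', hh', eh'⟩ := hmemF x' hx'
    have hpair : ∀ B ∈ F, B ≠ T x0 → T x0 ∪ B ∈ octads := by
      intro B hB hne
      obtain ⟨kB, hkB, rfl⟩ := (hmem B).1 hB
      have hq : ∀ q ∈ kB • T x0, q ∉ T x0 := fun q hq hq0 =>
        hne ((hblock (by omega) kB hkB 1 (one_mem _) q hq (by rwa [one_smul])).trans (one_smul _ _))
      have hq' : kB • x0 ∈ O x0 := by
        by_contra hc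
        exact hq _ (Finset.smul_mem_smul_finset (hxT x0 hx0)) (Finset.mem_compl.2 hc)
      have hx'O : x' ∈ O x0 := by_contra fun hc => hx'T (Finset.mem_compl.2 hc)
      have hq'' : kB • x0 ∈ orb (stabIn H x0) x' := by
        rw [orb_eq_of_mem hx'O]; exact hq'
      obtain ⟨k, hk, ek⟩ := mem_orb.1 hq''
      have hu : T x0 ∪ T x' = o := by
        refine Finset.eq_of_subset_of_card_le (Finset.union_subset (hTo x0 hx0) (hTo x' hx')) ?_
        rw [Finset.card_union_of_disjoint, hTcard x0 hx0, hTcard x' hx', e, card_octad ho]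
        rw [Finset.disjoint_left]
        intro z hz hz'
        have h1 := hblk (by omega) x0 hx0 z hz
        rw [hblk (by omega) x' hx' z hz'] at h1
        exact hx'T (h1 ▸ hxT x' hx')
      have hB : kB • T x0 = k • T x' := by
        rw [← eh', ← mul_smul]
        refine hblock (by omega) kB hkB (k * h') (mul_mem hk.1 hh') (kB • x0)
          (Finset.smul_mem_smul_finset (hxT x0 hx0)) ?_
        rw [mul_smul, eh', ← ek]
        exact Finset.smul_mem_smul_finset (hxT x' hx')
      have h2 := smul_mem_octads k.2 ho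
      rw [← hu] at h2
      rw [hB]
      have h3 : (k : M24) • (T x0 ∪ T x') = T x0 ∪ k • T x' := by
        rw [Finset.smul_finset_union, hTinv x0 k hk]
      rw [← h3]
      exact h2
    have hS : F ∈ sextets := by
      refine ⟨by omega, hcard4, fun t ht u hu hne => ?_⟩
      obtain ⟨k, hk, rfl⟩ := (hmem t).1 ht
      obtain ⟨k', hk', rfl⟩ := (hmem u).1 hu
      have h1 := hpair ((k⁻¹ * k') • T x0) ((hmem _).2 ⟨_, mul_mem (inv_mem hk) hk', rfl⟩)
        (fun e' => hne (by rw [mul_smul, inv_smul_eq_iff] at e'; exact e'.symm))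
      have h2 := smul_mem_octads k.2 h1
      have h3 : (k : M24) • (T x0 ∪ (k⁻¹ * k') • T x0) = k • T x0 ∪ k' • T x0 := by
        rw [Finset.smul_finset_union, ← mul_smul, mul_inv_cancel_left]
      rw [← h3]
      exact h2
    rw [sextet_stab_index hS] at hidxF
    have h1771 : H.index = 1771 := by
      rcases hidx with h | h | h
      · rw [h] at hidxF; norm_num at hidxF
      · rw [h] at hidxF; norm_num at hidxF
      · exact h
    exact Or.inr ⟨F, hS, eq_stab_of_index hHF (by rw [sextet_stab_index hS, h1771]), h1771⟩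
  · exfalso
    have hU : o.biUnion T = o := by
      refine Finset.Subset.antisymm (Finset.biUnion_subset.2 hTo) fun y hy => ?_
      exact Finset.mem_biUnion.2 ⟨y, hy, hxT y hy⟩
    have h : ((o.image T).biUnion id).card = 8 := by
      rw [Finset.image_biUnion]; simp only [id]; rw [hU, card_octad ho]
    rw [Finset.card_biUnion (fun B hB B' hB' hne => by
        rw [Function.onFun, Finset.disjoint_left]
        intro z hz hz'
        obtain ⟨a, ha, rfl⟩ := Finset.mem_image.1 hB
        obtain ⟨b, hb, rfl⟩ := Finset.mem_image.1 hB'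
        exact hne ((hblk (by omega) a ha z hz).symm.trans (hblk (by omega) b hb z hz'))),
      Finset.sum_congr rfl (g := fun _ => 3) (fun B hB => by
        obtain ⟨a, ha, rfl⟩ := Finset.mem_image.1 hB
        rw [id, hTcard a ha, e]),
      Finset.sum_const, smul_eq_mul] at h
    omega

end Cfsg.Agent.Golay
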