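import Cfsg.Agent.Golay.M24Index
import Cfsg.Agent.Golay.M22Index

/-! Subgroups of `M24` of index 276. -/

set_option autoImplicit false
set_option maxRecDepth 20000

namespace Cfsg.Agent.Golay

open scoped Pointwise

/-- An element of order seven. -/
def m22w : ℕ := 984074730318993174599969443604014084
/-- An element of order three normalizing it. -/
def m22c : ℕ := 984084857895929620360500304664605707

theorem m22w_std : isStd m22w = true := by decide +kernel
theorem m22c_std : isStd m22c = true := by decide +kernel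

/-- The element of order seven. -/
noncomputable abbrev eW : StdM22 := stdOf m22w m22w_std
/-- The element of order three. -/
noncomputable abbrev eC : StdM22 := stdOf m22c m22c_std

theorem order_eW : orderOf eW = 7 :=
  orderOf_stdOf m22w_std (by norm_num) (by decide +kernel) (by decide +kernel)

theorem norm_eW_card :
    Nat.card (Subgroup.normalizer ((Subgroup.zpowers eW : Subgroup StdM22) : Set StdM22)) = 21 := by
  have hle := card_normalizer_le_of_rigid m22w_std (r := 7) (by norm_num) order_eW 0
    [[0, 4, 11, 5, 12, 14, 1, 22, 23], List.range 24]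
    (by decide +kernel) (by intro i hi; simp at hi; subst hi; decide +kernel)
    (by decide +kernel) (by norm_num)
  obtain ⟨d, hd, h7, hdiv, hmod⟩ := sylow_count_in (m := 63360) (by norm_num : Nat.Prime 7) ⊤
    (by rw [Subgroup.card_top, stdM22_card]) (by norm_num) (Subgroup.mem_top eW) order_eW
  rw [inf_top_eq] at hd
  have hh : eC ∈ Subgroup.normalizer ((Subgroup.zpowers eW : Subgroup StdM22) : Set StdM22) :=
    mem_normalizer_zpowers_of_conj (stdOf_conj_eq_pow m22c_std m22w_std 2 (by decide +kernel))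
      (by rw [order_eW]; norm_num)
  have h3 := Subgroup.orderOf_dvd_natCard _ hh
  rw [show orderOf eC = 3 from orderOf_stdOf m22c_std (by norm_num) (by decide +kernel)
    (by decide +kernel), ← hd] at h3
  rw [← hd] at hle ⊢
  obtain ⟨e, rfl⟩ := (Nat.Coprime.mul_dvd_of_dvd_of_dvd (by norm_num : Nat.Coprime 7 3) h7 h3)
  have he : e ≤ 6 := by omega
  interval_cases e <;> revert hmod <;> norm_num

theorem stdM22_no_order_36960 (K : Subgroup StdM22) : Nat.card K ≠ 36960 := by
  intro hK
  haveI := Fact.mk (by norm_num : Nat.Prime 7)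
  obtain ⟨y, hy⟩ := exists_prime_orderOf_dvd_card' 7 (show 7 ∣ Nat.card K by rw [hK]; norm_num)
  have hPG : ∀ z : StdM22, orderOf z = 7 →
      ∃ P : Sylow 7 StdM22, (P : Subgroup StdM22) = Subgroup.zpowers z := by
    intro z hz
    refine ⟨Sylow.ofCard (Subgroup.zpowers z) ?_, rfl⟩
    rw [Nat.card_zpowers, hz, stdM22_card, show (443520 : ℕ) = 7 * 63360 by norm_num,
      Nat.factorization_mul (by norm_num) (by norm_num)]
    simp [Nat.factorization_eq_zero_of_not_dvd (show ¬ 7 ∣ 63360 by norm_num),
      (show Nat.Prime 7 by norm_num).factorization_self]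
  obtain ⟨P1, hP1⟩ := hPG y.1 (by rw [Subgroup.orderOf_coe]; exact hy)
  obtain ⟨P2, hP2⟩ := hPG eW order_eW
  obtain ⟨t, ht⟩ := MulAction.exists_smul_eq StdM22 P1 P2
  have hmem : eW ∈ K.map (MulAut.conj t).toMonoidHom := by
    have h1 : eW ∈ (P2 : Subgroup StdM22) := hP2 ▸ Subgroup.mem_zpowers eW
    rw [← ht, Sylow.coe_subgroup_smul, hP1] at h1
    obtain ⟨z, hz, e⟩ := h1
    exact ⟨z, Subgroup.zpowers_le.2 y.2 hz, e⟩
  obtain ⟨d, hd, h7, hdiv, hmod⟩ := sylow_count_in (m := 5280) (by norm_num : Nat.Prime 7)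
    (K.map (MulAut.conj t).toMonoidHom)
    (by rw [Nat.card_congr ((Subgroup.equivMapOfInjective K (MulAut.conj t).toMonoidHom
      (MulAut.conj t).injective).toEquiv.symm), hK]) (by norm_num) hmem order_eW
  have hN := Subgroup.card_dvd_of_le (inf_le_left :
    Subgroup.normalizer ((Subgroup.zpowers eW : Subgroup StdM22) : Set StdM22) ⊓
      K.map (MulAut.conj t).toMonoidHom ≤ _)
  rw [norm_eW_card, ← hd] at hN
  have hdle := Nat.le_of_dvd (by norm_num) hN
  obtain ⟨e, rfl⟩ := h7
  have he : e ≤ 3 := by omega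
  interval_cases e <;> revert hN hmod <;> norm_num

/-- An element of prime order above three fixing five points is trivial. -/
theorem eq_one_of_fix_five_M24 {g : M24} {r : ℕ} (hr : r.Prime) (h3 : 3 < r) (ho : orderOf g = r)
    {s : Finset GolayPt} (hs : s.card = 5) (hfix : ∀ q ∈ s, g • q = q) : False := by
  classical
  obtain ⟨o, hoo, hso⟩ := exists_octad_of_five s hs
  have hgo : g • o = o := smul_octad_eq g.2 hoo hso hs.ge hfix
  have hfixo : ∀ q ∈ o, g • q = q := by
    intro q hq
    by_contra hne
    set Z := Subgroup.zpowers g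
    have hsub : MulAction.orbit Z q ⊆ ↑(o \ s) := by
      rintro _ ⟨z, rfl⟩
      obtain ⟨i, hi⟩ := Subgroup.mem_zpowers_iff.1 z.2
      have hz : z.1 ∈ MulAction.stabilizer M24 o := hi ▸ Subgroup.zpow_mem _ hgo i
      have hzs : ∀ t ∈ s, z.1 • t = t := fun t ht =>
        (hi ▸ Subgroup.zpow_mem _ (hfix t ht) i : z.1 ∈ MulAction.stabilizer M24 t)
      rw [Finset.mem_coe, Finset.mem_sdiff]
      refine ⟨?_, fun hin => hne ?_⟩
      · have h2 := Finset.smul_mem_smul_finset (a := z.1) hq
        rwa [show z.1 • o = o from hz] at h2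
      · have h2 : z.1 • q = q := by
          have h3 := hzs _ hin
          exact MulAction.injective z.1 h3
        exact (hfix q (h2 ▸ hin))
    have hle := Set.ncard_le_ncard hsub (Set.toFinite _)
    rw [Set.ncard_coe_finset, Finset.card_sdiff_of_subset hso, card_octad hoo, hs] at hle
    have hd : (MulAction.orbit Z q).ncard ∣ r := by
      rw [← MulAction.index_stabilizer, ← ho, ← Nat.card_zpowers]
      exact Subgroup.index_dvd_card _
    rcases hr.eq_one_or_self_of_dvd _ hd with h | h
    · obtain ⟨b, hb⟩ := Set.ncard_eq_one.1 h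
      have h1 : q ∈ MulAction.orbit Z q := MulAction.mem_orbit_self q
      have h2 : g • q ∈ MulAction.orbit Z q := ⟨⟨g, Subgroup.mem_zpowers g⟩, rfl⟩
      rw [hb, Set.mem_singleton_iff] at h1 h2
      exact hne (h2.trans h1.symm)
    · omega
  have h1 := fixer_sq hoo (mem_fixer_iff.2 ⟨g.2, hfixo⟩)
  have h2 : g ^ 2 = 1 := Subtype.ext (by rw [pow_two]; exact h1)
  have := Nat.le_of_dvd (by norm_num) (orderOf_dvd_of_pow_eq_one h2)
  omega

/-- The fixed points of an element of prime order in an invariant set. -/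
theorem card_fix_mod {g : M24} {r : ℕ} (hr : r.Prime) (ho : orderOf g = r) (A : Finset GolayPt)
    (hA : g • A = A) : (A.filter fun q => g • q = q).card % r = A.card % r := by
  classical
  haveI := Fact.mk hr
  set Z := Subgroup.zpowers g
  have hZA : ∀ z : Z, ∀ q ∈ A, z • q ∈ A := by
    intro z q hq
    obtain ⟨i, hi⟩ := Subgroup.mem_zpowers_iff.1 z.2
    have hz : z.1 ∈ MulAction.stabilizer M24 A := hi ▸ Subgroup.zpow_mem _ hA i
    have h2 := Finset.smul_mem_smul_finset (a := z.1) hq
    rwa [show z.1 • A = A from hz] at h2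
  letI : MulAction Z {q // q ∈ A} :=
    { smul := fun z q => ⟨z • q.1, hZA z q.1 q.2⟩
      one_smul := fun q => Subtype.ext (one_smul Z q.1)
      mul_smul := fun a b q => Subtype.ext (mul_smul a b q.1) }
  have hP : IsPGroup r Z := IsPGroup.of_card (n := 1) (by rw [Nat.card_zpowers, ho, pow_one])
  have h := hP.card_modEq_card_fixedPoints {q // q ∈ A}
  rw [Nat.card_eq_fintype_card (α := {q // q ∈ A}), Fintype.card_coe] at h
  have e : Nat.card (MulAction.fixedPoints Z {q // q ∈ A}) =
      (A.filter fun q => g • q = q).card := by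
    rw [← Set.ncard_coe_finset, ← Nat.card_coe_set_eq]
    refine Nat.card_congr
      { toFun := fun q => ⟨q.1.1, by
          rw [Finset.mem_coe, Finset.mem_filter]
          exact ⟨q.1.2, congrArg Subtype.val (q.2 ⟨g, Subgroup.mem_zpowers g⟩)⟩⟩
        invFun := fun q => ⟨⟨q.1, (Finset.mem_filter.1 q.2).1⟩, fun z => Subtype.ext (by
          obtain ⟨i, hi⟩ := Subgroup.mem_zpowers_iff.1 z.2
          exact (hi ▸ Subgroup.zpow_mem _ ((Finset.mem_filter.1 q.2).2) i :
            z.1 ∈ MulAction.stabilizer M24 q.1))⟩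
        left_inv := fun _ => rfl
        right_inv := fun _ => rfl }
  rw [e] at h
  exact h.symm

/-- Sizes of an invariant set and its complement, modulo the order of a prime-order element. -/
theorem card_mod_add_le {g : M24} {r : ℕ} (hr : r.Prime) (h3 : 3 < r) (ho : orderOf g = r)
    (A : Finset GolayPt) (hA : g • A = A) :
    A.card % r + Aᶜ.card % r ≤ 4 ∧ ∀ x, g • x = x → x ∉ A → A.card % r + (Aᶜ.card - 1) % r ≤ 3 := by
  classical
  have hall : ((Finset.univ : Finset GolayPt).filter fun q => g • q = q).card ≤ 4 := by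
    by_contra hc
    obtain ⟨s, hs, hs5⟩ := Finset.exists_subset_card_eq (show 5 ≤ _ from Nat.lt_of_not_le hc)
    exact eq_one_of_fix_five_M24 hr h3 ho hs5 fun q hq => (Finset.mem_filter.1 (hs hq)).2
  have h1 := card_fix_mod hr ho A hA
  constructor
  · have h2 := card_fix_mod hr ho Aᶜ (by rw [smul_compl_finset, hA])
    have e : (A.filter fun q => g • q = q).card + (Aᶜ.filter fun q => g • q = q).card ≤ 4 := by
      rw [← Finset.card_union_of_disjoint (Finset.disjoint_filter_filter disjoint_compl_right),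
        ← Finset.filter_union, Finset.union_compl]
      exact hall
    have e1 := Nat.mod_le (A.filter fun q => g • q = q).card r
    have e2 := Nat.mod_le (Aᶜ.filter fun q => g • q = q).card r
    omega
  · intro x hx hxA
    have hB : g • (insert x A)ᶜ = (insert x A)ᶜ := by
      rw [smul_compl_finset, Finset.smul_finset_insert, hx, hA]
    have h2 := card_fix_mod hr ho _ hB
    have hc : (insert x A)ᶜ.card = Aᶜ.card - 1 := by
      rw [Finset.card_compl, Finset.card_compl, Finset.card_insert_of_notMem hxA, Nat.sub_sub]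
    rw [hc] at h2
    have hdisj : Disjoint (A.filter fun q => g • q = q) ((insert x A)ᶜ.filter fun q => g • q = q) := by
      rw [Finset.disjoint_left]
      intro q hq hq'
      exact (Finset.mem_compl.1 (Finset.mem_filter.1 hq').1)
        (Finset.mem_insert_of_mem (Finset.mem_filter.1 hq).1)
    have hsub : (A.filter fun q => g • q = q) ∪ ((insert x A)ᶜ.filter fun q => g • q = q) ⊆
        ((Finset.univ : Finset GolayPt).filter fun q => g • q = q).erase x := by
      intro q hq
      rw [Finset.mem_union, Finset.mem_filter, Finset.mem_filter, Finset.mem_compl,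
        Finset.mem_insert, not_or] at hq
      rw [Finset.mem_erase, Finset.mem_filter]
      rcases hq with ⟨hqA, hq⟩ | ⟨⟨hqx, -⟩, hq⟩
      · exact ⟨fun e => hxA (e ▸ hqA), Finset.mem_univ _, hq⟩
      · exact ⟨hqx, Finset.mem_univ _, hq⟩
    have e := Finset.card_le_card hsub
    rw [Finset.card_union_of_disjoint hdisj, Finset.card_erase_of_mem
      (show x ∈ (Finset.univ : Finset GolayPt).filter fun q => g • q = q from
        Finset.mem_filter.2 ⟨Finset.mem_univ x, hx⟩)] at e
    have e1 := Nat.mod_le (A.filter fun q => g • q = q).card r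
    have e2 := Nat.mod_le ((insert x A)ᶜ.filter fun q => g • q = q).card r
    omega

theorem orbit_sizes_276 : ∀ s < 25, 11 ≤ s → s % 11 + (24 - s) % 11 ≤ 4 → s % 7 + (24 - s) % 7 ≤ 4 →
    s ∣ 887040 → s = 22 ∨ s = 24 := by
  intro s h1 h2
  interval_cases s <;> norm_num

theorem orbit_sizes_276' : ∀ s < 24, 11 ≤ s → s % 11 + (23 - s) % 11 ≤ 3 →
    s % 7 + (23 - s) % 7 ≤ 3 → s ∣ 36960 → s = 22 := by
  intro s h1 h2
  interval_cases s <;> norm_num

theorem moved_orbit {K : Subgroup M24} {g : M24} (hg : g ∈ K) (ho : orderOf g = 11) :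
    ∃ p, g • p ≠ p ∧ 11 ≤ (orb K p).card := by
  classical
  obtain ⟨p, hp⟩ : ∃ p : GolayPt, g • p ≠ p := by
    by_contra hc
    push Not at hc
    have : g = 1 := Subtype.ext (Equiv.ext hc)
    rw [this, orderOf_one] at ho
    norm_num at ho
  refine ⟨p, hp, ?_⟩
  set Z := Subgroup.zpowers g
  have hd : (MulAction.orbit Z p).ncard ∣ 11 := by
    rw [← MulAction.index_stabilizer, ← ho, ← Nat.card_zpowers]
    exact Subgroup.index_dvd_card _
  rcases (by norm_num : Nat.Prime 11).eq_one_or_self_of_dvd _ hd with h | h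
  · obtain ⟨b, hb⟩ := Set.ncard_eq_one.1 h
    have h1 : p ∈ MulAction.orbit Z p := MulAction.mem_orbit_self p
    have h2 : g • p ∈ MulAction.orbit Z p := ⟨⟨g, Subgroup.mem_zpowers g⟩, rfl⟩
    rw [hb, Set.mem_singleton_iff] at h1 h2
    exact absurd (h2.trans h1.symm) hp
  · rw [← h, ← Set.ncard_coe_finset]
    refine Set.ncard_le_ncard ?_ (Set.toFinite _)
    rintro _ ⟨z, rfl⟩
    exact mem_orb.2 ⟨z.1, Subgroup.zpowers_le.2 hg z.2, rfl⟩

theorem index_276_duad (H : Subgroup M24) (hH : H.index = 276) :
    ∃ s : Finset GolayPt, s.card = 2 ∧ H = MulAction.stabilizer M24 s := by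
  classical
  have hcard : Nat.card H = 887040 := by
    have h := Subgroup.card_mul_index H
    rw [M24_card, hH] at h
    omega
  haveI := Fact.mk (by norm_num : Nat.Prime 7)
  haveI := Fact.mk (by norm_num : Nat.Prime 11)
  obtain ⟨g, hg⟩ := exists_prime_orderOf_dvd_card' 11 (show 11 ∣ Nat.card H by rw [hcard]; norm_num)
  obtain ⟨w, hw⟩ := exists_prime_orderOf_dvd_card' 7 (show 7 ∣ Nat.card H by rw [hcard]; norm_num)
  rw [← Subgroup.orderOf_coe] at hg hw
  obtain ⟨p, -, hp11⟩ := moved_orbit g.2 hg
  have hd : (orb H p).card ∣ 887040 := hcard ▸ ⟨_, orb_card_mul H p⟩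
  have hle : (orb H p).card ≤ 24 := by
    have := Finset.card_le_univ (orb H p); rwa [card_golayPt] at this
  have hc : (orb H p)ᶜ.card = 24 - (orb H p).card := by rw [Finset.card_compl, card_golayPt]
  have r11 := (card_mod_add_le (by norm_num) (by norm_num) hg (orb H p) (smul_orb g.2)).1
  have r7 := (card_mod_add_le (by norm_num) (by norm_num) hw (orb H p) (smul_orb w.2)).1
  rw [hc] at r11 r7
  rcases orbit_sizes_276 _ (Nat.lt_succ_of_le hle) hp11 r11 r7 hd with h22 | h24
  · refine ⟨(orb H p)ᶜ, by omega, eq_stab_of_index (fun k hk => ?_) ?_⟩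
    · show k • (orb H p)ᶜ = (orb H p)ᶜ
      rw [smul_compl_finset, smul_orb hk]
    · have := choose_le_orbit_M24 (orb H p)ᶜ 2 (by norm_num) (by omega)
      rw [hc, h22, show Nat.choose 24 2 = 276 by decide +kernel,
        show Nat.choose (24 - 22) 2 = 1 by decide +kernel, mul_one] at this
      omega
  · exfalso
    set K := stabIn H p
    have hKcard : Nat.card K = 36960 := by
      have h := orb_card_mul H p
      rw [h24, hcard] at h
      show Nat.card ↥(H ⊓ MulAction.stabilizer M24 p) = 36960
      omega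
    obtain ⟨a, ha⟩ := exists_prime_orderOf_dvd_card' 11 (show 11 ∣ Nat.card K by rw [hKcard]; norm_num)
    obtain ⟨b, hb⟩ := exists_prime_orderOf_dvd_card' 7 (show 7 ∣ Nat.card K by rw [hKcard]; norm_num)
    rw [← Subgroup.orderOf_coe] at ha hb
    obtain ⟨q, hq, hq11⟩ := moved_orbit a.2 ha
    have hpO : p ∉ orb K q := by
      intro h
      obtain ⟨k, hk, e⟩ := mem_orb.1 h
      have := MulAction.injective k (e.trans (show k • p = p from hk.2).symm)
      exact hq (this ▸ (show a.1 • p = p from a.2.2))
    have hd' : (orb K q).card ∣ 36960 := hKcard ▸ ⟨_, orb_card_mul K q⟩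
    have hlt : (orb K q).card < 24 := by
      have := Finset.card_lt_univ_of_notMem hpO; rwa [card_golayPt] at this
    have hc' : (orb K q)ᶜ.card - 1 = 23 - (orb K q).card := by
      rw [Finset.card_compl, card_golayPt]; omega
    have r11' := (card_mod_add_le (by norm_num) (by norm_num) ha (orb K q) (smul_orb a.2)).2 p
      a.2.2 hpO
    have r7' := (card_mod_add_le (by norm_num) (by norm_num) hb (orb K q) (smul_orb b.2)).2 p
      b.2.2 hpO
    rw [hc'] at r11' r7'
    have hs := orbit_sizes_276' _ hlt hq11 r11' r7' hd'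
    obtain ⟨y, hy⟩ : ((insert p (orb K q))ᶜ).Nonempty := Finset.card_pos.1 (by
      rw [Finset.card_compl, card_golayPt, Finset.card_insert_of_notMem hpO, hs]; norm_num)
    have hsing : (insert p (orb K q))ᶜ = {y} :=
      (Finset.eq_of_subset_of_card_le (Finset.singleton_subset_iff.2 hy) (by
        rw [Finset.card_compl, card_golayPt, Finset.card_insert_of_notMem hpO, hs]
        simp)).symm
    have hyp : y ≠ p := fun e => (Finset.mem_compl.1 hy) (e ▸ Finset.mem_insert_self _ _)
    have hKy : ∀ k ∈ K, k • y = y := by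
      intro k hk
      have h : k • (insert p (orb K q))ᶜ = (insert p (orb K q))ᶜ := by
        rw [smul_compl_finset, Finset.smul_finset_insert, show k • p = p from hk.2, smul_orb hk]
      rw [hsing, Finset.smul_finset_singleton, Finset.singleton_inj] at h
      exact h
    obtain ⟨c, hc, e1, e2⟩ := exists_mem_M24_two hyp.symm
      (show pt 22 ≠ pt 23 by decide +kernel)
    let f : K →* StdM22 :=
      { toFun := fun k => ⟨c * k.1.1 * c⁻¹, ⟨Subgroup.mul_mem M24 (Subgroup.mul_mem M24 hc k.1.2)
          (Subgroup.inv_mem M24 hc), by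
          show (c * k.1.1 * c⁻¹) (pt 22) = pt 22
          rw [← e1, Equiv.Perm.mul_apply, Equiv.Perm.mul_apply, Equiv.Perm.inv_def,
            Equiv.symm_apply_apply, show k.1.1 p = p from k.2.2]⟩, by
          show (c * k.1.1 * c⁻¹) (pt 23) = pt 23
          rw [← e2, Equiv.Perm.mul_apply, Equiv.Perm.mul_apply, Equiv.Perm.inv_def,
            Equiv.symm_apply_apply, show k.1.1 y = y from hKy k.1 k.2]⟩
        map_one' := Subtype.ext (by simp)
        map_mul' := fun k l => Subtype.ext (by simp only [Subgroup.coe_mul]; group) }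
    have hf : Function.Injective f := by
      intro k l hkl
      have h := congrArg Subtype.val hkl
      exact Subtype.ext (Subtype.ext (mul_left_cancel (mul_right_cancel h)))
    exact stdM22_no_order_36960 f.range
      (by rw [Nat.card_congr (MonoidHom.ofInjective hf).toEquiv.symm, hKcard])

/-- The statement about the four indices. -/
theorem M24_index_subgroups :
    (∀ H : Subgroup M24, H.index = 759 → ∃ o ∈ octads, H = MulAction.stabilizer M24 o) ∧
    (∀ H : Subgroup M24, H.index = 276 →
      ∃ s : Finset GolayPt, s.card = 2 ∧ H = MulAction.stabilizer M24 s) ∧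
    (∀ H : Subgroup M24, H.index = 1771 → ∃ S ∈ sextets, H = MulAction.stabilizer M24 S) ∧
    ∀ H : Subgroup M24, H.index ≠ 253 := by
  refine ⟨fun H h => ?_, index_276_duad, fun H h => ?_, fun H h => ?_⟩
  · rcases big_index_cases H (Or.inr (Or.inl h)) with ⟨o, ho, e, -⟩ | ⟨S, -, -, h'⟩
    · exact ⟨o, ho, e⟩
    · omega
  · rcases big_index_cases H (Or.inr (Or.inr h)) with ⟨o, -, -, h'⟩ | ⟨S, hS, e, -⟩
    · omega
    · exact ⟨S, hS, e⟩
  · rcases big_index_cases H (Or.inl h) with ⟨o, -, -, h'⟩ | ⟨S, -, -, h'⟩ <;> omega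

end Cfsg.Agent.Golay
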