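import Cfsg.Agent.Golay.M23Index
import Cfsg.Agent.Golay.M22Index

/-! `PSL(2, 23)` and `23:11` are maximal in `M24` and `M23`. -/

set_option autoImplicit false
set_option maxRecDepth 20000

namespace Cfsg.Agent.Golay

open scoped Pointwise

/-- Translation by one. -/
noncomputable abbrev shiftPerm : Equiv.Perm GolayPt := Equiv.optionCongr (Equiv.addRight (1 : ZMod 23))

/-- Scalings by squares. -/
abbrev sqScalings : Set (Equiv.Perm GolayPt) :=
  {g : Equiv.Perm GolayPt | ∃ u : (ZMod 23)ˣ, IsSquare u ∧ g = Equiv.optionCongr (Units.mulLeft u)}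

/-- The group `23:11`. -/
noncomputable abbrev frob253 : Subgroup (Equiv.Perm GolayPt) :=
  Subgroup.closure ({shiftPerm} ∪ sqScalings)

/-- The group `PSL(2, 23)` on the projective line. -/
noncomputable abbrev psl23 : Subgroup (Equiv.Perm GolayPt) :=
  Subgroup.closure ({shiftPerm, Cfsg.projInv} ∪ sqScalings)

/-- The unit 2. -/
def two23 : (ZMod 23)ˣ := ⟨2, 12, by decide +kernel, by decide +kernel⟩

/-- The unit 5. -/
def five23 : (ZMod 23)ˣ := ⟨5, 14, by decide +kernel, by decide +kernel⟩

/-- Scaling of the finite points. -/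
def scaleHom : (ZMod 23)ˣ →* Equiv.Perm GolayPt where
  toFun u := Equiv.optionCongr (Units.mulLeft u)
  map_one' := by ext x; cases x <;> simp
  map_mul' a b := by ext x; cases x <;> simp [mul_assoc]

theorem mul2_eq : permOf mul2Code = scaleHom two23 := by
  symm
  refine eq_permOf (permOK_of_isAut mul2_aut.1) _ ?_
  intro x
  revert x
  decide +kernel

theorem scaling_pow {g : Equiv.Perm GolayPt} (hg : g ∈ sqScalings) :
    ∃ k : ℕ, g = permOf mul2Code ^ k := by
  obtain ⟨u, ⟨v, rfl⟩, rfl⟩ := hg
  have key : ∀ v : (ZMod 23)ˣ, ∃ k : Fin 11,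
      v * v = two23 ^ (k : ℕ) := by decide +kernel
  obtain ⟨k, hk⟩ := key v
  refine ⟨k, ?_⟩
  rw [mul2_eq, ← map_pow, ← hk]
  rfl

theorem mul2_mem_scalings : permOf mul2Code ∈ sqScalings := by
  refine ⟨two23, ⟨five23, ?_⟩,
    mul2_eq⟩
  decide +kernel

theorem scalings_mem {g : Equiv.Perm GolayPt} (hg : g ∈ sqScalings) :
    g ∈ M24 ∧ g none = none := by
  obtain ⟨k, rfl⟩ := scaling_pow hg
  exact ⟨pow_mem (permOf_mem_M24 mul2_aut.1) k, by
    rw [Equiv.Perm.coe_pow]
    refine Function.iterate_fixed ?_ k
    rw [permOf_apply (permOK_of_isAut mul2_aut.1)]; decide +kernel⟩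

theorem frob253_le : frob253 ≤ M24 ⊓ MulAction.stabilizer (Equiv.Perm GolayPt) (none : GolayPt) := by
  rw [Subgroup.closure_le]
  rintro g (hg | hg)
  · rw [Set.mem_singleton_iff.1 hg]
    exact ⟨shift_mem, rfl⟩
  · exact scalings_mem hg

theorem psl23_le : psl23 ≤ M24 := by
  rw [Subgroup.closure_le]
  rintro g ((hg | hg) | hg)
  · rw [hg]; exact shift_mem
  · rw [Set.mem_singleton_iff.1 hg]; exact projInv_mem
  · exact (scalings_mem hg).1

/-- Translation by one, in the stabiliser of the extra point. -/
noncomputable def sG : PtStab (none : GolayPt) := ⟨⟨shiftPerm, shift_mem⟩, rfl⟩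

theorem order_sG : orderOf sG = 23 := by
  haveI := Fact.mk (by norm_num : Nat.Prime 23)
  have happ : ∀ (k : ℕ) (x : ZMod 23), (shiftPerm ^ k) (some x) = some (x + k) := by
    intro k
    induction k with
    | zero => intro x; simp
    | succ k ih =>
      intro x
      rw [pow_succ, Equiv.Perm.mul_apply]
      show (shiftPerm ^ k) (some (x + 1)) = _
      rw [ih, Nat.cast_succ, add_assoc, add_comm (1 : ZMod 23)]
  refine orderOf_eq_prime (Subtype.ext (Subtype.ext (Equiv.ext fun x => ?_))) ?_
  · rw [SubmonoidClass.coe_pow, SubmonoidClass.coe_pow]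
    show (shiftPerm ^ 23) x = x
    cases x with
    | none => rw [Equiv.Perm.coe_pow]; exact Function.iterate_fixed rfl 23
    | some x => rw [happ, show ((23 : ℕ) : ZMod 23) = 0 from ZMod.natCast_self 23, add_zero]
  · intro e
    have h := congrArg (fun g : PtStab (none : GolayPt) => g.1.1 (some 0)) e
    revert h
    show shiftPerm (some 0) = some 0 → False
    simp

theorem ptStab_normalizer_shift :
    Nat.card (Subgroup.normalizer ((Subgroup.zpowers sG : Subgroup (PtStab (none : GolayPt))) :
      Set (PtStab (none : GolayPt)))) = 253 := by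
  have hcard : Nat.card (PtStab (none : GolayPt)) = 23 * 443520 := ptStab_card _
  have hS : ∀ (g : PtStab (none : GolayPt)), ∀ x ∈ ({none}ᶜ : Set GolayPt),
      g • x ∈ ({none}ᶜ : Set GolayPt) := by
    intro g x hx e
    exact hx (g.1.1.injective ((Set.mem_singleton_iff.1 e).trans g.2.symm))
  have hfaith : ∀ g : PtStab (none : GolayPt),
      (∀ x ∈ ({none}ᶜ : Set GolayPt), g • x = x) → g = 1 := by
    intro g hg
    refine Subtype.ext (Subtype.ext (Equiv.ext fun x => ?_))
    by_cases hx : x = none
    · subst hx; exact g.2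
    · exact hg x hx
  have h23 : ({none}ᶜ : Set GolayPt).ncard = 23 := by
    rw [Set.ncard_compl, Set.ncard_singleton, Nat.card_eq_fintype_card, card_golayPt]
  haveI := Fact.mk (by norm_num : Nat.Prime 23)
  have hPc : Nat.card (Subgroup.zpowers sG) = 23 := by rw [Nat.card_zpowers, order_sG]
  let P : Sylow 23 (PtStab (none : GolayPt)) := Sylow.ofCard (Subgroup.zpowers sG) (by
    rw [hPc, hcard, Nat.factorization_mul (by norm_num) (by norm_num)]
    simp [Nat.factorization_eq_zero_of_not_dvd (show ¬ 23 ∣ 443520 by norm_num),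
      (show Nat.Prime 23 by norm_num).factorization_self])
  exact (card_normalizer_of_centralizer (n := 253) (by norm_num) hcard (by norm_num) P
    (card_centralizer_le (by norm_num) _ hPc _ (Set.toFinite _) h23 hfaith hS)
    (by decide +kernel)).2

/-- `23:11` inside the point stabiliser. -/
noncomputable abbrev frobIn : Subgroup (PtStab (none : GolayPt)) :=
  (frob253.subgroupOf M24).subgroupOf (PtStab (none : GolayPt))

theorem mem_frobIn {g : PtStab (none : GolayPt)} : g ∈ frobIn ↔ g.1.1 ∈ frob253 := Iff.rfl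

theorem frobIn_card_eq : Nat.card frobIn = Nat.card frob253 :=
  Nat.card_congr
    { toFun := fun g => ⟨g.1.1.1, g.2⟩
      invFun := fun g => ⟨⟨⟨g.1, (frob253_le g.2).1⟩, (frob253_le g.2).2⟩, g.2⟩
      left_inv := fun _ => rfl
      right_inv := fun _ => rfl }

theorem sG_mem_frobIn : sG ∈ frobIn :=
  mem_frobIn.2 (Subgroup.subset_closure (Or.inl rfl))

theorem frobIn_eq_normalizer : frobIn =
    Subgroup.normalizer ((Subgroup.zpowers sG : Subgroup (PtStab (none : GolayPt))) :
      Set (PtStab (none : GolayPt))) := by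
  have hsub : ∀ g, g ∈ ({shiftPerm} ∪ sqScalings : Set (Equiv.Perm GolayPt)) →
      ∀ hg : g ∈ M24 ⊓ MulAction.stabilizer (Equiv.Perm GolayPt) (none : GolayPt),
      (⟨⟨g, hg.1⟩, hg.2⟩ : PtStab (none : GolayPt)) ∈
        Subgroup.normalizer ((Subgroup.zpowers sG : Subgroup (PtStab (none : GolayPt))) :
          Set (PtStab (none : GolayPt))) := by
    rintro g (hg | hg) hg'
    · rw [Set.mem_singleton_iff] at hg
      subst hg
      exact Subgroup.le_normalizer (Subgroup.mem_zpowers sG)
    · obtain ⟨k, rfl⟩ := scaling_pow hg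
      have h1 : (⟨⟨permOf mul2Code, permOf_mem_M24 mul2_aut.1⟩, (scalings_mem mul2_mem_scalings).2⟩ :
          PtStab (none : GolayPt)) ∈ Subgroup.normalizer ((Subgroup.zpowers sG :
            Subgroup (PtStab (none : GolayPt))) : Set (PtStab (none : GolayPt))) := by
        refine mem_normalizer_zpowers_of_conj (k := 2) ?_ (by rw [order_sG]; norm_num)
        rw [mul_inv_eq_iff_eq_mul]
        refine Subtype.ext (Subtype.ext (Equiv.ext fun y => ?_))
        show permOf mul2Code (shiftPerm y) = (shiftPerm * shiftPerm) (permOf mul2Code y)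
        rw [permOf_apply (permOK_of_isAut mul2_aut.1), permOf_apply (permOK_of_isAut mul2_aut.1)]
        revert y
        decide +kernel
      exact Subgroup.pow_mem _ h1 k
  refine Subgroup.eq_of_le_of_card_ge (fun g hg => ?_) ?_
  · have key : ∀ x (hx : x ∈ frob253), (⟨⟨x, (frob253_le hx).1⟩, (frob253_le hx).2⟩ :
        PtStab (none : GolayPt)) ∈ Subgroup.normalizer ((Subgroup.zpowers sG :
          Subgroup (PtStab (none : GolayPt))) : Set (PtStab (none : GolayPt))) := by
      intro x hx
      induction hx using Subgroup.closure_induction with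
      | mem y hy => exact hsub y hy (frob253_le (Subgroup.subset_closure hy))
      | one => exact Subgroup.one_mem _
      | mul a b _ _ iha ihb => exact Subgroup.mul_mem _ iha ihb
      | inv a _ ih => exact Subgroup.inv_mem _ ih
    exact key g.1.1 hg
  · rw [ptStab_normalizer_shift]
    have h1 := Subgroup.orderOf_dvd_natCard frobIn sG_mem_frobIn
    rw [order_sG] at h1
    have hm : (⟨⟨permOf mul2Code, permOf_mem_M24 mul2_aut.1⟩, (scalings_mem mul2_mem_scalings).2⟩ :
        PtStab (none : GolayPt)) ∈ frobIn :=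
      mem_frobIn.2 (Subgroup.subset_closure (Or.inr mul2_mem_scalings))
    have h2 := Subgroup.orderOf_dvd_natCard frobIn hm
    haveI := Fact.mk (by norm_num : Nat.Prime 11)
    rw [orderOf_eq_prime (p := 11) ?_ ?_] at h2
    · exact Nat.le_of_dvd Nat.card_pos
        (Nat.Coprime.mul_dvd_of_dvd_of_dvd (by norm_num : Nat.Coprime 23 11) h1 h2)
    · refine Subtype.ext (Subtype.ext (Equiv.ext fun y => ?_))
      show (permOf mul2Code ^ 11) y = y
      rw [Equiv.Perm.coe_pow, show (⇑(permOf mul2Code) : GolayPt → GolayPt) = permFun mul2Code from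
        funext (permOf_apply (permOK_of_isAut mul2_aut.1))]
      revert y
      decide +kernel
    · intro e
      have h := congrArg (fun g : PtStab (none : GolayPt) => g.1.1 (some 1)) e
      revert h
      show permOf mul2Code (some 1) = some 1 → False
      rw [permOf_apply (permOK_of_isAut mul2_aut.1)]; decide +kernel

theorem frob253_card : Nat.card frob253 = 253 := by
  rw [← frobIn_card_eq, frobIn_eq_normalizer, ptStab_normalizer_shift]

theorem stdM22_order_table (K : Subgroup StdM22) (j : ℕ)
    (hj : j = 24 ∨ j = 70 ∨ j = 576 ∨ j = 1680) : Nat.card K ≠ 11 * j := by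
  intro hK
  haveI := Fact.mk (by norm_num : Nat.Prime 11)
  obtain ⟨y, hy⟩ := exists_prime_orderOf_dvd_card' 11 (hK ▸ dvd_mul_right 11 j)
  have hPG : ∀ z : StdM22, orderOf z = 11 →
      ∃ P : Sylow 11 StdM22, (P : Subgroup StdM22) = Subgroup.zpowers z := by
    intro z hz
    refine ⟨Sylow.ofCard (Subgroup.zpowers z) ?_, rfl⟩
    rw [Nat.card_zpowers, hz, stdM22_card, show (443520 : ℕ) = 11 * 40320 by norm_num,
      Nat.factorization_mul (by norm_num) (by norm_num)]
    simp [Nat.factorization_eq_zero_of_not_dvd (show ¬ 11 ∣ 40320 by norm_num),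
      (show Nat.Prime 11 by norm_num).factorization_self]
  obtain ⟨P1, hP1⟩ := hPG y.1 (by rw [Subgroup.orderOf_coe]; exact hy)
  obtain ⟨P2, hP2⟩ := hPG eG order_eG
  obtain ⟨t, ht⟩ := MulAction.exists_smul_eq StdM22 P1 P2
  have hmem : eG ∈ K.map (MulAut.conj t).toMonoidHom := by
    have h1 : eG ∈ (P2 : Subgroup StdM22) := hP2 ▸ Subgroup.mem_zpowers eG
    rw [← ht, Sylow.coe_subgroup_smul, hP1] at h1
    obtain ⟨z, hz, e⟩ := h1
    exact ⟨z, Subgroup.zpowers_le.2 y.2 hz, e⟩
  obtain ⟨d, hd, h11, hdiv, hmod⟩ := sylow_count_in (m := j) (by norm_num : Nat.Prime 11)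
    (K.map (MulAut.conj t).toMonoidHom)
    (by rw [Nat.card_congr ((Subgroup.equivMapOfInjective K (MulAut.conj t).toMonoidHom
      (MulAut.conj t).injective).toEquiv.symm), hK]) (by omega) hmem order_eG
  have hN := Subgroup.card_dvd_of_le (inf_le_left :
    Subgroup.normalizer ((Subgroup.zpowers eG : Subgroup StdM22) : Set StdM22) ⊓
      K.map (MulAut.conj t).toMonoidHom ≤ _)
  rw [norm_eG_card, ← hd] at hN
  have hdle := Nat.le_of_dvd (by norm_num) hN
  obtain ⟨e, rfl⟩ := h11
  have he : e ≤ 5 := by omega
  rcases hj with rfl | rfl | rfl | rfl <;> interval_cases e <;>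
    revert hN hmod hdiv <;> norm_num

theorem over_frob253_sizes : ∀ j, j ∣ 40320 → j % 23 = 1 →
    j = 1 ∨ j = 24 ∨ j = 70 ∨ j = 576 ∨ j = 1680 ∨ j = 40320 := by
  intro j h1 h2
  have key : ∀ d ∈ Nat.divisors 40320, d % 23 = 1 →
      d = 1 ∨ d = 24 ∨ d = 70 ∨ d = 576 ∨ d = 1680 ∨ d = 40320 := by decide +kernel
  exact key j (Nat.mem_divisors.2 ⟨h1, by norm_num⟩) h2

theorem frobIn_coatom : IsCoatom frobIn := by
  classical
  have hA : Nat.card frobIn = 253 := by rw [frobIn_card_eq, frob253_card]
  refine ⟨fun h => ?_, fun K hK => ?_⟩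
  · rw [h, Subgroup.card_top, ptStab_card] at hA
    norm_num at hA
  obtain ⟨j, hj⟩ := Subgroup.card_dvd_of_le hK.le
  rw [hA] at hj
  have hdK := Subgroup.card_subgroup_dvd_card K
  rw [ptStab_card, hj, show (10200960 : ℕ) = 253 * 40320 by norm_num] at hdK
  have hj2 : j ∣ 40320 := (Nat.mul_dvd_mul_iff_left (by norm_num)).1 hdK
  have hnd : ¬ 23 ∣ 11 * j := by
    intro h
    rcases (Nat.Prime.dvd_mul (by norm_num : Nat.Prime 23)).1 h with h | h
    · norm_num at h
    · have := h.trans hj2; norm_num at this
  obtain ⟨d, hd, -, -, hmod⟩ := sylow_count_in (m := 11 * j) (by norm_num : Nat.Prime 23) K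
    (by rw [hj]; ring) hnd (hK.le sG_mem_frobIn) order_sG
  rw [← frobIn_eq_normalizer, inf_eq_left.2 hK.le, hA] at hd
  subst hd
  have hjm : j % 23 = 1 := by
    rwa [show 23 * (11 * j) = 253 * j by ring, Nat.mul_div_cancel_left j (by norm_num)] at hmod
  rcases over_frob253_sizes j hj2 hjm with h | h | h | h | h | h
  · exfalso
    exact hK.ne (Subgroup.eq_of_le_of_card_ge hK.le (by rw [hA, hj, h]))
  rotate_left 4
  · refine Subgroup.eq_of_le_of_card_ge le_top ?_
    rw [Subgroup.card_top, ptStab_card, hj, h]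
  all_goals
    exfalso
    have hjc : j = 24 ∨ j = 70 ∨ j = 576 ∨ j = 1680 := by omega
    have htr : ∀ y : GolayPt, y ≠ none → ∃ k ∈ K, k • (some 0 : GolayPt) = y := by
      intro y hy
      obtain ⟨v, rfl⟩ := Option.ne_none_iff_exists'.1 hy
      refine ⟨sG ^ v.val, Subgroup.pow_mem _ (hK.le sG_mem_frobIn) _, ?_⟩
      show (sG ^ v.val).1.1 (some 0) = some v
      rw [SubmonoidClass.coe_pow, SubmonoidClass.coe_pow]
      show (shiftPerm ^ v.val) (some 0) = some v
      have happ : ∀ (k : ℕ) (x : ZMod 23), (shiftPerm ^ k) (some x) = some (x + k) := by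
        intro k
        induction k with
        | zero => intro x; simp
        | succ k ih =>
          intro x
          rw [pow_succ, Equiv.Perm.mul_apply]
          show (shiftPerm ^ k) (some (x + 1)) = _
          rw [ih, Nat.cast_succ, add_assoc, add_comm (1 : ZMod 23)]
      rw [happ, zero_add, ZMod.natCast_zmod_val]
    have hsplit := card_eq_ncard_mul_stab K (some 0 : GolayPt) ({none}ᶜ : Set GolayPt)
      (fun t ht => htr t ht) (fun k _ e => by
        have := k.1.1.injective ((Set.mem_singleton_iff.1 e).trans k.2.symm)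
        cases this)
    rw [Set.ncard_compl, Set.ncard_singleton, Nat.card_eq_fintype_card (α := GolayPt), card_golayPt,
      hj] at hsplit
    obtain ⟨c, hc, e1, e2⟩ := exists_mem_M24_two (p := (none : GolayPt)) (q := some 0)
      (by simp) (show pt 22 ≠ pt 23 by decide +kernel)
    let f : ↥(K ⊓ MulAction.stabilizer (PtStab (none : GolayPt)) (some 0 : GolayPt)) →* StdM22 :=
      { toFun := fun k => ⟨c * k.1.1.1 * c⁻¹, ⟨Subgroup.mul_mem M24
            (Subgroup.mul_mem M24 hc k.1.1.2) (Subgroup.inv_mem M24 hc), by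
          show (c * k.1.1.1 * c⁻¹) (pt 22) = pt 22
          rw [← e1, Equiv.Perm.mul_apply, Equiv.Perm.mul_apply, Equiv.Perm.inv_def,
            Equiv.symm_apply_apply, show k.1.1.1 none = none from k.1.2]⟩, by
          show (c * k.1.1.1 * c⁻¹) (pt 23) = pt 23
          rw [← e2, Equiv.Perm.mul_apply, Equiv.Perm.mul_apply, Equiv.Perm.inv_def,
            Equiv.symm_apply_apply, show k.1.1.1 (some 0) = some 0 from k.2.2]⟩
        map_one' := Subtype.ext (by simp)
        map_mul' := fun k l => Subtype.ext (by simp only [Subgroup.coe_mul]; group) }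
    have hf : Function.Injective f := by
      intro k l hkl
      have h := congrArg Subtype.val hkl
      exact Subtype.ext (Subtype.ext (Subtype.ext (mul_left_cancel (mul_right_cancel h))))
    refine stdM22_order_table f.range j hjc ?_
    rw [Nat.card_congr (MonoidHom.ofInjective hf).toEquiv.symm]
    omega

/-- Cyclic orientation of a triple on the projective line. -/
def orient : GolayPt → GolayPt → GolayPt → Bool
  | some a, some b, some c => decide (((a - b) * (b - c) * (c - a)) ^ 11 = 1)
  | none, some b, some c => decide ((-(b - c)) ^ 11 = 1)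
  | some a, none, some c => decide ((-(c - a)) ^ 11 = 1)
  | some a, some b, none => decide ((-(a - b)) ^ 11 = 1)
  | _, _, _ => false

theorem orient_gens : ∀ a b c : GolayPt,
    orient (shiftPerm a) (shiftPerm b) (shiftPerm c) = orient a b c ∧
    orient (permFun projInvCode a) (permFun projInvCode b) (permFun projInvCode c) = orient a b c ∧
    orient (permFun mul2Code a) (permFun mul2Code b) (permFun mul2Code c) = orient a b c := by
  decide +kernel

theorem psl23_orient {g : Equiv.Perm GolayPt} (hg : g ∈ psl23) :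
    ∀ a b c : GolayPt, orient (g a) (g b) (g c) = orient a b c := by
  induction hg using Subgroup.closure_induction with
  | mem y hy =>
    intro a b c
    rcases hy with (hy | hy) | hy
    · rw [hy]; exact (orient_gens a b c).1
    · rw [Set.mem_singleton_iff.1 hy, projInv_eq,
        permOf_apply (c := projInvCode) (by decide +kernel),
        permOf_apply (c := projInvCode) (by decide +kernel),
        permOf_apply (c := projInvCode) (by decide +kernel)]
      exact (orient_gens a b c).2.1
    · obtain ⟨k, rfl⟩ := scaling_pow hy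
      clear hy
      induction k generalizing a b c with
      | zero => rfl
      | succ k ih =>
        rw [pow_succ, Equiv.Perm.mul_apply, Equiv.Perm.mul_apply, Equiv.Perm.mul_apply, ih,
          permOf_apply (permOK_of_isAut mul2_aut.1), permOf_apply (permOK_of_isAut mul2_aut.1),
          permOf_apply (permOK_of_isAut mul2_aut.1)]
        exact (orient_gens a b c).2.2
  | one => intros; rfl
  | mul x y _ _ ihx ihy => intro a b c; exact (ihx _ _ _).trans (ihy a b c)
  | inv x _ ih =>
    intro a b c
    have h := ih (x⁻¹ a) (x⁻¹ b) (x⁻¹ c)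
    simp only [Equiv.Perm.inv_def, Equiv.apply_symm_apply] at h
    simp only [Equiv.Perm.inv_def]
    exact h.symm

theorem psl23_transitive (y : GolayPt) : ∃ g ∈ psl23, g none = y := by
  cases y with
  | none => exact ⟨1, one_mem _, rfl⟩
  | some v =>
    have hs : shiftPerm ∈ psl23 := Subgroup.subset_closure (Or.inl (Or.inl rfl))
    have hi : Cfsg.projInv ∈ psl23 := Subgroup.subset_closure (Or.inl (Or.inr rfl))
    refine ⟨shiftPerm ^ v.val * Cfsg.projInv, psl23.mul_mem (psl23.pow_mem hs _) hi, ?_⟩
    have h0 : Cfsg.projInv none = some 0 := by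
      rw [projInv_eq, permOf_apply (by decide +kernel)]; decide +kernel
    rw [Equiv.Perm.mul_apply, h0]
    have happ : ∀ (k : ℕ) (x : ZMod 23), (shiftPerm ^ k) (some x) = some (x + k) := by
      intro k
      induction k with
      | zero => intro x; simp
      | succ k ih =>
        intro x
        rw [pow_succ, Equiv.Perm.mul_apply]
        show (shiftPerm ^ k) (some (x + 1)) = _
        rw [ih, Nat.cast_succ, add_assoc, add_comm (1 : ZMod 23)]
    rw [happ, zero_add, ZMod.natCast_zmod_val]

theorem over_psl23 (H : Subgroup M24) (hH : psl23.subgroupOf M24 ≤ H) :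
    H = ⊤ ∨ Nat.card H = 6072 := by
  have hsplit := card_eq_ncard_mul_stab H (none : GolayPt) Set.univ
    (fun t _ => by
      obtain ⟨g, hg, e⟩ := psl23_transitive t
      exact ⟨⟨g, psl23_le hg⟩, hH hg, e⟩) (fun _ _ => trivial)
  rw [Set.ncard_univ, Nat.card_eq_fintype_card (α := GolayPt), card_golayPt] at hsplit
  set K : Subgroup (PtStab (none : GolayPt)) := H.subgroupOf (PtStab (none : GolayPt))
  have hK : Nat.card K = Nat.card ↥(H ⊓ MulAction.stabilizer M24 (none : GolayPt)) := by
    rw [show K = (H ⊓ PtStab (none : GolayPt)).subgroupOf (PtStab (none : GolayPt)) from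
      (Subgroup.inf_subgroupOf_right _ _).symm]
    exact Nat.card_congr (Subgroup.subgroupOfEquivOfLe inf_le_right).toEquiv
  have hle : frobIn ≤ K := fun g hg => hH (Subgroup.mem_subgroupOf.2
    (Subgroup.closure_mono (by
      rintro x (hx | hx)
      · exact Or.inl (Or.inl hx)
      · exact Or.inr hx) hg))
  rcases hle.lt_or_eq with hlt | heq
  · left
    have h := frobIn_coatom.2 K hlt
    rw [h, Subgroup.card_top, ptStab_card] at hK
    refine Subgroup.eq_of_le_of_card_ge le_top ?_
    rw [Subgroup.card_top, M24_card, hsplit, ← hK]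
  · right
    rw [← heq, frobIn_card_eq, frob253_card] at hK
    rw [hsplit, ← hK]

theorem psl23_ne_top : psl23.subgroupOf M24 ≠ ⊤ := by
  intro h
  obtain ⟨g, hg, e1, e2, e3⟩ := exists_mem_M24_three
    (p := (none : GolayPt)) (q := some 0) (r := some 1)
    (p' := some 0) (q' := none) (r' := some 1)
    (by decide +kernel) (by decide +kernel) (by decide +kernel) (by decide +kernel) (by decide +kernel) (by decide +kernel)
  have hmem : g ∈ psl23 := by
    have : (⟨g, hg⟩ : M24) ∈ psl23.subgroupOf M24 := h ▸ Subgroup.mem_top _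
    exact this
  have := psl23_orient hmem none (some 0) (some 1)
  rw [e1, e2, e3] at this
  revert this
  decide +kernel

theorem psl23_card : Nat.card psl23 = 6072 := by
  rcases over_psl23 _ le_rfl with h | h
  · exact absurd h psl23_ne_top
  · rwa [Nat.card_congr (Subgroup.subgroupOfEquivOfLe psl23_le).toEquiv] at h

theorem psl23_coatom : IsCoatom (psl23.subgroupOf M24) := by
  refine ⟨psl23_ne_top, fun H hH => ?_⟩
  rcases over_psl23 H hH.le with h | h
  · exact h
  · refine absurd (Subgroup.eq_of_le_of_card_ge hH.le ?_) hH.ne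
    rw [h, Nat.card_congr (Subgroup.subgroupOfEquivOfLe psl23_le).toEquiv, psl23_card]

end Cfsg.Agent.Golay
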