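import Cfsg.Agent.Golay.Orbits

/-! Certified chains for groups inside the product of a symmetric group and a group given by codes. -/

set_option autoImplicit false
set_option maxRecDepth 20000

namespace Cfsg.Agent.Golay.PairChain

open scoped Pointwise

/-- Entry of a packed permutation, eight bits each. -/
def papp (c i : ℕ) : ℕ := (c >>> (8 * i)) &&& 255

/-- Union of the images. -/
def imgMask (N c : ℕ) : ℕ := (List.range N).foldl (fun a i => a ||| (1 <<< papp c i)) 0

/-- The code is a permutation. -/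
def pOK (N c : ℕ) : Bool :=
  (List.range N).all (fun i => decide (papp c i < N)) && (List.range N).all (fun j => (imgMask N c).testBit j)

theorem testBit_foldl (c : ℕ) : ∀ (l : List ℕ) (a j : ℕ),
    (l.foldl (fun a i => a ||| (1 <<< papp c i)) a).testBit j = true ↔
      a.testBit j = true ∨ ∃ i ∈ l, papp c i = j
  | [], a, j => by simp
  | i :: l, a, j => by
    rw [List.foldl_cons, testBit_foldl c l]
    simp [Nat.one_shiftLeft, Nat.testBit_two_pow, or_assoc]

/-- The action of a code. -/
def fn (N c : ℕ) (i : Fin N) : Fin N := ⟨papp c i % N, Nat.mod_lt _ i.pos⟩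

theorem fn_val {N c : ℕ} (h : pOK N c = true) (i : Fin N) : (fn N c i : ℕ) = papp c i := by
  simp only [pOK, Bool.and_eq_true, List.all_eq_true, List.mem_range, decide_eq_true_eq] at h
  exact Nat.mod_eq_of_lt (h.1 i i.2)

theorem fn_bij {N c : ℕ} (h : pOK N c = true) : Function.Bijective (fn N c) := by
  refine (Finite.surjective_iff_bijective).1 fun j => ?_
  have hv := fn_val h
  simp only [pOK, Bool.and_eq_true, List.all_eq_true, List.mem_range, imgMask,
    testBit_foldl, Nat.zero_testBit, Bool.false_eq_true, false_or] at h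
  obtain ⟨i, hi, e⟩ := h.2 j j.2
  exact ⟨⟨i, hi⟩, Fin.ext ((hv _).trans e)⟩

open scoped Classical in
/-- The permutation of a code. -/
noncomputable def pOf (N c : ℕ) : Equiv.Perm (Fin N) :=
  if h : pOK N c = true then Equiv.ofBijective (fn N c) (fn_bij h) else 1

theorem pOf_apply {N c : ℕ} (h : pOK N c = true) (i : Fin N) : (pOf N c i : ℕ) = papp c i := by
  rw [pOf, dif_pos h]; exact fn_val h i

/-- The operations on codes. -/
structure Ops (M : Type) where
  one : M
  mul : M → M → M
  adj : M → M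
  eqv : M → M → Bool
  unit : M → Bool

/-- A meaning of the codes in a group. -/
structure Sem {M : Type} (O : Ops M) (P : Type*) [Group P] where
  val : M → P
  Real : M → Prop
  real_one : Real O.one ∧ val O.one = 1
  real_mul : ∀ {X Y}, Real X → Real Y → Real (O.mul X Y) ∧ val (O.mul X Y) = val X * val Y
  real_eqv : ∀ {X Y}, Real X → O.eqv X Y = true → Real Y ∧ val X = val Y
  real_adj : ∀ {X}, Real X → O.unit X = true → Real (O.adj X) ∧ val (O.adj X) = (val X)⁻¹

/-- One level: base point, generators, transversal, witnesses, origins. -/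
structure CLvl (M : Type) where
  b : ℕ
  gens : List (ℕ × M)
  trans : List ((ℕ × M) × ℕ × ℕ)
  wit : List (ℕ × List ℕ)
  deriv : List (ℕ × ℕ × ℕ)

variable {M : Type}

/-- A transversal element. -/
def CLvl.t (O : Ops M) (L : CLvl M) (i : ℕ) : ℕ × M := (L.trans.getD i ((0, O.one), 0, 0)).1

/-- A generator. -/
def CLvl.g (O : Ops M) (L : CLvl M) (i : ℕ) : ℕ × M := L.gens.getD i (0, O.one)

/-- Generators of the head level. -/
def gensOf : List (CLvl M) → List (ℕ × M)
  | [] => []
  | L :: _ => L.gens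

/-- Product of representatives on a point. -/
def prodApp (O : Ops M) : List (CLvl M) → List ℕ → ℕ → ℕ
  | L :: rest, j :: js, i => papp (L.t O j).1 (prodApp O rest js i)
  | _, _, i => i

/-- Product of representatives, second part. -/
def prodM (O : Ops M) : List (CLvl M) → List ℕ → M
  | L :: rest, j :: js => O.mul (L.t O j).2 (prodM O rest js)
  | _, _ => O.one

/-- Indices are in range. -/
def idxOK : List (CLvl M) → List ℕ → Bool
  | L :: rest, j :: js => decide (j < L.trans.length) && idxOK rest js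
  | _, _ => true

/-- Product of the orbit lengths. -/
def total : List (CLvl M) → ℕ
  | [] => 1
  | L :: rest => L.trans.length * total rest

/-- One level is correct. -/
def lvlOK (O : Ops M) (N : ℕ) (L : CLvl M) (rest : List (CLvl M)) : Bool :=
  decide (L.b < N) && L.gens.all (fun c => pOK N c.1) && decide (0 < L.trans.length) &&
  ((List.range L.trans.length).all fun k =>
    pOK N (L.t O k).1 && O.unit (L.t O k).2 &&
      bif k == 0 then ((List.range N).all (fun i => papp (L.t O k).1 i == i) && O.eqv O.one (L.t O k).2)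
      else
        let e := L.trans.getD k ((0, O.one), 0, 0)
        decide (e.2.2 < k) && decide (e.2.1 < L.gens.length) &&
          ((List.range N).all fun i => papp (L.t O k).1 i == papp (L.g O e.2.1).1 (papp (L.t O e.2.2).1 i)) &&
          O.eqv (O.mul (L.g O e.2.1).2 (L.t O e.2.2).2) (L.t O k).2) &&
  ((List.range L.trans.length).all fun k => (List.range k).all fun l =>
    !(papp (L.t O k).1 L.b == papp (L.t O l).1 L.b)) &&
  ((List.range L.gens.length).all fun s => (List.range L.trans.length).all fun k =>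
    let w := L.wit.getD (s * L.trans.length + k) (0, [])
    decide (w.1 < L.trans.length) && idxOK rest w.2 &&
      ((List.range N).all fun i => papp (L.g O s).1 (papp (L.t O k).1 i) == papp (L.t O w.1).1 (prodApp O rest w.2 i)) &&
      O.eqv (O.mul (L.g O s).2 (L.t O k).2) (O.mul (L.t O w.1).2 (prodM O rest w.2))) &&
  ((List.range (gensOf rest).length).all fun j =>
    let d := L.deriv.getD j (0, 0, 0)
    let u := (gensOf rest).getD j (0, O.one)
    pOK N u.1 && decide (d.1 < L.gens.length) && decide (d.2.1 < L.trans.length) &&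
      decide (d.2.2 < L.trans.length) && papp u.1 L.b == L.b &&
      ((List.range N).all fun i => papp (L.g O d.1).1 (papp (L.t O d.2.1).1 i) == papp (L.t O d.2.2).1 (papp u.1 i)) &&
      O.eqv (O.mul (O.adj (L.t O d.2.2).2) (O.mul (L.g O d.1).2 (L.t O d.2.1).2)) u.2)

/-- The whole chain is correct. -/
def chainOK (O : Ops M) (N : ℕ) : List (CLvl M) → Bool
  | [] => true
  | L :: rest => lvlOK O N L rest && chainOK O N rest

section sem

variable {O : Ops M} {P : Type*} [Group P] [Finite P] (S : Sem O P) (N : ℕ)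

/-- The pair of a code. -/
noncomputable def sem (c : ℕ × M) : Equiv.Perm (Fin N) × P := (pOf N c.1, S.val c.2)

/-- The group at the head of a chain. -/
noncomputable def grp (Ls : List (CLvl M)) : Subgroup (Equiv.Perm (Fin N) × P) :=
  Subgroup.closure {p | ∃ c ∈ gensOf Ls, sem S N c = p}

/-- Facts read off from a correct level. -/
structure LvlFacts (L : CLvl M) (rest : List (CLvl M)) : Prop where
  hb : L.b < N
  hpos : 0 < L.trans.length
  tok : ∀ k < L.trans.length, pOK N (L.t O k).1 = true ∧ S.Real (L.t O k).2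
  gok : ∀ s < L.gens.length, pOK N (L.g O s).1 = true ∧ S.Real (L.g O s).2
  tid : sem S N (L.t O 0) = 1
  tmem : ∀ k < L.trans.length, sem S N (L.t O k) ∈ grp S N (L :: rest)
  tinj : ∀ k < L.trans.length, ∀ l < L.trans.length, papp (L.t O k).1 L.b = papp (L.t O l).1 L.b → k = l
  wit : ∀ s < L.gens.length, ∀ k < L.trans.length, ∃ v : ℕ × List ℕ, v.1 < L.trans.length ∧
    idxOK rest v.2 = true ∧
    (∀ i < N, papp (L.g O s).1 (papp (L.t O k).1 i) = papp (L.t O v.1).1 (prodApp O rest v.2 i)) ∧
      O.eqv (O.mul (L.g O s).2 (L.t O k).2) (O.mul (L.t O v.1).2 (prodM O rest v.2)) = true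
  next_mem : ∀ p ∈ grp S N rest, p ∈ grp S N (L :: rest) ∧ p.1 ⟨L.b, hb⟩ = ⟨L.b, hb⟩
  next_real : ∀ c ∈ gensOf rest, S.Real c.2

theorem lvlFacts {L : CLvl M} {rest : List (CLvl M)} (h : lvlOK O N L rest = true)
    (hreal : ∀ c ∈ L.gens, S.Real c.2) : LvlFacts S N L rest := by
  simp only [lvlOK, Bool.and_eq_true, List.all_eq_true, List.mem_range, decide_eq_true_eq] at h
  obtain ⟨⟨⟨⟨⟨⟨hb, hg⟩, hpos⟩, ht⟩, hn⟩, hwit⟩, hd⟩ := h
  have gok : ∀ s < L.gens.length, pOK N (L.g O s).1 = true ∧ S.Real (L.g O s).2 := fun s hs => by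
    rw [CLvl.g, List.getD_eq_getElem _ _ hs]
    exact ⟨hg _ (List.getElem_mem hs), hreal _ (List.getElem_mem hs)⟩
  have gmem : ∀ s < L.gens.length, sem S N (L.g O s) ∈ grp S N (L :: rest) := fun s hs =>
    Subgroup.subset_closure ⟨_, by rw [CLvl.g, List.getD_eq_getElem _ _ hs]; exact List.getElem_mem hs, rfl⟩
  have pk : ∀ k < L.trans.length, pOK N (L.t O k).1 = true := fun k hk => (ht k hk).1.1
  obtain ⟨r0, tid⟩ : S.Real (L.t O 0).2 ∧ sem S N (L.t O 0) = 1 := by
    have h0 := (ht 0 hpos).2
    simp only [beq_self_eq_true, cond_true, Bool.and_eq_true, List.all_eq_true, List.mem_range, beq_iff_eq] at h0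
    obtain ⟨r1, e1⟩ := S.real_one
    obtain ⟨r2, e2⟩ := S.real_eqv r1 h0.2
    refine ⟨r2, Prod.ext ?_ (e2.symm.trans e1)⟩
    ext i
    show (pOf N (L.t O 0).1 i : ℕ) = _
    rw [pOf_apply (pk 0 hpos), h0.1 i i.2]
    rfl
  have tboth : ∀ k < L.trans.length, S.Real (L.t O k).2 ∧ sem S N (L.t O k) ∈ grp S N (L :: rest) := by
    intro k
    induction k using Nat.strong_induction_on with
    | _ k ih =>
      intro hk
      by_cases h0 : k = 0
      · subst h0; exact ⟨r0, tid ▸ one_mem _⟩
      · have h1 := (ht k hk).2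
        rw [show (k == 0) = false from beq_eq_false_iff_ne.2 h0] at h1
        simp only [cond_false, Bool.and_eq_true, decide_eq_true_eq, List.all_eq_true,
          List.mem_range, beq_iff_eq] at h1
        obtain ⟨⟨⟨hp, hs⟩, he⟩, hm⟩ := h1
        obtain ⟨rp, mp⟩ := ih _ hp (hp.trans hk)
        obtain ⟨rg, eg⟩ := S.real_mul (gok _ hs).2 rp
        obtain ⟨rk, ek⟩ := S.real_eqv rg hm
        refine ⟨rk, ?_⟩
        have e : sem S N (L.t O k) = sem S N (L.g O (L.trans.getD k ((0, O.one), 0, 0)).2.1) *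
            sem S N (L.t O (L.trans.getD k ((0, O.one), 0, 0)).2.2) := by
          refine Prod.ext ?_ (ek.symm.trans eg)
          ext i
          show (pOf N (L.t O k).1 i : ℕ) = (pOf N _ (pOf N _ i) : ℕ)
          rw [pOf_apply (pk k hk), he i i.2, pOf_apply (gok _ hs).1, pOf_apply (pk _ (hp.trans hk))]
        rw [e]
        exact mul_mem (gmem _ hs) mp
  have key : ∀ j (hj : j < (gensOf rest).length), S.Real ((gensOf rest)[j]).2 ∧
      sem S N ((gensOf rest)[j]) ∈ grp S N (L :: rest) ∧
      (sem S N ((gensOf rest)[j])).1 ⟨L.b, hb⟩ = ⟨L.b, hb⟩ := by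
    intro j hj
    have h1 := hd j hj
    simp only [Bool.and_eq_true, decide_eq_true_eq, List.all_eq_true, List.mem_range, beq_iff_eq,
      List.getD_eq_getElem _ _ hj] at h1
    obtain ⟨⟨⟨⟨⟨⟨hu, hs⟩, hk⟩, hl⟩, hfix⟩, he⟩, hm⟩ := h1
    obtain ⟨ra, ea⟩ := S.real_adj (tboth _ hl).1 (ht _ hl).1.2
    obtain ⟨rgt, egt⟩ := S.real_mul (gok _ hs).2 (tboth _ hk).1
    obtain ⟨rl, el'⟩ := S.real_mul ra rgt
    obtain ⟨ru, eu⟩ := S.real_eqv rl hm
    have e : sem S N ((gensOf rest)[j]) = (sem S N (L.t O (L.deriv.getD j (0, 0, 0)).2.2))⁻¹ *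
        (sem S N (L.g O (L.deriv.getD j (0, 0, 0)).1) * sem S N (L.t O (L.deriv.getD j (0, 0, 0)).2.1)) := by
      refine Prod.ext ?_ (by show S.val _ = (S.val _)⁻¹ * (S.val _ * S.val _); rw [← eu, el', ea, egt])
      show pOf N _ = (pOf N _)⁻¹ * (pOf N _ * pOf N _)
      rw [eq_inv_mul_iff_mul_eq]
      ext i
      show (pOf N _ (pOf N _ i) : ℕ) = (pOf N _ (pOf N _ i) : ℕ)
      rw [pOf_apply (pk _ hl), pOf_apply hu, pOf_apply (gok _ hs).1, pOf_apply (pk _ hk), ← he i i.2]
    refine ⟨ru, ?_, Fin.ext ?_⟩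
    · rw [e]
      exact (grp S N (L :: rest)).mul_mem ((grp S N (L :: rest)).inv_mem (tboth _ hl).2)
        ((grp S N (L :: rest)).mul_mem (gmem _ hs) (tboth _ hk).2)
    · show (pOf N ((gensOf rest)[j]).1 ⟨L.b, hb⟩ : ℕ) = L.b
      rw [pOf_apply hu]; exact hfix
  refine ⟨hb, hpos, fun k hk => ⟨pk k hk, (tboth k hk).1⟩, gok, tid, fun k hk => (tboth k hk).2, ?_, ?_, ?_, ?_⟩
  · intro k hk l hl e
    rcases Nat.lt_trichotomy k l with h | h | h
    · have := hn l hl k h; simp [e] at this
    · exact h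
    · have := hn k hk l h; simp [e] at this
  · intro s hs k hk
    have := hwit s hs k hk
    simp only [Bool.and_eq_true, decide_eq_true_eq, List.all_eq_true, List.mem_range, beq_iff_eq] at this
    exact ⟨_, this.1.1.1, this.1.1.2, this.1.2, this.2⟩
  · intro p hp
    let T : Subgroup (Equiv.Perm (Fin N) × P) :=
      (MulAction.stabilizer (Equiv.Perm (Fin N)) (⟨L.b, hb⟩ : Fin N)).comap (MonoidHom.fst _ _)
    have : grp S N rest ≤ grp S N (L :: rest) ⊓ T := by
      rw [grp, Subgroup.closure_le]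
      rintro _ ⟨c, hc, rfl⟩
      obtain ⟨j, hj, rfl⟩ := List.getElem_of_mem hc
      exact ⟨(key j hj).2.1, (key j hj).2.2⟩
    exact ⟨(this hp).1, (this hp).2⟩
  · intro c hc
    obtain ⟨j, hj, rfl⟩ := List.getElem_of_mem hc
    exact (key j hj).1

theorem chain_main : ∀ Ls : List (CLvl M), chainOK O N Ls = true → (∀ c ∈ gensOf Ls, S.Real c.2) →
    Nat.card (grp S N Ls) = total Ls ∧ (∀ p ∈ grp S N Ls, p.1 = 1 → p = 1) ∧ ∀ js, idxOK Ls js = true →
      S.Real (prodM O Ls js) ∧
      ∃ p ∈ grp S N Ls, (∀ i : Fin N, (p.1 i : ℕ) = prodApp O Ls js i) ∧ p.2 = S.val (prodM O Ls js)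
  | [], _, _ => by
    have hbot : grp S N [] = ⊥ := by
      rw [grp, Subgroup.closure_eq_bot_iff]
      rintro x ⟨c, hc, -⟩
      exact absurd hc List.not_mem_nil
    refine ⟨by rw [hbot, Subgroup.card_bot]; rfl, fun p hp _ => by rwa [hbot, Subgroup.mem_bot] at hp,
      fun js _ => ?_⟩
    have e : prodM O ([] : List (CLvl M)) js = O.one := by cases js <;> rfl
    rw [e]
    exact ⟨S.real_one.1, 1, one_mem _, fun i => by cases js <;> rfl, S.real_one.2.symm⟩
  | L :: rest, h, hreal => by
    rw [chainOK, Bool.and_eq_true] at h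
    have Fa := lvlFacts S N h.1 hreal
    obtain ⟨ihc, ihi, ihp⟩ := chain_main rest h.2 Fa.next_real
    let b : Fin N := ⟨L.b, Fa.hb⟩
    letI : MulAction (Equiv.Perm (Fin N) × P) (Fin N) :=
      MulAction.compHom (Fin N) (MonoidHom.fst (Equiv.Perm (Fin N)) P)
    have hdec : ∀ p ∈ grp S N (L :: rest), ∃ k < L.trans.length, ∃ q ∈ grp S N rest, p = sem S N (L.t O k) * q := by
      intro p hp
      have key : ∀ p ∈ Submonoid.closure {p | ∃ c ∈ L.gens, sem S N c = p},
          ∃ k < L.trans.length, ∃ q ∈ grp S N rest, p = sem S N (L.t O k) * q := by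
        intro p hp
        induction hp using Submonoid.closure_induction_left with
        | one => exact ⟨0, Fa.hpos, 1, one_mem _, by rw [Fa.tid, mul_one]⟩
        | mul_left x hx y _ ih =>
          obtain ⟨k, hk, q, hq, rfl⟩ := ih
          obtain ⟨c, hc, rfl⟩ := hx
          obtain ⟨s, hs, rfl⟩ := List.getElem_of_mem hc
          obtain ⟨⟨l, js⟩, hl, hjs, he, hm⟩ := Fa.wit s hs k hk
          obtain ⟨rr, r, hr, her, her2⟩ := ihp js hjs
          refine ⟨l, hl, r * q, mul_mem hr hq, ?_⟩
          rw [← mul_assoc, ← mul_assoc]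
          congr 1
          have hgs : L.g O s = L.gens[s] := List.getD_eq_getElem _ _ hs
          rw [← hgs]
          obtain ⟨r1, e1⟩ := S.real_mul (Fa.gok s hs).2 (Fa.tok k hk).2
          obtain ⟨r2, e2⟩ := S.real_mul (Fa.tok l hl).2 rr
          refine Prod.ext ?_ (by
            show S.val _ * S.val _ = S.val _ * r.2
            rw [her2, ← e1, ← e2, (S.real_eqv r1 hm).2])
          ext i
          show (pOf N _ (pOf N _ i) : ℕ) = (pOf N _ (r.1 i) : ℕ)
          rw [pOf_apply (Fa.gok s hs).1, pOf_apply (Fa.tok k hk).1, pOf_apply (Fa.tok l hl).1, her i]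
          exact he i i.2
      refine key p ?_
      rw [grp, ← Subgroup.mem_toSubmonoid, Subgroup.closure_toSubmonoid_of_finite] at hp
      exact hp
    have hT0 : ∀ k < L.trans.length, (pOf N (L.t O k).1 b : ℕ) = papp (L.t O k).1 L.b := fun k hk =>
      pOf_apply (Fa.tok k hk).1 b
    have hq_fix : ∀ q ∈ grp S N rest, q.1 b = b := fun q hq => (Fa.next_mem q hq).2
    have h2 : grp S N (L :: rest) ⊓ MulAction.stabilizer (Equiv.Perm (Fin N) × P) b = grp S N rest := by
      refine le_antisymm (fun p hp => ?_) (fun p hp => ⟨(Fa.next_mem p hp).1, hq_fix p hp⟩)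
      obtain ⟨k, hk, q, hq, rfl⟩ := hdec p hp.1
      have h' : pOf N (L.t O k).1 (q.1 b) = b := hp.2
      rw [hq_fix q hq] at h'
      have h0 : pOf N (L.t O 0).1 b = b := congrArg (fun p : Equiv.Perm (Fin N) × P => p.1 b) Fa.tid
      have e' := congrArg Fin.val (h'.trans h0.symm)
      rw [hT0 k hk, hT0 0 Fa.hpos] at e'
      rw [Fa.tinj k hk 0 Fa.hpos e', Fa.tid, one_mul]
      exact hq
    refine ⟨?_, fun p hp h1 => ihi p ?_ h1, ?_⟩
    · have hT : ((Finset.range L.trans.length).image fun k => pOf N (L.t O k).1 b).card = L.trans.length := by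
        rw [Finset.card_image_of_injOn, Finset.card_range]
        intro k hk l hl e
        rw [Finset.mem_coe, Finset.mem_range] at hk hl
        have := congrArg Fin.val e
        simp only [hT0 k hk, hT0 l hl] at this
        exact Fa.tinj k hk l hl this
      have h1 := card_eq_ncard_mul_stab (grp S N (L :: rest)) b
        (↑((Finset.range L.trans.length).image fun k => pOf N (L.t O k).1 b) : Set (Fin N))
        (fun t ht => by
          rw [Finset.mem_coe, Finset.mem_image] at ht
          obtain ⟨k, hk, rfl⟩ := ht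
          exact ⟨_, Fa.tmem k (Finset.mem_range.1 hk), rfl⟩)
        (fun p hp => by
          obtain ⟨k, hk, q, hq, rfl⟩ := hdec p hp
          rw [Finset.mem_coe, Finset.mem_image]
          refine ⟨k, Finset.mem_range.2 hk, ?_⟩
          show _ = pOf N (L.t O k).1 (q.1 b)
          rw [hq_fix q hq])
      rw [Set.ncard_coe_finset, hT] at h1
      rw [h1, h2, ihc]
      rfl
    · rw [← h2]
      exact ⟨hp, by show p.1 b = b; rw [h1]; rfl⟩
    · intro js hjs
      cases js with
      | nil => exact ⟨S.real_one.1, 1, one_mem _, fun i => rfl, S.real_one.2.symm⟩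
      | cons j js =>
        simp only [idxOK, Bool.and_eq_true, decide_eq_true_eq] at hjs
        obtain ⟨rr, r, hr, her, her2⟩ := ihp js hjs.2
        obtain ⟨r2, e2⟩ := S.real_mul (Fa.tok j hjs.1).2 rr
        refine ⟨r2, sem S N (L.t O j) * r, mul_mem (Fa.tmem j hjs.1) (Fa.next_mem r hr).1, fun i => ?_, ?_⟩
        · show (pOf N (L.t O j).1 (r.1 i) : ℕ) = _
          rw [pOf_apply (Fa.tok j hjs.1).1, her i]
          rfl
        · show S.val (L.t O j).2 * r.2 = _
          rw [her2]
          exact e2.symm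

end sem

end Cfsg.Agent.Golay.PairChain
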