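import Cfsg.Agent.Golay.Quartets

/-! Orbits of a quartet stabiliser on the quartets of its dodecad. -/

set_option autoImplicit false
set_option maxRecDepth 20000

namespace Cfsg.Agent.Golay

open scoped Pointwise
open Cfsg.Agent.M24Orbits (Fam Part ascB toSet actL collectL distinctB partList)

/-- An invariant of two families. -/
def crossW (R X : Fam) : ℕ := ∑ a ∈ R, ∑ b ∈ X, ((a ∩ b).card ^ 2 + (a ∩ b).card ^ 3)

/-- The invariant on lists. -/
def crossWL (R X : List ℕ) : ℕ :=
  (R.map fun a => (X.map fun b => pc (a &&& b) ^ 2 + pc (a &&& b) ^ 3).sum).sum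

theorem crossW_smul (g : Equiv.Perm GolayPt) (R X : Fam) : crossW (g • R) (g • X) = crossW R X := by
  unfold crossW
  rw [← Finset.image_smul, Finset.sum_image (fun _ _ _ _ h => MulAction.injective g h)]
  refine Finset.sum_congr rfl fun a _ => ?_
  rw [← Finset.image_smul, Finset.sum_image (fun _ _ _ _ h => MulAction.injective g h)]
  refine Finset.sum_congr rfl fun b _ => ?_
  rw [← Finset.smul_finset_inter, Finset.card_smul_finset]

theorem crossWL_eq {R X : List ℕ} (hR : ascB R = true) (hX : ascB X = true) :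
    crossW (toSet R) (toSet X) = crossWL R X := by
  have hnd : ∀ {l : List ℕ}, ascB l = true → (l.map bset).Nodup := by
    intro l hl
    obtain ⟨h1, h2⟩ := M24Orbits.ascB_spec hl
    exact List.Nodup.map_on (fun x hx y hy e => eq_of_bset_eq (h2 x hx) (h2 y hy) e)
      (h1.imp fun h => h.ne)
  unfold crossW crossWL toSet
  rw [List.sum_toFinset _ (hnd hR), List.map_map]
  refine congrArg List.sum (List.map_congr_left fun a _ => ?_)
  simp only [Function.comp]
  rw [List.sum_toFinset _ (hnd hX), List.map_map]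
  refine congrArg List.sum (List.map_congr_left fun b _ => ?_)
  simp only [Function.comp]
  rw [← bset_and, card_bset]

/-- Quartets reached inside the stabiliser of a dodecad and a quartet. -/
def qOrbit (d : Finset GolayPt) (Q X : Fam) : Set Fam :=
  {Y | ∃ g ∈ M24, g • d = d ∧ g • Q = Q ∧ g • X = Y}

/-- The five certificates. -/
def quartParts : List Part := [quartPart0, quartPart1, quartPart2, quartPart3, quartPart4]

theorem quartParts_ok :
    quartStGens.all (fun c => isAut c && mapMask c sqMask == sqMask && actL c quartPart0.2.1 == quartPart0.2.1)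
      = true ∧
    quartParts.all (fun P => quartList.contains P.2.1 && (partList quartStGens P).length == P.2.2.2 &&
      (partList quartStGens P).all fun x => ascB x && crossWL quartPart0.2.1 x == P.2.2.1) = true ∧
    distinctB (quartParts.flatMap (partList quartStGens)) = true ∧
    (quartParts.map fun P => P.2.2.1).Nodup ∧ (quartParts.map fun P => P.2.2.2).sum = 220 := by
  decide +kernel

theorem quartet_orbits_std :
    (∀ P ∈ quartParts, toSet P.2.1 ∈ quartets (bset sqMask) ∧
      (qOrbit (bset sqMask) (toSet quartPart0.2.1) (toSet P.2.1)).ncard = P.2.2.2) ∧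
    ∀ X ∈ quartets (bset sqMask), ∃ P ∈ quartParts,
      X ∈ qOrbit (bset sqMask) (toSet quartPart0.2.1) (toSet P.2.1) := by
  classical
  obtain ⟨hg, hP, hd, hk, hsum⟩ := quartParts_ok
  simp only [List.all_eq_true, Bool.and_eq_true, beq_iff_eq, List.contains_iff_mem] at hg hP
  set R := toSet quartPart0.2.1
  have hH : ∀ c ∈ quartStGens, permOK c = true ∧ permOf c ∈ M24 ⊓
      MulAction.stabilizer (Equiv.Perm GolayPt) (bset sqMask) ⊓ MulAction.stabilizer (Equiv.Perm GolayPt) R := by
    intro c hc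
    obtain ⟨⟨ha, hm⟩, hl⟩ := hg c hc
    have hok := permOK_of_isAut ha
    refine ⟨hok, ⟨permOf_mem_M24 ha, ?_⟩, ?_⟩
    · show permOf c • bset sqMask = bset sqMask
      rw [← bset_mapMask hok, hm]
    · show permOf c • R = R
      rw [← M24Orbits.toSet_actL hok, hl]
  have hroot : ∀ P ∈ quartParts, toSet P.2.1 ∈ quartets (bset sqMask) := fun P hPm => by
    rw [quartets_std]; exact ⟨_, (hP P hPm).1.1, rfl⟩
  have hmem : ∀ P ∈ quartParts, ∀ x ∈ partList quartStGens P,
      toSet x ∈ qOrbit (bset sqMask) R (toSet P.2.1) := by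
    intro P _ x hx
    obtain ⟨g, hg', e⟩ := M24Orbits.collectL_spec quartStGens _ hH P.2.1 P.1 P.2.1 [P.2.1]
      ⟨1, one_mem _, one_smul _ _⟩
      (by intro y hy; rw [List.mem_singleton] at hy; subst hy; exact ⟨1, one_mem _, one_smul _ _⟩) x hx
    exact ⟨g, hg'.1.1, hg'.1.2, hg'.2, e⟩
  have hsub : ∀ P ∈ quartParts, qOrbit (bset sqMask) R (toSet P.2.1) ⊆ quartets (bset sqMask) := by
    rintro P hPm Y ⟨g, hg', hgd, -, rfl⟩
    have := smul_quartets hg' (hroot P hPm)
    rwa [hgd] at this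
  set L := quartParts.flatMap (partList quartStGens) with hL
  have hasc : ∀ x ∈ L, ascB x = true := fun x hx => by
    obtain ⟨P, hPm, hx⟩ := List.mem_flatMap.1 hx
    exact ((hP P hPm).2 x hx).1
  have hinj : ∀ x ∈ L, ∀ y ∈ L, toSet x = toSet y → x = y := fun x hx y hy e =>
    M24Orbits.toSet_injOn (hasc x hx) (hasc y hy) e
  have hnd := M24Orbits.nodup_of_distinctB hd
  have hlen : L.length = 220 := by
    rw [hL, List.length_flatMap, ← hsum]
    exact congrArg List.sum (List.map_congr_left fun P hPm => (hP P hPm).1.2)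
  have hAeq : quartets (bset sqMask) = ((L.map toSet).toFinset : Set Fam) := by
    refine (Set.eq_of_subset_of_ncard_le ?_ ?_ (Set.toFinite _)).symm
    · intro X hX
      simp only [Finset.mem_coe, List.mem_toFinset, List.mem_map] at hX
      obtain ⟨x, hx, rfl⟩ := hX
      obtain ⟨P, hPm, hx⟩ := List.mem_flatMap.1 hx
      exact hsub P hPm (hmem P hPm x hx)
    · rw [Set.ncard_coe_finset, quartets_std_ncard, List.toFinset_card_of_nodup, List.length_map, hlen]
      exact List.Nodup.map_on hinj hnd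
  have hcov : ∀ X ∈ quartets (bset sqMask), ∃ P ∈ quartParts, ∃ x ∈ partList quartStGens P, X = toSet x := by
    intro X hX
    rw [hAeq, Finset.mem_coe, List.mem_toFinset, List.mem_map] at hX
    obtain ⟨x, hx, rfl⟩ := hX
    obtain ⟨P, hPm, hx⟩ := List.mem_flatMap.1 hx
    exact ⟨P, hPm, x, hx, rfl⟩
  have hR : ascB quartPart0.2.1 = true := by decide +kernel
  refine ⟨fun P hPm => ⟨hroot P hPm, ?_⟩, fun X hX => ?_⟩
  · have hset : qOrbit (bset sqMask) R (toSet P.2.1) =
        (((partList quartStGens P).map toSet).toFinset : Set Fam) := by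
      ext X
      simp only [Finset.mem_coe, List.mem_toFinset, List.mem_map]
      constructor
      · intro hX
        obtain ⟨Q, hQm, x, hx, rfl⟩ := hcov X (hsub P hPm hX)
        obtain ⟨g, hg', -, hgR, e⟩ := hX
        have hroot' : P.2.1 ∈ partList quartStGens P :=
          M24Orbits.partsOK_spec.collectL_acc _ _ _ _ _ (List.mem_singleton_self _)
        have e1 : crossW R (toSet x) = P.2.2.1 := by
          rw [← e]
          conv_lhs => rw [← hgR, crossW_smul]
          rw [crossWL_eq hR ((hP P hPm).2 _ hroot').1]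
          exact ((hP P hPm).2 _ hroot').2
        rw [crossWL_eq hR ((hP Q hQm).2 x hx).1, ((hP Q hQm).2 x hx).2] at e1
        exact ⟨x, (List.inj_on_of_nodup_map hk hQm hPm e1) ▸ hx, rfl⟩
      · rintro ⟨x, hx, rfl⟩; exact hmem P hPm x hx
    rw [hset, Set.ncard_coe_finset, List.toFinset_card_of_nodup, List.length_map, (hP P hPm).1.2]
    refine List.Nodup.map_on (fun x hx y hy e => hinj x (List.mem_flatMap.2 ⟨P, hPm, hx⟩) y
      (List.mem_flatMap.2 ⟨P, hPm, hy⟩) e) ?_
    exact (List.nodup_flatMap.1 hnd).1 P hPm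
  · obtain ⟨P, hPm, x, hx, rfl⟩ := hcov X hX
    exact ⟨P, hPm, hmem P hPm x hx⟩

theorem qOrbit_conj {g : Equiv.Perm GolayPt} (hg : g ∈ M24) (d : Finset GolayPt) (Q X : Fam) :
    qOrbit (g • d) (g • Q) (g • X) = (g • ·) '' qOrbit d Q X := by
  ext Y
  constructor
  · rintro ⟨h, hh, h1, h2, h3⟩
    refine ⟨g⁻¹ • Y, ⟨g⁻¹ * h * g, mul_mem (mul_mem (inv_mem hg) hh) hg, ?_, ?_, ?_⟩, smul_inv_smul g Y⟩
    · rw [mul_smul, mul_smul, h1, inv_smul_smul]
    · rw [mul_smul, mul_smul, h2, inv_smul_smul]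
    · rw [mul_smul, mul_smul, h3]
  · rintro ⟨Z, ⟨h, hh, h1, h2, h3⟩, rfl⟩
    refine ⟨g * h * g⁻¹, mul_mem (mul_mem hg hh) (inv_mem hg), ?_, ?_, ?_⟩
    · rw [mul_smul, inv_smul_smul, mul_smul, h1]
    · rw [mul_smul, inv_smul_smul, mul_smul, h2]
    · rw [mul_smul, inv_smul_smul, mul_smul, h3]

theorem quartet_orbit_eq (d : Finset GolayPt) (Q X : Fam) :
    MulAction.orbit ↥(MulAction.stabilizer M24 d ⊓ MulAction.stabilizer M24 Q) X = qOrbit d Q X := by
  ext Y
  constructor
  · rintro ⟨g, rfl⟩; exact ⟨g.1.1, g.1.2, g.2.1, g.2.2, rfl⟩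
  · rintro ⟨g, hg, h1, h2, h3⟩; exact ⟨⟨⟨g, hg⟩, h1, h2⟩, h3⟩

theorem quartet_orbits {d : Finset GolayPt} (hd : d ∈ dodecads) {Q : Fam} (hQ : Q ∈ quartets d) :
    ∃ X₁ ∈ quartets d, ∃ X₂ ∈ quartets d, ∃ X₃ ∈ quartets d, ∃ X₄ ∈ quartets d,
      (qOrbit d Q X₁).ncard = 12 ∧ (qOrbit d Q X₂).ncard = 27 ∧ (qOrbit d Q X₃).ncard = 72 ∧
      (qOrbit d Q X₄).ncard = 108 ∧
      quartets d = {Q} ∪ qOrbit d Q X₁ ∪ qOrbit d Q X₂ ∪ qOrbit d Q X₃ ∪ qOrbit d Q X₄ := by
  obtain ⟨h1, h2⟩ := quartet_orbits_std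
  obtain ⟨g, hg, rfl, rfl⟩ : ∃ g ∈ M24, g • bset sqMask = d ∧ g • toSet quartPart0.2.1 = Q := by
    obtain ⟨e, he, rfl⟩ := exists_mem_M24_sqMask hd
    obtain ⟨f, hf, hfd, hfQ⟩ := quartet_transitive hd (smul_quartets he (h1 quartPart0 (by simp [quartParts])).1) hQ
    exact ⟨f * e, mul_mem hf he, by rw [mul_smul, hfd], by rw [mul_smul, hfQ]⟩
  have card : ∀ P ∈ quartParts,
      (qOrbit (g • bset sqMask) (g • toSet quartPart0.2.1) (g • toSet P.2.1)).ncard = P.2.2.2 := by
    intro P hP
    rw [qOrbit_conj hg, Set.ncard_image_of_injective _ (MulAction.injective g)]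
    exact (h1 P hP).2
  have m := fun (P : Part) (hP : P ∈ quartParts) => smul_quartets hg (h1 P hP).1
  have s0 : qOrbit (g • bset sqMask) (g • toSet quartPart0.2.1) (g • toSet quartPart0.2.1) =
      {g • toSet quartPart0.2.1} := by
    ext Y
    constructor
    · rintro ⟨h, -, -, e, rfl⟩; exact e
    · intro h; exact ⟨1, one_mem _, one_smul _ _, one_smul _ _, by rw [one_smul]; exact (Set.mem_singleton_iff.1 h).symm⟩
  refine ⟨_, m quartPart1 (by simp [quartParts]), _, m quartPart2 (by simp [quartParts]),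
    _, m quartPart3 (by simp [quartParts]), _, m quartPart4 (by simp [quartParts]),
    card _ (by simp [quartParts]), card _ (by simp [quartParts]), card _ (by simp [quartParts]),
    card _ (by simp [quartParts]), ?_⟩
  rw [← s0]
  refine Set.Subset.antisymm (fun X hX => ?_) ?_
  · obtain ⟨Z, hZ, rfl⟩ : X ∈ (g • ·) '' quartets (bset sqMask) := quartets_smul hg _ ▸ hX
    obtain ⟨P, hP, hm⟩ := h2 Z hZ
    have hm' : g • Z ∈ qOrbit (g • bset sqMask) (g • toSet quartPart0.2.1) (g • toSet P.2.1) := by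
      rw [qOrbit_conj hg]; exact ⟨Z, hm, rfl⟩
    simp only [quartParts, List.mem_cons, List.not_mem_nil, or_false] at hP
    rcases hP with rfl | rfl | rfl | rfl | rfl
    · exact Or.inl (Or.inl (Or.inl (Or.inl hm')))
    · exact Or.inl (Or.inl (Or.inl (Or.inr hm')))
    · exact Or.inl (Or.inl (Or.inr hm'))
    · exact Or.inl (Or.inr hm')
    · exact Or.inr hm'
  · have hsub : ∀ P ∈ quartParts, qOrbit (g • bset sqMask) (g • toSet quartPart0.2.1) (g • toSet P.2.1) ⊆
        quartets (g • bset sqMask) := by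
      rintro P hP Y ⟨h, hh, hd', -, rfl⟩
      have := smul_quartets hh (m P hP)
      rwa [hd'] at this
    refine Set.union_subset (Set.union_subset (Set.union_subset (Set.union_subset ?_ ?_) ?_) ?_) ?_
    all_goals exact hsub _ (by simp [quartParts])

end Cfsg.Agent.Golay
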