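import Cfsg.Agent.Golay.SetOrbits

/-! Maximality of stabilisers of small sets; transport of the classes to any position. -/

set_option autoImplicit false
set_option maxRecDepth 20000

namespace Cfsg.Agent.Golay

open scoped Pointwise

theorem smul_mem_powersetCard {k : ℕ} (g : Equiv.Perm GolayPt) {U : Finset GolayPt}
    (hU : U ∈ (Finset.univ : Finset GolayPt).powersetCard k) :
    g • U ∈ (Finset.univ : Finset GolayPt).powersetCard k :=
  Finset.mem_powersetCard.2 ⟨Finset.subset_univ _, by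
    rw [Finset.card_smul_finset]; exact (Finset.mem_powersetCard.1 hU).2⟩

theorem card_filter_conj {k : ℕ} {γ : Type} [DecidableEq γ] (g : Equiv.Perm GolayPt)
    (f : Finset GolayPt → γ) (v : γ) :
    (((Finset.univ : Finset GolayPt).powersetCard k).filter fun U => f (g⁻¹ • U) = v).card =
      (((Finset.univ : Finset GolayPt).powersetCard k).filter fun U => f U = v).card := by
  refine Finset.card_nbij' (fun U => g⁻¹ • U) (fun U => g • U) ?_ ?_ ?_ ?_
  · intro U hU
    simp only [Finset.coe_filter, Set.mem_ofPred_eq] at hU ⊢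
    exact ⟨smul_mem_powersetCard _ hU.1, hU.2⟩
  · intro U hU
    simp only [Finset.coe_filter, Set.mem_ofPred_eq, inv_smul_smul] at hU ⊢
    exact ⟨smul_mem_powersetCard _ hU.1, hU.2⟩
  · intro U _; exact smul_inv_smul g U
  · intro U _; exact inv_smul_smul g U

/-- Maximality of the stabiliser of a small set from its classes. -/
theorem isCoatom_small_set {k S : ℕ} {octs gens : List ℕ} {roots : List (ℕ × OrbTree)}
    (hk : k ≤ 5) (hk0 : 1 ≤ k) (hS : S < 2 ^ 24) (hSk : pc S = k) (hocts : octsOK S octs = true)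
    (hcl : (∀ x ∈ (Finset.univ : Finset GolayPt).powersetCard k,
        ∀ y ∈ (Finset.univ : Finset GolayPt).powersetCard k,
        setInv S S x = setInv S S y → ∃ h ∈ fixSub [S], h • x = y) ∧
      ∀ v, (((Finset.univ : Finset GolayPt).powersetCard k).filter fun s => setInv S S s = v).card =
        ((classCodes (maskAct gens) roots).filter fun m => decide (setKey S octs m = v)).length)
    (classes : List ((ℕ × Bool) × ℕ)) (hnd : (classes.map Prod.fst).Nodup)
    (hsum : (classes.map Prod.snd).sum = Nat.choose 24 k)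
    (hcount : (classes.all fun p => (((classCodes (maskAct gens) roots).filter
      fun m => decide (setKey S octs m = p.1)).length == p.2)) = true)
    (hblocks : noBlocks (setKey S octs S) classes (Nat.choose 24 k) = true)
    {s : Finset GolayPt} (hs : s.card = k) : IsCoatom (MulAction.stabilizer M24 s) := by
  classical
  have hSc : (bset S).card = k := by rw [card_bset, hSk]
  obtain ⟨g, hg, rfl⟩ := exists_mem_M24_finset (bset S) s (by rw [hSc, hs]) (by rw [hSc]; exact hk)
  simp only [List.all_eq_true, beq_iff_eq] at hcount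
  set X : Finset (Finset GolayPt) := (Finset.univ : Finset GolayPt).powersetCard k with hXdef
  have hXcard : X.card = Nat.choose 24 k := by
    rw [hXdef, Finset.card_powersetCard, Finset.card_univ, card_golayPt]
  have hmemX : g • bset S ∈ X := Finset.mem_powersetCard.2 ⟨Finset.subset_univ _, hs⟩
  refine isCoatom_stabilizer X hmemX
    (fun a U hU => smul_mem_powersetCard a.1 hU) ?_ ?_ (fun U => setInv S S (g⁻¹ • U)) ?_
    classes hnd ?_ ?_ ?_
  · intro U hU
    obtain ⟨a, ha, e⟩ := exists_mem_M24_finset (g • bset S) U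
      (by rw [hs, (Finset.mem_powersetCard.1 hU).2]) (by rw [hs]; exact hk)
    exact ⟨⟨a, ha⟩, e⟩
  · rw [hXcard]
    calc 1 < 24 := by norm_num
      _ ≤ Nat.choose 24 k := by
        interval_cases k <;> decide +kernel
  · intro U hU V hV e
    obtain ⟨h, hh, e'⟩ := hcl.1 _ (smul_mem_powersetCard g⁻¹ hU) _ (smul_mem_powersetCard g⁻¹ hV) e
    have hh' := mem_fixSub.1 hh
    refine ⟨⟨g * h * g⁻¹, mul_mem (mul_mem hg hh'.1) (inv_mem hg)⟩, ?_, ?_⟩
    · show (g * h * g⁻¹) • g • bset S = g • bset S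
      rw [mul_smul, inv_smul_smul, mul_smul, hh'.2 S (by simp)]
    · show (g * h * g⁻¹) • U = V
      rw [mul_smul, mul_smul, e', smul_inv_smul]
  · -- every class is listed: the listed sizes already exhaust the set
    intro U hU
    by_contra hne
    have hdis : ∀ v ∈ classes.map Prod.fst, U ∉ X.filter fun W => setInv S S (g⁻¹ • W) = v :=
      fun v hv hm => hne (by rw [(Finset.mem_filter.1 hm).2]; exact hv)
    have h1 : ((classes.map Prod.fst).toFinset.biUnion
        fun v => X.filter fun W => setInv S S (g⁻¹ • W) = v).card = Nat.choose 24 k := by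
      rw [Finset.card_biUnion (fun a _ b _ hab => Finset.disjoint_left.2 fun W h1 h2 =>
          hab ((Finset.mem_filter.1 h1).2.symm.trans (Finset.mem_filter.1 h2).2)),
        List.sum_toFinset _ hnd, List.map_map, ← hsum]
      refine congrArg List.sum (List.map_congr_left fun p hp => ?_)
      rw [Function.comp_apply, card_filter_conj g (setInv S S), hcl.2, hcount p hp]
    have h2 : ((classes.map Prod.fst).toFinset.biUnion
        fun v => X.filter fun W => setInv S S (g⁻¹ • W) = v) ⊆ X.erase U := by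
      intro W hW
      simp only [Finset.mem_biUnion, List.mem_toFinset] at hW
      obtain ⟨v, hv, hW⟩ := hW
      refine Finset.mem_erase.2 ⟨fun e => hdis v hv (e ▸ hW), (Finset.mem_filter.1 hW).1⟩
    have h3 := Finset.card_le_card h2
    rw [h1, Finset.card_erase_of_mem hU, hXcard] at h3
    have : 0 < Nat.choose 24 k := Nat.choose_pos (by omega)
    omega
  · intro p hp
    rw [card_filter_conj g (setInv S S), hcl.2, hcount p hp]
  · rw [hXcard, inv_smul_smul, setInv_eq hS hocts, mask_bset hS]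
    exact hblocks

theorem pair_stab_maximal {s : Finset GolayPt} (hs : s.card = 2) :
    IsCoatom (MulAction.stabilizer M24 s) :=
  isCoatom_small_set (k := 2) (S := 8388609) (by norm_num) (by norm_num) (by norm_num) (by decide +kernel)
    duadOcts_ok duad_classes [((2, true), 1), ((1, true), 44), ((0, true), 231)] (by decide +kernel)
    (by decide +kernel) (by decide +kernel) (by decide +kernel) hs

theorem triple_stab_maximal {s : Finset GolayPt} (hs : s.card = 3) :
    IsCoatom (MulAction.stabilizer M24 s) :=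
  isCoatom_small_set (k := 3) (S := 8388611) (by norm_num) (by norm_num) (by norm_num) (by decide +kernel)
    triadOcts_ok triad_classes
    [((3, true), 1), ((2, true), 63), ((1, true), 630), ((0, true), 210), ((0, false), 1120)]
    (by decide +kernel) (by decide +kernel) (by decide +kernel) (by decide +kernel) hs

theorem exists_octad_smul {g : Equiv.Perm GolayPt} (hg : g ∈ M24) (A : Finset GolayPt) :
    (∃ o ∈ octads, g • A ⊆ o) ↔ ∃ o ∈ octads, A ⊆ o := by
  constructor
  · rintro ⟨o, ho, h⟩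
    exact ⟨g⁻¹ • o, smul_mem_octads (inv_mem hg) ho,
      by simpa using Finset.smul_finset_subset_smul_finset (a := g⁻¹) h⟩
  · rintro ⟨o, ho, h⟩
    exact ⟨g • o, smul_mem_octads hg ho, Finset.smul_finset_subset_smul_finset h⟩

theorem setInv_triad (U : Finset GolayPt) (b : Bool) :
    setInv 8388611 8388611 U = (0, b) ↔ Disjoint (bset 8388611) U ∧
      ((∃ o ∈ octads, bset 8388611 ∪ U ⊆ o) ↔ b = true) := by
  classical
  have hP : (∃ o ∈ octads, bset 8388611 ∪ U ⊆ o) ↔ InOct 8388611 U := by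
    simp only [InOct, Finset.union_subset_iff]
  rw [hP]
  simp only [setInv, Prod.mk.injEq, Finset.card_eq_zero]
  rw [Finset.disjoint_iff_inter_eq_empty, Finset.inter_comm U]
  refine and_congr_right' ?_
  cases b <;> simp

/-- The orbits of a triad stabiliser on the triads disjoint from it. -/
theorem triad_orbits {g : Equiv.Perm GolayPt} (hg : g ∈ M24) :
    {U : Finset GolayPt | U.card = 3 ∧ Disjoint (g • bset 8388611) U ∧
      (∃ o ∈ octads, g • bset 8388611 ∪ U ⊆ o)}.ncard = 210 ∧
    {U : Finset GolayPt | U.card = 3 ∧ Disjoint (g • bset 8388611) U ∧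
      ¬ (∃ o ∈ octads, g • bset 8388611 ∪ U ⊆ o)}.ncard = 1120 ∧
    ∀ U U' : Finset GolayPt, U.card = 3 → U'.card = 3 → Disjoint (g • bset 8388611) U →
      Disjoint (g • bset 8388611) U' →
      ((∃ o ∈ octads, g • bset 8388611 ∪ U ⊆ o) ↔ (∃ o ∈ octads, g • bset 8388611 ∪ U' ⊆ o)) →
      ∃ h : Equiv.Perm GolayPt, h ∈ M24 ∧ h • g • bset 8388611 = g • bset 8388611 ∧ h • U = U' := by
  classical
  have key : ∀ U : Finset GolayPt, (Disjoint (g • bset 8388611) U ↔ Disjoint (bset 8388611) (g⁻¹ • U)) ∧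
      ((∃ o ∈ octads, g • bset 8388611 ∪ U ⊆ o) ↔ ∃ o ∈ octads, bset 8388611 ∪ g⁻¹ • U ⊆ o) := by
    intro U
    constructor
    · rw [Finset.disjoint_iff_inter_eq_empty, Finset.disjoint_iff_inter_eq_empty,
        ← Finset.card_eq_zero, ← Finset.card_eq_zero,
        ← Finset.card_smul_finset g (bset 8388611 ∩ g⁻¹ • U), Finset.smul_finset_inter, smul_inv_smul]
    · rw [← exists_octad_smul hg (bset 8388611 ∪ g⁻¹ • U), Finset.smul_finset_union, smul_inv_smul]
  have count : ∀ b : Bool, {U : Finset GolayPt | U.card = 3 ∧ Disjoint (g • bset 8388611) U ∧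
      ((∃ o ∈ octads, g • bset 8388611 ∪ U ⊆ o) ↔ b = true)}.ncard =
        ((classCodes (maskAct triadGens) triadRoots).filter
          fun m => decide (setKey 8388611 triadOcts m = (0, b))).length := by
    intro b
    rw [← triad_classes.2, ← card_filter_conj g (setInv 8388611 8388611), ← Set.ncard_coe_finset]
    congr 1
    ext U
    simp only [Set.mem_ofPred_eq, Finset.coe_filter, Finset.mem_powersetCard, Finset.subset_univ,
      true_and, setInv_triad, key U]
  refine ⟨?_, ?_, fun U U' hU hU' hd hd' he => ?_⟩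
  · have := count true
    simp only [iff_true] at this
    rw [this]; decide +kernel
  · have := count false
    simp only [Bool.false_eq_true, iff_false] at this
    rw [this]; decide +kernel
  · rw [(key U).1] at hd
    rw [(key U').1] at hd'
    rw [(key U).2, (key U').2] at he
    obtain ⟨b, hb⟩ : ∃ b : Bool, (∃ o ∈ octads, bset 8388611 ∪ g⁻¹ • U ⊆ o) ↔ b = true :=
      ⟨decide (∃ o ∈ octads, bset 8388611 ∪ g⁻¹ • U ⊆ o), decide_eq_true_iff.symm⟩
    obtain ⟨h, hh, e⟩ := triad_classes.1 _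
      (smul_mem_powersetCard g⁻¹ (Finset.mem_powersetCard.2 ⟨Finset.subset_univ _, hU⟩)) _
      (smul_mem_powersetCard g⁻¹ (Finset.mem_powersetCard.2 ⟨Finset.subset_univ _, hU'⟩))
      (((setInv_triad _ b).2 ⟨hd, hb⟩).trans ((setInv_triad _ b).2 ⟨hd', he.symm.trans hb⟩).symm)
    refine ⟨g * h * g⁻¹, mul_mem (mul_mem hg (mem_fixSub.1 hh).1) (inv_mem hg), ?_, ?_⟩
    · rw [mul_smul, inv_smul_smul, mul_smul, (mem_fixSub.1 hh).2 _ (by simp [triadFix])]
    · rw [mul_smul, mul_smul, e, smul_inv_smul]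

theorem setInv_pqs (t : Finset GolayPt) (n : ℕ) (b : Bool) :
    setInv 6 8388615 t = (n, b) ↔ (bset 6 ∩ t).card = n ∧
      ((∃ o ∈ octads, none ∈ o ∧ (some 0 : GolayPt) ∈ o ∧ bset 6 ∪ t ⊆ o) ↔ b = true) := by
  classical
  have hF : bset 8388615 = insert none (insert (some 0) (bset 6)) := by decide +kernel
  have hP : (∃ o ∈ octads, none ∈ o ∧ (some 0 : GolayPt) ∈ o ∧ bset 6 ∪ t ⊆ o) ↔ InOct 8388615 t := by
    simp only [InOct, hF, Finset.insert_subset_iff, Finset.union_subset_iff, and_assoc]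
  rw [hP]
  simp only [setInv, Prod.mk.injEq, Finset.inter_comm t]
  refine and_congr_right' ?_
  cases b <;> simp

/-- The orbits of a point-pair-pair stabiliser on pairs. -/
theorem pair_orbits {p q : GolayPt} (hpq : p ≠ q) {s : Finset GolayPt}
    (hs : s.card = 2 ∧ p ∉ s ∧ q ∉ s) :
    {t : Finset GolayPt | (t.card = 2 ∧ p ∉ t ∧ q ∉ t) ∧ Disjoint s t ∧
      (∃ o ∈ octads, p ∈ o ∧ q ∈ o ∧ s ∪ t ⊆ o)}.ncard = 30 ∧
    {t : Finset GolayPt | (t.card = 2 ∧ p ∉ t ∧ q ∉ t) ∧ Disjoint s t ∧
      ¬ (∃ o ∈ octads, p ∈ o ∧ q ∈ o ∧ s ∪ t ⊆ o)}.ncard = 160 ∧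
    ∀ t t' : Finset GolayPt, (t.card = 2 ∧ p ∉ t ∧ q ∉ t) → (t'.card = 2 ∧ p ∉ t' ∧ q ∉ t') →
      t ≠ s → t' ≠ s → (s ∩ t).card = (s ∩ t').card →
      ((∃ o ∈ octads, p ∈ o ∧ q ∈ o ∧ s ∪ t ⊆ o) ↔ (∃ o ∈ octads, p ∈ o ∧ q ∈ o ∧ s ∪ t' ⊆ o)) →
      ∃ g : Equiv.Perm GolayPt, g ∈ M24 ∧ g p = p ∧ g q = q ∧ g • s = s ∧ g • t = t' := by
  classical
  obtain ⟨a, b, hab, rfl⟩ := Finset.card_eq_two.1 hs.1
  have hp := hs.2.1
  have hq := hs.2.2
  simp only [Finset.mem_insert, Finset.mem_singleton, not_or] at hp hq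
  obtain ⟨g, hg, hm⟩ := exists_mem_M24_list [none, some 0, pt 1, pt 2] [p, q, a, b] (by decide +kernel)
    (by simp [hpq, hp, hq, hab]) rfl (by simp)
  simp only [List.map_cons, List.map_nil, List.cons.injEq, and_true] at hm
  obtain ⟨rfl, rfl, ha, hb⟩ := hm
  have h6 : g • bset 6 = {a, b} := by
    rw [show bset 6 = {pt 1, pt 2} by decide +kernel, Finset.smul_finset_insert,
      Finset.smul_finset_singleton, Equiv.Perm.smul_def, Equiv.Perm.smul_def, ha, hb]
  have hmem : ∀ (x : GolayPt) (o : Finset GolayPt), g x ∈ o ↔ x ∈ g⁻¹ • o := fun x o => by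
    rw [Finset.mem_inv_smul_finset_iff]; rfl
  have key : ∀ t : Finset GolayPt,
      ((t.card = 2 ∧ g none ∉ t ∧ g (some 0) ∉ t) ↔ g⁻¹ • t ∈ pairsAvoid none (some 0)) ∧
      (({a, b} ∩ t).card = (bset 6 ∩ g⁻¹ • t).card) ∧
      ((∃ o ∈ octads, g none ∈ o ∧ g (some 0) ∈ o ∧ {a, b} ∪ t ⊆ o) ↔
        ∃ o ∈ octads, none ∈ o ∧ (some 0 : GolayPt) ∈ o ∧ bset 6 ∪ g⁻¹ • t ⊆ o) := by
    intro t
    refine ⟨by rw [mem_pairsAvoid, Finset.card_smul_finset, hmem, hmem], ?_, ?_⟩
    · rw [← h6, ← Finset.card_smul_finset g (bset 6 ∩ g⁻¹ • t), Finset.smul_finset_inter, smul_inv_smul]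
    · constructor
      · rintro ⟨o, ho, h1, h2, h3⟩
        refine ⟨g⁻¹ • o, smul_mem_octads (inv_mem hg) ho, (hmem _ _).1 h1, (hmem _ _).1 h2, ?_⟩
        rw [← h6] at h3
        simpa [Finset.smul_finset_union] using Finset.smul_finset_subset_smul_finset (a := g⁻¹) h3
      · rintro ⟨o, ho, h1, h2, h3⟩
        refine ⟨g • o, smul_mem_octads hg ho, Finset.smul_mem_smul_finset h1,
          Finset.smul_mem_smul_finset h2, ?_⟩
        have := Finset.smul_finset_subset_smul_finset (a := g) h3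
        rwa [Finset.smul_finset_union, h6, smul_inv_smul] at this
  have count : ∀ b' : Bool, {t : Finset GolayPt | (t.card = 2 ∧ g none ∉ t ∧ g (some 0) ∉ t) ∧
      Disjoint {a, b} t ∧
      ((∃ o ∈ octads, g none ∈ o ∧ g (some 0) ∈ o ∧ {a, b} ∪ t ⊆ o) ↔ b' = true)}.ncard =
        ((classCodes (maskAct pqsGens) pqsRoots).filter
          fun m => decide (setKey 6 pqsOcts m = (0, b'))).length := by
    intro b'
    rw [← pqs_classes.2, ← Set.ncard_coe_finset,
      ← Set.ncard_image_of_injective _ (MulAction.injective g⁻¹ (β := Finset GolayPt))]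
    congr 1
    ext u
    simp only [Set.mem_image, Set.mem_ofPred_eq, Finset.coe_filter, setInv_pqs,
      Finset.disjoint_iff_inter_eq_empty, ← Finset.card_eq_zero]
    constructor
    · rintro ⟨t, ⟨h1, h2, h3⟩, rfl⟩
      refine ⟨(key t).1.1 h1, (key t).2.1.symm.trans h2, ?_⟩
      rwa [(key t).2.2] at h3
    · rintro ⟨h1, h2, h3⟩
      refine ⟨g • u, ⟨(key _).1.2 (by rwa [inv_smul_smul]), ?_, ?_⟩, inv_smul_smul g u⟩
      · rw [(key _).2.1, inv_smul_smul]; exact h2
      · rw [(key _).2.2, inv_smul_smul]; exact h3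
  refine ⟨?_, ?_, fun t t' ht ht' _ _ hc he => ?_⟩
  · have := count true
    simp only [iff_true] at this
    rw [this]; decide +kernel
  · have := count false
    simp only [Bool.false_eq_true, iff_false] at this
    rw [this]; decide +kernel
  · rw [(key t).1] at ht
    rw [(key t').1] at ht'
    rw [(key t).2.1, (key t').2.1] at hc
    rw [(key t).2.2, (key t').2.2] at he
    obtain ⟨b', hb'⟩ : ∃ b' : Bool,
        (∃ o ∈ octads, none ∈ o ∧ (some 0 : GolayPt) ∈ o ∧ bset 6 ∪ g⁻¹ • t ⊆ o) ↔ b' = true :=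
      ⟨decide _, decide_eq_true_iff.symm⟩
    obtain ⟨h, hh, e⟩ := pqs_classes.1 _ ht _ ht'
      (((setInv_pqs _ _ b').2 ⟨rfl, hb'⟩).trans ((setInv_pqs _ _ b').2 ⟨hc.symm, he.symm.trans hb'⟩).symm)
    have hh' := mem_fixSub.1 hh
    have e0 : h none = none := smul_eq_of_fix_point hh (by decide +kernel)
    have e1 : h (some 0) = some 0 := smul_eq_of_fix_point hh (by decide +kernel)
    refine ⟨g * h * g⁻¹, mul_mem (mul_mem hg hh'.1) (inv_mem hg), by simp [e0], by simp [e1], ?_, ?_⟩
    · rw [← h6, mul_smul, inv_smul_smul, mul_smul, hh'.2 6 (by simp [pqsFix])]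
    · rw [mul_smul, mul_smul, e, smul_inv_smul]

end Cfsg.Agent.Golay
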