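import Cfsg.Agent.Golay.SetOrbData

/-! Orbits of small point sets under stabilisers of small point sets, and maximality. -/

set_option autoImplicit false
set_option maxRecDepth 20000

namespace Cfsg.Agent.Golay

open scoped Pointwise

/-- The check behind a classification of point sets. -/
def setClassify {γ : Type} [DecidableEq γ] (fix gens : List ℕ) (roots : List (ℕ × OrbTree))
    (P : ℕ → Bool) (N : ℕ) (key : ℕ → γ) : Bool :=
  maskGensOK fix gens && classCheck (maskAct gens) roots 24 N P &&
    (roots.all fun p => decide (p.1 < 16777216)) && decide ((roots.map fun p => key p.1).Nodup)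

theorem setClasses {γ : Type} [DecidableEq γ] {fix gens : List ℕ} {roots : List (ℕ × OrbTree)}
    {P : ℕ → Bool} {N : ℕ} {key : ℕ → γ} (hc : setClassify fix gens roots P N key = true)
    {X : Finset (Finset GolayPt)} (hX : ∀ s, s ∈ X ↔ P (mask s) = true) (hN : X.card = N)
    (f : Finset GolayPt → γ) (hkey : ∀ s ∈ X, f s = key (mask s))
    (hf : ∀ h ∈ fixSub fix, ∀ s, f (h • s) = f s) :
    (∀ x ∈ X, ∀ y ∈ X, f x = f y → ∃ h ∈ fixSub fix, h • x = y) ∧
    ∀ v, (X.filter fun s => f s = v).card =
      ((classCodes (maskAct gens) roots).filter fun m => decide (key m = v)).length := by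
  classical
  simp only [setClassify, Bool.and_eq_true, List.all_eq_true, decide_eq_true_eq] at hc
  obtain ⟨⟨⟨hgens, hclass⟩, hroots⟩, hnd⟩ := hc
  have hok : ∀ g m, m < 16777216 → maskAct gens g m < 16777216 ∧
      ∃ a ∈ fixSub fix, bset (maskAct gens g m) = a • bset m := fun g m hm => maskAct_ok hgens g m hm
  have hcl := hclass
  simp only [classCheck, Bool.and_eq_true, beq_iff_eq, List.all_eq_true] at hcl
  obtain ⟨⟨hlen, hdist⟩, hin⟩ := hcl
  have hnodup := nodup_of_distinct hdist
  have hspec := classCodes_spec (maskAct gens) bset (fun m => m < 16777216) (fixSub fix) hok roots hroots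
  set L := classCodes (maskAct gens) roots with hL
  have hmem : ∀ m ∈ L, bset m ∈ X := fun m hm => by
    rw [hX, mask_bset (hspec m hm).1]; exact hin m hm
  have hXeq : X = L.toFinset.image bset := by
    refine (Finset.eq_of_subset_of_card_le ?_ ?_).symm
    · intro s hs
      obtain ⟨m, hm, rfl⟩ := Finset.mem_image.1 hs
      exact hmem m (List.mem_toFinset.1 hm)
    · rw [Finset.card_image_of_injOn, List.toFinset_card_of_nodup hnodup, hlen, hN]
      intro a ha b hb e
      exact eq_of_bset_eq (hspec a (List.mem_toFinset.1 ha)).1 (hspec b (List.mem_toFinset.1 hb)).1 e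
  constructor
  · intro x hx y hy e
    have hroot : ∀ s ∈ (X : Set (Finset GolayPt)), ∃ r ∈ roots.map (fun p => bset p.1),
        ∃ h ∈ fixSub fix, h • r = s := by
      intro s hs
      rw [Finset.mem_coe, hXeq, Finset.mem_image] at hs
      obtain ⟨m, hm, rfl⟩ := hs
      obtain ⟨-, r, hr, h⟩ := hspec m (List.mem_toFinset.1 hm)
      obtain ⟨p, hp, rfl⟩ := List.mem_map.1 hr
      exact ⟨_, List.mem_map.2 ⟨p, hp, rfl⟩, h⟩
    refine exists_mem_of_invariant (fixSub fix) f hf _ ?_ _ hroot hx hy e
    rw [List.map_map]
    have e' : roots.map (f ∘ fun p => bset p.1) = roots.map fun p => key p.1 := by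
      refine List.map_congr_left fun p hp => ?_
      rw [Function.comp_apply]
      have hpL : p.1 ∈ L := mem_classCodes_root roots p hp
      rw [hkey _ (hmem _ hpL), mask_bset (hspec _ hpL).1]
    rw [e']
    exact hnd
  · intro v
    rw [← List.toFinset_card_of_nodup (hnodup.filter _), hXeq, Finset.filter_image,
      Finset.card_image_of_injOn]
    · congr 1
      ext m
      simp only [Finset.mem_filter, List.mem_toFinset, List.mem_filter, decide_eq_true_eq]
      refine and_congr_right fun hm => ?_
      rw [hkey _ (hmem m hm), mask_bset (hspec m hm).1]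
    · intro a ha b hb e
      simp only [Finset.coe_filter, List.mem_toFinset, Set.mem_ofPred_eq] at ha hb
      exact eq_of_bset_eq (hspec a ha.1).1 (hspec b hb.1).1 e
where
  mem_collectBy (act : ℕ → ℕ → ℕ) : ∀ (T : OrbTree) (m : ℕ) (acc : List ℕ) (x : ℕ),
      x ∈ acc → x ∈ T.collectBy act m acc
    | .nil, _, _, _, h => h
    | .node g c s, m, acc, x, h =>
      mem_collectBy act s m _ x (mem_collectBy act c _ _ x (List.mem_cons_of_mem _ h))
  mem_classCodes_root {gens : List ℕ} : ∀ (l : List (ℕ × OrbTree)), ∀ p ∈ l,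
      p.1 ∈ classCodes (maskAct gens) l
    | [], _, h => by simp at h
    | (r, T) :: l, p, h => by
      rw [classCodes, List.mem_append]
      rcases List.mem_cons.1 h with rfl | h
      · exact Or.inl (mem_collectBy _ T r [r] r (by simp))
      · exact Or.inr (mem_classCodes_root l p h)

/-- The key of a point set: meet with `S` and lying in an octad of the list. -/
def setKey (S : ℕ) (octs : List ℕ) (m : ℕ) : ℕ × Bool :=
  (pc (m &&& S), octs.any fun o => o &&& m == m)

/-- The check that a list is that of the octads containing a fixed set. -/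
def octsOK (F : ℕ) (octs : List ℕ) : Bool :=
  (octs.all fun o => inC o && pc o == 8 && o &&& F == F) &&
    allB (fun i => !(pc (encode i) == 8 && encode i &&& F == F) || octs.contains (encode i)) 12 0

theorem and_eq_self_iff {a b : ℕ} (ha : a < 2 ^ 24) : b &&& a = a ↔ bset a ⊆ bset b := by
  constructor
  · intro h
    rw [← h, bset_and]
    exact Finset.inter_subset_left
  · intro h
    refine eq_of_bset_eq (lt_of_le_of_lt Nat.and_le_right ha) ha ?_
    rw [bset_and, Finset.inter_eq_right.2 h]

theorem octs_any {F : ℕ} {octs : List ℕ} (hF : F < 2 ^ 24) (h : octsOK F octs = true)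
    (U : Finset GolayPt) :
    (octs.any fun o => o &&& mask U == mask U) = true ↔
      ∃ o ∈ octads, bset F ⊆ o ∧ U ⊆ o := by
  simp only [octsOK, Bool.and_eq_true, List.all_eq_true, beq_iff_eq] at h
  rw [List.any_eq_true]
  constructor
  · rintro ⟨o, ho, e⟩
    obtain ⟨⟨h1, h2⟩, h3⟩ := h.1 o ho
    rw [beq_iff_eq, and_eq_self_iff (mask_lt U), bset_mask] at e
    exact ⟨bset o, by rw [mem_octads_iff, mask_bset (lt_of_inC h1)]; exact ⟨h1, h2⟩,
      (and_eq_self_iff hF).1 h3, e⟩
  · rintro ⟨o, ho, hFo, hUo⟩
    rw [mem_octads_iff] at ho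
    have hc := forall_code (fun n => !(pc n == 8 && n &&& F == F) || octs.contains n) h.2 ho.1
    have hF' : mask o &&& F = F := (and_eq_self_iff hF).2 (by rwa [bset_mask])
    simp only [ho.2, hF', beq_self_eq_true, Bool.and_self, Bool.not_true, Bool.false_or,
      List.contains_iff_mem] at hc
    exact ⟨mask o, hc, by rw [beq_iff_eq, and_eq_self_iff (mask_lt U), bset_mask, bset_mask]; exact hUo⟩

/-- Lying in an octad together with a fixed set. -/
def InOct (F : ℕ) (U : Finset GolayPt) : Prop := ∃ o ∈ octads, bset F ⊆ o ∧ U ⊆ o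

open Classical in
/-- The invariant matching `setKey`. -/
noncomputable def setInv (S F : ℕ) (U : Finset GolayPt) : ℕ × Bool :=
  ((U ∩ bset S).card, decide (InOct F U))

theorem setInv_eq {S F : ℕ} {octs : List ℕ} (hF : F < 2 ^ 24) (h : octsOK F octs = true)
    (U : Finset GolayPt) : setInv S F U = setKey S octs (mask U) := by
  classical
  simp only [setInv, setKey, pc_inter_mask]
  congr 1
  rw [Bool.eq_iff_iff, decide_eq_true_iff, InOct, octs_any hF h]

theorem setInv_smul {S F : ℕ} {h : Equiv.Perm GolayPt} (hh : h ∈ M24) (hS : h • bset S = bset S)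
    (hF : h • bset F = bset F) (U : Finset GolayPt) : setInv S F (h • U) = setInv S F U := by
  classical
  simp only [setInv]
  congr 1
  · conv_lhs => rw [← hS, ← Finset.smul_finset_inter, Finset.card_smul_finset]
  · rw [decide_eq_decide, InOct, InOct]
    constructor
    · rintro ⟨o, ho, h1, h2⟩
      refine ⟨h⁻¹ • o, smul_mem_octads (inv_mem hh) ho, ?_, ?_⟩
      · rw [← hF] at h1
        simpa using Finset.smul_finset_subset_smul_finset (a := h⁻¹) h1
      · simpa using Finset.smul_finset_subset_smul_finset (a := h⁻¹) h2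
    · rintro ⟨o, ho, h1, h2⟩
      exact ⟨h • o, smul_mem_octads hh ho, hF ▸ Finset.smul_finset_subset_smul_finset h1,
        Finset.smul_finset_subset_smul_finset h2⟩

theorem mem_powersetCard_iff {k : ℕ} (U : Finset GolayPt) :
    U ∈ (Finset.univ : Finset GolayPt).powersetCard k ↔ (pc (mask U) == k) = true := by
  rw [Finset.mem_powersetCard, beq_iff_eq, card_eq_pc_mask]
  simp

theorem duad_ok : setClassify duadFix duadGens duadRoots (fun m => pc m == 2) 276
    (setKey 8388609 duadOcts) = true := by decide +kernel

theorem triad_ok : setClassify triadFix triadGens triadRoots (fun m => pc m == 3) 2024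
    (setKey 8388611 triadOcts) = true := by decide +kernel

theorem duadOcts_ok : octsOK 8388609 duadOcts = true := by decide +kernel

theorem triadOcts_ok : octsOK 8388611 triadOcts = true := by decide +kernel

theorem pqsOcts_ok : octsOK 8388615 pqsOcts = true := by decide +kernel

theorem pqs_ok : setClassify pqsFix pqsGens pqsRoots
    (fun m => pc m == 2 && !m.testBit 23 && !m.testBit 0) 231 (setKey 6 pqsOcts) = true := by
  decide +kernel

/-- Classes of pairs, seen from a pair. -/
theorem duad_classes :
    (∀ x ∈ (Finset.univ : Finset GolayPt).powersetCard 2, ∀ y ∈ (Finset.univ : Finset GolayPt).powersetCard 2,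
      setInv 8388609 8388609 x = setInv 8388609 8388609 y → ∃ h ∈ fixSub duadFix, h • x = y) ∧
    ∀ v, (((Finset.univ : Finset GolayPt).powersetCard 2).filter fun s => setInv 8388609 8388609 s = v).card =
      ((classCodes (maskAct duadGens) duadRoots).filter fun m => decide (setKey 8388609 duadOcts m = v)).length :=
  setClasses duad_ok mem_powersetCard_iff
    (by rw [Finset.card_powersetCard, Finset.card_univ, card_golayPt]; decide +kernel) _
    (fun s _ => setInv_eq (by norm_num) duadOcts_ok s)
    (fun h hh s => setInv_smul (mem_fixSub.1 hh).1 ((mem_fixSub.1 hh).2 _ (by simp [duadFix]))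
      ((mem_fixSub.1 hh).2 _ (by simp [duadFix])) s)

/-- Classes of triples, seen from a triple. -/
theorem triad_classes :
    (∀ x ∈ (Finset.univ : Finset GolayPt).powersetCard 3, ∀ y ∈ (Finset.univ : Finset GolayPt).powersetCard 3,
      setInv 8388611 8388611 x = setInv 8388611 8388611 y → ∃ h ∈ fixSub triadFix, h • x = y) ∧
    ∀ v, (((Finset.univ : Finset GolayPt).powersetCard 3).filter fun s => setInv 8388611 8388611 s = v).card =
      ((classCodes (maskAct triadGens) triadRoots).filter fun m => decide (setKey 8388611 triadOcts m = v)).length :=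
  setClasses triad_ok mem_powersetCard_iff
    (by rw [Finset.card_powersetCard, Finset.card_univ, card_golayPt]; decide +kernel) _
    (fun s _ => setInv_eq (by norm_num) triadOcts_ok s)
    (fun h hh s => setInv_smul (mem_fixSub.1 hh).1 ((mem_fixSub.1 hh).2 _ (by simp [triadFix]))
      ((mem_fixSub.1 hh).2 _ (by simp [triadFix])) s)

/-- The pairs avoiding two points. -/
noncomputable def pairsAvoid (p q : GolayPt) : Finset (Finset GolayPt) :=
  ((Finset.univ.erase p).erase q).powersetCard 2

theorem mem_pairsAvoid {p q : GolayPt} {t : Finset GolayPt} :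
    t ∈ pairsAvoid p q ↔ t.card = 2 ∧ p ∉ t ∧ q ∉ t := by
  rw [pairsAvoid, Finset.mem_powersetCard]
  constructor
  · rintro ⟨h1, h2⟩
    exact ⟨h2, fun h => Finset.ne_of_mem_erase (Finset.mem_of_mem_erase (h1 h)) rfl,
      fun h => Finset.ne_of_mem_erase (h1 h) rfl⟩
  · rintro ⟨h1, h2, h3⟩
    exact ⟨fun x hx => Finset.mem_erase.2 ⟨fun e => h3 (e ▸ hx),
      Finset.mem_erase.2 ⟨fun e => h2 (e ▸ hx), Finset.mem_univ x⟩⟩, h1⟩

/-- Classes of pairs avoiding two points, seen from such a pair. -/
theorem pqs_classes :
    (∀ x ∈ pairsAvoid none (some 0), ∀ y ∈ pairsAvoid none (some 0),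
      setInv 6 8388615 x = setInv 6 8388615 y → ∃ h ∈ fixSub pqsFix, h • x = y) ∧
    ∀ v, ((pairsAvoid none (some 0)).filter fun s => setInv 6 8388615 s = v).card =
      ((classCodes (maskAct pqsGens) pqsRoots).filter fun m => decide (setKey 6 pqsOcts m = v)).length := by
  refine setClasses pqs_ok (fun s => ?_) ?_ _ (fun s _ => setInv_eq (by norm_num) pqsOcts_ok s)
    (fun h hh s => setInv_smul (mem_fixSub.1 hh).1 ((mem_fixSub.1 hh).2 _ (by simp [pqsFix])) ?_ s)
  · rw [mem_pairsAvoid, card_eq_pc_mask]
    simp [show (mask s).testBit 23 = decide (none ∈ s) from testBit_mask s none,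
      show (mask s).testBit 0 = decide ((some 0 : GolayPt) ∈ s) from testBit_mask s (some 0), and_assoc,
      -Nat.testBit_zero]
  · rw [pairsAvoid, Finset.card_powersetCard,
      Finset.card_erase_of_mem (Finset.mem_erase.2 ⟨by simp, Finset.mem_univ _⟩),
      Finset.card_erase_of_mem (Finset.mem_univ _), Finset.card_univ, card_golayPt]
    decide +kernel
  · have h1 := (mem_fixSub.1 hh).2
    rw [show (8388615 : ℕ) = 8388608 ||| 1 ||| 6 by rfl, bset_or, bset_or, Finset.smul_finset_union,
      Finset.smul_finset_union, h1 _ (by simp [pqsFix]), h1 _ (by simp [pqsFix]), h1 _ (by simp [pqsFix])]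

end Cfsg.Agent.Golay
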