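import Cfsg.Agent.Golay.SextetKerData

/-! Structure of a sextet stabiliser. -/

set_option autoImplicit false
set_option maxRecDepth 20000

namespace Cfsg.Agent.Golay

open scoped Pointwise
open Cfsg.Agent.M24Orbits (Fam toSet rootSex)

/-- The tetrads of the root sextet. -/
def tet (i : Fin 6) : Finset GolayPt := bset (rootSex.getD i.val 0)

/-- The elements of `M24` fixing every member of a family. -/
abbrev fixAll (S : Fam) : Subgroup (Equiv.Perm GolayPt) :=
  M24 ⊓ fixingSubgroup (Equiv.Perm GolayPt) (↑S : Set (Finset GolayPt))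

theorem mem_fixAll {S : Fam} {g : Equiv.Perm GolayPt} :
    g ∈ fixAll S ↔ g ∈ M24 ∧ ∀ t ∈ S, g • t = t := by
  rw [Subgroup.mem_inf, mem_fixingSubgroup_iff]
  rfl

theorem tet_facts : (∀ i j, tet i = tet j → i = j) ∧ toSet rootSex = Finset.univ.image tet := by
  decide +kernel

theorem sexSwaps_ok :
    (sexSwaps.all isAut) = true ∧ sexSwaps.length = 5 ∧
    (∀ (k : Fin 5) (i : Fin 6), mapMask (sexSwaps.getD k.val 0) (rootSex.getD i.val 0) =
      rootSex.getD (Equiv.swap k.castSucc k.succ i).val 0) := by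
  decide +kernel

theorem sexKer_ok :
    sexKer.all (fun c => isAut c && rootSex.all fun m => mapMask c m == m) = true ∧
    (sexKer.map fun c => basePts.map (app c)).Nodup ∧ sexKer.length = 192 ∧
    sexKer.filter (fun c => isComp idCode c c) = sexInv ∧ sexInv.length = 64 := by
  decide +kernel

theorem sexInv_commute :
    (sexInv.all fun a => sexInv.all fun b => (List.range 24).all fun i =>
      app a (app b i) == app b (app a i)) = true := by decide +kernel

theorem sextet_root_mem : toSet rootSex ∈ sextets := M24Orbits.sextet_of_list (by decide +kernel)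

theorem sextet_perm_std (σ : Equiv.Perm (Fin 6)) :
    ∃ g ∈ M24, ∀ i, g • tet i = tet (σ i) := by
  let M : Submonoid (Equiv.Perm (Fin 6)) :=
    { carrier := {σ | ∃ g ∈ M24, ∀ i, g • tet i = tet (σ i)}
      one_mem' := ⟨1, one_mem _, fun i => one_smul _ _⟩
      mul_mem' := by
        rintro a b ⟨g, hg, hga⟩ ⟨h, hh, hhb⟩
        exact ⟨g * h, mul_mem hg hh, fun i => by rw [mul_smul, hhb, hga]; rfl⟩ }
  have hle : Submonoid.closure (Set.range fun i : Fin 5 => Equiv.swap i.castSucc i.succ) ≤ M := by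
    rw [Submonoid.closure_le]
    rintro _ ⟨k, rfl⟩
    obtain ⟨hall, hlen, hmap⟩ := sexSwaps_ok
    have hk : k.val < sexSwaps.length := by omega
    have ha : isAut (sexSwaps.getD k.val 0) = true := by
      rw [List.getD_eq_getElem _ _ hk]
      exact List.all_eq_true.1 hall _ (List.getElem_mem hk)
    exact ⟨_, permOf_mem_M24 ha, fun i => by
      rw [tet, ← bset_mapMask (permOK_of_isAut ha), hmap k i]; rfl⟩
  rw [Equiv.Perm.mclosure_swap_castSucc_succ] at hle
  exact hle (Submonoid.mem_top σ)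

theorem sextet_stab_card : Nat.card ↥(M24 ⊓ MulAction.stabilizer (Equiv.Perm GolayPt) (toSet rootSex)) = 138240 := by
  have h := card_eq_ncard_mul_stab M24 (toSet rootSex) sextets
    (fun t ht => M24Orbits.sextet_transitive sextet_root_mem ht)
    (fun g hg => M24Orbits.smul_mem_sextets hg sextet_root_mem)
  rw [M24_card, sextets_ncard] at h
  omega

theorem mem_root_iff {t : Finset GolayPt} : t ∈ toSet rootSex ↔ ∃ i, tet i = t := by
  rw [tet_facts.2]; simp

theorem fixAll_std_card : Nat.card ↥(fixAll (toSet rootSex)) = 192 := by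
  classical
  set H := M24 ⊓ MulAction.stabilizer (Equiv.Perm GolayPt) (toSet rootSex)
  have h := card_eq_ncard_mul_stab H tet (Set.range fun σ : Equiv.Perm (Fin 6) => fun i => tet (σ i))
    (by
      rintro _ ⟨σ, rfl⟩
      obtain ⟨g, hg, hgi⟩ := sextet_perm_std σ
      refine ⟨g, ⟨hg, ?_⟩, funext hgi⟩
      refine Finset.eq_of_subset_of_card_le (fun t ht => ?_) (by rw [Finset.card_smul_finset])
      obtain ⟨s, hs, rfl⟩ := Finset.mem_smul_finset.1 ht
      obtain ⟨i, rfl⟩ := mem_root_iff.1 hs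
      exact mem_root_iff.2 ⟨σ i, (hgi i).symm⟩)
    (by
      rintro g ⟨-, hgS⟩
      have hmem : ∀ i, ∃ j, tet j = g • tet i := fun i => mem_root_iff.1 (by
        have h2 := Finset.smul_mem_smul_finset (a := g) (mem_root_iff.2 ⟨i, rfl⟩)
        rwa [(hgS : g • toSet rootSex = toSet rootSex)] at h2)
      choose f hf using hmem
      have finj : Function.Injective f := fun a b e =>
        tet_facts.1 a b (MulAction.injective g (by show g • tet a = g • tet b; rw [← hf a, ← hf b, e]))
      exact ⟨Equiv.ofBijective f (Finite.injective_iff_bijective.1 finj), funext fun i => hf i⟩)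
  rw [sextet_stab_card, Set.ncard_range_of_injective, Nat.card_perm, Nat.card_fin] at h
  · have e : fixAll (toSet rootSex) = H ⊓ MulAction.stabilizer (Equiv.Perm GolayPt) tet := by
      ext g
      rw [mem_fixAll]
      constructor
      · rintro ⟨hg, hf⟩
        refine ⟨⟨hg, ?_⟩, funext fun i => hf _ (mem_root_iff.2 ⟨i, rfl⟩)⟩
        refine Finset.eq_of_subset_of_card_le (fun t ht => ?_) (by rw [Finset.card_smul_finset])
        obtain ⟨s, hs, rfl⟩ := Finset.mem_smul_finset.1 ht
        rwa [hf s hs]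
      · rintro ⟨⟨hg, -⟩, hf⟩
        refine ⟨hg, fun t ht => ?_⟩
        obtain ⟨i, rfl⟩ := mem_root_iff.1 ht
        exact congrFun hf i
    rw [e]
    have h720 : Nat.factorial 6 = 720 := by decide +kernel
    rw [h720] at h
    omega
  · intro a b e
    exact Equiv.ext fun i => tet_facts.1 _ _ (congrFun e i)

theorem sexKer_mem {c : ℕ} (hc : c ∈ sexKer) :
    permOK c = true ∧ permOf c ∈ fixAll (toSet rootSex) := by
  have h := List.all_eq_true.1 sexKer_ok.1 c hc
  simp only [Bool.and_eq_true, List.all_eq_true, beq_iff_eq] at h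
  have hok := permOK_of_isAut h.1
  refine ⟨hok, mem_fixAll.2 ⟨permOf_mem_M24 h.1, fun t ht => ?_⟩⟩
  simp only [toSet, List.mem_toFinset, List.mem_map] at ht
  obtain ⟨m, hm, rfl⟩ := ht
  rw [← bset_mapMask hok, h.2 m hm]

theorem sexKer_inj : ∀ a ∈ sexKer, ∀ b ∈ sexKer, permOf a = permOf b → a = b := by
  intro a ha b hb e
  refine List.inj_on_of_nodup_map sexKer_ok.2.1 ha hb (List.map_congr_left fun i hi => ?_)
  have h24 : i < 24 := (show ∀ x ∈ basePts, x < 24 by decide +kernel) i hi
  have h := congrArg (fun σ : Equiv.Perm GolayPt => idx (σ (pt i))) e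
  simpa [idx_permOf (sexKer_mem ha).1, idx_permOf (sexKer_mem hb).1, idx_pt h24] using h

theorem fixAll_std {g : Equiv.Perm GolayPt} (hg : g ∈ fixAll (toSet rootSex)) :
    ∃ c ∈ sexKer, permOf c = g := by
  classical
  have hset : ((sexKer.map permOf).toFinset : Set (Equiv.Perm GolayPt)) = fixAll (toSet rootSex) := by
    refine Set.eq_of_subset_of_ncard_le ?_ ?_ (Set.toFinite _)
    · intro x hx
      simp only [Finset.mem_coe, List.mem_toFinset, List.mem_map] at hx
      obtain ⟨c, hc, rfl⟩ := hx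
      exact (sexKer_mem hc).2
    · rw [Set.ncard_coe_finset, List.toFinset_card_of_nodup (List.Nodup.map_on sexKer_inj
          (List.Nodup.of_map _ sexKer_ok.2.1)), List.length_map, sexKer_ok.2.2.1,
        ← Nat.card_coe_set_eq]
      exact fixAll_std_card.le
  have : g ∈ ((sexKer.map permOf).toFinset : Set (Equiv.Perm GolayPt)) := hset ▸ hg
  simpa using this

theorem invol_iff {c : ℕ} (hc : c ∈ sexKer) : permOf c * permOf c = 1 ↔ c ∈ sexInv := by
  have hok := (sexKer_mem hc).1
  rw [← sexKer_ok.2.2.2.1, List.mem_filter]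
  constructor
  · intro h
    refine ⟨hc, ?_⟩
    simp only [isComp, List.all_eq_true, beq_iff_eq, List.mem_range]
    intro i hi
    have e := congrArg (fun σ : Equiv.Perm GolayPt => idx (σ (pt i))) h
    simp only [Equiv.Perm.mul_apply, idx_permOf hok, idx_pt hi, Equiv.Perm.one_apply] at e
    rw [e]
    exact (show ∀ i < 24, app idCode i = i by decide +kernel) i hi
  · rintro ⟨-, h⟩
    rw [← permOf_mul idCode_ok hok hok h, permOf_idCode]

theorem fixAll_commute_std {a b : Equiv.Perm GolayPt} (ha : a ∈ fixAll (toSet rootSex))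
    (hb : b ∈ fixAll (toSet rootSex)) (ha2 : a * a = 1) (hb2 : b * b = 1) : a * b = b * a := by
  obtain ⟨c, hc, rfl⟩ := fixAll_std ha
  obtain ⟨d, hd, rfl⟩ := fixAll_std hb
  have h := sexInv_commute
  simp only [List.all_eq_true, beq_iff_eq, List.mem_range] at h
  refine Equiv.ext fun p => idx_injective ?_
  rw [Equiv.Perm.mul_apply, Equiv.Perm.mul_apply, idx_permOf (sexKer_mem hc).1,
    idx_permOf (sexKer_mem hd).1, idx_permOf (sexKer_mem hd).1, idx_permOf (sexKer_mem hc).1]
  exact h c ((invol_iff hc).1 ha2) d ((invol_iff hd).1 hb2) _ (idx_lt p)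

theorem invol_count_std :
    {g : Equiv.Perm GolayPt | g ∈ fixAll (toSet rootSex) ∧ g * g = 1}.ncard = 64 := by
  classical
  have hsub : ∀ c ∈ sexInv, c ∈ sexKer := fun c hc => by
    rw [← sexKer_ok.2.2.2.1] at hc; exact List.mem_of_mem_filter hc
  have hset : {g : Equiv.Perm GolayPt | g ∈ fixAll (toSet rootSex) ∧ g * g = 1} =
      ↑((sexInv.map permOf).toFinset) := by
    ext g
    simp only [Set.mem_ofPred_eq, Finset.mem_coe, List.mem_toFinset, List.mem_map]
    constructor
    · rintro ⟨hg, h2⟩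
      obtain ⟨c, hc, rfl⟩ := fixAll_std hg
      exact ⟨c, (invol_iff hc).1 h2, rfl⟩
    · rintro ⟨c, hc, rfl⟩
      exact ⟨(sexKer_mem (hsub c hc)).2, (invol_iff (hsub c hc)).2 hc⟩
  rw [hset, Set.ncard_coe_finset, List.toFinset_card_of_nodup, List.length_map, sexKer_ok.2.2.2.2]
  refine List.Nodup.map_on (fun a ha b hb e => sexKer_inj a (hsub a ha) b (hsub b hb) e) ?_
  rw [← sexKer_ok.2.2.2.1]
  exact (List.Nodup.of_map _ sexKer_ok.2.1).filter _

theorem conj_fixAll {g : Equiv.Perm GolayPt} (hg : g ∈ M24) (S : Fam) (x : Equiv.Perm GolayPt) :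
    g * x * g⁻¹ ∈ fixAll (g • S) ↔ x ∈ fixAll S := by
  rw [mem_fixAll, mem_fixAll]
  refine and_congr ?_ ?_
  · constructor
    · intro h; simpa [mul_assoc] using mul_mem (mul_mem (inv_mem hg) h) hg
    · intro h; exact mul_mem (mul_mem hg h) (inv_mem hg)
  · constructor
    · intro h t ht
      have := h (g • t) (Finset.smul_mem_smul_finset ht)
      rwa [mul_smul, inv_smul_smul, mul_smul, smul_left_cancel_iff] at this
    · intro h t ht
      obtain ⟨s, hs, rfl⟩ := Finset.mem_smul_finset.1 ht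
      rw [mul_smul, inv_smul_smul, mul_smul, h s hs]

theorem sextet_structure {S : Fam} (hS : S ∈ sextets) :
    (∀ e : Equiv.Perm ↥S, ∃ g ∈ M24, g • S = S ∧ ∀ t : ↥S, g • (t : Finset GolayPt) = (e t : ↥S)) ∧
    Nat.card ↥(fixAll S) = 192 ∧
    (∀ a ∈ fixAll S, ∀ b ∈ fixAll S, a * a = 1 → b * b = 1 → a * b = b * a) ∧
    {g : Equiv.Perm GolayPt | g ∈ fixAll S ∧ g * g = 1}.ncard = 64 := by
  obtain ⟨g, hg, rfl⟩ := M24Orbits.sextet_of_root hS
  have hpull : ∀ a, a ∈ fixAll (g • toSet rootSex) → g⁻¹ * a * g ∈ fixAll (toSet rootSex) := by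
    intro a ha
    rw [← conj_fixAll hg]
    rwa [show g * (g⁻¹ * a * g) * g⁻¹ = a by group]
  refine ⟨fun e => ?_, ?_, fun a ha b hb ha2 hb2 => ?_, ?_⟩
  · have hm : ∀ i, g • tet i ∈ g • toSet rootSex := fun i =>
      Finset.smul_mem_smul_finset (mem_root_iff.2 ⟨i, rfl⟩)
    have hidx : ∀ i : Fin 6, ∃ j, g • tet j = (e ⟨g • tet i, hm i⟩ : Finset GolayPt) := by
      intro i
      obtain ⟨s, hs, hse⟩ := Finset.mem_smul_finset.1 (e ⟨g • tet i, hm i⟩).2
      obtain ⟨j, rfl⟩ := mem_root_iff.1 hs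
      exact ⟨j, hse⟩
    choose f hf using hidx
    have finj : Function.Injective f := fun a b eab => by
      have h1 : e ⟨g • tet a, hm a⟩ = e ⟨g • tet b, hm b⟩ := Subtype.ext (by rw [← hf a, ← hf b, eab])
      exact tet_facts.1 a b (MulAction.injective g (congrArg Subtype.val (e.injective h1)))
    obtain ⟨h, hh, hhi⟩ := sextet_perm_std (Equiv.ofBijective f (Finite.injective_iff_bijective.1 finj))
    have key : ∀ t : ↥(g • toSet rootSex), (g * h * g⁻¹) • (t : Finset GolayPt) = (e t : ↥(g • toSet rootSex)) := by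
      rintro ⟨t, ht⟩
      obtain ⟨s, hs, rfl⟩ := Finset.mem_smul_finset.1 ht
      obtain ⟨i, rfl⟩ := mem_root_iff.1 hs
      rw [mul_smul, inv_smul_smul, mul_smul, hhi i]
      exact hf i
    refine ⟨g * h * g⁻¹, mul_mem (mul_mem hg hh) (inv_mem hg), ?_, key⟩
    refine Finset.eq_of_subset_of_card_le (fun t ht => ?_) (by simp only [Finset.card_smul_finset, le_refl])
    obtain ⟨s, hs, rfl⟩ := Finset.mem_smul_finset.1 ht
    rw [key ⟨s, hs⟩]
    exact (e ⟨s, hs⟩).2
  · rw [← fixAll_std_card]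
    exact (Nat.card_congr ((MulAut.conj g).toEquiv.subtypeEquiv fun x => (conj_fixAll hg _ x).symm)).symm
  · have h := fixAll_commute_std (hpull a ha) (hpull b hb)
      (by rw [show g⁻¹ * a * g * (g⁻¹ * a * g) = g⁻¹ * (a * a) * g by group, ha2]; group)
      (by rw [show g⁻¹ * b * g * (g⁻¹ * b * g) = g⁻¹ * (b * b) * g by group, hb2]; group)
    calc a * b = g * ((g⁻¹ * a * g) * (g⁻¹ * b * g)) * g⁻¹ := by group
      _ = g * ((g⁻¹ * b * g) * (g⁻¹ * a * g)) * g⁻¹ := by rw [h]
      _ = b * a := by group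
  · rw [← invol_count_std]
    conv_rhs => rw [← Set.ncard_image_of_injective _ (MulAut.conj g).injective]
    congr 1
    ext a
    simp only [Set.mem_image, Set.mem_ofPred_eq, MulAut.conj_apply]
    constructor
    · rintro ⟨ha, ha2⟩
      refine ⟨g⁻¹ * a * g, ⟨hpull a ha, ?_⟩, by group⟩
      rw [show g⁻¹ * a * g * (g⁻¹ * a * g) = g⁻¹ * (a * a) * g by group, ha2]; group
    · rintro ⟨x, ⟨hx, hx2⟩, rfl⟩
      refine ⟨(conj_fixAll hg _ x).2 hx, ?_⟩
      rw [show g * x * g⁻¹ * (g * x * g⁻¹) = g * (x * x) * g⁻¹ by group, hx2]; group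

end Cfsg.Agent.Golay
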