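import Cfsg.Agent.Golay.IsoData
import Cfsg.Agent.Golay.IsoTable
import Cfsg.Agent.Golay.DodStab

/-! Point and pair stabilisers of the smallest Mathieu group on twelve points. -/

set_option autoImplicit false
set_option maxRecDepth 20000

namespace Cfsg.Agent.Golay

open scoped Pointwise

/-- The stabiliser of a dodecad, a point, and a further object. -/
abbrev dpStab {β : Type*} [MulAction (Equiv.Perm GolayPt) β] (d : Finset GolayPt) (p : GolayPt) (b : β) :
    Subgroup (Equiv.Perm GolayPt) :=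
  M24 ⊓ MulAction.stabilizer (Equiv.Perm GolayPt) d ⊓ MulAction.stabilizer (Equiv.Perm GolayPt) p ⊓
    MulAction.stabilizer (Equiv.Perm GolayPt) b

/-- Conjugate subgroups are isomorphic. -/
def conjEquivOfIff (g : Equiv.Perm GolayPt) {H K : Subgroup (Equiv.Perm GolayPt)}
    (h : ∀ x, g * x * g⁻¹ ∈ K ↔ x ∈ H) : ↥H ≃* ↥K where
  toFun x := ⟨g * x.1 * g⁻¹, (h x.1).2 x.2⟩
  invFun y := ⟨g⁻¹ * y.1 * g, (h _).1 (by simpa [mul_assoc] using y.2)⟩
  left_inv x := by ext1; simp [mul_assoc]
  right_inv y := by ext1; simp [mul_assoc]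
  map_mul' a b := by ext1; simp [mul_assoc]

theorem conj_fix_iff {β : Type*} [MulAction (Equiv.Perm GolayPt) β] (g x : Equiv.Perm GolayPt) (b : β) :
    (g * x * g⁻¹) • g • b = g • b ↔ x • b = b := by
  rw [mul_smul, inv_smul_smul, mul_smul, smul_left_cancel_iff]

theorem dpStab_conj {β : Type*} [MulAction (Equiv.Perm GolayPt) β] {g : Equiv.Perm GolayPt} (hg : g ∈ M24)
    (d : Finset GolayPt) (p : GolayPt) (b : β) (x : Equiv.Perm GolayPt) :
    g * x * g⁻¹ ∈ dpStab (g • d) (g • p) (g • b) ↔ x ∈ dpStab d p b := by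
  simp only [dpStab, Subgroup.mem_inf, MulAction.mem_stabilizer_iff, conj_fix_iff]
  refine and_congr_left' (and_congr_left' (and_congr_left' ?_))
  exact ⟨fun h => by simpa [mul_assoc] using mul_mem (mul_mem (inv_mem hg) h) hg,
    fun h => mul_mem (mul_mem hg h) (inv_mem hg)⟩

theorem iso_std_pts : pt 0 ∈ bset sqMask ∧ pt 5 ∉ bset sqMask ∧ pt 7 ∉ bset sqMask ∧ pt 5 ≠ pt 7 ∧
    ((bset sqMask)ᶜ).card = 12 := by decide +kernel

theorem pointStab_std_card :
    Nat.card ↥(dpStab (bset sqMask) (pt 0) (pt 5)) = 660 := by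
  obtain ⟨h0, h5, h7, h57, hc⟩ := iso_std_pts
  have h := card_eq_ncard_mul_stab (M24 ⊓ MulAction.stabilizer (Equiv.Perm GolayPt) (bset sqMask) ⊓
      MulAction.stabilizer (Equiv.Perm GolayPt) (pt 0)) (pt 5) (↑((bset sqMask)ᶜ) : Set GolayPt)
    (fun t ht => by
      obtain ⟨g, hg, hgd, hgp, -, -, hgq⟩ := dod_three_outside sqMask_dodecad h0 std_pts.2.1 std_pts.2.2
        (by decide +kernel) (by decide +kernel) (by decide +kernel) h5 (Finset.mem_compl.1 (Finset.mem_coe.1 ht))
      exact ⟨g, ⟨⟨hg, hgd⟩, hgp⟩, hgq⟩)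
    (fun g hg => by
      rw [Finset.mem_coe, Finset.mem_compl]
      intro h
      have hgd : g • bset sqMask = bset sqMask := hg.1.2
      rw [← hgd, Finset.smul_mem_smul_finset_iff] at h
      exact h5 h)
  rw [M24_dodecad_point_stab_card sqMask_dodecad h0, Set.ncard_coe_finset, hc] at h
  change 7920 = 12 * Nat.card ↥(dpStab (bset sqMask) (pt 0) (pt 5)) at h
  omega

theorem pairStab_std_card :
    Nat.card ↥(dpStab (bset sqMask) (pt 0) ({pt 5, pt 7} : Finset GolayPt)) = 120 := by
  classical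
  obtain ⟨h0, h5, h7, h57, hc⟩ := iso_std_pts
  have h := card_eq_ncard_mul_stab (M24 ⊓ MulAction.stabilizer (Equiv.Perm GolayPt) (bset sqMask) ⊓
      MulAction.stabilizer (Equiv.Perm GolayPt) (pt 0)) ({pt 5, pt 7} : Finset GolayPt)
      (↑(((bset sqMask)ᶜ).powersetCard 2) : Set (Finset GolayPt))
    (fun t ht => by
      rw [Finset.mem_coe, Finset.mem_powersetCard] at ht
      obtain ⟨a, b, hab, rfl⟩ := Finset.card_eq_two.1 ht.2
      simp only [Finset.insert_subset_iff, Finset.singleton_subset_iff, Finset.mem_compl] at ht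
      obtain ⟨c, hc1, hca, hcb⟩ : ∃ c, c ∈ (bset sqMask)ᶜ ∧ c ≠ a ∧ c ≠ b := by
        obtain ⟨c, hc'⟩ := Finset.card_pos.1 (show 0 < ((((bset sqMask)ᶜ).erase a).erase b).card by
          have h1 := Finset.pred_card_le_card_erase (s := (bset sqMask)ᶜ) (a := a)
          have h2 := Finset.pred_card_le_card_erase (s := ((bset sqMask)ᶜ).erase a) (a := b)
          omega)
        simp only [Finset.mem_erase] at hc'
        exact ⟨c, hc'.2.2, hc'.2.1, hc'.1⟩
      have h6 : pt 10 ∉ bset sqMask ∧ pt 5 ≠ pt 10 ∧ pt 7 ≠ pt 10 := by decide +kernel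
      obtain ⟨g, hg, hgd, hgp, hga, hgb, -⟩ := dod_point_three_transitive sqMask_dodecad h0 h5 h7 h6.1
        ht.1.1 ht.1.2 (Finset.mem_compl.1 hc1) h57 h6.2.1 h6.2.2 hab hca.symm hcb.symm
      refine ⟨g, ⟨⟨hg, hgd⟩, hgp⟩, ?_⟩
      rw [Finset.smul_finset_insert, Finset.smul_finset_singleton, Equiv.Perm.smul_def,
        Equiv.Perm.smul_def, hga, hgb])
    (fun g hg => by
      have hgd : g • bset sqMask = bset sqMask := hg.1.2
      rw [Finset.mem_coe, Finset.mem_powersetCard, Finset.card_smul_finset, Finset.card_pair h57]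
      refine ⟨fun x hx => ?_, rfl⟩
      obtain ⟨y, hy, rfl⟩ := Finset.mem_smul_finset.1 hx
      rw [Finset.mem_compl]
      intro h
      rw [← hgd, Finset.smul_mem_smul_finset_iff] at h
      simp only [Finset.mem_insert, Finset.mem_singleton] at hy
      rcases hy with rfl | rfl
      · exact h5 h
      · exact h7 h)
  rw [M24_dodecad_point_stab_card sqMask_dodecad h0, Set.ncard_coe_finset, Finset.card_powersetCard, hc,
    show Nat.choose 12 2 = 66 by decide +kernel] at h
  change 7920 = 66 * Nat.card ↥(dpStab (bset sqMask) (pt 0) ({pt 5, pt 7} : Finset GolayPt)) at h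
  omega

theorem mem_dpStab_std {c : ℕ} {β : Type*} [MulAction (Equiv.Perm GolayPt) β] (b : β)
    (h : isAut c = true ∧ mapMask c sqMask = sqMask ∧ app c 0 = 0) (hb : permOf c • b = b) :
    permOf c ∈ dpStab (bset sqMask) (pt 0) b := by
  have hok := permOK_of_isAut h.1
  refine ⟨⟨⟨permOf_mem_M24 h.1, ?_⟩, ?_⟩, hb⟩
  · show permOf c • bset sqMask = bset sqMask
    rw [← bset_mapMask hok, h.2.1]
  · show permOf c (pt 0) = pt 0
    rw [permOf_pt hok (by norm_num), h.2.2]

/-! ### PSL(2, 11) -/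

/-- `SL(2, 11)`. -/
abbrev SL11 : Type := Matrix.SpecialLinearGroup (Fin 2) (ZMod 11)

/-- The key of a matrix. -/
def slKey (g : SL11) : ℕ := (g 0 0).val * 1331 + (g 0 1).val * 121 + (g 1 0).val * 11 + (g 1 1).val

/-- The code of a matrix. -/
def slCode (g : SL11) : ℕ := slTable.get (slKey g)

/-- The upper unitriangular generator. -/
def slU : SL11 := ⟨!![1, 1; 0, 1], by simp [Matrix.det_fin_two]⟩

/-- The Weyl generator. -/
def slT : SL11 := ⟨!![0, -1; 1, 0], by simp [Matrix.det_fin_two]⟩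

theorem slTable_ok :
    (List.range 11).all (fun a => (List.range 11).all fun b => (List.range 11).all fun c =>
      (List.range 11).all fun d => !((a * d + 10 * b * c) % 11 == 1) ||
        (let e := slTable.get (a * 1331 + b * 121 + c * 11 + d)
         permOK e && isComp (slTable.get (a * 1331 + (a + b) % 11 * 121 + c * 11 + (c + d) % 11)) e
             (slTable.get (1331 + 121 + 1)) &&
           isComp (slTable.get (b * 1331 + 10 * a % 11 * 121 + d * 11 + 10 * c % 11)) e
             (slTable.get (10 * 121 + 11)) &&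
           (!isId e || (b == 0 && c == 0 && (a == 1 && d == 1 || a == 10 && d == 10))))) = true ∧
    (let u := slTable.get (1331 + 121 + 1)
     let t := slTable.get (10 * 121 + 11)
     isAut u && (mapMask u sqMask == sqMask) && (app u 0 == 0) && (app u 5 == 5) &&
       isAut t && (mapMask t sqMask == sqMask) && (app t 0 == 0) && (app t 5 == 5)) = true ∧
    slTable.get 1332 = idCode ∧ slTable.get (10 * 1331 + 10) = idCode ∧
    slReps.length = 660 ∧ distinctAux 35 ((slReps.map fun k => slTable.get k).map baseKey) .emp = true ∧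
    slReps.all (fun k => decide (k < 14641) && (k / 1331 * (k % 11) + 10 * (k / 121 % 11) * (k / 11 % 11)) % 11 == 1)
      = true := by
  decide +kernel

theorem sl_entries (g : SL11) :
    ((g 0 0).val * (g 1 1).val + 10 * (g 0 1).val * (g 1 0).val) % 11 = 1 ∧
    (g 0 0).val < 11 ∧ (g 0 1).val < 11 ∧ (g 1 0).val < 11 ∧ (g 1 1).val < 11 := by
  haveI : Fact (1 < 11) := ⟨by norm_num⟩
  refine ⟨?_, ZMod.val_lt _, ZMod.val_lt _, ZMod.val_lt _, ZMod.val_lt _⟩
  have h := g.2
  rw [Matrix.det_fin_two] at h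
  have h2 : (((g 0 0).val * (g 1 1).val + 10 * (g 0 1).val * (g 1 0).val : ℕ) : ZMod 11) = 1 := by
    push_cast
    simp only [ZMod.natCast_val, ZMod.cast_id', id_eq]
    rw [show (10 : ZMod 11) = -1 by decide]
    linear_combination h
  have h3 := congrArg ZMod.val h2
  rwa [ZMod.val_natCast, ZMod.val_one] at h3

theorem sl_code_spec (g : SL11) :
    permOK (slCode g) = true ∧ isComp (slCode (g * slU)) (slCode g) (slCode slU) = true ∧
      isComp (slCode (g * slT)) (slCode g) (slCode slT) = true ∧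
      (isId (slCode g) = true → g ∈ Subgroup.center SL11) := by
  obtain ⟨hdet, ha, hb, hc, hd⟩ := sl_entries g
  have h := slTable_ok.1
  simp only [List.all_eq_true, List.mem_range, Bool.or_eq_true, Bool.not_eq_true', Bool.and_eq_true,
    beq_iff_eq, beq_eq_false_iff_ne] at h
  rcases h _ ha _ hb _ hc _ hd with h | ⟨⟨⟨h1, h2⟩, h3⟩, h4⟩
  · exact absurd hdet h
  haveI : Fact (1 < 11) := ⟨by norm_num⟩
  refine ⟨h1, ?_, ?_, fun hid => ?_⟩
  · have e1 : slKey (g * slU) = (g 0 0).val * 1331 + ((g 0 0).val + (g 0 1).val) % 11 * 121 +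
        (g 1 0).val * 11 + ((g 1 0).val + (g 1 1).val) % 11 := by
      simp only [slKey, Matrix.SpecialLinearGroup.coe_mul, Matrix.mul_apply, Fin.sum_univ_two]
      simp [slU, ZMod.val_add]
    have e2 : slKey slU = 1331 + 121 + 1 := by decide +kernel
    unfold slCode
    rw [e1, e2]
    exact h2
  · have e : ∀ x : ZMod 11, (-x).val = 10 * x.val % 11 := by decide +kernel
    have e1 : slKey (g * slT) = (g 0 1).val * 1331 + 10 * (g 0 0).val % 11 * 121 +
        (g 1 1).val * 11 + 10 * (g 1 0).val % 11 := by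
      simp only [slKey, Matrix.SpecialLinearGroup.coe_mul, Matrix.mul_apply, Fin.sum_univ_two]
      simp [slT, e]
    have e2 : slKey slT = 10 * 121 + 11 := by decide +kernel
    unfold slCode
    rw [e1, e2]
    exact h3
  · rcases h4 with h4 | ⟨⟨hb0, hc0⟩, hr⟩
    · simp [slCode, slKey, h4] at hid
    · rw [Matrix.SpecialLinearGroup.mem_center_iff]
      rw [ZMod.val_eq_zero] at hb0 hc0
      rcases hr with ⟨hA, hD⟩ | ⟨hA, hD⟩
      · refine ⟨1, one_pow _, ?_⟩
        have eA : g 0 0 = 1 := ZMod.val_injective _ (by rw [hA]; rfl)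
        have eD : g 1 1 = 1 := ZMod.val_injective _ (by rw [hD]; rfl)
        ext i j
        fin_cases i <;> fin_cases j <;> simp [eA, eD, hb0, hc0]
      · refine ⟨10, by decide +kernel, ?_⟩
        have eA : g 0 0 = 10 := ZMod.val_injective _ (by rw [hA]; rfl)
        have eD : g 1 1 = 10 := ZMod.val_injective _ (by rw [hD]; rfl)
        ext i j
        fin_cases i <;> fin_cases j <;> simp [eA, eD, hb0, hc0]

theorem slU_pow (n : ℕ) : (slU ^ n : SL11).1 = !![1, (n : ZMod 11); 0, 1] := by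
  induction n with
  | zero => simp [Matrix.one_fin_two]
  | succ n ih =>
    rw [pow_succ, Matrix.SpecialLinearGroup.coe_mul, ih]
    simp [slU, Matrix.mul_fin_two]
    ring

theorem sl_gen : Subgroup.closure ({slU, slT} : Set SL11) = ⊤ := by
  set H := Subgroup.closure ({slU, slT} : Set SL11)
  have hU : slU ∈ H := Subgroup.subset_closure (by simp)
  have hT : slT ∈ H := Subgroup.subset_closure (by simp)
  have up : ∀ g : SL11, g 1 0 = 0 → g 0 0 = 1 → g ∈ H := by
    intro g h10 h00
    have h11 : g 1 1 = 1 := by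
      have h := g.2
      rw [Matrix.det_fin_two, h10, h00] at h
      simpa using h
    have e : g = slU ^ (g 0 1).val := Subtype.ext (by
      rw [slU_pow, ZMod.natCast_zmod_val]
      ext i j
      fin_cases i <;> fin_cases j <;> simp [h10, h00, h11])
    rw [e]; exact pow_mem hU _
  have lo : ∀ g : SL11, g 0 1 = 0 → g 0 0 = 1 → g ∈ H := by
    intro g h01 h00
    have h11 : g 1 1 = 1 := by
      have h := g.2
      rw [Matrix.det_fin_two, h01, h00] at h
      simpa using h
    have hm : slT⁻¹ * g * slT ∈ H := by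
      refine up _ ?_ ?_ <;>
        simp only [Matrix.SpecialLinearGroup.coe_mul, Matrix.SpecialLinearGroup.coe_inv, Matrix.mul_apply, Fin.sum_univ_two,
          Matrix.adjugate_fin_two] <;>
        simp [slT, h01, h00, h11]
    simpa [mul_assoc] using mul_mem (mul_mem hT hm) (inv_mem hT)
  haveI : Fact (Nat.Prime 11) := ⟨by norm_num⟩
  have main : ∀ g : SL11, g 1 0 ≠ 0 → g ∈ H := by
    intro g hc
    set x := (g 0 0 - 1) * (g 1 0)⁻¹ with hx
    let u : SL11 := ⟨!![1, -x; 0, 1], by simp [Matrix.det_fin_two]⟩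
    let l : SL11 := ⟨!![1, 0; -(g 1 0), 1], by simp [Matrix.det_fin_two]⟩
    have hu : u ∈ H := up u rfl rfl
    have hl : l ∈ H := lo l rfl rfl
    have hxc : x * g 1 0 = g 0 0 - 1 := by rw [hx, mul_assoc, inv_mul_cancel₀ hc, mul_one]
    have hr : l * (u * g) ∈ H := by
      refine up _ ?_ ?_
      · simp only [Matrix.SpecialLinearGroup.coe_mul, Matrix.mul_apply, Fin.sum_univ_two]
        simp [u, l]
        linear_combination g 1 0 * hxc
      · simp only [Matrix.SpecialLinearGroup.coe_mul, Matrix.mul_apply, Fin.sum_univ_two]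
        simp [u, l]
        linear_combination -hxc
    simpa using mul_mem (inv_mem hu) (by simpa [mul_assoc] using mul_mem (inv_mem hl) hr : u * g ∈ H)
  rw [eq_top_iff]
  intro g _
  by_cases hc : g 1 0 = 0
  · have h00 : g 0 0 ≠ 0 := by
      intro h
      have h2 := g.2
      rw [Matrix.det_fin_two, hc, h] at h2
      simp at h2
    have hm : slT * g ∈ H := main _ (by
      simp only [Matrix.SpecialLinearGroup.coe_mul, Matrix.mul_apply, Fin.sum_univ_two]
      simpa [slT] using h00)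
    simpa using mul_mem (inv_mem hT) hm
  · exact main g hc

theorem psl_iso_std :
    Nonempty (↥(dpStab (bset sqMask) (pt 0) (pt 5)) ≃*
      Matrix.ProjectiveSpecialLinearGroup (Fin 2) (ZMod 11)) := by
  obtain ⟨-, hgens, hid1, hid10, hlen, hdist, hreps⟩ := slTable_ok
  have hone : slCode 1 = idCode := by
    rw [slCode, show slKey 1 = 1332 by decide]; exact hid1
  have hkeyU : slKey slU = 1331 + 121 + 1 := by decide
  have hkeyT : slKey slT = 10 * 121 + 11 := by decide
  let φ := tableHom sl_gen slCode (fun g => (sl_code_spec g).1) hone (by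
    intro a s hs
    rcases hs with rfl | rfl
    · exact (sl_code_spec a).2.1
    · exact (sl_code_spec a).2.2.1)
  have hle : φ.range ≤ dpStab (bset sqMask) (pt 0) (pt 5) := by
    simp only [Bool.and_eq_true, beq_iff_eq] at hgens
    obtain ⟨⟨⟨⟨⟨⟨⟨u1, u2⟩, u3⟩, u4⟩, t1⟩, t2⟩, t3⟩, t4⟩ := hgens
    refine range_le_of_gens sl_gen φ _ ?_
    intro s hs
    rcases hs with rfl | rfl
    · show permOf (slCode slU) ∈ _
      rw [slCode, hkeyU]
      exact mem_dpStab_std _ ⟨u1, u2, u3⟩ (by
        rw [Equiv.Perm.smul_def, permOf_pt (permOK_of_isAut u1) (by norm_num), u4])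
    · show permOf (slCode slT) ∈ _
      rw [slCode, hkeyT]
      exact mem_dpStab_std _ ⟨t1, t2, t3⟩ (by
        rw [Equiv.Perm.smul_def, permOf_pt (permOK_of_isAut t1) (by norm_num), t4])
  have hmatrix : ∀ k ∈ slReps, ∃ g : SL11, slKey g = k := by
    intro k hk
    have h := List.all_eq_true.1 hreps k hk
    simp only [Bool.and_eq_true, decide_eq_true_eq, beq_iff_eq] at h
    refine ⟨⟨!![((k / 1331 : ℕ) : ZMod 11), ((k / 121 % 11 : ℕ) : ZMod 11);
      ((k / 11 % 11 : ℕ) : ZMod 11), ((k % 11 : ℕ) : ZMod 11)], ?_⟩, ?_⟩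
    · rw [Matrix.det_fin_two_of]
      have h2 := congrArg (fun n : ℕ => (n : ZMod 11)) h.2
      simp only [ZMod.natCast_mod, Nat.cast_add, Nat.cast_mul, Nat.cast_one, Nat.cast_ofNat] at h2
      rw [show (10 : ZMod 11) = -1 by decide] at h2
      simp only [ZMod.natCast_mod]
      linear_combination h2
    · simp [slKey, ZMod.val_natCast]
      omega
  have hrange := le_range_of_values φ hle (slReps.map fun k => slTable.get k) hdist (by
      intro c hc
      obtain ⟨k, hk, rfl⟩ := List.mem_map.1 hc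
      obtain ⟨g, rfl⟩ := hmatrix k hk
      exact ⟨(sl_code_spec g).1, g, rfl⟩)
    (by rw [pointStab_std_card, List.length_map, hlen])
  have hker : φ.ker = Subgroup.center SL11 := by
    refine le_antisymm (fun g hg => (sl_code_spec g).2.2.2 ?_) (fun g hg => ?_)
    · exact isId_of_eq_one (sl_code_spec g).1 (MonoidHom.mem_ker.1 hg)
    · obtain ⟨r, hr, e⟩ := Matrix.SpecialLinearGroup.mem_center_iff.1 hg
      have hr' : r = 1 ∨ r = 10 :=
        (by decide +kernel : ∀ x : ZMod 11, x ^ 2 = 1 → x = 1 ∨ x = 10) r (by simpa using hr)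
      refine MonoidHom.mem_ker.2 (show permOf (slCode g) = 1 from ?_)
      have e0 : ∀ i j, g i j = (Matrix.scalar (Fin 2) r) i j := fun i j => by rw [e]
      rcases hr' with rfl | rfl
      · have hk : slKey g = 1332 := by rw [slKey, e0, e0, e0, e0]; decide +kernel
        rw [slCode, hk, hid1, permOf_idCode]
      · have hk : slKey g = 10 * 1331 + 10 := by rw [slKey, e0, e0, e0, e0]; decide +kernel
        rw [slCode, hk, hid10, permOf_idCode]
  exact ⟨(((QuotientGroup.quotientMulEquivOfEq hker.symm).trans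
    (QuotientGroup.quotientKerEquivRange φ)).trans (MulEquiv.subgroupCongr hrange)).symm⟩

/-! ### S5 -/

/-- The key of a permutation of five letters. -/
def s5Key (σ : Equiv.Perm (Fin 5)) : ℕ :=
  (σ 0).val + 5 * (σ 1).val + 25 * (σ 2).val + 125 * (σ 3).val

/-- The code of a permutation of five letters. -/
def s5Code (σ : Equiv.Perm (Fin 5)) : ℕ := s5Table.get (s5Key σ)

theorem s5_ok :
    (∀ σ : Equiv.Perm (Fin 5), permOK (s5Code σ) = true ∧
      isComp (s5Code (σ * finRotate 5)) (s5Code σ) (s5Code (finRotate 5)) = true ∧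
      isComp (s5Code (σ * Equiv.swap 0 1)) (s5Code σ) (s5Code (Equiv.swap 0 1)) = true ∧
      (isId (s5Code σ) = true → σ = 1)) ∧
    ((Finset.univ : Finset (Equiv.Perm (Fin 5))).image s5Key = s5Keys.toFinset) ∧
    [s5Code (finRotate 5), s5Code (Equiv.swap 0 1)].all (fun c => isAut c && mapMask c sqMask == sqMask &&
      app c 0 == 0 && mapMask c 160 == 160) = true ∧
    s5Code 1 = idCode ∧ s5Keys.length = 120 ∧
    distinctAux 35 ((s5Keys.map fun k => s5Table.get k).map baseKey) .emp = true := by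
  decide +kernel

theorem bset_160 : bset 160 = {pt 5, pt 7} := by decide +kernel

theorem s5_gen : Subgroup.closure ({finRotate 5, Equiv.swap 0 1} : Set (Equiv.Perm (Fin 5))) = ⊤ := by
  have h := Equiv.Perm.closure_cycle_adjacent_swap (σ := finRotate 5) isCycle_finRotate support_finRotate 0
  rwa [show finRotate 5 0 = 1 by decide] at h

theorem s5_iso_std :
    Nonempty (↥(dpStab (bset sqMask) (pt 0) ({pt 5, pt 7} : Finset GolayPt)) ≃* Equiv.Perm (Fin 5)) := by
  obtain ⟨hall, himg, hgens, hone, hlen, hdist⟩ := s5_ok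
  let φ := tableHom s5_gen s5Code (fun g => (hall g).1) hone (by
    intro a s hs
    rcases hs with rfl | rfl
    · exact (hall a).2.1
    · exact (hall a).2.2.1)
  have hle : φ.range ≤ dpStab (bset sqMask) (pt 0) ({pt 5, pt 7} : Finset GolayPt) := by
    simp only [List.all_cons, List.all_nil, Bool.and_true, Bool.and_eq_true, beq_iff_eq] at hgens
    obtain ⟨⟨⟨⟨r1, r2⟩, r3⟩, r4⟩, ⟨⟨⟨w1, w2⟩, w3⟩, w4⟩⟩ := hgens
    refine range_le_of_gens s5_gen φ _ ?_
    intro s hs
    rcases hs with rfl | rfl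
    · exact mem_dpStab_std _ ⟨r1, r2, r3⟩ (by rw [← bset_160, ← bset_mapMask (permOK_of_isAut r1), r4])
    · exact mem_dpStab_std _ ⟨w1, w2, w3⟩ (by rw [← bset_160, ← bset_mapMask (permOK_of_isAut w1), w4])
  have hrange := le_range_of_values φ hle (s5Keys.map fun k => s5Table.get k) hdist (by
      intro c hc
      obtain ⟨k, hk, rfl⟩ := List.mem_map.1 hc
      obtain ⟨σ, -, rfl⟩ := Finset.mem_image.1 (himg ▸ List.mem_toFinset.2 hk : k ∈ _)
      exact ⟨(hall σ).1, σ, rfl⟩)
    (by rw [pairStab_std_card, List.length_map, hlen])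
  have hinj : Function.Injective φ := by
    rw [← MonoidHom.ker_eq_bot_iff, eq_bot_iff]
    intro g hg
    exact (hall g).2.2.2 (isId_of_eq_one (hall g).1 (MonoidHom.mem_ker.1 hg))
  exact ⟨((MonoidHom.ofInjective hinj).trans (MulEquiv.subgroupCongr hrange)).symm⟩

/-! ### Transport -/

theorem move_std {d : Finset GolayPt} (hd : d ∈ dodecads) {p q q' : GolayPt} (hp : p ∈ d) (hq : q ∉ d)
    (hq' : q' ∉ d) (hqq' : q ≠ q') :
    ∃ g ∈ M24, g • bset sqMask = d ∧ g • pt 0 = p ∧ g • pt 5 = q ∧ g • pt 7 = q' := by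
  classical
  obtain ⟨e, he, rfl⟩ := exists_mem_M24_sqMask hd
  obtain ⟨f, hf, hfd, hfp⟩ := exists_mem_dodecad_stab hd (k := 1) (by norm_num)
    ⟨fun _ => e (pt 0), fun a b _ => Subsingleton.elim a b⟩
    ⟨fun _ => p, fun a b _ => Subsingleton.elim a b⟩
    (fun _ => Finset.smul_mem_smul_finset std_pts.1) (fun _ => hp)
  have hkd : (f * e) • bset sqMask = e • bset sqMask := by rw [mul_smul, hfd]
  have hout : ∀ x, x ∉ bset sqMask → (f * e) x ∉ e • bset sqMask := by
    intro x hx h
    rw [← hkd, ← Equiv.Perm.smul_def, Finset.smul_mem_smul_finset_iff] at h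
    exact hx h
  have h6 : pt 10 ∉ bset sqMask ∧ pt 5 ≠ pt 10 ∧ pt 7 ≠ pt 10 := by decide +kernel
  obtain ⟨c, hc, hcq, hcq'⟩ : ∃ c, c ∉ e • bset sqMask ∧ c ≠ q ∧ c ≠ q' := by
    obtain ⟨c, hc'⟩ := Finset.card_pos.1 (show 0 < ((((e • bset sqMask))ᶜ.erase q).erase q').card by
      have h0 : ((e • bset sqMask)ᶜ).card = 12 := by
        rw [Finset.card_compl, card_golayPt, Finset.card_smul_finset, card_dodecad sqMask_dodecad]
      have h1 := Finset.pred_card_le_card_erase (s := ((e • bset sqMask))ᶜ) (a := q)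
      have h2 := Finset.pred_card_le_card_erase (s := ((e • bset sqMask))ᶜ.erase q) (a := q')
      omega)
    simp only [Finset.mem_erase, Finset.mem_compl] at hc'
    exact ⟨c, hc'.2.2, hc'.2.1, hc'.1⟩
  obtain ⟨h, hh, hhd, hhp, h1, h2, -⟩ := dod_point_three_transitive hd hp
    (hout _ iso_std_pts.2.1) (hout _ iso_std_pts.2.2.1) (hout _ h6.1) hq hq' hc
    ((f * e).injective.ne iso_std_pts.2.2.2.1) ((f * e).injective.ne h6.2.1)
    ((f * e).injective.ne h6.2.2) hqq' hcq.symm hcq'.symm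
  refine ⟨h * (f * e), mul_mem hh (mul_mem hf he), by rw [mul_smul, hkd, hhd], ?_, ?_, ?_⟩
  · show h (f (e (pt 0))) = p
    have hfp' : f (e (pt 0)) = p := hfp 0
    rw [hfp']; exact hhp
  · exact h1
  · exact h2

theorem point_stab_iso {d : Finset GolayPt} (hd : d ∈ dodecads) {p q : GolayPt} (hp : p ∈ d) (hq : q ∉ d) :
    Nonempty (↥(MulAction.stabilizer M24 d ⊓ MulAction.stabilizer M24 p ⊓ MulAction.stabilizer M24 q) ≃*
      Matrix.ProjectiveSpecialLinearGroup (Fin 2) (ZMod 11)) := by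
  classical
  obtain ⟨q', hq', hne⟩ := Finset.exists_mem_ne (s := dᶜ) (by
    rw [Finset.card_compl, card_golayPt, card_dodecad hd]; norm_num) q
  obtain ⟨g, hg, rfl, rfl, rfl, rfl⟩ := move_std hd hp hq (Finset.mem_compl.1 hq') hne.symm
  obtain ⟨e⟩ := psl_iso_std
  refine ⟨MulEquiv.trans ?_ e⟩
  refine MulEquiv.trans ?_ (conjEquivOfIff g (dpStab_conj hg (bset sqMask) (pt 0) (pt 5))).symm
  exact
    { toFun := fun x => ⟨x.1.1, ⟨⟨x.1.2, x.2.1.1⟩, x.2.1.2⟩, x.2.2⟩
      invFun := fun x => ⟨⟨x.1, x.2.1.1.1⟩, ⟨x.2.1.1.2, x.2.1.2⟩, x.2.2⟩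
      left_inv := fun _ => rfl
      right_inv := fun _ => rfl
      map_mul' := fun _ _ => rfl }

theorem pair_stab_iso {d : Finset GolayPt} (hd : d ∈ dodecads) {p q q' : GolayPt} (hp : p ∈ d) (hq : q ∉ d)
    (hq' : q' ∉ d) (hqq' : q ≠ q') :
    Nonempty (↥(MulAction.stabilizer M24 d ⊓ MulAction.stabilizer M24 p ⊓
      MulAction.stabilizer M24 ({q, q'} : Finset GolayPt)) ≃* Equiv.Perm (Fin 5)) := by
  classical
  obtain ⟨g, hg, rfl, rfl, rfl, rfl⟩ := move_std hd hp hq hq' hqq'
  obtain ⟨e⟩ := s5_iso_std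
  refine ⟨MulEquiv.trans ?_ e⟩
  have hpair : ({g • pt 5, g • pt 7} : Finset GolayPt) = g • ({pt 5, pt 7} : Finset GolayPt) := by
    rw [Finset.smul_finset_insert, Finset.smul_finset_singleton]
  rw [hpair]
  refine MulEquiv.trans ?_
    (conjEquivOfIff g (dpStab_conj hg (bset sqMask) (pt 0) ({pt 5, pt 7} : Finset GolayPt))).symm
  exact
    { toFun := fun x => ⟨x.1.1, ⟨⟨x.1.2, x.2.1.1⟩, x.2.1.2⟩, x.2.2⟩
      invFun := fun x => ⟨⟨x.1, x.2.1.1.1⟩, ⟨x.2.1.1.2, x.2.1.2⟩, x.2.2⟩
      left_inv := fun _ => rfl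
      right_inv := fun _ => rfl
      map_mul' := fun _ _ => rfl }

end Cfsg.Agent.Golay
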