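import Cfsg.Agent.Golay.StabData
import Cfsg.Agent.Golay.CodeFacts

/-! Octads and dodecads under stabilizers of points, octads and dodecads: orbits and counts. -/

set_option autoImplicit false

namespace Cfsg.Agent.Golay

open scoped Pointwise

/-- The standard octad. -/
def octMask : ℕ := 9347075

/-- An octad through the extra point and missing the residue 0. -/
def hepMask : ℕ := 13938692

/-- An octad missing the extra point. -/
def avoidMask : ℕ := 4845570

/-- A dodecad through the extra point. -/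
def dodMask : ℕ := 15953934

theorem point_facts :
    (none : GolayPt) ∈ bset octMask ∧ (some 0 : GolayPt) ∈ bset octMask ∧
    (none : GolayPt) ∈ bset hepMask ∧ (some 0 : GolayPt) ∉ bset hepMask ∧
    (none : GolayPt) ∉ bset avoidMask ∧ (none : GolayPt) ∈ bset dodMask := by
  decide +kernel

theorem std_mem : bset octMask ∈ octads ∧ bset hepMask ∈ octads ∧ bset avoidMask ∈ octads ∧
    bset dodMask ∈ dodecads := by
  simp only [mem_octads_iff, mem_dodecads_iff]
  rw [mask_bset (show octMask < 2 ^ 24 by decide), mask_bset (show hepMask < 2 ^ 24 by decide),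
    mask_bset (show avoidMask < 2 ^ 24 by decide), mask_bset (show dodMask < 2 ^ 24 by decide)]
  decide +kernel

theorem testBit_mask_none (s : Finset GolayPt) : (mask s).testBit 23 = decide (none ∈ s) :=
  testBit_mask s none

theorem testBit_mask_zero (s : Finset GolayPt) : (mask s).testBit 0 = decide (some 0 ∈ s) :=
  testBit_mask s (some 0)

theorem two_bits (s : Finset GolayPt) :
    (mask s &&& 8388609 = 8388609 ↔ none ∈ s ∧ some 0 ∈ s) ∧
    (mask s &&& 8388609 = 8388608 ↔ none ∈ s ∧ some 0 ∉ s) := by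
  have h1 := testBit_mask_none s
  have h2 := testBit_mask_zero s
  have hb : ∀ i, (8388609 : ℕ).testBit i = (decide (i = 23) || decide (i = 0)) := by
    intro i
    rw [show (8388609 : ℕ) = 2 ^ 23 ||| 2 ^ 0 by rfl, Nat.testBit_or, Nat.testBit_two_pow,
      Nat.testBit_two_pow]
    simp [eq_comm]
  have hc : ∀ i, (8388608 : ℕ).testBit i = decide (i = 23) := by
    intro i
    rw [show (8388608 : ℕ) = 2 ^ 23 by rfl, Nat.testBit_two_pow]
    simp [eq_comm]
  constructor <;> refine ⟨fun h => ?_, fun h => ?_⟩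
  · have a := congrArg (fun n => Nat.testBit n 23) h
    have b := congrArg (fun n => Nat.testBit n 0) h
    simp [hb, h1, h2, -Nat.testBit_zero] at a b
    exact ⟨a, b⟩
  · apply Nat.eq_of_testBit_eq
    intro i
    rw [Nat.testBit_and, hb]
    by_cases hi : i = 23
    · subst hi; simp [h1, h.1]
    · by_cases hi0 : i = 0
      · subst hi0; simp [h2, h.2]
      · simp [hi, hi0]
  · have a := congrArg (fun n => Nat.testBit n 23) h
    have b := congrArg (fun n => Nat.testBit n 0) h
    simp [hb, hc, h1, h2, -Nat.testBit_zero] at a b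
    exact ⟨a, b⟩
  · apply Nat.eq_of_testBit_eq
    intro i
    rw [Nat.testBit_and, hb, hc]
    by_cases hi : i = 23
    · subst hi; simp [h1, h.1]
    · by_cases hi0 : i = 0
      · subst hi0; simp [h2, h.2]
      · simp [hi, hi0]

theorem invMask_two (s : Finset GolayPt) (a b : ℕ) :
    invMask [a, b] (mask s) = [(s ∩ bset a).card, (s ∩ bset b).card] := by
  simp [invMask, pc_inter_mask]

/-- Octads relative to a fixed octad. -/
theorem octO_conj {x y : Finset GolayPt} (hx : x ∈ octads) (hy : y ∈ octads)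
    (he : (bset octMask ∩ x).card = (bset octMask ∩ y).card) :
    ∃ g ∈ M24, g • bset octMask = bset octMask ∧ g • x = y := by
  rw [mem_octads_iff] at hx hy
  obtain ⟨g, hg, e⟩ := exists_mem_fixSub octO_ok ⟨hx.1, by simp [hx.2]⟩ ⟨hy.1, by simp [hy.2]⟩ (by
    simp only [octOFix, invMask, List.map_cons, List.map_nil, ← pc_inter_mask]
    rw [Finset.inter_comm x, Finset.inter_comm y]
    exact congrArg (fun n => [n]) he)
  exact ⟨g, (mem_fixSub.1 hg).1, (mem_fixSub.1 hg).2 octMask (by simp [octOFix, octMask]), e⟩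

/-- Dodecads relative to a fixed dodecad. -/
theorem dodD_conj {x y : Finset GolayPt} (hx : x ∈ dodecads) (hy : y ∈ dodecads)
    (he : (bset sqMask ∩ x).card = (bset sqMask ∩ y).card) :
    ∃ g ∈ M24, g • bset sqMask = bset sqMask ∧ g • x = y := by
  rw [mem_dodecads_iff] at hx hy
  obtain ⟨g, hg, e⟩ := exists_mem_fixSub dodD_ok ⟨hx.1, by simp [hx.2]⟩ ⟨hy.1, by simp [hy.2]⟩ (by
    simp only [dodDFix, invMask, List.map_cons, List.map_nil, ← pc_inter_mask]
    rw [Finset.inter_comm x, Finset.inter_comm y]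
    exact congrArg (fun n => [n]) he)
  exact ⟨g, (mem_fixSub.1 hg).1, (mem_fixSub.1 hg).2 sqMask (by simp [dodDFix, sqMask]), e⟩

theorem single_inter_none {x : Finset GolayPt} : (x ∩ bset 8388608).card = if none ∈ x then 1 else 0 := by
  rw [pc_inter_mask]; exact pc_and_two_pow x none

theorem single_inter_zero {x : Finset GolayPt} : (x ∩ bset 1).card = if some 0 ∈ x then 1 else 0 := by
  rw [pc_inter_mask]; exact pc_and_two_pow x (some 0)

theorem fix_none {l : List ℕ} {g : Equiv.Perm GolayPt} (hg : g ∈ fixSub l) (h : 8388608 ∈ l) :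
    g none = none := smul_eq_of_fix_point hg h

theorem fix_zero {l : List ℕ} {g : Equiv.Perm GolayPt} (hg : g ∈ fixSub l) (h : 1 ∈ l) :
    g (some 0) = some 0 := smul_eq_of_fix_point hg h

/-- Octads through two points, relative to one of them. -/
theorem hexPQ_conj {x y : Finset GolayPt} (hx : x ∈ octads) (hy : y ∈ octads)
    (hxp : none ∈ x ∧ some 0 ∈ x) (hyp : none ∈ y ∧ some 0 ∈ y)
    (he : (bset octMask ∩ x).card = (bset octMask ∩ y).card) :
    ∃ g ∈ M24, g none = none ∧ g (some 0) = some 0 ∧ g • bset octMask = bset octMask ∧ g • x = y := by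
  rw [mem_octads_iff] at hx hy
  obtain ⟨g, hg, e⟩ := exists_mem_fixSub hexPQ_ok
    ⟨hx.1, by simp [hx.2, (two_bits x).1.2 hxp]⟩ ⟨hy.1, by simp [hy.2, (two_bits y).1.2 hyp]⟩ (by
    simp only [hexPQFix, invMask, List.map_cons, List.map_nil, ← pc_inter_mask, single_inter_none,
      single_inter_zero, hxp.1, hxp.2, hyp.1, hyp.2, if_true]
    rw [Finset.inter_comm x, Finset.inter_comm y]
    exact congrArg (fun n => [1, 1, n]) he)
  exact ⟨g, (mem_fixSub.1 hg).1, fix_none hg (by simp [hexPQFix]), fix_zero hg (by simp [hexPQFix]),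
    (mem_fixSub.1 hg).2 octMask (by simp [hexPQFix, octMask]), e⟩

/-- Octads through one of two points only are conjugate. -/
theorem hep_conj {x y : Finset GolayPt} (hx : x ∈ octads) (hy : y ∈ octads)
    (hxp : none ∈ x ∧ some 0 ∉ x) (hyp : none ∈ y ∧ some 0 ∉ y) :
    ∃ g ∈ M24, g none = none ∧ g (some 0) = some 0 ∧ g • x = y := by
  rw [mem_octads_iff] at hx hy
  obtain ⟨g, hg, e⟩ := exists_mem_fixSub hep_ok
    ⟨hx.1, by simp [hx.2, (two_bits x).2.2 hxp]⟩ ⟨hy.1, by simp [hy.2, (two_bits y).2.2 hyp]⟩ (by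
    simp only [hepFix, invMask, List.map_cons, List.map_nil, ← pc_inter_mask, single_inter_none,
      single_inter_zero, hxp.1, hxp.2, hyp.1, hyp.2, if_true, if_false])
  exact ⟨g, (mem_fixSub.1 hg).1, fix_none hg (by simp [hepFix]), fix_zero hg (by simp [hepFix]), e⟩

/-- Octads through one of two points only, relative to one of them. -/
theorem hepO_conj {x y : Finset GolayPt} (hx : x ∈ octads) (hy : y ∈ octads)
    (hxp : none ∈ x ∧ some 0 ∉ x) (hyp : none ∈ y ∧ some 0 ∉ y)
    (he : (bset hepMask ∩ x).card = (bset hepMask ∩ y).card) :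
    ∃ g ∈ M24, g none = none ∧ g (some 0) = some 0 ∧ g • bset hepMask = bset hepMask ∧ g • x = y := by
  rw [mem_octads_iff] at hx hy
  obtain ⟨g, hg, e⟩ := exists_mem_fixSub hepO_ok
    ⟨hx.1, by simp [hx.2, (two_bits x).2.2 hxp]⟩ ⟨hy.1, by simp [hy.2, (two_bits y).2.2 hyp]⟩ (by
    simp only [hepOFix, invMask, List.map_cons, List.map_nil, ← pc_inter_mask, single_inter_none,
      single_inter_zero, hxp.1, hxp.2, hyp.1, hyp.2, if_true, if_false]
    rw [Finset.inter_comm x, Finset.inter_comm y]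
    exact congrArg (fun n => [1, 0, n]) he)
  exact ⟨g, (mem_fixSub.1 hg).1, fix_none hg (by simp [hepOFix]), fix_zero hg (by simp [hepOFix]),
    (mem_fixSub.1 hg).2 hepMask (by simp [hepOFix, hepMask]), e⟩

/-- Octads through a point, relative to one of them. -/
theorem m23o_conj {x y : Finset GolayPt} (hx : x ∈ octads) (hy : y ∈ octads)
    (hxp : none ∈ x) (hyp : none ∈ y)
    (he : (bset octMask ∩ x).card = (bset octMask ∩ y).card) :
    ∃ g ∈ M24, g none = none ∧ g • bset octMask = bset octMask ∧ g • x = y := by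
  rw [mem_octads_iff] at hx hy
  obtain ⟨g, hg, e⟩ := exists_mem_fixSub m23o_ok
    ⟨hx.1, by simp [hx.2, testBit_mask_none, hxp]⟩ ⟨hy.1, by simp [hy.2, testBit_mask_none, hyp]⟩ (by
    simp only [m23oFix, invMask, List.map_cons, List.map_nil, ← pc_inter_mask, single_inter_none,
      hxp, hyp, if_true]
    rw [Finset.inter_comm x, Finset.inter_comm y]
    exact congrArg (fun n => [1, n]) he)
  exact ⟨g, (mem_fixSub.1 hg).1, fix_none hg (by simp [m23oFix]),
    (mem_fixSub.1 hg).2 octMask (by simp [m23oFix, octMask]), e⟩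

/-- Octads missing a point, relative to one of them. -/
theorem m23a_conj {x y : Finset GolayPt} (hx : x ∈ octads) (hy : y ∈ octads)
    (hxp : none ∉ x) (hyp : none ∉ y)
    (he : (bset avoidMask ∩ x).card = (bset avoidMask ∩ y).card) :
    ∃ g ∈ M24, g none = none ∧ g • bset avoidMask = bset avoidMask ∧ g • x = y := by
  rw [mem_octads_iff] at hx hy
  obtain ⟨g, hg, e⟩ := exists_mem_fixSub m23a_ok
    ⟨hx.1, by simp [hx.2, testBit_mask_none, hxp]⟩ ⟨hy.1, by simp [hy.2, testBit_mask_none, hyp]⟩ (by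
    simp only [m23aFix, invMask, List.map_cons, List.map_nil, ← pc_inter_mask, single_inter_none,
      hxp, hyp, if_false]
    rw [Finset.inter_comm x, Finset.inter_comm y]
    exact congrArg (fun n => [0, n]) he)
  exact ⟨g, (mem_fixSub.1 hg).1, fix_none hg (by simp [m23aFix]),
    (mem_fixSub.1 hg).2 avoidMask (by simp [m23aFix, avoidMask]), e⟩

/-- Octads missing a point are conjugate under its stabilizer. -/
theorem m23av_conj {x y : Finset GolayPt} (hx : x ∈ octads) (hy : y ∈ octads)
    (hxp : none ∉ x) (hyp : none ∉ y) : ∃ g ∈ M24, g none = none ∧ g • x = y := by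
  rw [mem_octads_iff] at hx hy
  obtain ⟨g, hg, e⟩ := exists_mem_fixSub m23av_ok
    ⟨hx.1, by simp [hx.2, testBit_mask_none, hxp]⟩ ⟨hy.1, by simp [hy.2, testBit_mask_none, hyp]⟩ (by
    simp only [m23avFix, invMask, List.map_cons, List.map_nil, ← pc_inter_mask, single_inter_none,
      hxp, hyp, if_false])
  exact ⟨g, (mem_fixSub.1 hg).1, fix_none hg (by simp [m23avFix]), e⟩

/-- Dodecads through a point, relative to one of them. -/
theorem m23d_conj {x y : Finset GolayPt} (hx : x ∈ dodecads) (hy : y ∈ dodecads)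
    (hxp : none ∈ x) (hyp : none ∈ y)
    (he : (bset dodMask ∩ x).card = (bset dodMask ∩ y).card) :
    ∃ g ∈ M24, g none = none ∧ g • bset dodMask = bset dodMask ∧ g • x = y := by
  rw [mem_dodecads_iff] at hx hy
  obtain ⟨g, hg, e⟩ := exists_mem_fixSub m23d_ok
    ⟨hx.1, by simp [hx.2, testBit_mask_none, hxp]⟩ ⟨hy.1, by simp [hy.2, testBit_mask_none, hyp]⟩ (by
    simp only [m23dFix, invMask, List.map_cons, List.map_nil, ← pc_inter_mask, single_inter_none,
      hxp, hyp, if_true]
    rw [Finset.inter_comm x, Finset.inter_comm y]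
    exact congrArg (fun n => [1, n]) he)
  exact ⟨g, (mem_fixSub.1 hg).1, fix_none hg (by simp [m23dFix]),
    (mem_fixSub.1 hg).2 dodMask (by simp [m23dFix, dodMask]), e⟩

/-! ### Standard positions -/

theorem std_octad {o : Finset GolayPt} (ho : o ∈ octads) : ∃ g ∈ M24, g • bset octMask = o :=
  M24_octad_transitive std_mem.1 ho

theorem std_octad_two {o : Finset GolayPt} (ho : o ∈ octads) {p q : GolayPt} (hp : p ∈ o) (hq : q ∈ o)
    (hpq : p ≠ q) : ∃ g ∈ M24, g • bset octMask = o ∧ g none = p ∧ g (some 0) = q := by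
  obtain ⟨s, hs, hsc⟩ := Finset.exists_subset_card_eq (s := (o.erase p).erase q) (n := 3) (by
    rw [Finset.card_erase_of_mem (Finset.mem_erase.2 ⟨hpq.symm, hq⟩), Finset.card_erase_of_mem hp,
      card_octad ho]; norm_num)
  have hnd : (p :: q :: s.toList).Nodup := by
    simp only [List.nodup_cons, List.mem_cons, Finset.mem_toList, not_or, s.nodup_toList, and_true]
    exact ⟨⟨hpq, fun h => Finset.ne_of_mem_erase (Finset.mem_of_mem_erase (hs h)) rfl⟩,
      fun h => Finset.ne_of_mem_erase (hs h) rfl⟩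
  obtain ⟨g, hg, hm⟩ := exists_mem_M24_list [none, some 0, pt 1, pt 13, pt 15] (p :: q :: s.toList)
    (by decide +kernel) hnd (by simp [hsc]) (by simp)
  simp only [List.map_cons, List.map_nil, List.cons.injEq] at hm
  obtain ⟨h1, h2, h3⟩ := hm
  refine ⟨g, hg, octad_eq_of_five_le (smul_mem_octads hg std_mem.1) ho ?_, h1, h2⟩
  have hsub : ({none, some 0, pt 1, pt 13, pt 15} : Finset GolayPt) ⊆ bset octMask := by decide +kernel
  have hsub2 : g • ({none, some 0, pt 1, pt 13, pt 15} : Finset GolayPt) ⊆ o := by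
    intro x hx
    obtain ⟨y, hy, rfl⟩ := Finset.mem_smul_finset.1 hx
    simp only [Finset.mem_insert, Finset.mem_singleton] at hy
    have hmem : ∀ z ∈ [g (pt 1), g (pt 13), g (pt 15)], z ∈ o := by
      intro z hz
      rw [h3] at hz
      exact Finset.mem_of_mem_erase (Finset.mem_of_mem_erase (hs (Finset.mem_toList.1 hz)))
    rcases hy with rfl | rfl | rfl | rfl | rfl
    · rw [Equiv.Perm.smul_def, h1]; exact hp
    · rw [Equiv.Perm.smul_def, h2]; exact hq
    · exact hmem _ (by simp)
    · exact hmem _ (by simp)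
    · exact hmem _ (by simp)
  refine le_trans ?_ (Finset.card_le_card
    (Finset.subset_inter (Finset.smul_finset_subset_smul_finset hsub) hsub2))
  rw [Finset.card_smul_finset]
  decide +kernel

theorem std_octad_one {o : Finset GolayPt} (ho : o ∈ octads) {p : GolayPt} (hp : p ∈ o) :
    ∃ g ∈ M24, g • bset octMask = o ∧ g none = p := by
  obtain ⟨q, hq, hqp⟩ := Finset.exists_mem_ne (s := o) (by rw [card_octad ho]; norm_num) p
  obtain ⟨g, hg, h1, h2, -⟩ := std_octad_two ho hp hq hqp.symm
  exact ⟨g, hg, h1, h2⟩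

theorem std_octad_avoid {o : Finset GolayPt} (ho : o ∈ octads) {x : GolayPt} (hx : x ∉ o) :
    ∃ g ∈ M24, g • bset avoidMask = o ∧ g none = x := by
  obtain ⟨g, hg, rfl⟩ := exists_mem_M24_one (none : GolayPt) x
  obtain ⟨h, hh, hn, e⟩ := m23av_conj std_mem.2.2.1 (smul_mem_octads (inv_mem hg) ho)
    point_facts.2.2.2.2.1 (by rwa [Finset.mem_inv_smul_finset_iff])
  exact ⟨g * h, mul_mem hg hh, by rw [mul_smul, e, smul_inv_smul], by rw [Equiv.Perm.mul_apply, hn]⟩

theorem std_hep {o : Finset GolayPt} (ho : o ∈ octads) {p q : GolayPt} (hp : p ∈ o) (hq : q ∉ o) :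
    ∃ g ∈ M24, g • bset hepMask = o ∧ g none = p ∧ g (some 0) = q := by
  obtain ⟨g, hg, rfl, rfl⟩ := exists_mem_M24_two (p := (none : GolayPt)) (q := some 0) (by simp)
    (show p ≠ q from fun e => hq (e ▸ hp))
  obtain ⟨h, hh, hn, hz, e⟩ := hep_conj std_mem.2.1 (smul_mem_octads (inv_mem hg) ho)
    ⟨point_facts.2.2.1, point_facts.2.2.2.1⟩
    ⟨by rwa [Finset.mem_inv_smul_finset_iff], by rwa [Finset.mem_inv_smul_finset_iff]⟩
  exact ⟨g * h, mul_mem hg hh, by rw [mul_smul, e, smul_inv_smul], by rw [Equiv.Perm.mul_apply, hn],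
    by rw [Equiv.Perm.mul_apply, hz]⟩

theorem std_dod_point {d : Finset GolayPt} (hd : d ∈ dodecads) {x : GolayPt} (hx : x ∈ d) :
    ∃ g ∈ M24, g • bset dodMask = d ∧ g none = x := by
  obtain ⟨g, hg, rfl⟩ := M24_dodecad_transitive std_mem.2.2.2 hd
  obtain ⟨h, hh, hd', hhx⟩ := exists_mem_dodecad_stab hd (k := 1) (by norm_num)
    ⟨fun _ => g none, fun a b _ => Subsingleton.elim a b⟩
    ⟨fun _ => x, fun a b _ => Subsingleton.elim a b⟩
    (fun _ => Finset.smul_mem_smul_finset point_facts.2.2.2.2.2) (fun _ => hx)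
  exact ⟨h * g, mul_mem hh hg, by rw [mul_smul, hd'], hhx 0⟩

/-! ### Transport of counts -/

theorem ncard_conj_supports (g : Equiv.Perm GolayPt) (hg : g ∈ M24) (P : Finset GolayPt → Prop)
    (Q : ℕ → Bool) (hPQ : ∀ s, s ∈ supports (golayCode : Set (GolayPt → ZMod 2)) →
      (P (g • s) ↔ Q (mask s) = true))
    (hP : ∀ s, P s → s ∈ supports (golayCode : Set (GolayPt → ZMod 2))) :
    {s | P s}.ncard = countB (fun i => Q (encode i)) 12 0 := by
  rw [← ncard_supports_filter Q {s | s ∈ supports (golayCode : Set (GolayPt → ZMod 2)) ∧ Q (mask s) = true}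
    (fun s => by rw [Set.mem_ofPred_eq, mem_supports_iff])]
  conv_rhs => rw [← Set.ncard_image_of_injective _ (MulAction.injective g)]
  congr 1
  ext s
  simp only [Set.mem_image, Set.mem_ofPred_eq]
  constructor
  · intro h
    have hs := smul_mem_supports (inv_mem hg) (hP s h)
    exact ⟨g⁻¹ • s, ⟨hs, (hPQ _ hs).1 (by rwa [smul_inv_smul])⟩, smul_inv_smul g s⟩
  · rintro ⟨t, ⟨ht, hQ⟩, rfl⟩
    exact (hPQ t ht).2 hQ

theorem card_inter_conj (g : Equiv.Perm GolayPt) (m : ℕ) (s : Finset GolayPt) :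
    (g • bset m ∩ g • s).card = pc (mask s &&& m) := by
  rw [← Finset.smul_finset_inter, Finset.card_smul_finset, Finset.inter_comm, pc_inter_mask]

theorem mem_conj (g : Equiv.Perm GolayPt) (p : GolayPt) (s : Finset GolayPt) :
    g p ∈ g • s ↔ (mask s).testBit (idx p) = true := by
  rw [← Equiv.Perm.smul_def, Finset.smul_mem_smul_finset_iff, testBit_mask, decide_eq_true_eq]

end Cfsg.Agent.Golay
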