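import Cfsg.Agent.KnownA.U35.Upper

/-! Small codes for elements of the projective unitary group of dimension three over the field of 25 elements. -/

set_option autoImplicit false

namespace Cfsg.Agent.Golay.U35

open Matrix
open Cfsg.Agent.KnownA.U35 (M5 pmul pstar smulp ent pdet IsScalarPair ev evs evs_smulp ev_pmul ev_entry ev_pdet ev_one
  ev_injective ev_scalar exists_w charP_five)
open Cfsg.Agent.KnownA
open Cfsg.Agent.Forms (frobQ frobQ_apply)

/-- A product of two scalars `a + 5b`, standing for `a + bw`. -/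
def fmul (x y : ℕ) : ℕ :=
  (x % 5 * (y % 5) + 2 * (x / 5 * (y / 5))) % 5 + 5 * ((x % 5 * (y / 5) + x / 5 * (y % 5)) % 5)

/-- A sum of two scalars. -/
def fadd (x y : ℕ) : ℕ := (x % 5 + y % 5) % 5 + 5 * ((x / 5 + y / 5) % 5)

/-- Three terms. -/
def dot3 (a b c x y z : ℕ) : ℕ := fadd (fadd (fmul a x) (fmul b y)) (fmul c z)

/-- Nine entries. -/
structure M9 where
  a : ℕ
  b : ℕ
  c : ℕ
  d : ℕ
  e : ℕ
  f : ℕ
  g : ℕ
  h : ℕ
  i : ℕ
deriving DecidableEq

/-- The identity. -/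
def M9.one : M9 := ⟨1, 0, 0, 0, 1, 0, 0, 0, 1⟩

/-- A product. -/
def M9.mul (X Y : M9) : M9 :=
  ⟨dot3 X.a X.b X.c Y.a Y.d Y.g, dot3 X.a X.b X.c Y.b Y.e Y.h, dot3 X.a X.b X.c Y.c Y.f Y.i,
   dot3 X.d X.e X.f Y.a Y.d Y.g, dot3 X.d X.e X.f Y.b Y.e Y.h, dot3 X.d X.e X.f Y.c Y.f Y.i,
   dot3 X.g X.h X.i Y.a Y.d Y.g, dot3 X.g X.h X.i Y.b Y.e Y.h, dot3 X.g X.h X.i Y.c Y.f Y.i⟩

/-- A scalar. -/
def M9.scal (s : ℕ) : M9 := ⟨s, 0, 0, 0, s, 0, 0, 0, s⟩

/-- A conjugate. -/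
def cj (x : ℕ) : ℕ := x % 5 + 5 * ((5 - x / 5 % 5) % 5)

/-- A conjugate transpose. -/
def M9.star (X : M9) : M9 := ⟨cj X.a, cj X.d, cj X.g, cj X.b, cj X.e, cj X.h, cj X.c, cj X.f, cj X.i⟩

/-- A pair of matrices over the prime field. -/
def M9.dec (X : M9) : M5 × M5 :=
  (!![(X.a : ZMod 5), (X.b : ZMod 5), (X.c : ZMod 5); (X.d : ZMod 5), (X.e : ZMod 5), (X.f : ZMod 5);
      (X.g : ZMod 5), (X.h : ZMod 5), (X.i : ZMod 5)],
   !![((X.a / 5 : ℕ) : ZMod 5), ((X.b / 5 : ℕ) : ZMod 5), ((X.c / 5 : ℕ) : ZMod 5);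
      ((X.d / 5 : ℕ) : ZMod 5), ((X.e / 5 : ℕ) : ZMod 5), ((X.f / 5 : ℕ) : ZMod 5);
      ((X.g / 5 : ℕ) : ZMod 5), ((X.h / 5 : ℕ) : ZMod 5), ((X.i / 5 : ℕ) : ZMod 5)])

theorem cast_five : (5 : ZMod 5) = 0 := rfl

theorem fadd_fst (x y : ℕ) : ((fadd x y : ℕ) : ZMod 5) = x + y := by
  simp [fadd, cast_five, ZMod.natCast_mod]

theorem fadd_snd (x y : ℕ) : ((fadd x y / 5 : ℕ) : ZMod 5) = ((x / 5 : ℕ) : ZMod 5) + ((y / 5 : ℕ) : ZMod 5) := by
  have e : fadd x y / 5 = (x / 5 + y / 5) % 5 := by unfold fadd; omega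
  rw [e, ZMod.natCast_mod, Nat.cast_add]

theorem fmul_fst (x y : ℕ) : ((fmul x y : ℕ) : ZMod 5) =
    x * y + 2 * (((x / 5 : ℕ) : ZMod 5) * ((y / 5 : ℕ) : ZMod 5)) := by
  simp [fmul, cast_five, ZMod.natCast_mod]

theorem fmul_snd (x y : ℕ) : ((fmul x y / 5 : ℕ) : ZMod 5) =
    x * ((y / 5 : ℕ) : ZMod 5) + ((x / 5 : ℕ) : ZMod 5) * y := by
  have e : fmul x y / 5 = (x % 5 * (y / 5) + x / 5 * (y % 5)) % 5 := by unfold fmul; omega
  rw [e, ZMod.natCast_mod, Nat.cast_add, Nat.cast_mul, Nat.cast_mul, ZMod.natCast_mod, ZMod.natCast_mod]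

theorem dot3_fst (a b c x y z : ℕ) : ((dot3 a b c x y z : ℕ) : ZMod 5) = (a * x + b * y + c * z) +
    2 * (((a / 5 : ℕ) : ZMod 5) * ((x / 5 : ℕ) : ZMod 5) + ((b / 5 : ℕ) : ZMod 5) * ((y / 5 : ℕ) : ZMod 5) +
      ((c / 5 : ℕ) : ZMod 5) * ((z / 5 : ℕ) : ZMod 5)) := by
  simp only [dot3, fadd_fst, fmul_fst]; ring

theorem dot3_snd (a b c x y z : ℕ) : ((dot3 a b c x y z / 5 : ℕ) : ZMod 5) =
    (a * ((x / 5 : ℕ) : ZMod 5) + b * ((y / 5 : ℕ) : ZMod 5) + c * ((z / 5 : ℕ) : ZMod 5)) +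
    (((a / 5 : ℕ) : ZMod 5) * x + ((b / 5 : ℕ) : ZMod 5) * y + ((c / 5 : ℕ) : ZMod 5) * z) := by
  simp only [dot3, fadd_snd, fmul_snd]; ring

theorem dec_mul (X Y : M9) : (X.mul Y).dec = pmul X.dec Y.dec := by
  refine Prod.ext ?_ ?_ <;> ext i j <;> fin_cases i <;> fin_cases j <;>
    simp [M9.dec, M9.mul, pmul, Matrix.mul_apply, Fin.sum_univ_three, dot3_fst, dot3_snd] <;> ring

theorem cj_fst (x : ℕ) : ((cj x : ℕ) : ZMod 5) = x := by simp [cj, cast_five, ZMod.natCast_mod]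

theorem cj_snd (x : ℕ) : ((cj x / 5 : ℕ) : ZMod 5) = -((x / 5 : ℕ) : ZMod 5) := by
  have e : cj x / 5 = (5 - x / 5 % 5) % 5 := by unfold cj; omega
  rw [e, ZMod.natCast_mod, Nat.cast_sub (by omega), ZMod.natCast_mod]
  simp [cast_five]

theorem dec_star (X : M9) : X.star.dec = pstar X.dec := by
  refine Prod.ext ?_ ?_ <;> ext i j <;> fin_cases i <;> fin_cases j <;>
    simp [M9.dec, M9.star, pstar, cj_fst, cj_snd]

theorem dec_one : M9.one.dec = (1, 0) := by decide +kernel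

/-- A unitary code of determinant one. -/
def M9.good (X : M9) : Bool := decide (X.star.mul X = M9.one) && decide (pdet X.dec = (1, 0))

/-- Equality modulo scalars. -/
def M9.eqv (X Y : M9) : Bool := [1, 12, 17].any fun s => decide ((M9.scal s).mul X = Y)

section field

variable {F : Type} [Field F] [Fintype F] [CharP F 5] (hF : Fintype.card F = 5 ^ 2) {w : F}

/-- The matrix of an element. -/
def mat : Cfsg.SU 3 F 5 →* Matrix (Fin 3) (Fin 3) F where
  toFun g := ((g : Matrix.SpecialLinearGroup (Fin 3) F) : Matrix (Fin 3) (Fin 3) F)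
  map_one' := rfl
  map_mul' _ _ := rfl

omit [Fintype F] [CharP F 5] in
theorem mat_injective : Function.Injective (mat (F := F)) := fun _ _ h => Subtype.ext (Subtype.ext h)

/-- A code is realised. -/
def Real5 (w : F) (X : M9) : Prop := ∃ g : Cfsg.SU 3 F 5, mat g = ev w X.dec

open scoped Classical in
/-- The element of a code. -/
noncomputable def el (w : F) (X : M9) : Cfsg.PSU 3 F 5 :=
  if h : Real5 w X then QuotientGroup.mk' _ h.choose else 1

theorem el_spec {X : M9} {g : Cfsg.SU 3 F 5} (h : mat g = ev w X.dec) : el w X = QuotientGroup.mk' _ g := by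
  have hX : Real5 w X := ⟨g, h⟩
  rw [el, dif_pos hX, mat_injective (hX.choose_spec.trans h.symm)]

theorem real_mul (hw : w * w = 2) {X Y : M9} (hX : Real5 w X) (hY : Real5 w Y) :
    Real5 w (X.mul Y) ∧ el w (X.mul Y) = el w X * el w Y := by
  obtain ⟨g, hg⟩ := hX
  obtain ⟨h, hh⟩ := hY
  have e : mat (g * h) = ev w (X.mul Y).dec := by rw [map_mul, hg, hh, dec_mul, ev_pmul hw]
  exact ⟨⟨_, e⟩, by rw [el_spec hg, el_spec hh, el_spec e, map_mul]⟩

theorem real_one : Real5 w M9.one ∧ el w M9.one = 1 := by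
  have e : mat (1 : Cfsg.SU 3 F 5) = ev w M9.one.dec := by rw [map_one, dec_one, ev_one]
  exact ⟨⟨1, e⟩, (el_spec e).trans (map_one _)⟩

include hF in
theorem real_good (hw : w * w = 2) (hws : frobQ hF w = -w) {X : M9} (hX : X.good = true) : Real5 w X := by
  simp only [M9.good, Bool.and_eq_true, decide_eq_true_eq] at hX
  obtain ⟨h1, h2⟩ := hX
  have hstar : pmul (pstar X.dec) X.dec = (1, 0) := by rw [← dec_star, ← dec_mul, h1, dec_one]
  have hub : ∀ x y, ub hF (ev w X.dec *ᵥ x) (ev w X.dec *ᵥ y) = ub hF x y := by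
    intro x y
    have hd : ∀ u v : Fin 3 → F, ub hF u v = (fun k => frobQ hF (u k)) ⬝ᵥ v := fun u v => by
      rw [ub, Forms.hermB_apply, Cfsg.hermForm, dotProduct]
      exact Finset.sum_congr rfl fun k _ => by rw [frobQ_apply, mul_comm]
    have hconj : (ev w X.dec).map (frobQ hF) = (ev w (pstar X.dec))ᵀ := by
      haveI : Fact (Nat.Prime 5) := ⟨by norm_num⟩
      ext k l
      rw [Matrix.map_apply, Matrix.transpose_apply, ev_entry, ev_entry]
      simp only [evs, ent, pstar, Matrix.transpose_apply, Matrix.neg_apply, map_add, map_mul, map_neg, hws]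
      have hfix : ∀ a : ZMod 5, frobQ hF (ZMod.castHom (dvd_refl 5) F a) = ZMod.castHom (dvd_refl 5) F a :=
        fun a => by rw [frobQ_apply, ← map_pow, ZMod.pow_card]
      rw [hfix, hfix]; ring
    have h1' : (fun k => frobQ hF ((ev w X.dec *ᵥ x) k)) =
        (ev w (pstar X.dec))ᵀ *ᵥ (fun k => frobQ hF (x k)) := by
      funext k
      rw [RingHom.map_mulVec, hconj]
      rfl
    rw [hd, hd, h1', Matrix.dotProduct_mulVec, Matrix.mulVec_transpose, Matrix.vecMul_vecMul, ← ev_pmul hw,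
      hstar, ev_one, Matrix.vecMul_one]
  have hdet : LinearMap.det (Matrix.toLin' (ev w X.dec)) = 1 := by
    rw [LinearMap.det_toLin', ev_pdet hw, h2]
    simp [evs]
  obtain ⟨g, hg⟩ := exists_su_of_linearMap hF (Matrix.toLin' (ev w X.dec))
    (fun x y => by simp only [Matrix.toLin'_apply]; exact hub x y) hdet
  exact ⟨g, Matrix.ext_iff_mulVec.2 fun x => by
    have := hg x
    rw [Matrix.toLin'_apply] at this
    exact this⟩

theorem scal_ok : ∀ s ∈ [1, 12, 17], IsScalarPair (M9.scal s).dec ∧ (M9.scal s).good = true := by decide +kernel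

include hF in
theorem el_scal (hw : w * w = 2) (hws : frobQ hF w = -w) {s : ℕ} (hs : s ∈ [1, 12, 17]) :
    Real5 w (M9.scal s) ∧ el w (M9.scal s) = 1 := by
  obtain ⟨h1, h2⟩ := scal_ok s hs
  obtain ⟨g, hg⟩ := real_good hF hw hws h2
  refine ⟨⟨g, hg⟩, ?_⟩
  rw [el_spec hg]
  refine (QuotientGroup.eq_one_iff g).2 (Subgroup.mem_center_iff.2 fun y => mat_injective ?_)
  obtain ⟨c, hc⟩ := ev_scalar (w := w) h1
  rw [map_mul, map_mul, hg, hc, Matrix.mul_smul, Matrix.smul_mul, Matrix.one_mul, Matrix.mul_one]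

include hF in
theorem el_eqv (hw : w * w = 2) (hws : frobQ hF w = -w) {X Y : M9} (hX : Real5 w X) (h : X.eqv Y = true) :
    el w X = el w Y := by
  simp only [M9.eqv, List.any_eq_true, decide_eq_true_eq] at h
  obtain ⟨s, hs, rfl⟩ := h
  obtain ⟨a, b⟩ := el_scal hF hw hws hs
  rw [(real_mul hw a hX).2, b, one_mul]

theorem el_ne_one (hw : w * w = 2) (hnot : ∀ a : ZMod 5, w ≠ ZMod.castHom (dvd_refl 5) F a) {X Y : M9}
    (hX : Real5 w X) (hY : Real5 w Y) (hne : pmul X.dec Y.dec ≠ pmul Y.dec X.dec) : el w X ≠ 1 := by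
  obtain ⟨g, hg⟩ := hX
  obtain ⟨h, hh⟩ := hY
  rw [el_spec hg]
  intro e
  have hc : g ∈ Subgroup.center (Cfsg.SU 3 F 5) := (QuotientGroup.eq_one_iff g).1 e
  have := congrArg mat (Subgroup.mem_center_iff.1 hc h)
  rw [map_mul, map_mul, hg, hh, ← ev_pmul hw, ← ev_pmul hw] at this
  exact hne (ev_injective hnot this).symm

omit [CharP F 5] in
include hF in
theorem exists_root : ∃ w : F, ∃ _ : CharP F 5, w * w = 2 ∧ frobQ hF w = -w ∧
    ∀ a : ZMod 5, w ≠ ZMod.castHom (dvd_refl 5) F a := by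
  haveI := charP_five hF
  haveI : Fact (Nat.Prime 5) := ⟨by norm_num⟩
  obtain ⟨w, hw, hws⟩ := exists_w hF
  refine ⟨w, inferInstance, hw, hws, fun a e => ?_⟩
  have h1 : frobQ hF w = w := by rw [frobQ_apply, e, ← map_pow, ZMod.pow_card]
  rw [hws] at h1
  have h2 : (2 : F) * w = 0 := by linear_combination -h1
  rcases mul_eq_zero.1 h2 with h | h
  · have h' : ((2 : ℕ) : F) = 0 := by exact_mod_cast h
    rw [CharP.cast_eq_zero_iff F 5] at h'
    norm_num at h'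
  · have h' : ((2 : ℕ) : F) = 0 := by
      push_cast
      rw [← hw, h, mul_zero]
    rw [CharP.cast_eq_zero_iff F 5] at h'
    norm_num at h'

include hF in
theorem card_psu : Nat.card (Cfsg.PSU 3 F 5) = 126000 := by
  have hG := Forms.card_PSU hF (n := 3) (by norm_num)
  norm_num [Finset.prod_range_succ, Nat.even_iff] at hG
  change 3 * (6 * Nat.card (Cfsg.PSU 3 F 5)) = 2268000 at hG
  omega

end field

end Cfsg.Agent.Golay.U35
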