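import Cfsg.Agent.Golay.U62Codes

/-! Checks of the certificates. -/

set_option autoImplicit false
set_option maxRecDepth 100000

namespace Cfsg.Agent.Golay.U62

theorem words_ok : gensOK words [wFun] = true := by decide +kernel

theorem basis_ok : leechTest wFun = true ∧ sqNorm wFun = 32 ∧ dotInt uVec wFun = -16 := by decide +kernel

theorem pts_ok : ((List.range 891).all fun i => leechTest (numVec (ptN i)) && decide (ptN i < 2 ^ 96)) = true := by
  decide +kernel

theorem pts_sorted : ((List.range 890).all fun i => decide (ptN i < ptN (i + 1))) = true := by
  decide +kernel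

theorem masks_ok : ((List.range 693).all fun p => (List.range 2).all fun j =>
    decide (sp j p < 693) && (List.range 27).all fun k => (mask (sp j p)).testBit (wp j (mem p k))) = true := by
  decide +kernel

theorem mem_ok : ((List.range 693).all fun p => decide (mem p 0 < 891) &&
    ((List.range 27).all fun k => decide (mem p k < 891)) &&
      (((List.range 27).map (mem p)).foldr (fun i a => (1 <<< i) ||| a) 0) == mask p) = true := by
  decide +kernel

theorem sig_ok : ((List.range 693).all fun p => (List.range 2).all fun j =>
    [1, 2, 3].any fun s => (List.range 6).map (mvc (mtx j) (rep p)) == vsm s (rep (sp j p))) = true := by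
  decide +kernel

theorem reps_ok : ((List.range 693).all fun p => hsq (rep p) % 4 == 0 &&
    (rep p).all (fun x => decide (x < 4)) && (rep p).length == 6 &&
    ((List.range 6).filter fun k => !((rep p).getD k 0 == 0)).head? ==
      ((List.range 6).filter fun k => (rep p).getD k 0 == 1).head? &&
    !(rep p).all (fun x => x == 0)) = true := by
  decide +kernel

theorem reps_index : ((List.range 693).all fun p => lookup (vnum (rep p)) == p) = true := by
  decide +kernel

theorem cover_ok : ((List.range 4096).all fun N =>
    N == 0 || !(hsq (vdec N) == 0) ||
      [1, 2, 3].any fun s => decide (lookup (vnum (vsm s (vdec N))) < 693) &&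
        rep (lookup (vnum (vsm s (vdec N)))) == vsm s (vdec N)) = true := by
  decide +kernel

theorem tree_ok : ((List.range 693).all fun k => k == 0 ||
    decide ((tre k).1 < k) && decide ((tre k).2 < 2) && sp (tre k).2 (tre k).1 == k) = true := by
  decide +kernel

theorem tri_ok : ((List.range 891).all fun i =>
    decide (tri i &&& 1023 < 693) && decide ((tri i >>> 10) &&& 1023 < 693) && decide (tri i >>> 20 < 693) &&
      mask (tri i &&& 1023) &&& mask ((tri i >>> 10) &&& 1023) &&& mask (tri i >>> 20) == 1 <<< i) = true := by
  decide +kernel

theorem mats_ok : UC.scalsOK f4 = true ∧ ((List.range 2).all fun j =>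
    UC.mulL f4 (UC.adjL f4 (mtx j)) (mtx j) == UC.oneL f4 &&
    UC.powL f4 (mtx j) (ords.getD j 0) == UC.oneL f4 &&
    Nat.gcd (ords.getD j 0) 3 == 1) = true ∧ UC.noncomm f4 (mtx 0) (mtx 1) = true := by
  decide +kernel

theorem letters_ok : (letters.all fun i => decide (i < 2)) = true ∧
    (UC.ops f4).eqv (letters.foldl (fun X i => UC.mulL f4 (mtx i) X) (UC.oneL f4)) (tvc (rep 0)) = true := by
  decide +kernel

/-- A basis vector or one of the two fixed vectors. -/
def bvec (b : ℕ) : List ℤ := if b = 891 then matl uVec else if b = 892 then matl wFun else matl (numVec (ptN b))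

theorem span_ok : basis.length = 24 ∧ ((List.range 24).all fun i =>
    let t := spanTab.getD i (0, [])
    t.1 == 1 && (List.range 24).all fun r =>
      ((List.range 24).map fun b => t.2.getD b 0 * (bvec (basis.getD b 0)).getD r 0).sum ==
        if r = i then 8 else 0) = true := by
  decide +kernel

end Cfsg.Agent.Golay.U62
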