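import Cfsg.Agent.Golay.PairChain
import Cfsg.Agent.KnownA.UnitaryElems
import Cfsg.Agent.Forms.UnitaryOrder

/-! Integer codes for elements of a projective unitary group over a small field. -/

set_option autoImplicit false

namespace Cfsg.Agent.Golay.UC

open Matrix
open Cfsg.Agent.Forms (frobQ frobQ_apply)
open Cfsg.Agent.KnownA
open Cfsg.Agent.Golay.PairChain

/-- Operations on scalar codes. -/
structure FOps where
  n : ℕ
  add : ℕ → ℕ → ℕ
  mul : ℕ → ℕ → ℕ
  conj : ℕ → ℕ
  neg1 : ℕ
  scals : List ℕ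

variable (f : FOps)

/-- An entry. -/
def ent (X : List ℕ) (i j : ℕ) : ℕ := X.getD (f.n * i + j) 0

/-- The list of a table of entries. -/
def tabl (h : ℕ → ℕ → ℕ) : List ℕ := (List.range (f.n * f.n)).map fun p => h (p / f.n) (p % f.n)

/-- A sum of products. -/
def dotc (X Y : List ℕ) (i j : ℕ) : ℕ :=
  ((List.range f.n).map fun k => f.mul (ent f X i k) (ent f Y k j)).foldr f.add 0

/-- A product. -/
def mulL (X Y : List ℕ) : List ℕ := tabl f (dotc f X Y)

/-- The identity. -/
def oneL : List ℕ := tabl f fun i j => if i = j then 1 else 0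

/-- A conjugate transpose. -/
def adjL (X : List ℕ) : List ℕ := tabl f fun i j => f.conj (ent f X j i)

/-- A scalar multiple. -/
def smulL (s : ℕ) (X : List ℕ) : List ℕ := tabl f fun i j => f.mul s (ent f X i j)

/-- A power. -/
def powL (X : List ℕ) : ℕ → List ℕ
  | 0 => oneL f
  | k + 1 => mulL f X (powL X k)

/-- The operations. -/
def ops : Ops (List ℕ) where
  one := oneL f
  mul := mulL f
  adj := adjL f
  eqv X Y := f.scals.any fun s => smulL f s X == Y
  unit X := mulL f (adjL f X) X == oneL f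

/-- Two codes have different products in the two orders. -/
def noncomm (X Y : List ℕ) : Bool :=
  (List.range f.n).any fun i => (List.range f.n).any fun j => (List.range 32).any fun y =>
    f.mul (f.add (ent f (mulL f X Y) i j) (f.mul f.neg1 (ent f (mulL f Y X) i j))) y == 1

/-- A scalar code is valid. -/
def scalsOK : Bool := f.scals.all fun s => f.mul (f.conj s) s == 1 &&
  ((List.range f.n).foldr (fun _ a => f.mul s a) 1 == 1)

section field

variable {F : Type} [Field F] [Fintype F] {q : ℕ} (hF : Fintype.card F = q ^ 2)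

/-- The codes are read correctly. -/
structure Valid (v : ℕ → F) : Prop where
  zero : v 0 = 0
  one : v 1 = 1
  neg1 : v f.neg1 = -1
  add : ∀ x y, v (f.add x y) = v x + v y
  mul : ∀ x y, v (f.mul x y) = v x * v y
  conj : ∀ x, v (f.conj x) = frobQ hF (v x)

variable {f} {v : ℕ → F}

variable (f v) in
/-- The matrix of a code. -/
def ev (X : List ℕ) : Matrix (Fin f.n) (Fin f.n) F := Matrix.of fun i j => v (ent f X i j)

omit [Fintype F] in
theorem ent_tabl (h : ℕ → ℕ → ℕ) (i j : Fin f.n) : ent f (tabl f h) i j = h i j := by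
  have hn : 0 < f.n := Fin.pos i
  have hlt : f.n * i.val + j.val < f.n * f.n :=
    calc f.n * i.val + j.val < f.n * i.val + f.n := by omega
    _ = f.n * (i.val + 1) := by ring
    _ ≤ f.n * f.n := Nat.mul_le_mul_left _ i.2
  rw [ent, tabl, List.getD_eq_getElem _ _ (by simpa using hlt), List.getElem_map, List.getElem_range,
    Nat.mul_add_div hn, Nat.div_eq_of_lt j.2, Nat.add_zero, Nat.mul_add_mod, Nat.mod_eq_of_lt j.2]

variable (hv : Valid f hF v)

include hv in
theorem ev_mul (X Y : List ℕ) : ev f v (mulL f X Y) = ev f v X * ev f v Y := by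
  ext i j
  rw [Matrix.mul_apply]
  simp only [ev, Matrix.of_apply, mulL, ent_tabl, dotc]
  rw [Fin.sum_univ_eq_sum_range (fun k => v (ent f X i k) * v (ent f Y k j)) f.n, ← List.toFinset_range,
    List.sum_toFinset _ List.nodup_range]
  induction List.range f.n with
  | nil => simpa using hv.zero
  | cons k l ih => simp [hv.add, hv.mul, ih]

include hv in
theorem ev_one : ev f v (oneL f) = 1 := by
  ext i j
  simp only [ev, Matrix.of_apply, oneL, ent_tabl, Matrix.one_apply, Fin.ext_iff]
  split_ifs
  · exact hv.one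
  · exact hv.zero

include hv in
theorem ev_adj (X : List ℕ) : ev f v (adjL f X) = ((ev f v X).map (frobQ hF))ᵀ := by
  ext i j
  simp [ev, adjL, ent_tabl, hv.conj]

include hv in
theorem ev_smul (s : ℕ) (X : List ℕ) : ev f v (smulL f s X) = v s • ev f v X := by
  ext i j
  simp [ev, smulL, ent_tabl, hv.mul]

/-- The matrix of an element. -/
def mat : Cfsg.SU f.n F q →* Matrix (Fin f.n) (Fin f.n) F where
  toFun g := ((g : Matrix.SpecialLinearGroup (Fin f.n) F) : Matrix (Fin f.n) (Fin f.n) F)
  map_one' := rfl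
  map_mul' _ _ := rfl

omit [Fintype F] in
theorem mat_injective : Function.Injective (mat (F := F) (q := q) (f := f)) :=
  fun _ _ h => Subtype.ext (Subtype.ext h)

variable (f v q) in
/-- A code is realised. -/
def RealU (X : List ℕ) : Prop := ∃ g : Cfsg.SU f.n F q, mat g = ev f v X

variable (f v q) in
open scoped Classical in
/-- The element of a code. -/
noncomputable def el (X : List ℕ) : Cfsg.PSU f.n F q :=
  if h : RealU f q v X then QuotientGroup.mk' _ h.choose else 1

theorem el_spec {X : List ℕ} {g : Cfsg.SU f.n F q} (h : mat g = ev f v X) :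
    el f q v X = QuotientGroup.mk' _ g := by
  have hX : RealU f q v X := ⟨g, h⟩
  rw [el, dif_pos hX, mat_injective (hX.choose_spec.trans h.symm)]

include hF in
theorem su_of_unitary (A : Matrix (Fin f.n) (Fin f.n) F) (hA : (A.map (frobQ hF))ᵀ * A = 1) (hdet : A.det = 1) :
    ∃ g : Cfsg.SU f.n F q, mat g = A := by
  have hd : ∀ a b : Fin f.n → F, ub hF a b = (fun k => frobQ hF (a k)) ⬝ᵥ b := fun a b => by
    rw [ub, Forms.hermB_apply, Cfsg.hermForm, dotProduct]
    exact Finset.sum_congr rfl fun k _ => by rw [frobQ_apply, mul_comm]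
  have hub : ∀ x y, ub hF (A *ᵥ x) (A *ᵥ y) = ub hF x y := by
    intro x y
    have h1 : (fun k => frobQ hF ((A *ᵥ x) k)) = (A.map (frobQ hF)) *ᵥ (fun k => frobQ hF (x k)) := by
      funext k
      rw [RingHom.map_mulVec]
      rfl
    rw [hd, hd, h1, Matrix.dotProduct_mulVec, ← Matrix.vecMul_transpose, Matrix.vecMul_vecMul, hA,
      Matrix.vecMul_one]
  obtain ⟨g, hg⟩ := exists_su_of_linearMap hF (Matrix.toLin' A)
    (fun x y => by simp only [Matrix.toLin'_apply]; exact hub x y) (by rw [LinearMap.det_toLin', hdet])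
  exact ⟨g, Matrix.ext_iff_mulVec.2 fun x => by
    have := hg x
    rw [Matrix.toLin'_apply] at this
    exact this⟩

include hv in
/-- A unitary code of finite order prime to the determinant range has determinant one. -/
theorem real_of_order {X : List ℕ} {k : ℕ} (hu : mulL f (adjL f X) X = oneL f) (hk : powL f X k = oneL f)
    (hc : Nat.Coprime k (q + 1)) : RealU f q v X := by
  have hA : ((ev f v X).map (frobQ hF))ᵀ * ev f v X = 1 := by
    rw [← ev_adj hF hv, ← ev_mul hF hv, hu, ev_one hF hv]
  refine su_of_unitary hF _ hA ?_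
  have h1 : (ev f v X).det ^ (q + 1) = 1 := by
    have := congrArg Matrix.det hA
    rw [Matrix.det_mul, Matrix.det_transpose, Matrix.det_one] at this
    rw [show ((ev f v X).map (frobQ hF)).det = frobQ hF (ev f v X).det from
      (RingHom.map_det (frobQ hF) (ev f v X)).symm, frobQ_apply] at this
    rw [pow_succ]; exact this
  have hpow : ∀ m, ev f v (powL f X m) = ev f v X ^ m := by
    intro m
    induction m with
    | zero => rw [powL, ev_one hF hv, pow_zero]
    | succ m ih => rw [powL, ev_mul hF hv, ih, pow_succ']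
  have h2 : (ev f v X).det ^ k = 1 := by
    rw [← Matrix.det_pow, ← hpow, hk, ev_one hF hv, Matrix.det_one]
  have := pow_gcd_eq_one.2 ⟨h2, h1⟩
  rwa [hc.gcd_eq_one, pow_one] at this

include hv in
theorem el_scal (hs : scalsOK f = true) {s : ℕ} (h : s ∈ f.scals) :
    ∃ g : Cfsg.SU f.n F q, mat g = v s • (1 : Matrix (Fin f.n) (Fin f.n) F) ∧
      QuotientGroup.mk' (Subgroup.center (Cfsg.SU f.n F q)) g = 1 := by
  simp only [scalsOK, List.all_eq_true, Bool.and_eq_true, beq_iff_eq] at hs
  obtain ⟨h1, h2⟩ := hs s h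
  have hn : v s ^ f.n = 1 := by
    have key : ∀ l : List ℕ, v (l.foldr (fun _ a => f.mul s a) 1) = v s ^ l.length := by
      intro l
      induction l with
      | nil => simpa using hv.one
      | cons a l ih => simp [hv.mul, ih, pow_succ']
    have := key (List.range f.n)
    rw [h2, hv.one, List.length_range] at this
    exact this.symm
  have hu : frobQ hF (v s) * v s = 1 := by rw [← hv.conj, ← hv.mul, h1, hv.one]
  obtain ⟨g, hg⟩ := su_of_unitary hF (v s • (1 : Matrix (Fin f.n) (Fin f.n) F))
    (by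
      rw [show ((v s • (1 : Matrix (Fin f.n) (Fin f.n) F)).map (frobQ hF))ᵀ =
          frobQ hF (v s) • (1 : Matrix (Fin f.n) (Fin f.n) F) by
        ext i j
        by_cases hij : i = j <;> simp [Matrix.one_apply, hij, eq_comm, -frobQ_apply]]
      rw [Matrix.smul_mul, Matrix.one_mul, smul_smul, hu, one_smul])
    (by rw [Matrix.det_smul, Matrix.det_one, mul_one, Fintype.card_fin, hn])
  refine ⟨g, hg, (QuotientGroup.eq_one_iff g).2 (Subgroup.mem_center_iff.2 fun y => mat_injective ?_)⟩
  rw [map_mul, map_mul, hg, Matrix.mul_smul, Matrix.smul_mul, Matrix.one_mul, Matrix.mul_one]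

/-- The meaning of the codes. -/
noncomputable def semU (hv : Valid f hF v) (hs : scalsOK f = true) : Sem (ops f) (Cfsg.PSU f.n F q) where
  val := el f q v
  Real := RealU f q v
  real_one := by
    have e : mat (1 : Cfsg.SU f.n F q) = ev f v (oneL f) := by rw [map_one, ev_one hF hv]
    exact ⟨⟨1, e⟩, (el_spec e).trans (map_one _)⟩
  real_mul := by
    rintro X Y ⟨g, hg⟩ ⟨h, hh⟩
    have e : mat (g * h) = ev f v (mulL f X Y) := by rw [map_mul, hg, hh, ev_mul hF hv]
    exact ⟨⟨_, e⟩, (el_spec e).trans (by rw [el_spec hg, el_spec hh, map_mul])⟩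
  real_eqv := by
    rintro X Y ⟨g, hg⟩ h
    simp only [ops, List.any_eq_true, beq_iff_eq] at h
    obtain ⟨s, hsm, rfl⟩ := h
    obtain ⟨c, hc, hc1⟩ := el_scal hF hv hs hsm
    have e : mat (c * g) = ev f v (smulL f s X) := by
      rw [map_mul, hc, hg, ev_smul hF hv, Matrix.smul_mul, Matrix.one_mul]
    exact ⟨⟨_, e⟩, by rw [el_spec hg, el_spec e, map_mul, hc1, one_mul]⟩
  real_adj := by
    rintro X ⟨g, hg⟩ h
    simp only [ops, beq_iff_eq] at h
    have hA : ev f v (adjL f X) * ev f v X = 1 := by rw [← ev_mul hF hv, h, ev_one hF hv]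
    have e : mat g⁻¹ = ev f v (adjL f X) := by
      have h2 : mat g⁻¹ * ev f v X = 1 := by rw [← hg, ← map_mul, inv_mul_cancel, map_one]
      have h3 : ev f v X * ev f v (adjL f X) = 1 := mul_eq_one_comm.1 hA
      calc mat g⁻¹ = mat g⁻¹ * (ev f v X * ev f v (adjL f X)) := by rw [h3, mul_one]
      _ = ev f v (adjL f X) := by rw [← mul_assoc, h2, one_mul]
    refine ⟨⟨_, e⟩, ?_⟩
    show el f q v (adjL f X) = _
    rw [el_spec e, map_inv, el_spec hg]

include hv in
theorem el_ne_one {X Y : List ℕ} (hX : RealU f q v X) (hY : RealU f q v Y) (h : noncomm f X Y = true) :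
    el f q v X ≠ 1 := by
  obtain ⟨g, hg⟩ := hX
  obtain ⟨k, hk⟩ := hY
  rw [el_spec hg]
  intro e
  have hc : g ∈ Subgroup.center (Cfsg.SU f.n F q) := (QuotientGroup.eq_one_iff g).1 e
  have := congrArg mat (Subgroup.mem_center_iff.1 hc k)
  rw [map_mul, map_mul, hg, hk, ← ev_mul hF hv, ← ev_mul hF hv] at this
  simp only [noncomm, List.any_eq_true, List.mem_range, beq_iff_eq] at h
  obtain ⟨i, hi, j, hj, y, -, hy⟩ := h
  have e2 := congrFun (congrFun this ⟨i, hi⟩) ⟨j, hj⟩
  simp only [ev, Matrix.of_apply] at e2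
  have h3 := congrArg v hy
  rw [hv.mul, hv.add, hv.mul, hv.neg1, ← e2, hv.one, neg_one_mul, add_neg_cancel, zero_mul] at h3
  exact zero_ne_one h3

end field

end Cfsg.Agent.Golay.UC
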