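import Cfsg.Agent.Golay.LeechMcL
import Cfsg.Agent.Golay.UnitaryCodes
import Cfsg.Agent.Golay.U62Data

/-! Checks of the certificates. -/

set_option autoImplicit false
set_option maxRecDepth 100000

namespace Cfsg.Agent.Golay.U62

/-- The multiplication of the field of four elements. -/
def fmul (x y : ℕ) : ℕ := [0, 0, 0, 0, 0, 1, 2, 3, 0, 2, 3, 1, 0, 3, 1, 2].getD (4 * (x % 4) + y % 4) 0

/-- The operations of the field of four elements. -/
def f4 : UC.FOps where
  n := 6
  add x y := (x % 4) ^^^ (y % 4)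
  mul := fmul
  conj x := [0, 1, 3, 2].getD (x % 4) 0
  neg1 := 1
  scals := [1, 2, 3]

/-- A point. -/
def ptN (i : ℕ) : ℕ := (ptsBlk.getD (i / 27) []).getD (i % 27) 0

/-- An isotropic point. -/
def rep (p : ℕ) : List ℕ := (repBlk.getD (p / 21) []).getD (p % 21) []

/-- A set of planes. -/
def mask (p : ℕ) : ℕ := (maskBlk.getD (p / 21) []).getD (p % 21) 0

/-- A tree entry. -/
def tre (p : ℕ) : ℕ × ℕ := (treeBlk.getD (p / 21) []).getD (p % 21) (0, 0)

/-- A triple. -/
def tri (i : ℕ) : ℕ := (triBlk.getD (i / 27) []).getD (i % 27) 0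

/-- A permutation of the vectors. -/
def wp (j i : ℕ) : ℕ := (wPerm.getD j 0 >>> (10 * i)) &&& 1023

/-- A permutation of the points. -/
def sp (j p : ℕ) : ℕ := (sigPerm.getD j 0 >>> (10 * p)) &&& 1023

/-- A matrix. -/
def mtx (j : ℕ) : List ℕ := mats.getD j []

/-- The second vector. -/
def wFun : GolayPt → ℤ := fun i => if idx i = 1 then 4 else if idx i = 23 then -4 else 0

/-- A matrix applied to a vector of codes. -/
def mvc (X r : List ℕ) (i : ℕ) : ℕ :=
  ((List.range 6).map fun k => fmul (UC.ent f4 X i k) (r.getD k 0)).foldr f4.add 0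

/-- The transvection of a point. -/
def tvc (r : List ℕ) : List ℕ :=
  UC.tabl f4 fun i j => f4.add (if i = j then 1 else 0) (fmul (r.getD i 0) (f4.conj (r.getD j 0)))

/-- The hermitian square. -/
def hsq (r : List ℕ) : ℕ :=
  ((List.range 6).map fun k => fmul (f4.conj (r.getD k 0)) (r.getD k 0)).foldr f4.add 0

/-- The number of a vector of codes. -/
def vnum (r : List ℕ) : ℕ := ((List.range 6).map fun k => (r.getD k 0 % 4) * 4 ^ k).sum

/-- The vector of a number. -/
def vdec (N : ℕ) : List ℕ := (List.range 6).map fun k => N / 4 ^ k % 4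

/-- The scalar multiple of a vector of codes. -/
def vsm (s : ℕ) (r : List ℕ) : List ℕ := (List.range 6).map fun k => fmul s (r.getD k 0)

/-- A plane through a point. -/
def mem (p k : ℕ) : ℕ := (((memBlk.getD (p / 21) []).getD (p % 21) 0) >>> (10 * k)) &&& 1023

/-- The index of a code. -/
def lookup (N : ℕ) : ℕ := (idxTab.getD (N / 64) 0 >>> (10 * (N % 64))) &&& 1023

end Cfsg.Agent.Golay.U62
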